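import Mathlib
import Cfsg.Agent.Lib.ClassGeo.Bridge
import Cfsg.Agent.Lib.ClassGeo.SpOrder
import Cfsg.Statements.S0245
-- import your own Cfsg.Agent.* helpers here

set_option autoImplicit false
open Cfsg

namespace Cfsg.Agent.S0245

/-- Order of the finite symplectic group: |Sp_{2m}(q)| = q^(m^2) * prod_{i=1}^{m} (q^(2i) - 1). -/
theorem result {F : Type*} [Field F] [Fintype F] {q : ℕ} (hF : Fintype.card F = q) (m : ℕ) : Nat.card (Matrix.symplecticGroup (Fin m) F) = q ^ (m ^ 2) * ∏ i ∈ Finset.range m, (q ^ (2 * (i + 1)) - 1) := by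
  have h1 := CfsgLib.ClassGeo.card_alt_isom (F := F) m (Fin m ⊕ Fin m → F) (CfsgLib.ClassGeo.sympBilin m)
    (CfsgLib.ClassGeo.sympBilin_isAlt m) (CfsgLib.ClassGeo.sympBilin_sep m) (CfsgLib.ClassGeo.finrank_symp m)
  have hq : Nat.card F = q := by rw [Nat.card_eq_fintype_card, hF]
  rw [hq] at h1
  rw [Nat.card_congr (CfsgLib.ClassGeo.spEquiv (F := F) m).toEquiv]
  exact h1

end Cfsg.Agent.S0245
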