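import Mathlib
import Cfsg.Agent.Lib.ClassGeo.SpTrans
import Cfsg.Statements.S0246
-- import your own Cfsg.Agent.* helpers here

set_option autoImplicit false
open Cfsg Matrix

namespace Cfsg.Agent.S0246

open Matrix CfsgLib.ClassGeo in
theorem center_scalar {F : Type*} [Field F] (m : ℕ) (z : symplecticGroup (Fin m) F)
    (hz : z ∈ Subgroup.center (symplecticGroup (Fin m) F)) :
    ∃ a : F, ∀ v, (z : Matrix (Fin m ⊕ Fin m) (Fin m ⊕ Fin m) F) *ᵥ v = a • v := by
  let f : (Fin m ⊕ Fin m → F) →ₗ[F] (Fin m ⊕ Fin m → F) := Matrix.toLin' (z : Matrix (Fin m ⊕ Fin m) (Fin m ⊕ Fin m) F)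
  have hf : ∀ v, f v = (z : Matrix (Fin m ⊕ Fin m) (Fin m ⊕ Fin m) F) *ᵥ v := fun v => Matrix.toLin'_apply _ _
  have hcomm : ∀ (v x : Fin m ⊕ Fin m → F), sympForm m F x v • (z : Matrix (Fin m ⊕ Fin m) (Fin m ⊕ Fin m) F) *ᵥ v = sympForm m F ((z : Matrix (Fin m ⊕ Fin m) (Fin m ⊕ Fin m) F) *ᵥ x) v • v := by
    intro v x
    have h1 : z * spT v 1 = spT v 1 * z := Subgroup.mem_center_iff.mp hz _ |>.symm
    have h2 := congrArg (fun A : symplecticGroup (Fin m) F => (A : Matrix (Fin m ⊕ Fin m) (Fin m ⊕ Fin m) F) *ᵥ x) h1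
    change ((z : Matrix (Fin m ⊕ Fin m) (Fin m ⊕ Fin m) F) * (spT v 1 : Matrix (Fin m ⊕ Fin m) (Fin m ⊕ Fin m) F)) *ᵥ x = ((spT v 1 : Matrix (Fin m ⊕ Fin m) (Fin m ⊕ Fin m) F) * (z : Matrix (Fin m ⊕ Fin m) (Fin m ⊕ Fin m) F)) *ᵥ x at h2
    rw [← mulVec_mulVec, ← mulVec_mulVec, spT_mulVec, spT_mulVec, mulVec_add, mulVec_smul] at h2
    simp only [one_mul] at h2
    exact add_left_cancel h2
  have hcoll : ∀ v, ¬ LinearIndependent F ![v, f v] := by
    intro v hli
    have hv : v ≠ 0 := by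
      rintro rfl
      have := hli.ne_zero 0
      simp at this
    obtain ⟨x, hx⟩ : ∃ x, sympForm m F x v ≠ 0 := by
      by_contra hcon
      push Not at hcon
      exact hv (symp_nondeg hcon)
    have h3 := hcomm v x
    rw [← hf] at h3
    rw [LinearIndependent.pair_iff] at hli
    obtain ⟨h4, _⟩ := hli (- sympForm m F ((z : Matrix (Fin m ⊕ Fin m) (Fin m ⊕ Fin m) F) *ᵥ x) v) (sympForm m F x v) (by
      rw [h3, neg_smul]; abel)
    have := hli (- sympForm m F ((z : Matrix (Fin m ⊕ Fin m) (Fin m ⊕ Fin m) F) *ᵥ x) v) (sympForm m F x v) (by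
      rw [h3, neg_smul]; abel)
    exact hx this.2
  obtain ⟨a, ha⟩ := LinearMap.exists_eq_smul_id_of_forall_notLinearIndependent hcoll
  refine ⟨a, fun v => ?_⟩
  rw [← hf, ha]
  simp

/-- The centre of Sp_{2m}(q), m at least 1, is {1, -1}: it has order gcd(2, q-1). -/
theorem result {F : Type*} [Field F] [Fintype F] {q : ℕ} (hF : Fintype.card F = q) (m : ℕ) (hm : 1 ≤ m) : Nat.card (Subgroup.center (Matrix.symplecticGroup (Fin m) F)) = Nat.gcd 2 (q - 1) := by
  classical
  have hNmem : (-1 : Matrix (Fin m ⊕ Fin m) (Fin m ⊕ Fin m) F) ∈ symplecticGroup (Fin m) F := by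
    rw [CfsgLib.ClassGeo.mem_sp_iff]
    intro u v
    simp only [neg_mulVec, one_mulVec]
    have h1 : -u = (-1 : F) • u := by simp
    have h2 : -v = (-1 : F) • v := by simp
    rw [h1, h2, CfsgLib.ClassGeo.symp_smul_left, CfsgLib.ClassGeo.symp_smul_right]
    ring
  let N : symplecticGroup (Fin m) F := ⟨-1, hNmem⟩
  have hNcenter : N ∈ Subgroup.center (symplecticGroup (Fin m) F) := by
    rw [Subgroup.mem_center_iff]
    intro g
    apply Subtype.ext
    change (g : Matrix (Fin m ⊕ Fin m) (Fin m ⊕ Fin m) F) * (-1) = (-1) * (g : Matrix (Fin m ⊕ Fin m) (Fin m ⊕ Fin m) F)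
    simp
  have hcases : ∀ z ∈ Subgroup.center (symplecticGroup (Fin m) F), z = 1 ∨ z = N := by
    intro z hz
    obtain ⟨a, ha⟩ := center_scalar m z hz
    obtain ⟨u, v, huv⟩ : ∃ u v : Fin m ⊕ Fin m → F, sympForm m F u v ≠ 0 := by
      by_contra hcon
      push Not at hcon
      have h0 : (Pi.single (Sum.inl ⟨0, hm⟩) 1 : Fin m ⊕ Fin m → F) = 0 := CfsgLib.ClassGeo.symp_nondeg' (hcon _)
      have := congrFun h0 (Sum.inl ⟨0, hm⟩)
      simp at this
    have h1 := CfsgLib.ClassGeo.sp_preserves z u v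
    rw [ha, ha, CfsgLib.ClassGeo.symp_smul_left, CfsgLib.ClassGeo.symp_smul_right] at h1
    have h2 : (a - 1) * (a + 1) * sympForm m F u v = 0 := by linear_combination h1
    have h3 : (a - 1) * (a + 1) = 0 := (mul_eq_zero.mp h2).resolve_right huv
    rcases mul_eq_zero.mp h3 with h4 | h4
    · left
      have ha1 : a = 1 := by linear_combination h4
      apply Subtype.ext
      apply CfsgLib.ClassGeo.matrix_eq_of_mulVec
      intro x
      rw [ha, ha1, one_smul]
      change x = (1 : Matrix (Fin m ⊕ Fin m) (Fin m ⊕ Fin m) F) *ᵥ x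
      simp
    · right
      have ha1 : a = -1 := by linear_combination h4
      apply Subtype.ext
      apply CfsgLib.ClassGeo.matrix_eq_of_mulVec
      intro x
      rw [ha, ha1, neg_smul, one_smul]
      change -x = (-1 : Matrix (Fin m ⊕ Fin m) (Fin m ⊕ Fin m) F) *ᵥ x
      rw [Matrix.neg_mulVec, Matrix.one_mulVec]
  by_cases h2 : (2 : F) = 0
  · have hN1 : N = 1 := by
      apply Subtype.ext
      change (-1 : Matrix (Fin m ⊕ Fin m) (Fin m ⊕ Fin m) F) = 1
      have h1 : (-1 : F) = 1 := by linear_combination -h2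
      ext i j
      simp [Matrix.one_apply]
      split_ifs
      · exact h1
      · simp
    have hchar : ringChar F = 2 := CharP.ringChar_of_prime_eq_zero Nat.prime_two (by exact_mod_cast h2)
    have hq0 : q % 2 = 0 := by
      rw [← hF]; exact FiniteField.even_card_iff_char_two.mp hchar
    have hq1 : 1 ≤ q := by rw [← hF]; exact Fintype.card_pos
    have hgcd : Nat.gcd 2 (q - 1) = 1 := by
      rw [Nat.gcd_rec]
      have : (q - 1) % 2 = 1 := by omega
      rw [this]
      simp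
    rw [hgcd, Nat.card_eq_one_iff_unique]
    refine ⟨⟨fun a b => ?_⟩, ⟨⟨1, one_mem _⟩⟩⟩
    apply Subtype.ext
    have ha : (a : symplecticGroup (Fin m) F) = 1 := by
      rcases hcases a a.2 with h | h
      · exact h
      · rw [h, hN1]
    have hb : (b : symplecticGroup (Fin m) F) = 1 := by
      rcases hcases b b.2 with h | h
      · exact h
      · rw [h, hN1]
    rw [ha, hb]
  · have hN1 : N ≠ 1 := by
      intro h
      have h3 := congrArg (fun A : symplecticGroup (Fin m) F => (A : Matrix (Fin m ⊕ Fin m) (Fin m ⊕ Fin m) F) (Sum.inl ⟨0, hm⟩) (Sum.inl ⟨0, hm⟩)) h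
      change (-1 : Matrix (Fin m ⊕ Fin m) (Fin m ⊕ Fin m) F) (Sum.inl ⟨0, hm⟩) (Sum.inl ⟨0, hm⟩) = (1 : Matrix (Fin m ⊕ Fin m) (Fin m ⊕ Fin m) F) (Sum.inl ⟨0, hm⟩) (Sum.inl ⟨0, hm⟩) at h3
      simp at h3
      apply h2
      linear_combination -h3
    have hchar : ringChar F ≠ 2 := by
      intro h
      apply h2
      have := ringChar.Nat.cast_ringChar (R := F)
      rw [h] at this
      exact_mod_cast this
    have hq0 : q % 2 = 1 := by
      rw [← hF]; exact FiniteField.odd_card_of_char_ne_two hchar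
    have hgcd : Nat.gcd 2 (q - 1) = 2 := by
      apply Nat.gcd_eq_left
      omega
    rw [hgcd, Nat.card_eq_two_iff]
    refine ⟨⟨1, one_mem _⟩, ⟨N, hNcenter⟩, ?_, ?_⟩
    · intro h
      exact hN1 (congrArg Subtype.val h).symm
    · ext ⟨z, hz⟩
      simp only [Set.mem_insert_iff, Set.mem_singleton_iff, Set.mem_univ, iff_true]
      rcases hcases z hz with h | h
      · left
        exact Subtype.ext h
      · right
        exact Subtype.ext h

end Cfsg.Agent.S0246
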