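import Cfsg.Statements.S1066
import Cfsg.Agent.Lib.Tw.OrdE6b

set_option autoImplicit false
open Cfsg

namespace Cfsg.Agent.S1066

/-- `gcd(3, q+1) · |²E₆(q)| = q³⁶ (q² - 1)(q⁵ + 1)(q⁶ - 1)(q⁸ - 1)(q⁹ + 1)(q¹² - 1)`, the group being realised inside E₆ over the field with `q²` elements. -/
theorem result {K : Type*} [Field K] [Fintype K] {q : ℕ} (hq : IsPrimePow q) (hK : Fintype.card K = q ^ 2) :
    Nat.gcd 3 (q + 1) * Nat.card ↥(Cfsg.Lie.twistedE6 K q) =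
      q ^ 36 * (q ^ 2 - 1) * (q ^ 5 + 1) * (q ^ 6 - 1) * (q ^ 8 - 1) * (q ^ 9 + 1) * (q ^ 12 - 1) := by
  obtain ⟨φ, hφ, hφ2⟩ := CfsgLib.Chev.exists_phi2 hq hK
  have hH := CfsgLib.Chev.e6_card_H φ hφ hφ2 hq.one_lt hK
  rw [CfsgLib.Chev.e6_card_T φ hφ hφ2 hq.one_lt hK]
  have e0 : Nat.gcd 3 (q + 1) * (q ^ 36 * Nat.card ↥(Cfsg.Lie.chevE6.diagonalSubgroup K ⊓ Cfsg.Lie.twistedE6 K q) * CfsgLib.Chev.e6Poly q) =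
      q ^ 36 * (Nat.gcd 3 (q + 1) * Nat.card ↥(Cfsg.Lie.chevE6.diagonalSubgroup K ⊓ Cfsg.Lie.twistedE6 K q)) * CfsgLib.Chev.e6Poly q := by ring
  rw [e0, hH]
  obtain ⟨r, hr⟩ : ∃ r, q = r + 1 := ⟨q - 1, by
    have := hq.one_lt
    omega⟩
  have e1 : q - 1 = r := by omega
  have e2 : q ^ 2 - 1 = r * (q + 1) := by
    apply Nat.sub_eq_of_eq_add
    rw [hr]
    ring
  have e6 : q ^ 6 - 1 = r * (1 + q + q ^ 2 + q ^ 3 + q ^ 4 + q ^ 5) := by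
    apply Nat.sub_eq_of_eq_add
    rw [hr]
    ring
  have e8 : q ^ 8 - 1 = r * (1 + q + q ^ 2 + q ^ 3 + q ^ 4 + q ^ 5 + q ^ 6 + q ^ 7) := by
    apply Nat.sub_eq_of_eq_add
    rw [hr]
    ring
  have e12 : q ^ 12 - 1 = r * (1 + q + q ^ 2 + q ^ 3 + q ^ 4 + q ^ 5 + q ^ 6 + q ^ 7 + q ^ 8 + q ^ 9 + q ^ 10 + q ^ 11) := by
    apply Nat.sub_eq_of_eq_add
    rw [hr]
    ring
  rw [e1, e2, e6, e8, e12]
  unfold CfsgLib.Chev.e6Poly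
  ring

end Cfsg.Agent.S1066
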