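import Cfsg.Statements.S1068
import Cfsg.Agent.Lib.Tw.OrdF4

set_option autoImplicit false
open Cfsg

namespace Cfsg.Agent.S1068

/-- `|²F₄(q)| = q¹² (q - 1)(q³ + 1)(q⁴ - 1)(q⁶ + 1)` for `q = 2^(2m+1)` (θ = 2^m-th power map), every `m ≥ 0`. -/
theorem result {K : Type*} [Field K] [Fintype K] {m : ℕ} (hK : Fintype.card K = 2 ^ (2 * m + 1)) :
    Nat.card ↥(Cfsg.Lie.twistedF4 K (2 ^ m)) =
      (2 ^ (2 * m + 1)) ^ 12 * (2 ^ (2 * m + 1) - 1) * ((2 ^ (2 * m + 1)) ^ 3 + 1) * ((2 ^ (2 * m + 1)) ^ 4 - 1) * ((2 ^ (2 * m + 1)) ^ 6 + 1) := by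
  classical
  haveI : CharP K 2 := CfsgLib.Chev.charP_of_card Nat.prime_two hK
  obtain ⟨φ, hφ, hφ2⟩ := CfsgLib.Chev.exists_theta Nat.prime_two hK
  have hperf : ∀ x : K, ∃ y : K, y ^ 2 = x := fun x => ⟨φ (φ x), hφ2 x⟩
  obtain ⟨Dt, e', hJ⟩ := CfsgLib.Chev.f4_td hperf φ hφ2 hφ
  have hH := CfsgLib.Chev.f4_card_H hperf φ hφ2 Dt e' hJ
  rw [Nat.card_eq_fintype_card (α := Kˣ), Fintype.card_units, hK] at hH
  rw [CfsgLib.Chev.f4_card_T hperf φ hφ2 Dt e' hJ hφ (by rw [Nat.card_eq_fintype_card, hK]), hH]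
  obtain ⟨r, hr⟩ : ∃ r, 2 ^ (2 * m + 1) = r + 1 := ⟨2 ^ (2 * m + 1) - 1, by
    have : 0 < 2 ^ (2 * m + 1) := by positivity
    omega⟩
  rw [hr]
  simp only [Nat.add_sub_cancel]
  have e4 : (r + 1) ^ 4 - 1 = r * ((r + 1) ^ 3 + (r + 1) ^ 2 + (r + 1) + 1) := by
    apply Nat.sub_eq_of_eq_add
    ring
  rw [e4]
  ring

end Cfsg.Agent.S1068
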