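import Cfsg.Statements.S4496
import Mathlib

set_option autoImplicit false
open Cfsg

namespace Cfsg.Agent.S4496

open Subgroup
open scoped commutatorElement

variable {G : Type*} [Group G]

private theorem mem_centralizer_iff' {a b : G} : a ∈ centralizer ({b} : Set G) ↔ a * b = b * a := by
  rw [Subgroup.mem_centralizer_singleton_iff]

private theorem exists_sylow [Finite G] (p : ℕ) [Fact p.Prime] (x : G) (hx : orderOf x = p)
    (hC : centralizer ({x} : Set G) = zpowers x) : ∃ P : Sylow p G, (P : Subgroup G) = zpowers x := by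
  have hp := (Fact.out : p.Prime)
  have hcard : Nat.card (zpowers x) = p := by rw [Nat.card_zpowers, hx]
  have hXp : IsPGroup p (zpowers x) := IsPGroup.of_card (n := 1) (by rw [hcard, pow_one])
  obtain ⟨P, hP⟩ := hXp.exists_le_sylow
  refine ⟨P, le_antisymm ?_ hP⟩
  have hxP : x ∈ P := hP (mem_zpowers x)
  have hx1 : x ≠ 1 := by
    intro h
    rw [h, orderOf_one] at hx
    exact hp.one_lt.ne hx
  haveI : Nontrivial (P : Subgroup G) := by
    refine ⟨⟨⟨x, hxP⟩, 1, ?_⟩⟩
    intro h
    exact hx1 (congrArg Subtype.val h)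
  haveI : Nontrivial (Subgroup.center (P : Subgroup G)) := P.isPGroup'.center_nontrivial
  obtain ⟨⟨z, hz⟩, hz1⟩ := exists_ne (1 : Subgroup.center (P : Subgroup G))
  have hz1' : (z : G) ≠ 1 := by
    intro h
    apply hz1
    apply Subtype.ext
    apply Subtype.ext
    exact h
  have hzx : (z : G) ∈ zpowers x := by
    rw [← hC, mem_centralizer_iff']
    have := (Subgroup.mem_center_iff.1 hz) ⟨x, hxP⟩
    exact (congrArg Subtype.val this).symm
  have hxz : x ∈ zpowers (z : G) := by
    let z' : zpowers x := ⟨z, hzx⟩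
    have hz' : z' ≠ 1 := fun h => hz1' (congrArg Subtype.val h)
    have := mem_zpowers_of_prime_card hcard (g := z') (g' := ⟨x, mem_zpowers x⟩) hz'
    obtain ⟨k, hk⟩ := this
    exact ⟨k, congrArg Subtype.val hk⟩
  intro u hu
  rw [← hC, mem_centralizer_iff']
  obtain ⟨k, hk⟩ := hxz
  have hcomm : Commute u (z : G) := by
    have := (Subgroup.mem_center_iff.1 hz) ⟨u, hu⟩
    exact (congrArg Subtype.val this)
  rw [← hk]
  exact (hcomm.zpow_right k).eq

private theorem exists_conj [Finite G] (p : ℕ) [Fact p.Prime] (x : G) (hx : orderOf x = p)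
    (hC : centralizer ({x} : Set G) = zpowers x) (H : Subgroup G) (hH : Nat.card H = p) :
    ∃ g : G, H = zpowers (g * x * g⁻¹) := by
  obtain ⟨P, hP⟩ := exists_sylow p x hx hC
  have hHp : IsPGroup p H := IsPGroup.of_card (n := 1) (by rw [hH, pow_one])
  obtain ⟨Q, hQ⟩ := hHp.exists_le_sylow
  obtain ⟨g, hg⟩ := MulAction.exists_smul_eq G P Q
  refine ⟨g, ?_⟩
  have h1 : (Q : Subgroup G) = (zpowers x).map (MulAut.conj g).toMonoidHom := by
    rw [← hg, ← hP]; rfl
  have h2 : (zpowers x).map (MulAut.conj g).toMonoidHom = zpowers (g * x * g⁻¹) := by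
    rw [MonoidHom.map_zpowers]; rfl
  have h3 : Nat.card (Q : Subgroup G) = p := by
    rw [h1, h2, Nat.card_zpowers]
    have : orderOf (g * x * g⁻¹) = orderOf x := by
      rw [← MulAut.conj_apply, MulEquiv.orderOf_eq]
    rw [this, hx]
  have h4 : H = Q := Subgroup.eq_of_le_of_card_ge hQ (by rw [h3, hH])
  rw [h4, h1, h2]

private theorem centralizer_conj (x g : G) (hC : centralizer ({x} : Set G) = zpowers x) :
    centralizer ({g * x * g⁻¹} : Set G) = zpowers (g * x * g⁻¹) := by
  ext u
  have hu : u ∈ centralizer ({g * x * g⁻¹} : Set G) ↔ g⁻¹ * u * g ∈ centralizer ({x} : Set G) := by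
    rw [mem_centralizer_iff', mem_centralizer_iff']
    constructor
    · intro h
      calc g⁻¹ * u * g * x = g⁻¹ * (u * (g * x * g⁻¹)) * g := by group
        _ = g⁻¹ * ((g * x * g⁻¹) * u) * g := by rw [h]
        _ = x * (g⁻¹ * u * g) := by group
    · intro h
      calc u * (g * x * g⁻¹) = g * (g⁻¹ * u * g * x) * g⁻¹ := by group
        _ = g * (x * (g⁻¹ * u * g)) * g⁻¹ := by rw [h]
        _ = g * x * g⁻¹ * u := by group
  rw [hu, hC]
  constructor
  · rintro ⟨k, hk⟩
    refine ⟨k, ?_⟩
    simp only at hk ⊢
    rw [conj_zpow, hk]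
    group
  · rintro ⟨k, hk⟩
    refine ⟨k, ?_⟩
    simp only at hk ⊢
    rw [← hk, conj_zpow]
    group

/-- Let the finite group G contain an element x of prime order p with C_G(x) = ⟨x⟩. Then: (a) every normal subgroup of order divisible by p contains the commutator subgroup; (b) every normal subgroup S of order prime to p has order dividing the number of subgroups of order p of G and congruent to 1 modulo p, and in G/S the image of x again has prime order p and commutes only with its own powers. -/
theorem result {G : Type*} [Group G] [Finite G] (p : ℕ) (hp : p.Prime) (x : G) (hx : orderOf x = p) (hC : Subgroup.centralizer ({x} : Set G) = Subgroup.zpowers x) (S : Subgroup G) [S.Normal] : (p ∣ Nat.card S → commutator G ≤ S) ∧ (¬ p ∣ Nat.card S → Nat.card S ∣ Nat.card {H : Subgroup G // Nat.card H = p} ∧ Nat.card S % p = 1 ∧ orderOf (QuotientGroup.mk x : G ⧸ S) = p ∧ Subgroup.centralizer ({(QuotientGroup.mk x : G ⧸ S)} : Set (G ⧸ S)) = Subgroup.zpowers (QuotientGroup.mk x : G ⧸ S)) := by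
  classical
  haveI : Fact p.Prime := ⟨hp⟩
  obtain ⟨P, hP⟩ := exists_sylow p x hx hC
  constructor
  · intro hdvd
    -- x lies in S
    obtain ⟨y, hyS, hy⟩ : ∃ y ∈ S, orderOf y = p := by
      obtain ⟨y, hy⟩ := exists_prime_orderOf_dvd_card' (G := S) p hdvd
      exact ⟨y, y.2, by rw [← hy]; simp⟩
    obtain ⟨g, hg⟩ := exists_conj p x hx hC (zpowers y) (by rw [Nat.card_zpowers, hy])
    have hxS : x ∈ S := by
      have h1 : g * x * g⁻¹ ∈ zpowers y := by rw [hg]; exact mem_zpowers _
      have h2 : g * x * g⁻¹ ∈ S := (zpowers_le.2 hyS) h1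
      have h3 := ‹S.Normal›.conj_mem _ h2 g⁻¹
      have h4 : g⁻¹ * (g * x * g⁻¹) * g⁻¹⁻¹ = x := by group
      rwa [h4] at h3
    have hXS : (P : Subgroup G) ≤ S := by rw [hP]; exact zpowers_le.2 hxS
    have hF := Sylow.normalizer_sup_eq_top' P hXS
    -- commutators of normalizer elements
    have hNN : ∀ a ∈ normalizer (P : Set G), ∀ b ∈ normalizer (P : Set G),
        b⁻¹ * a⁻¹ * b * a ∈ S := by
      intro a ha b hb
      have hax : a * x * a⁻¹ ∈ zpowers x := by
        rw [← hP]; exact (Subgroup.mem_normalizer_iff.1 ha x).1 (by rw [hP]; exact mem_zpowers x)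
      have hbx : b * x * b⁻¹ ∈ zpowers x := by
        rw [← hP]; exact (Subgroup.mem_normalizer_iff.1 hb x).1 (by rw [hP]; exact mem_zpowers x)
      obtain ⟨i, hi⟩ := hax
      obtain ⟨j, hj⟩ := hbx
      simp only at hi hj
      have h1 : b⁻¹ * a⁻¹ * b * a ∈ centralizer ({x} : Set G) := by
        rw [mem_centralizer_iff']
        have e1 : a * x = x ^ i * a := by rw [hi]; group
        have e2 : b * x = x ^ j * b := by rw [hj]; group
        have e3 : a * x ^ j = x ^ (i * j) * a := by
          rw [zpow_mul, hi]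
          have : a * x ^ j * a⁻¹ = (a * x * a⁻¹) ^ j := by rw [conj_zpow]
          rw [← this]; group
        have e4 : b * x ^ i = x ^ (j * i) * b := by
          rw [zpow_mul, hj]
          have : b * x ^ i * b⁻¹ = (b * x * b⁻¹) ^ i := by rw [conj_zpow]
          rw [← this]; group
        have e3' : a⁻¹ * x ^ (i * j) = x ^ j * a⁻¹ := by
          rw [inv_mul_eq_iff_eq_mul, ← mul_assoc, e3, mul_assoc, mul_inv_cancel, mul_one]
        have e2' : b⁻¹ * x ^ j = x * b⁻¹ := by
          rw [inv_mul_eq_iff_eq_mul, ← mul_assoc, e2, mul_assoc, mul_inv_cancel, mul_one]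
        calc b⁻¹ * a⁻¹ * b * a * x = b⁻¹ * a⁻¹ * (b * (a * x)) := by simp only [mul_assoc]
          _ = b⁻¹ * a⁻¹ * (b * x ^ i * a) := by rw [e1]; simp only [mul_assoc]
          _ = b⁻¹ * a⁻¹ * (x ^ (j * i) * b * a) := by rw [e4]
          _ = b⁻¹ * (a⁻¹ * x ^ (i * j)) * b * a := by rw [mul_comm j i]; simp only [mul_assoc]
          _ = b⁻¹ * (x ^ j * a⁻¹) * b * a := by rw [e3']
          _ = (b⁻¹ * x ^ j) * a⁻¹ * b * a := by simp only [mul_assoc]
          _ = (x * b⁻¹) * a⁻¹ * b * a := by rw [e2']
          _ = x * (b⁻¹ * a⁻¹ * b * a) := by simp only [mul_assoc]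
      rw [hC] at h1
      exact (zpowers_le.2 hxS) h1
    have hcommN : ∀ a ∈ normalizer (P : Set G), ∀ b ∈ normalizer (P : Set G),
        ⁅a, b⁆ ∈ S := by
      intro a ha b hb
      have := hNN b⁻¹ (inv_mem hb) a⁻¹ (inv_mem ha)
      simp only [inv_inv] at this
      exact this
    show ⁅(⊤ : Subgroup G), (⊤ : Subgroup G)⁆ ≤ S
    rw [Subgroup.commutator_le]
    intro g _ h _
    have hg : g ∈ normalizer (P : Set G) ⊔ S := by rw [hF]; trivial
    have hh : h ∈ normalizer (P : Set G) ⊔ S := by rw [hF]; trivial
    obtain ⟨n, hn, s, hs, rfl⟩ := Subgroup.mem_sup_of_normal_right.1 hg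
    obtain ⟨n', hn', s', hs', rfl⟩ := Subgroup.mem_sup_of_normal_right.1 hh
    rw [← QuotientGroup.eq_one_iff]
    have h1 : ((n * s : G) : G ⧸ S) = (n : G ⧸ S) := by
      rw [QuotientGroup.mk_mul, (QuotientGroup.eq_one_iff s).2 hs, mul_one]
    have h2 : ((n' * s' : G) : G ⧸ S) = (n' : G ⧸ S) := by
      rw [QuotientGroup.mk_mul, (QuotientGroup.eq_one_iff s').2 hs', mul_one]
    have h3 : ((⁅n, n'⁆ : G) : G ⧸ S) = 1 := (QuotientGroup.eq_one_iff _).2 (hcommN n hn n' hn')
    simp only [commutatorElement_def, QuotientGroup.mk_mul, QuotientGroup.mk_inv] at h3 h1 h2 ⊢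
    rw [h1, h2]
    exact h3
  · intro hndvd
    have hcop : Nat.Coprime p (Nat.card S) := (Nat.Prime.coprime_iff_not_dvd hp).2 hndvd
    -- subgroups of order p meet S trivially
    have hdisj : ∀ H : Subgroup G, Nat.card H = p → ∀ y, y ∈ H → y ∈ S → y = 1 := by
      intro H hH y h1 h2
      have : H ⊓ S = ⊥ := Subgroup.inf_eq_bot_of_coprime (by rw [hH]; exact hcop)
      exact (Subgroup.mem_bot.1 (this ▸ Subgroup.mem_inf.2 ⟨h1, h2⟩))
    have hxcard : Nat.card (zpowers x) = p := by rw [Nat.card_zpowers, hx]
    have hxS : x ∉ S := by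
      intro h
      have := hdisj _ hxcard x (mem_zpowers x) h
      rw [this, orderOf_one] at hx
      exact hp.one_lt.ne hx
    refine ⟨?_, ?_, ?_, ?_⟩
    · -- the free conjugation action on the subgroups of order p
      have hmap : ∀ (s : S) (H : {H : Subgroup G // Nat.card H = p}),
          Nat.card (H.1.map (MulAut.conj (s : G)).toMonoidHom) = p := by
        intro s H
        rw [Subgroup.card_map_of_injective (MulAut.conj (s : G)).injective]
        exact H.2
      letI act : MulAction S {H : Subgroup G // Nat.card H = p} :=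
        { smul := fun s H => ⟨H.1.map (MulAut.conj (s : G)).toMonoidHom, hmap s H⟩
          one_smul := fun H => by
            apply Subtype.ext
            show H.1.map (MulAut.conj ((1 : S) : G)).toMonoidHom = H.1
            ext y
            simp
          mul_smul := fun s t H => by
            apply Subtype.ext
            show H.1.map (MulAut.conj ((s * t : S) : G)).toMonoidHom =
              (H.1.map (MulAut.conj (t : G)).toMonoidHom).map (MulAut.conj (s : G)).toMonoidHom
            rw [Subgroup.map_map]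
            congr 1
            ext y
            simp [mul_assoc] }
      have hfree : ∀ H : {H : Subgroup G // Nat.card H = p}, MulAction.stabilizer S H = ⊥ := by
        intro H
        rw [eq_bot_iff]
        intro s hs
        have hs' : H.1.map (MulAut.conj (s : G)).toMonoidHom = H.1 := congrArg Subtype.val hs
        obtain ⟨g, hg⟩ := exists_conj p x hx hC H.1 H.2
        have ht : g * x * g⁻¹ ∈ H.1 := by rw [hg]; exact mem_zpowers _
        have h1 : (s : G) * (g * x * g⁻¹) * (s : G)⁻¹ ∈ H.1 := by
          rw [← hs']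
          exact ⟨_, ht, rfl⟩
        have h2 : (s : G) * (g * x * g⁻¹) * (s : G)⁻¹ * (g * x * g⁻¹)⁻¹ = 1 := by
          apply hdisj H.1 H.2
          · exact H.1.mul_mem h1 (H.1.inv_mem ht)
          · have h3 := ‹S.Normal›.conj_mem _ (S.inv_mem s.2) (g * x * g⁻¹)
            have h4 : (s : G) * (g * x * g⁻¹) * (s : G)⁻¹ * (g * x * g⁻¹)⁻¹ =
                (s : G) * ((g * x * g⁻¹) * (s : G)⁻¹ * (g * x * g⁻¹)⁻¹) := by group
            rw [h4]
            exact S.mul_mem s.2 h3
        have h5 : (s : G) ∈ centralizer ({g * x * g⁻¹} : Set G) := by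
          rw [mem_centralizer_iff']
          have h6 := mul_inv_eq_one.1 h2
          rw [mul_inv_eq_iff_eq_mul] at h6
          exact h6
        rw [centralizer_conj x g hC, ← hg] at h5
        have h7 := hdisj H.1 H.2 s h5 s.2
        exact Subgroup.mem_bot.2 (Subtype.ext h7)
      have e := MulAction.selfEquivOrbitsQuotientProd hfree
      rw [Nat.card_congr e, Nat.card_prod]
      exact dvd_mul_left _ _
    · -- congruence
      haveI : Fintype S := Fintype.ofFinite _
      let σ : Equiv.Perm S := MulAut.toPerm S (MulAut.conjNormal x)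
      have hσ : σ ^ p ^ 1 = 1 := by
        rw [pow_one]
        show MulAut.toPerm S (MulAut.conjNormal x) ^ p = 1
        rw [← map_pow, ← map_pow, ← hx, pow_orderOf_eq_one, map_one, map_one]
      have h1 := Equiv.Perm.card_compl_support_modEq hσ
      have h2 : σ.supportᶜ = {1} := by
        ext s
        simp only [Finset.mem_compl, Equiv.Perm.mem_support, not_not, Finset.mem_singleton]
        constructor
        · intro hs
          have hs' : x * (s : G) * x⁻¹ = s := congrArg Subtype.val hs
          have h3 : (s : G) ∈ centralizer ({x} : Set G) := by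
            rw [mem_centralizer_iff']
            exact (mul_inv_eq_iff_eq_mul.1 hs').symm
          rw [hC] at h3
          exact Subtype.ext (hdisj _ hxcard s h3 s.2)
        · rintro rfl
          apply Subtype.ext
          show x * ((1 : S) : G) * x⁻¹ = ((1 : S) : G)
          simp
      rw [h2, Finset.card_singleton] at h1
      rw [Nat.card_eq_fintype_card]
      have h3 : Fintype.card S % p = 1 % p := h1.symm
      rw [h3, Nat.mod_eq_of_lt hp.one_lt]
    · apply orderOf_eq_prime
      · rw [← QuotientGroup.mk_pow, ← hx, pow_orderOf_eq_one]; rfl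
      · intro h
        exact hxS ((QuotientGroup.eq_one_iff x).1 h)
    · apply le_antisymm
      · intro h hh
        rw [mem_centralizer_iff'] at hh
        obtain ⟨g, rfl⟩ := QuotientGroup.mk_surjective h
        -- fixed point in the coset
        let α := {y : G // (y : G ⧸ S) = (g : G ⧸ S)}
        have hpres : ∀ y : G, (fun y : G => (y : G ⧸ S) = (g : G ⧸ S)) ((MulAut.toPerm G (MulAut.conj x)) y) ↔
            (fun y : G => (y : G ⧸ S) = (g : G ⧸ S)) y := by
          intro y
          show ((x * y * x⁻¹ : G) : G ⧸ S) = g ↔ (y : G ⧸ S) = g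
          simp only [QuotientGroup.mk_mul, QuotientGroup.mk_inv]
          rw [mul_inv_eq_iff_eq_mul, hh]
          exact mul_right_inj _
        haveI : Fintype α := Fintype.ofFinite _
        let σ : Equiv.Perm α := (MulAut.toPerm G (MulAut.conj x)).subtypePerm hpres
        have hσ : σ ^ p ^ 1 = 1 := by
          rw [pow_one]
          show ((MulAut.toPerm G (MulAut.conj x)).subtypePerm hpres) ^ p = 1
          rw [Equiv.Perm.subtypePerm_pow]
          ext y
          have : (MulAut.toPerm G (MulAut.conj x)) ^ p = 1 := by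
            rw [← map_pow, ← map_pow, ← hx, pow_orderOf_eq_one, map_one, map_one]
          simp [this]
        have hcardα : Nat.card α = Nat.card S := by
          symm
          apply Nat.card_congr
          refine
            { toFun := fun s => ⟨g * s, ?_⟩
              invFun := fun y => ⟨g⁻¹ * y.1, ?_⟩
              left_inv := fun s => by ext; simp
              right_inv := fun y => by ext; simp }
          · rw [QuotientGroup.mk_mul, (QuotientGroup.eq_one_iff _).2 s.2, mul_one]
          · have : ((y.1 : G) : G ⧸ S) = (g : G ⧸ S) := y.2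
            exact QuotientGroup.eq.1 this.symm
        have hnd : ¬ p ∣ Fintype.card α := by
          rw [← Nat.card_eq_fintype_card, hcardα]
          exact hndvd
        obtain ⟨y, hy⟩ := Equiv.Perm.exists_fixed_point_of_prime hnd hσ
        have hy1 : x * y.1 * x⁻¹ = y.1 := congrArg Subtype.val hy
        have hy2 : y.1 ∈ centralizer ({x} : Set G) := by
          rw [mem_centralizer_iff']
          exact (mul_inv_eq_iff_eq_mul.1 hy1).symm
        rw [hC] at hy2
        obtain ⟨k, hk⟩ := hy2
        refine ⟨k, ?_⟩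
        show (QuotientGroup.mk x : G ⧸ S) ^ k = _
        rw [← QuotientGroup.mk_zpow]
        have hk' : x ^ k = y.1 := hk
        rw [hk']
        exact y.2
      · rw [zpowers_le, mem_centralizer_iff']

end Cfsg.Agent.S4496
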