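import Mathlib
import Cfsg.Agent.Lib.ClassGeo.SLGen
import Cfsg.Agent.S0248
import Cfsg.Statements.S0249
-- import your own Cfsg.Agent.* helpers here

set_option autoImplicit false
open Cfsg

namespace Cfsg.Agent.S0249

open Matrix Matrix.SpecialLinearGroup in
open scoped LinearAlgebra.Projectivization in
theorem iSup_lineStab_eq_top {F : Type*} [Field F] (n : ℕ) (hn : 3 ≤ n) :
    (⨆ p : ℙ F (Fin n → F), lineStab p.submodule) = (⊤ : Subgroup (SpecialLinearGroup (Fin n) F)) := by
  have : Nontrivial (Fin n) := Fin.nontrivial_iff_two_le.mpr (by omega)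
  refine eq_top_iff.mpr (fun M _ => CfsgLib.ClassGeo.SL_transvection_induction (· ∈ ⨆ p : ℙ F (Fin n → F), lineStab p.submodule) M ?_ (fun _ _ => mul_mem))
  intro i j hij a
  have hne : (Pi.single i 1 : Fin n → F) ≠ 0 := Pi.single_ne_zero_iff.2 one_ne_zero
  have h1 := SL2Gen.transvection_mem_lineStab (F := F) hij a
  rw [← Projectivization.submodule_mk (K := F) _ hne] at h1
  exact (le_iSup (fun p : ℙ F (Fin n → F) => lineStab p.submodule) _) h1

/-- PSL_n(F) is simple for n at least 3, over any field F. -/
theorem result {F : Type*} [Field F] (n : ℕ) (hn : 3 ≤ n) : IsSimpleGroup (Matrix.ProjectiveSpecialLinearGroup (Fin n) F) := by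
  have : Nontrivial (Fin n) := Fin.nontrivial_iff_two_le.mpr (by omega)
  have hperfSL : Group.IsPerfect (Matrix.SpecialLinearGroup (Fin n) F) := ⟨Cfsg.Agent.S0248.result n hn⟩
  have hperf : Group.IsPerfect (Matrix.ProjectiveSpecialLinearGroup (Fin n) F) := inferInstance
  refine MulAction.IwasawaStructure.isSimpleGroup hperf.commutator_eq_top
    (α := Projectivization F (Fin n → F)) ?_ inferInstance
  refine { T := PSL.iwasawaT, is_comm := ?_, is_conj := ?_, is_generator := ?_ }
  · intro p
    have hSL : IsMulCommutative (Matrix.SpecialLinearGroup.lineStab (F := F) (ι := Fin n) p.submodule) := by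
      rw [← Projectivization.mk_rep p, Projectivization.submodule_mk]
      exact Matrix.SpecialLinearGroup.lineStab_isMulCommutative_of_span p.rep p.rep_nonzero
    exact Subgroup.map_isMulCommutative _ _
  · intro g p
    obtain ⟨g_SL, rfl⟩ := QuotientGroup.mk_surjective g
    rw [Matrix.ProjectiveSpecialLinearGroup.smul_proj_mk]
    change Subgroup.map _ _ = _
    rw [PSL.smul_submodule, Matrix.SpecialLinearGroup.lineStab_smul, PSL.iwasawaT_map_conj]
  · have step1 : iSup (PSL.iwasawaT (F := F) (ι := Fin n)) =
        Subgroup.map (QuotientGroup.mk' (Subgroup.center (Matrix.SpecialLinearGroup (Fin n) F)))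
          (⨆ p : Projectivization F (Fin n → F),
            Matrix.SpecialLinearGroup.lineStab (F := F) (ι := Fin n) p.submodule) := by
      rw [Subgroup.map_iSup]
    rw [step1, iSup_lineStab_eq_top n hn]
    exact Subgroup.map_top_of_surjective _ (QuotientGroup.mk'_surjective _)

end Cfsg.Agent.S0249
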