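import Mathlib
import Cfsg.Agent.Lib.ClassGeo.SpPerfect
import Cfsg.Statements.S0269
-- import your own Cfsg.Agent.* helpers here

set_option autoImplicit false
open Cfsg

namespace Cfsg.Agent.S0269

/-- Sp_{2m}(q) is perfect except for Sp_2(2), Sp_2(3) and Sp_4(2): stated as m at least 3, or m = 2 and q at least 3, or q at least 4. -/
theorem result {F : Type*} [Field F] [Fintype F] (m : ℕ) (h : 3 ≤ m ∨ (m = 2 ∧ 3 ≤ Fintype.card F) ∨ 4 ≤ Fintype.card F) : commutator (Matrix.symplecticGroup (Fin m) F) = ⊤ := by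
  classical
  by_cases hm0 : m = 0
  · subst hm0
    rw [eq_top_iff]
    intro A _
    have : A = 1 := by
      apply Subtype.ext
      ext i j
      rcases i with i | i <;> exact i.elim0
    rw [this]
    exact one_mem _
  have hm1 : 0 < m := Nat.pos_of_ne_zero hm0
  have hcase_a : 4 ≤ Fintype.card F → ∃ a : F, a ≠ 0 ∧ a ^ 2 ≠ 1 := by
    intro h4
    by_contra hcon
    push Not at hcon
    have hsub : (Finset.univ : Finset F) ⊆ {0, 1, -1} := by
      intro a _
      by_cases ha : a = 0
      · simp [ha]
      · have h1 := hcon a ha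
        have h2 : (a - 1) * (a + 1) = 0 := by linear_combination h1
        rcases mul_eq_zero.mp h2 with h3 | h3
        · have : a = 1 := by linear_combination h3
          simp [this]
        · have : a = -1 := by linear_combination h3
          simp [this]
    have h5 := Finset.card_le_card hsub
    rw [Finset.card_univ] at h5
    have h6 : ({0, 1, -1} : Finset F).card ≤ 3 := Finset.card_le_three
    omega
  have hc3 : Fintype.card F = 3 → (2 : F) ≠ 0 := by
    intro h3 h2
    have hchar : ringChar F = 2 := CharP.ringChar_of_prime_eq_zero Nat.prime_two (by exact_mod_cast h2)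
    have := FiniteField.even_card_iff_char_two.mp hchar
    omega
  refine CfsgLib.ClassGeo.sp_perfect_of_T (CfsgLib.ClassGeo.spE m ⟨0, hm1⟩) (CfsgLib.ClassGeo.spE_ne_zero _) ?_
  intro c
  rcases h with h | ⟨h2, h3⟩ | h
  · exact CfsgLib.ClassGeo.sp_comm_case_c h c
  · by_cases h4 : 4 ≤ Fintype.card F
    · obtain ⟨a, ha, ha2⟩ := hcase_a h4
      exact CfsgLib.ClassGeo.sp_comm_case_a _ (CfsgLib.ClassGeo.spE_ne_zero _) a ha ha2 c
    · exact CfsgLib.ClassGeo.sp_comm_case_b (by omega) (hc3 (by omega)) c
  · obtain ⟨a, ha, ha2⟩ := hcase_a h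
    exact CfsgLib.ClassGeo.sp_comm_case_a _ (CfsgLib.ClassGeo.spE_ne_zero _) a ha ha2 c

end Cfsg.Agent.S0269
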