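import Mathlib
import Cfsg.Agent.Lib.ClassGeo.SpSimple
import Cfsg.Agent.S0269
import Cfsg.Agent.S0246
import Cfsg.Statements.S0270
-- import your own Cfsg.Agent.* helpers here

set_option autoImplicit false
open Cfsg

namespace Cfsg.Agent.S0270

/-- PSp_{2m}(q) is simple for m at least 2 and (m, q) other than (2, 2). -/
theorem result {F : Type*} [Field F] [Fintype F] (m : ℕ) (hm : 2 ≤ m) (h : m = 2 → 3 ≤ Fintype.card F) : IsSimpleGroup (Cfsg.PSp m F) := by
  classical
  have hm0 : 0 < m := by omega
  have hperf : commutator (Matrix.symplecticGroup (Fin m) F) = ⊤ := by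
    apply Cfsg.Agent.S0269.result
    by_cases h3 : 3 ≤ m
    · exact Or.inl h3
    · exact Or.inr (Or.inl ⟨by omega, h (by omega)⟩)
  have hSG : IsSimpleGroup ((Matrix.symplecticGroup (Fin m) F) ⧸ Subgroup.center (Matrix.symplecticGroup (Fin m) F)) := by
    have : Nontrivial ((Matrix.symplecticGroup (Fin m) F) ⧸ Subgroup.center (Matrix.symplecticGroup (Fin m) F)) := by
      let e : Fin m ⊕ Fin m → F := Pi.single (Sum.inl ⟨0, hm0⟩) 1
      have he : e ≠ 0 := by
        intro h0
        have := congrFun h0 (Sum.inl ⟨0, hm0⟩)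
        simp [e] at this
      have hnc : CfsgLib.ClassGeo.spT e 1 ∉ Subgroup.center (Matrix.symplecticGroup (Fin m) F) := by
        intro hc
        obtain ⟨a, ha⟩ := Cfsg.Agent.S0246.center_scalar m _ hc
        obtain ⟨x, hx⟩ : ∃ x, Cfsg.sympForm m F x e ≠ 0 := by
          by_contra hcon
          push Not at hcon
          exact he (CfsgLib.ClassGeo.symp_nondeg hcon)
        have h1 := ha e
        have h2 := ha x
        rw [CfsgLib.ClassGeo.spT_mulVec] at h1 h2
        rw [CfsgLib.ClassGeo.symp_self, mul_zero, zero_smul, add_zero] at h1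
        have ha1 : a = 1 := by
          have h3 : (a - 1) • e = 0 := by rw [sub_smul, one_smul, ← h1, sub_self]
          rcases smul_eq_zero.mp h3 with h4 | h4
          · exact sub_eq_zero.mp h4
          · exact absurd h4 he
        rw [ha1, one_smul, one_mul] at h2
        have h3 : Cfsg.sympForm m F x e • e = 0 := by
          simpa using h2
        rcases smul_eq_zero.mp h3 with h4 | h4
        · exact hx h4
        · exact he h4
      refine ⟨⟨QuotientGroup.mk (CfsgLib.ClassGeo.spT e 1), 1, ?_⟩⟩
      intro h0
      exact hnc ((QuotientGroup.eq_one_iff _).mp h0)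
    apply IsSimpleGroup.mk
    intro N hN
    let M := N.comap (QuotientGroup.mk' (Subgroup.center (Matrix.symplecticGroup (Fin m) F)))
    have : M.Normal := hN.comap _
    by_cases hfix : MulAction.fixedPoints M (Projectivization F (Fin m ⊕ Fin m → F)) = Set.univ
    · left
      rw [eq_bot_iff]
      intro x hx
      obtain ⟨n, rfl⟩ := QuotientGroup.mk'_surjective _ x
      have hn : n ∈ M := hx
      have : n ∈ Subgroup.center (Matrix.symplecticGroup (Fin m) F) := by
        apply CfsgLib.ClassGeo.sp_fix_scalar
        intro p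
        exact Set.eq_univ_iff_forall.mp hfix p ⟨n, hn⟩
      rw [Subgroup.mem_bot]
      exact (QuotientGroup.eq_one_iff _).mpr this
    · right
      have h1 := CfsgLib.ClassGeo.spIwasawa.commutator_le M hfix
      rw [hperf, top_le_iff] at h1
      rw [eq_top_iff]
      intro x _
      obtain ⟨n, rfl⟩ := QuotientGroup.mk'_surjective _ x
      have : n ∈ M := by rw [h1]; trivial
      exact this
  exact hSG

end Cfsg.Agent.S0270
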