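import Cfsg.Statements.S0444
import Mathlib
import Cfsg.Agent.Lib.T3.Basic
import Cfsg.Agent.Lib.T3.Table

set_option autoImplicit false
open Cfsg

namespace Cfsg.Agent.S0444

/-- Two members of a set of 3-transpositions which do not commute generate a subgroup isomorphic to the symmetric group on three letters. -/
theorem result {G : Type*} [Group G] {E : Set G} (hE : Cfsg.IsThreeTranspositionSet E) {d e : G} (hd : d ∈ E) (he : e ∈ E) (h : ¬ Commute d e) : Nonempty (Subgroup.closure ({d, e} : Set G) ≃* Equiv.Perm (Fin 3)) := by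
  classical
  open CfsgLib.T3 in
  have hd2 := sq_of_order_two (hE.1 d hd)
  have he2 := sq_of_order_two (hE.1 e he)
  have h3 := cube_of_not_commute hE hd he h
  have hb := braid_of_cube hd2 he2 h3
  let s : Fin 2 → Equiv.Perm (Fin 3) := ![Equiv.swap 0 1, Equiv.swap 1 2]
  let g : Fin 2 → G := ![d, e]
  let R : List (List (Fin 2) × List (Fin 2)) := [([0,0],[]), ([1,1],[]), ([1,0,1],[0,1,0])]
  let tbl : List (List (Fin 2)) := [[],[0],[1],[0,1],[1,0],[0,1,0]]
  have hR : ∀ r ∈ R, evalW g r.1 = evalW g r.2 := by
    intro r hr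
    simp only [R, List.mem_cons, List.not_mem_nil, or_false] at hr
    rcases hr with rfl | rfl | rfl
    · simpa [g] using hd2
    · simpa [g] using he2
    · simpa [g, mul_assoc] using hb.symm
  obtain ⟨φ, hφ, hφ2⟩ := exists_hom_of_rules (G := G) s g R hR tbl 8 (by decide)
    (by decide +kernel) (by decide +kernel) (by decide +kernel)
  have hφ0 : φ (Equiv.swap 0 1) = d := hφ 0
  have hφ1 : φ (Equiv.swap 1 2) = e := hφ 1
  have hinj : Function.Injective φ := by
    rw [injective_iff_map_eq_one]
    intro σ hσ
    by_contra hne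
    have key : ∀ σ : Equiv.Perm (Fin 3), σ ≠ 1 → ∃ x y : Equiv.Perm (Fin 3),
        (x * σ * x⁻¹) * (y * σ * y⁻¹) = Equiv.swap 0 1 * Equiv.swap 1 2 := by decide +kernel
    obtain ⟨x, y, hxy⟩ := key σ hne
    have h1 := congrArg φ hxy
    simp only [map_mul, map_inv, hσ, hφ0, hφ1, mul_one, mul_inv_cancel, one_mul] at h1
    apply h
    have : d = e := by
      have h2 : d = e⁻¹ := eq_inv_of_mul_eq_one_left h1.symm
      rw [h2, inv_of_order_two (hE.1 e he)]
    rw [this]
  have hrange : φ.range = Subgroup.closure ({d, e} : Set G) := by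
    apply le_antisymm
    · rintro _ ⟨τ, rfl⟩
      obtain ⟨l, hl, -⟩ := hφ2 τ
      rw [hl]
      have : ∀ l : List (Fin 2), evalW g l ∈ Subgroup.closure ({d, e} : Set G) := by
        intro l
        induction l with
        | nil => exact one_mem _
        | cons a l ih =>
          rw [evalW_cons]
          refine mul_mem ?_ ih
          apply Subgroup.subset_closure
          fin_cases a
          · simp [g]
          · simp [g]
      exact this l
    · rw [Subgroup.closure_le]
      rintro x (rfl | hx)
      · exact ⟨_, hφ0⟩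
      · rw [Set.mem_singleton_iff] at hx
        subst hx
        exact ⟨_, hφ1⟩
  rw [← hrange]
  exact ⟨(MonoidHom.ofInjective hinj).symm⟩

end Cfsg.Agent.S0444
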