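import Cfsg.Statements.S0428
import Mathlib
import Cfsg.Agent.Lib.Steiner.SRG

set_option autoImplicit false
open Cfsg

namespace Cfsg.Agent.S0428

/-- The point-block graph of an S(3, 6, 22) is strongly regular with parameters (100, 22, 0, 6). -/
theorem result {α : Type*} [Fintype α] (hα : Fintype.card α = 22) {B : Set (Finset α)} (hB : Cfsg.IsSteinerSystem 3 6 B) [Fintype B] [DecidableRel (Cfsg.pointBlockGraph B).Adj] : (Cfsg.pointBlockGraph B).IsSRGWith 100 22 0 6 := by
  classical
  open CfsgLib.Steiner in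
  have hne0 : ∀ b ∈ B, b ≠ ∅ := by
    intro b hb h
    have := hB.1 b hb
    rw [h] at this; simp at this
  have a1 : ∀ a : α, (Cfsg.pointBlockGraph B).Adj none (some (Sum.inl a)) := by
    intro a
    simp [Cfsg.pointBlockGraph, SimpleGraph.fromRel_adj, Cfsg.pointBlockRel]
  have a2 : ∀ b : B, ¬ (Cfsg.pointBlockGraph B).Adj none (some (Sum.inr b)) := by
    intro b
    simp [Cfsg.pointBlockGraph, SimpleGraph.fromRel_adj, Cfsg.pointBlockRel]
  have a3 : ∀ a a' : α, ¬ (Cfsg.pointBlockGraph B).Adj (some (Sum.inl a)) (some (Sum.inl a')) := by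
    intro a a'
    simp [Cfsg.pointBlockGraph, SimpleGraph.fromRel_adj, Cfsg.pointBlockRel]
  have a4 : ∀ (a : α) (b : B), (Cfsg.pointBlockGraph B).Adj (some (Sum.inl a)) (some (Sum.inr b)) ↔ a ∈ (b : Finset α) := by
    intro a b
    simp [Cfsg.pointBlockGraph, SimpleGraph.fromRel_adj, Cfsg.pointBlockRel]
  have a5 : ∀ b c : B, (Cfsg.pointBlockGraph B).Adj (some (Sum.inr b)) (some (Sum.inr c)) ↔ ((b : Finset α) ∩ c = ∅) := by
    intro b c
    simp only [Cfsg.pointBlockGraph, SimpleGraph.fromRel_adj, Cfsg.pointBlockRel]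
    constructor
    · rintro ⟨_, h | h⟩
      · exact Finset.disjoint_iff_inter_eq_empty.1 h
      · rw [Finset.inter_comm]; exact Finset.disjoint_iff_inter_eq_empty.1 h
    · intro h
      refine ⟨?_, Or.inl (Finset.disjoint_iff_inter_eq_empty.2 h)⟩
      intro he
      have he' : b = c := by simpa using he
      subst he'
      rw [Finset.inter_self] at h
      exact hne0 _ b.2 h
  have a6 : ¬ (Cfsg.pointBlockGraph B).Adj none none := (Cfsg.pointBlockGraph B).loopless.irrefl _
  -- splitting counts
  have hsplit : ∀ X : Set (Option (α ⊕ B)), X.ncard = (if none ∈ X then 1 else 0) +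
      ({a : α | some (Sum.inl a) ∈ X}.ncard + {b : B | some (Sum.inr b) ∈ X}.ncard) := by
    intro X
    have h1 : X.ncard = ∑ v : Option (α ⊕ B), if v ∈ X then 1 else 0 := by
      rw [← Finset.card_filter, Set.ncard_eq_toFinset_card']
      congr 1
      ext v
      simp
    have h2 : ∀ (γ : Type _) [Fintype γ] (S : Set γ), S.ncard = ∑ v : γ, if v ∈ S then 1 else 0 := by
      intro γ _ S
      rw [← Finset.card_filter, Set.ncard_eq_toFinset_card']
      congr 1
      ext v
      simp
    rw [h1, Fintype.sum_option, Fintype.sum_sum_type, h2 α, h2 B]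
    rfl
  have hcount : ∀ (P : Finset α → Prop) [DecidablePred P], Set.ncard {c : B | P (c : Finset α)} = ((blockF B).filter P).card := by
    intro P _
    rw [← ncard_blocks]
    have : {b | b ∈ B ∧ P b} = Subtype.val '' {c : B | P (c : Finset α)} := by
      ext b
      simp [and_comm]
    rw [this]
    exact (Set.ncard_image_of_injective _ Subtype.val_injective).symm
  have hcardpts : ∀ s : Finset α, {a : α | a ∈ s}.ncard = s.card := fun s => Set.ncard_coe_finset s
  have hb6 : ∀ b : B, (b : Finset α).card = 6 := fun b => hB.1 b b.2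
  have hd := fun b : B => (hcount (fun c => (b : Finset α) ∩ c = ∅)).trans (disj_count hα hB b.2)
  have hp := fun a : α => (hcount (fun c => a ∈ c)).trans (blocks_through_pt hα hB a)
  refine ⟨?_, ?_, ?_, ?_⟩
  · have h77 : Fintype.card B = 77 := by
      rw [← Nat.card_eq_fintype_card, Nat.card_coe_set_eq]
      have := card_blocks hα hB
      rw [← this, ← Set.ncard_coe_finset]
      congr 1
      ext b
      simp [mem_blockF]
    rw [Fintype.card_option, Fintype.card_sum, hα, h77]
  · rintro (_ | a | b)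
    · rw [← SimpleGraph.card_neighborSet_eq_degree, ← Nat.card_eq_fintype_card, Nat.card_coe_set_eq, hsplit]
      have e1 : none ∉ (Cfsg.pointBlockGraph B).neighborSet none := a6
      have e2 : {a : α | some (Sum.inl a) ∈ (Cfsg.pointBlockGraph B).neighborSet none} = Set.univ := Set.eq_univ_of_forall fun a => a1 a
      have e3 : {b : B | some (Sum.inr b) ∈ (Cfsg.pointBlockGraph B).neighborSet none} = ∅ := Set.eq_empty_of_forall_notMem fun b => a2 b
      rw [if_neg e1, e2, e3, Set.ncard_univ, Set.ncard_empty, Nat.card_eq_fintype_card, hα]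
    · rw [← SimpleGraph.card_neighborSet_eq_degree, ← Nat.card_eq_fintype_card, Nat.card_coe_set_eq, hsplit]
      have e1 : none ∈ (Cfsg.pointBlockGraph B).neighborSet (some (Sum.inl a)) := (a1 a).symm
      have e2 : {a' : α | some (Sum.inl a') ∈ (Cfsg.pointBlockGraph B).neighborSet (some (Sum.inl a))} = ∅ :=
        Set.eq_empty_of_forall_notMem fun a' => a3 a a'
      have e3 : {b : B | some (Sum.inr b) ∈ (Cfsg.pointBlockGraph B).neighborSet (some (Sum.inl a))} = {b : B | a ∈ (b : Finset α)} := by
        ext b; exact a4 a b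
      rw [if_pos e1, e2, e3, Set.ncard_empty, hp a]
    · rw [← SimpleGraph.card_neighborSet_eq_degree, ← Nat.card_eq_fintype_card, Nat.card_coe_set_eq, hsplit]
      have e1 : none ∉ (Cfsg.pointBlockGraph B).neighborSet (some (Sum.inr b)) := fun h => a2 b (SimpleGraph.Adj.symm h)
      have e2 : {a : α | some (Sum.inl a) ∈ (Cfsg.pointBlockGraph B).neighborSet (some (Sum.inr b))} = {a : α | a ∈ (b : Finset α)} := by
        ext a
        exact ((Cfsg.pointBlockGraph B).adj_comm _ _).trans (a4 a b)
      have e3 : {c : B | some (Sum.inr c) ∈ (Cfsg.pointBlockGraph B).neighborSet (some (Sum.inr b))} = {c : B | (b : Finset α) ∩ c = ∅} := by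
        ext c; exact a5 b c
      rw [if_neg e1, e2, e3, hcardpts, hb6, hd b]
  · -- adjacent pairs
    intro v w hvw
    rw [← Nat.card_eq_fintype_card, Nat.card_coe_set_eq]
    revert v w
    have hcn0 : ∀ (v w : Option (α ⊕ B)), (∀ x, ¬ ((Cfsg.pointBlockGraph B).Adj v x ∧ (Cfsg.pointBlockGraph B).Adj w x)) → ((Cfsg.pointBlockGraph B).commonNeighbors v w).ncard = 0 := by
      intro v w h
      rw [Set.ncard_eq_zero (Set.toFinite _)]
      exact Set.eq_empty_of_forall_notMem fun x hx => h x ((SimpleGraph.mem_commonNeighbors _).1 hx)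
    have pair_inl_none : ∀ a : α, ∀ x, ¬ ((Cfsg.pointBlockGraph B).Adj none x ∧ (Cfsg.pointBlockGraph B).Adj (some (Sum.inl a)) x) := by
      rintro a (_ | a' | b) ⟨h1, h2⟩
      · exact a6 h1
      · exact a3 _ _ h2
      · exact a2 _ h1
    have pair_inl_inr : ∀ (a : α) (b : B), a ∈ (b : Finset α) → ∀ x, ¬ ((Cfsg.pointBlockGraph B).Adj (some (Sum.inl a)) x ∧ (Cfsg.pointBlockGraph B).Adj (some (Sum.inr b)) x) := by
      rintro a b hab (_ | a' | c) ⟨h1, h2⟩
      · exact a2 _ h2.symm
      · exact a3 _ _ h1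
      · have e1 := (a4 a c).1 h1
        have e2 := (a5 b c).1 h2
        have : a ∈ (b : Finset α) ∩ c := Finset.mem_inter.2 ⟨hab, e1⟩
        rw [e2] at this
        simp at this
    rintro (_ | a | b) (_ | a' | c) hadj
    · exact absurd hadj a6
    · exact hcn0 _ _ (pair_inl_none a')
    · exact absurd hadj (a2 c)
    · exact hcn0 _ _ (fun x h => pair_inl_none a x ⟨h.2, h.1⟩)
    · exact absurd hadj (a3 _ _)
    · exact hcn0 _ _ (pair_inl_inr a c ((a4 a c).1 hadj))
    · exact absurd hadj.symm (a2 b)
    · exact hcn0 _ _ (fun x h => pair_inl_inr a' b ((a4 a' b).1 hadj.symm) x ⟨h.2, h.1⟩)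
    · rw [hsplit]
      have hbc := (a5 b c).1 hadj
      have hne' : (b : Finset α) ≠ c := by
        intro he
        rw [he, Finset.inter_self] at hbc
        exact hne0 _ c.2 hbc
      have e1 : none ∉ (Cfsg.pointBlockGraph B).commonNeighbors (some (Sum.inr b)) (some (Sum.inr c)) := fun h =>
        a2 b (SimpleGraph.Adj.symm ((SimpleGraph.mem_commonNeighbors _).1 h).1)
      have e2 : {a : α | some (Sum.inl a) ∈ (Cfsg.pointBlockGraph B).commonNeighbors (some (Sum.inr b)) (some (Sum.inr c))} = ∅ := by
        apply Set.eq_empty_of_forall_notMem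
        intro a ha
        have h1 := (SimpleGraph.mem_commonNeighbors _).1 ha
        have e1 := (a4 a b).1 h1.1.symm
        have e2 := (a4 a c).1 h1.2.symm
        have : a ∈ (b : Finset α) ∩ c := Finset.mem_inter.2 ⟨e1, e2⟩
        rw [hbc] at this
        simp at this
      have e3 : {d : B | some (Sum.inr d) ∈ (Cfsg.pointBlockGraph B).commonNeighbors (some (Sum.inr b)) (some (Sum.inr c))} =
          {d : B | (b : Finset α) ∩ d = ∅ ∧ (c : Finset α) ∩ d = ∅} := by
        ext d
        simp only [Set.mem_ofPred_eq, SimpleGraph.mem_commonNeighbors, a5]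
      rw [if_neg e1, e2, e3, hcount (fun d => (b : Finset α) ∩ d = ∅ ∧ (c : Finset α) ∩ d = ∅),
        common_disjoint hα hB b.2 c.2 hne' (by rw [hbc]; simp), Set.ncard_empty]
  · -- non-adjacent pairs
    intro v w hvw hvw2
    rw [← Nat.card_eq_fintype_card, Nat.card_coe_set_eq]
    revert v w
    have none_inr : ∀ b : B, ((Cfsg.pointBlockGraph B).commonNeighbors none (some (Sum.inr b))).ncard = 6 := by
      intro b
      rw [hsplit]
      have e1 : none ∉ (Cfsg.pointBlockGraph B).commonNeighbors none (some (Sum.inr b)) := fun h =>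
        a6 ((SimpleGraph.mem_commonNeighbors _).1 h).1
      have e2 : {a : α | some (Sum.inl a) ∈ (Cfsg.pointBlockGraph B).commonNeighbors none (some (Sum.inr b))} = {a : α | a ∈ (b : Finset α)} := by
        ext a
        simp only [Set.mem_ofPred_eq, SimpleGraph.mem_commonNeighbors]
        exact ⟨fun h => (a4 a b).1 h.2.symm, fun h => ⟨a1 a, ((a4 a b).2 h).symm⟩⟩
      have e3 : {d : B | some (Sum.inr d) ∈ (Cfsg.pointBlockGraph B).commonNeighbors none (some (Sum.inr b))} = ∅ := by
        apply Set.eq_empty_of_forall_notMem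
        intro d hd'
        exact a2 d ((SimpleGraph.mem_commonNeighbors _).1 hd').1
      rw [if_neg e1, e2, e3, hcardpts, hb6, Set.ncard_empty]
    have inl_inl : ∀ a a' : α, a ≠ a' → ((Cfsg.pointBlockGraph B).commonNeighbors (some (Sum.inl a)) (some (Sum.inl a'))).ncard = 6 := by
      intro a a' haa
      rw [hsplit]
      have e1 : none ∈ (Cfsg.pointBlockGraph B).commonNeighbors (some (Sum.inl a)) (some (Sum.inl a')) :=
        (SimpleGraph.mem_commonNeighbors _).2 ⟨(a1 a).symm, (a1 a').symm⟩
      have e2 : {x : α | some (Sum.inl x) ∈ (Cfsg.pointBlockGraph B).commonNeighbors (some (Sum.inl a)) (some (Sum.inl a'))} = ∅ := by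
        apply Set.eq_empty_of_forall_notMem
        intro x hx
        exact a3 _ _ ((SimpleGraph.mem_commonNeighbors _).1 hx).1
      have e3 : {d : B | some (Sum.inr d) ∈ (Cfsg.pointBlockGraph B).commonNeighbors (some (Sum.inl a)) (some (Sum.inl a'))} =
          {d : B | a ∈ (d : Finset α) ∧ a' ∈ (d : Finset α)} := by
        ext d
        simp only [Set.mem_ofPred_eq, SimpleGraph.mem_commonNeighbors, a4]
      rw [if_pos e1, e2, e3, hcount (fun d => a ∈ d ∧ a' ∈ d), blocks_through_pair hα hB haa, Set.ncard_empty]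
    have inl_inr : ∀ (a : α) (b : B), a ∉ (b : Finset α) → ((Cfsg.pointBlockGraph B).commonNeighbors (some (Sum.inl a)) (some (Sum.inr b))).ncard = 6 := by
      intro a b hab
      rw [hsplit]
      have e1 : none ∉ (Cfsg.pointBlockGraph B).commonNeighbors (some (Sum.inl a)) (some (Sum.inr b)) := fun h =>
        a2 b (SimpleGraph.Adj.symm ((SimpleGraph.mem_commonNeighbors _).1 h).2)
      have e2 : {x : α | some (Sum.inl x) ∈ (Cfsg.pointBlockGraph B).commonNeighbors (some (Sum.inl a)) (some (Sum.inr b))} = ∅ := by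
        apply Set.eq_empty_of_forall_notMem
        intro x hx
        exact a3 _ _ ((SimpleGraph.mem_commonNeighbors _).1 hx).1
      have e3 : {d : B | some (Sum.inr d) ∈ (Cfsg.pointBlockGraph B).commonNeighbors (some (Sum.inl a)) (some (Sum.inr b))} =
          {d : B | a ∈ (d : Finset α) ∧ (b : Finset α) ∩ d = ∅} := by
        ext d
        simp only [Set.mem_ofPred_eq, SimpleGraph.mem_commonNeighbors, a4, a5]
      rw [if_neg e1, e2, e3, hcount (fun d => a ∈ d ∧ (b : Finset α) ∩ d = ∅), pt_disjoint hα hB b.2 hab, Set.ncard_empty]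
    have inr_inr : ∀ b c : B, (b : Finset α) ≠ c → (b : Finset α) ∩ c ≠ ∅ → ((Cfsg.pointBlockGraph B).commonNeighbors (some (Sum.inr b)) (some (Sum.inr c))).ncard = 6 := by
      intro b c hbc hm
      rw [hsplit]
      have hcard2 : ((b : Finset α) ∩ c).card = 2 := by
        rcases inter_cases hα hB b.2 c.2 hbc with h0 | h2
        · exact absurd (Finset.card_eq_zero.1 h0) hm
        · exact h2
      have e1 : none ∉ (Cfsg.pointBlockGraph B).commonNeighbors (some (Sum.inr b)) (some (Sum.inr c)) := fun h =>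
        a2 b (SimpleGraph.Adj.symm ((SimpleGraph.mem_commonNeighbors _).1 h).1)
      have e2 : {a : α | some (Sum.inl a) ∈ (Cfsg.pointBlockGraph B).commonNeighbors (some (Sum.inr b)) (some (Sum.inr c))} =
          {a : α | a ∈ (b : Finset α) ∩ c} := by
        ext a
        simp only [Set.mem_ofPred_eq, SimpleGraph.mem_commonNeighbors, Finset.mem_inter]
        rw [(Cfsg.pointBlockGraph B).adj_comm _ (some (Sum.inl a)), (Cfsg.pointBlockGraph B).adj_comm _ (some (Sum.inl a)), a4, a4]
      have e3 : {d : B | some (Sum.inr d) ∈ (Cfsg.pointBlockGraph B).commonNeighbors (some (Sum.inr b)) (some (Sum.inr c))} =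
          {d : B | (b : Finset α) ∩ d = ∅ ∧ (c : Finset α) ∩ d = ∅} := by
        ext d
        simp only [Set.mem_ofPred_eq, SimpleGraph.mem_commonNeighbors, a5]
      rw [if_neg e1, e2, e3, hcardpts, hcard2, hcount (fun d => (b : Finset α) ∩ d = ∅ ∧ (c : Finset α) ∩ d = ∅),
        common_meeting hα hB b.2 c.2 hbc hcard2]
    rintro (_ | a | b) (_ | a' | c) hne hnadj
    · exact absurd rfl hne
    · exact absurd (a1 a') hnadj
    · exact none_inr c
    · exact absurd (a1 a).symm hnadj
    · exact inl_inl a a' (fun h => hne (by rw [h]))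
    · exact inl_inr a c (fun h => hnadj ((a4 a c).2 h))
    · rw [SimpleGraph.commonNeighbors_symm]; exact none_inr b
    · rw [SimpleGraph.commonNeighbors_symm]; exact inl_inr a' b (fun h => hnadj ((a4 a' b).2 h).symm)
    · have hbc : (b : Finset α) ≠ c := fun h => hne (by rw [Subtype.ext h])
      exact inr_inr b c hbc (fun h => hnadj ((a5 b c).2 h))

end Cfsg.Agent.S0428
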