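import Cfsg.Statements.S0369
import Cfsg.Agent.Lib.Golay.Octad

set_option autoImplicit false
open Cfsg

namespace Cfsg.Agent.S0369

section
open scoped Pointwise

theorem h8 : CfsgLib.Golay.basis.all (fun b => Nat.beq (CfsgLib.Golay.pop b) 8) = true := by
  decide +kernel

theorem aux : Cfsg.M24 = Cfsg.setSystemAut Cfsg.octads := by
  ext σ
  constructor
  · intro hσ
    rw [Cfsg.setSystemAut, MulAction.mem_stabilizer_iff]
    have hsub : σ • Cfsg.octads ⊆ Cfsg.octads := by
      rintro _ ⟨s, hs, rfl⟩
      exact CfsgLib.Golay.M24_smul_octad hσ hs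
    exact Set.eq_of_subset_of_ncard_le hsub (by rw [Set.ncard_smul_set]) (Set.toFinite _)
  · intro hσ
    rw [Cfsg.setSystemAut, MulAction.mem_stabilizer_iff] at hσ
    apply CfsgLib.Golay.mem_M24_of_basis
    intro b hb
    have h1 : CfsgLib.Golay.fs b ∈ Cfsg.octads :=
      (CfsgLib.Golay.mem_octads_iff _).mpr ⟨b, CfsgLib.Golay.self_mem_spanList hb,
        List.all_eq_true.mp h8 b hb |> Nat.eq_of_beq_eq_true, rfl⟩
    have h2 : σ • CfsgLib.Golay.fs b ∈ Cfsg.octads := by
      rw [← hσ]
      exact Set.smul_mem_smul_set h1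
    exact h2.1

end


/-- The group of the length-24 code coincides with the automorphism group of its octad system. -/
theorem result : Cfsg.M24 = Cfsg.setSystemAut Cfsg.octads := aux

end Cfsg.Agent.S0369
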