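import Cfsg.Statements.S1587


set_option autoImplicit false
open Matrix
open Cfsg

namespace Cfsg.Agent.S1587

/-- First step of the characterisation of the rank-24 lattice: in an even lattice without roots, norm-8 vectors congruent modulo 2 are equal, opposite or orthogonal. -/
theorem result (B : Matrix (Fin 24) (Fin 24) ℤ) (hsymm : B.IsSymm) (hpos : ∀ x : Fin 24 → ℤ, x ≠ 0 → 0 < x ⬝ᵥ (B *ᵥ x)) (heven : ∀ x : Fin 24 → ℤ, (2 : ℤ) ∣ x ⬝ᵥ (B *ᵥ x)) (h2 : ∀ x : Fin 24 → ℤ, x ⬝ᵥ (B *ᵥ x) ≠ 2) (x y : Fin 24 → ℤ) (hx : x ⬝ᵥ (B *ᵥ x) = 8) (hy : y ⬝ᵥ (B *ᵥ y) = 8) (hc : ∀ i, (2 : ℤ) ∣ (x - y) i) : y = x ∨ y = -x ∨ x ⬝ᵥ (B *ᵥ y) = 0 := by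
  by_contra hne
  simp only [not_or] at hne
  obtain ⟨hxy, hxy', hdot⟩ := hne
  choose a ha using hc
  let z : Fin 24 → ℤ := a
  let z' : Fin 24 → ℤ := fun i => y i + a i
  have hxe : x = z' + z := by
    funext i
    have := ha i
    simp only [Pi.sub_apply] at this
    simp only [Pi.add_apply, z, z']
    linarith
  have hye : y = z' - z := by
    funext i
    have := ha i
    simp only [Pi.sub_apply] at this
    simp only [Pi.sub_apply, z, z']
    linarith
  have hz0 : z ≠ 0 := by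
    intro h
    apply hxy
    rw [hxe, hye, h]
    simp
  have hz'0 : z' ≠ 0 := by
    intro h
    apply hxy'
    rw [hxe, hye, h]
    simp
  have key : ∀ v : Fin 24 → ℤ, v ≠ 0 → 4 ≤ v ⬝ᵥ (B *ᵥ v) := by
    intro v hv
    have h1 := hpos v hv
    obtain ⟨k, hk⟩ := heven v
    have h3 := h2 v
    omega
  have hsym : ∀ u v : Fin 24 → ℤ, u ⬝ᵥ (B *ᵥ v) = v ⬝ᵥ (B *ᵥ u) := by
    intro u v
    rw [Matrix.dotProduct_mulVec, dotProduct_comm]
    congr 1
    conv_lhs => rw [← hsymm.eq]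
    rw [Matrix.vecMul_transpose]
  have h4 := key z hz0
  have h5 := key z' hz'0
  have e1 := hsym z z'
  rw [hxe] at hx hdot
  rw [hye] at hy hdot
  simp only [Matrix.mulVec_add, Matrix.mulVec_sub, dotProduct_add, add_dotProduct, dotProduct_sub, sub_dotProduct] at hx hy hdot
  apply hdot
  omega


end Cfsg.Agent.S1587
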