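import Cfsg.Statements.S0077
import Cfsg.Agent.Lib.Trans.Basic

set_option autoImplicit false
open Cfsg

namespace Cfsg.Agent.S0077

/-- If a subgroup Z of the centre of a Sylow p-subgroup P is weakly closed in P, then P meets the derived subgroup of G exactly where it meets the derived subgroup of the normalizer of Z. -/
theorem result {G : Type*} [Group G] [Finite G] {p : ℕ} [Fact p.Prime] (P : Sylow p G) (Z : Subgroup G) (hZ : Z ≤ Subgroup.centralizer (P : Set G)) (hW : Cfsg.IsWeaklyClosed Z P) : commutator G ⊓ (P : Subgroup G) = ⁅Subgroup.normalizer (Z : Set G), Subgroup.normalizer (Z : Set G)⁆ ⊓ (P : Subgroup G) := by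
  have hPZ : (P : Subgroup G) ≤ Subgroup.normalizer (Z : Set G) := by
    intro x hx
    refine CfsgLib.CT.mem_normalizer_of_conj_le ?_
    intro z hz
    have := Subgroup.mem_centralizer_iff.1 (hZ hz) x hx
    rw [this]; simpa using hz
  refine CfsgLib.Trans.commutator_inf_eq_of_fusion P _ hPZ ?_
  intro x hx u hu
  set y := u * x * u⁻¹ with hy
  have hZp : IsPGroup p Z := P.2.to_le hW.1
  let C := Subgroup.centralizer ({y} : Set G)
  have hZC : Z ≤ C := by
    intro z hz
    refine Subgroup.mem_centralizer_iff.2 ?_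
    rintro _ rfl
    exact ((Subgroup.mem_centralizer_iff.1 (hZ hz)) y hu)
  have hZu : Z.map (MulAut.conj u).toMonoidHom ≤ C := by
    rintro _ ⟨z, hz, rfl⟩
    refine Subgroup.mem_centralizer_iff.2 ?_
    rintro _ rfl
    have h1 := (Subgroup.mem_centralizer_iff.1 (hZ hz)) x hx
    simp only [MulEquiv.coe_toMonoidHom, MulAut.conj_apply, hy]
    calc u * x * u⁻¹ * (u * z * u⁻¹) = u * (x * z) * u⁻¹ := by group
      _ = u * (z * x) * u⁻¹ := by rw [h1]
      _ = _ := by group
  have hZup : IsPGroup p (Z.map (MulAut.conj u).toMonoidHom) := hZp.map _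
  obtain ⟨c, hc, R, hZR, hcR⟩ := CfsgLib.Trans.exists_conj_pgroups_into C Z _ hZC hZu hZp hZup
  have h2 : Z.map (MulAut.conj (c * u)).toMonoidHom ≤ (R : Subgroup G) := by
    rintro _ ⟨z, hz, rfl⟩
    have := hcR (u * z * u⁻¹) ⟨z, hz, rfl⟩
    simpa [mul_assoc] using this
  have h3 := CfsgLib.Trans.weaklyClosed_of_le_sylow hW R hZR _ h2
  rw [CfsgLib.CT.map_conj_eq_iff] at h3
  refine ⟨c * u, h3, ?_⟩
  have h4 := (Subgroup.mem_centralizer_iff.1 hc) y rfl
  calc c * u * x * (c * u)⁻¹ = c * y * c⁻¹ := by rw [hy]; group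
    _ = y * c * c⁻¹ := by rw [← h4]
    _ = y := by group

end Cfsg.Agent.S0077
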