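import Cfsg.Statements.S0385
import Cfsg.Agent.Lib.Golay.Dodecad2

set_option autoImplicit false
open Cfsg

namespace Cfsg.Agent.S0385

/-- The 6-point intersections of octads with a fixed dodecad form a Steiner system S(5, 6, 12) on the dodecad. -/
theorem result (d : Finset Cfsg.GolayPt) (hd : d ∈ Cfsg.dodecads) : Cfsg.IsSteinerSystem 5 6 {h : Finset {p : Cfsg.GolayPt // p ∈ d} | ∃ o ∈ Cfsg.octads, (o ∩ d).card = 6 ∧ h = Finset.subtype (fun p => p ∈ d) o} := by
  refine ⟨?_, ?_⟩
  · rintro b ⟨o, ho, h6, rfl⟩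
    rw [Finset.card_subtype, Finset.filter_mem_eq_inter]
    exact h6
  · intro s hs
    have hs' : (s.map (Function.Embedding.subtype _)).card = 5 := by rw [Finset.card_map, hs]
    obtain ⟨o, ⟨ho, hso⟩, huniq⟩ := CfsgLib.Golay.octads_steiner.2 _ hs'
    have hsub : s.map (Function.Embedding.subtype _) ⊆ o ∩ d := by
      intro q hq
      obtain ⟨a, -, rfl⟩ := Finset.mem_map.mp hq
      exact Finset.mem_inter.mpr ⟨hso hq, a.2⟩
    have h5 : 5 ≤ (o ∩ d).card := by
      rw [← hs']; exact Finset.card_le_card hsub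
    have h6 : (o ∩ d).card = 6 := by
      rcases CfsgLib.Golay.octad_dodecad_inter ho hd with h | h | h <;> omega
    refine ⟨Finset.subtype (fun p => p ∈ d) o, ⟨⟨o, ho, h6, rfl⟩, ?_⟩, ?_⟩
    · intro a ha
      rw [Finset.mem_subtype]
      exact hso (Finset.mem_map.mpr ⟨a, ha, rfl⟩)
    · rintro b ⟨⟨o', ho', h6', rfl⟩, hsb⟩
      have hso' : s.map (Function.Embedding.subtype _) ⊆ o' := by
        intro q hq
        obtain ⟨a, ha, rfl⟩ := Finset.mem_map.mp hq
        exact Finset.mem_subtype.mp (hsb ha)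
      rw [huniq o' ⟨ho', hso'⟩]

end Cfsg.Agent.S0385
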