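import Cfsg.Statements.S0387
import Cfsg.Agent.Lib.Golay.Dodecad

set_option autoImplicit false
open scoped Pointwise
open Cfsg

namespace Cfsg.Agent.S0387

/-- The stabiliser of a dodecad and a point on it has order 7920 = 2^4·3^2·5·11. -/
theorem result (d : Finset Cfsg.GolayPt) (hd : d ∈ Cfsg.dodecads) (p : Cfsg.GolayPt) (hp : p ∈ d) : Nat.card ↥(MulAction.stabilizer Cfsg.M24 d ⊓ MulAction.stabilizer Cfsg.M24 p) = 7920 := by
  rw [← CfsgLib.Golay.card_stab_dod_pt hd hp]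
  refine Nat.card_congr ?_
  refine
    { toFun := fun g => ⟨((g : Cfsg.M24) : Equiv.Perm Cfsg.GolayPt), ?_, ?_⟩
      invFun := fun g => ⟨⟨g, (CfsgLib.Golay.mem_stabS.mp g.2.1).1⟩, ?_, ?_⟩
      left_inv := fun g => rfl
      right_inv := fun g => rfl }
  · exact CfsgLib.Golay.mem_stabS.mpr ⟨(g : Cfsg.M24).2, g.2.1⟩
  · exact g.2.2
  · exact (CfsgLib.Golay.mem_stabS.mp g.2.1).2
  · exact g.2.2

end Cfsg.Agent.S0387
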