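import Cfsg.Statements.S0024
import Cfsg.Agent.Lib.Solv.CoprimeSylow

set_option autoImplicit false
open Pointwise
open Cfsg

namespace Cfsg.Agent.S0024

/-- Under coprime action (A normalising K, coprime orders, A or K solvable), any two A-invariant Sylow p-subgroups of K are conjugate by an element of the centraliser of A in K. -/
theorem result {G : Type*} [Group G] [Finite G] (A K : Subgroup G) (hAK : A ≤ Subgroup.normalizer (K : Set G))
    (hcop : (Nat.card A).Coprime (Nat.card K)) (hsolv : Group.IsSolvable A ∨ Group.IsSolvable K)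
    (p : ℕ) [Fact p.Prime] (P Q : Sylow p K)
    (hP : A ≤ Subgroup.normalizer ((P : Subgroup K).map K.subtype : Set G))
    (hQ : A ≤ Subgroup.normalizer ((Q : Subgroup K).map K.subtype : Set G)) :
    ∃ c : K, (c : G) ∈ Subgroup.centralizer (A : Set G) ∧ MulAut.conj c • P = Q := by
  obtain ⟨c, hc, hcPQ⟩ := CfsgLib.Solv.invariant_sylow_conj (p := p) A K hAK hcop hsolv (CfsgLib.Solv.isSylowIn_of_sylow P) (CfsgLib.Solv.isSylowIn_of_sylow Q) hP hQ
  have hc1 : c ∈ K := (Subgroup.mem_inf.1 hc).1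
  have hc2 : c ∈ Subgroup.centralizer (A : Set G) := (Subgroup.mem_inf.1 hc).2
  refine ⟨⟨c, hc1⟩, hc2, ?_⟩
  apply Sylow.ext
  rw [Sylow.pointwise_smul_def]
  ext x
  have hx := congrArg (fun S : Subgroup G => (x : G) ∈ S) hcPQ
  simp only [eq_iff_iff] at hx
  rw [CfsgLib.Solv.mem_conj_smul] at hx
  rw [CfsgLib.Solv.mem_conj_smul]
  have e1 : ((⟨c, hc1⟩ : K)⁻¹ * x * (⟨c, hc1⟩ : K) : K) ∈ (P : Subgroup K) ↔ c⁻¹ * (x : G) * c ∈ Subgroup.map K.subtype (P : Subgroup K) := by
    constructor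
    · intro h
      exact ⟨_, h, rfl⟩
    · rintro ⟨z, hz, hzz⟩
      have : z = ((⟨c, hc1⟩ : K)⁻¹ * x * (⟨c, hc1⟩ : K) : K) := Subtype.ext hzz
      rwa [← this]
  have e2 : x ∈ (Q : Subgroup K) ↔ (x : G) ∈ Subgroup.map K.subtype (Q : Subgroup K) := by
    constructor
    · intro h
      exact ⟨_, h, rfl⟩
    · rintro ⟨z, hz, hzz⟩
      have : z = x := Subtype.ext hzz
      rwa [← this]
  rw [e1, e2, hx]

end Cfsg.Agent.S0024
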