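import Cfsg.Statements.S0030
import Cfsg.Agent.Lib.Solv.CoprimeSylow

set_option autoImplicit false
open Cfsg

namespace Cfsg.Agent.S0030

/-- Under coprime action fixed points of a product of two invariant subgroups factor: if K = X Y with X and Y normalised by A then every A-fixed element of K is a product of an A-fixed element of X and an A-fixed element of Y. -/
theorem result {G : Type*} [Group G] [Finite G] (A K : Subgroup G) (hAK : A ≤ Subgroup.normalizer (K : Set G))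
    (hcop : (Nat.card A).Coprime (Nat.card K)) (hsolv : Group.IsSolvable A ∨ Group.IsSolvable K)
    (X Y : Subgroup G) (hX : X ≤ K) (hY : Y ≤ K) (hXA : A ≤ Subgroup.normalizer (X : Set G)) (hYA : A ≤ Subgroup.normalizer (Y : Set G))
    (hXY : ∀ k ∈ K, ∃ x ∈ X, ∃ y ∈ Y, k = x * y) (k : G) (hk : k ∈ K ⊓ Subgroup.centralizer (A : Set G)) :
    ∃ x ∈ X ⊓ Subgroup.centralizer (A : Set G), ∃ y ∈ Y ⊓ Subgroup.centralizer (A : Set G), k = x * y := by
  obtain ⟨x, hx, y, hy, rfl⟩ := hXY k hk.1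
  have hDA : A ≤ Subgroup.normalizer ((X ⊓ Y : Subgroup G) : Set G) := CfsgLib.Solv.le_normalizer_inf' hXA hYA
  have hcopX := CfsgLib.Solv.card_coprime_of_le hX hcop
  have hsolvX : Group.IsSolvable A ∨ Group.IsSolvable X := by
    rcases hsolv with h | h
    · exact Or.inl h
    · exact Or.inr (CfsgLib.Solv.subgroup_solvable_of_le hX h)
  have hkC : x * y ∈ Subgroup.centralizer (A : Set G) := (Subgroup.mem_inf.1 hk).2
  have hcomm : ∀ a ∈ A, a * (x * y) * a⁻¹ = x * y := by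
    intro a ha
    have := (Subgroup.mem_centralizer_iff.1 hkC) a ha
    rw [this]; group
  obtain ⟨d, hd, hc⟩ := CfsgLib.Solv.exists_fixed_in_coset (A := A) (K := X) (D := X ⊓ Y) hXA hcopX hsolvX inf_le_left hDA hx (x := x) (by
    intro a ha
    have h1 : x⁻¹ * a * x * a⁻¹ = y * (a * y⁻¹ * a⁻¹) := by
      have h2 : x⁻¹ * a * x * a⁻¹ = x⁻¹ * (a * (x * y) * a⁻¹) * (a * y⁻¹ * a⁻¹) := by group
      rw [h2, hcomm a ha]; group
    refine Subgroup.mem_inf.2 ⟨?_, ?_⟩
    · have h3 : x⁻¹ * a * x * a⁻¹ = x⁻¹ * (a * x * a⁻¹) := by group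
      rw [h3]
      exact X.mul_mem (X.inv_mem hx) ((Subgroup.mem_normalizer_iff.1 (hXA ha) _).1 hx)
    · rw [h1]
      exact Y.mul_mem hy ((Subgroup.mem_normalizer_iff.1 (hYA ha) _).1 (Y.inv_mem hy)))
  have hc1 := Subgroup.mem_inf.1 hc
  have hd1 := Subgroup.mem_inf.1 hd
  refine ⟨x * d, hc, d⁻¹ * y, Subgroup.mem_inf.2 ⟨Y.mul_mem (Y.inv_mem hd1.2) hy, ?_⟩, by group⟩
  have h4 : d⁻¹ * y = (x * d)⁻¹ * (x * y) := by group
  rw [h4]
  exact Subgroup.mul_mem _ (Subgroup.inv_mem _ hc1.2) hkC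

end Cfsg.Agent.S0030
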