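import Cfsg.Statements.S0042
import Cfsg.Agent.Lib.OOL.FPFThm
import Cfsg.Agent.Lib.FGS.FrobThm

set_option autoImplicit false
open Cfsg
open scoped Pointwise

namespace Cfsg.Agent.S0042

/-- In a finite Frobenius group, the Frobenius kernel is (the carrier of) a normal subgroup which is nilpotent. -/
theorem result {G : Type*} [Group G] [Finite G] (H : Subgroup G) (hH : Cfsg.IsFrobeniusComplement H) :
    ∃ N : Subgroup G, (N : Set G) = Cfsg.frobeniusKernel H ∧ N.Normal ∧ Group.IsNilpotent N := by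
  classical
  obtain ⟨N, hN1, hN2, hN3⟩ := CfsgLib.FGS.exists_frobenius_kernel H hH
  refine ⟨N, hN1, hN2, ?_⟩
  haveI := hN2
  have hcardH : Nat.card H ≠ 1 := fun h => hH.1 (Subgroup.card_eq_one.mp h)
  obtain ⟨r, hr, hrd⟩ := Nat.exists_prime_and_dvd hcardH
  haveI : Fact r.Prime := ⟨hr⟩
  obtain ⟨⟨h, hhH⟩, hho⟩ := exists_prime_orderOf_dvd_card' r hrd
  rw [Subgroup.orderOf_mk] at hho
  have hh1 : h ≠ 1 := by
    rintro rfl
    rw [orderOf_one] at hho
    exact hr.one_lt.ne hho
  have hhr : h ^ r = 1 := by rw [← hho]; exact pow_orderOf_eq_one h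
  let φ : MulAut N := MulAut.conjNormal h
  have hφa : ∀ x : N, ((φ x : N) : G) = h * x * h⁻¹ := fun x => rfl
  have hdis : ∀ x ∈ N, x ∈ H → x = 1 := by
    intro x hx hxH
    exact Subgroup.disjoint_def.mp hN3.disjoint hx hxH
  refine CfsgLib.OOL.fpf_prime_nilpotent r hr _ N rfl φ ?_ ?_
  · intro x hx
    have h1 : h * x.1 * h⁻¹ = x.1 := congrArg Subtype.val hx
    by_cases hxH : x.1 ∈ H
    · exact Subtype.ext (hdis x.1 x.2 hxH)
    · exfalso
      apply hh1
      have h2 := hH.2.2 x.1 hxH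
      have h3 : h ∈ H ⊓ (MulAut.conj x.1 • H) := by
        refine Subgroup.mem_inf.mpr ⟨hhH, ?_⟩
        rw [Subgroup.mem_pointwise_smul_iff_inv_smul_mem]
        have h4 : (MulAut.conj x.1)⁻¹ • h = x.1⁻¹ * h * x.1 := by
          simp [MulAut.smul_def, MulAut.conj_inv_apply]
        rw [h4]
        have h5 : h * x.1 = x.1 * h := mul_inv_eq_iff_eq_mul.mp h1
        have h6 : x.1⁻¹ * h * x.1 = h := by
          rw [mul_assoc, h5]
          group
        rw [h6]
        exact hhH
      rw [h2, Subgroup.mem_bot] at h3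
      exact h3
  · have h1 : φ ^ r = MulAut.conjNormal (h ^ r) := (map_pow _ _ _).symm
    rw [h1, hhr, map_one]

end Cfsg.Agent.S0042
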