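import Cfsg.Statements.S0070
import Cfsg.Agent.Lib.Solv.Nilp

set_option autoImplicit false
open Cfsg

namespace Cfsg.Agent.S0070

/-- The Fitting subgroup commutes with passing to the Frattini quotient: the Fitting subgroup of G modulo its Frattini subgroup is the image of the Fitting subgroup of G. -/
theorem result {G : Type*} [Group G] [Finite G] :
    Cfsg.fittingSubgroup (G ⧸ frattini G) = (Cfsg.fittingSubgroup G).map (QuotientGroup.mk' (frattini G)) := by
  have hΦF : frattini G ≤ Cfsg.fittingSubgroup G := CfsgLib.Solv.le_fittingSubgroup' _ frattini_nilpotent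
  haveI := CfsgLib.Solv.fittingSubgroup_normal' (G := G)
  have hfs : Function.Surjective (QuotientGroup.mk' (frattini G)) := QuotientGroup.mk'_surjective _
  apply le_antisymm
  · -- the preimage of the Fitting subgroup is nilpotent
    set F₀ := Cfsg.fittingSubgroup (G ⧸ frattini G) with hF₀
    haveI hF₀n : F₀.Normal := CfsgLib.Solv.fittingSubgroup_normal'
    set L : Subgroup G := F₀.comap (QuotientGroup.mk' (frattini G)) with hL
    haveI hLn : L.Normal := hF₀n.comap _
    have hΦL : frattini G ≤ L := by
      intro x hx
      change (x : G ⧸ frattini G) ∈ F₀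
      rw [(QuotientGroup.eq_one_iff x).2 hx]
      exact F₀.one_mem
    have hmapL : L.map (QuotientGroup.mk' (frattini G)) = F₀ := Subgroup.map_comap_eq_self_of_surjective hfs _
    have hn : Group.IsNilpotent L := CfsgLib.Solv.nilpotent_of_map_frattini L hΦL (by
      rw [hmapL]; exact CfsgLib.Solv.fitting_nilpotent)
    have hLF : L ≤ Cfsg.fittingSubgroup G := CfsgLib.Solv.le_fittingSubgroup' L hn
    rw [← hmapL]
    exact Subgroup.map_mono hLF
  · apply CfsgLib.Solv.le_fittingSubgroup'
    · exact Group.nilpotent_of_surjective ((QuotientGroup.mk' (frattini G)).subgroupMap (Cfsg.fittingSubgroup G)) (MonoidHom.subgroupMap_surjective _ _) (h := CfsgLib.Solv.fitting_nilpotent)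

end Cfsg.Agent.S0070
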