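import Cfsg.Statements.S0073
import Cfsg.Agent.Lib.Trans.Basic

set_option autoImplicit false
open Cfsg

namespace Cfsg.Agent.S0073

/-- For a finite non-abelian simple group, either the cube of the least prime divisor of the order divides the order, or 12 does. -/
theorem result {G : Type*} [Group G] [Finite G] [IsSimpleGroup G] (hG : ∃ x y : G, x * y ≠ y * x) : (Nat.card G).minFac ^ 3 ∣ Nat.card G ∨ 12 ∣ Nat.card G := by
  classical
  obtain ⟨a, b, hab⟩ := hG
  haveI hnt : Nontrivial G := ⟨⟨a * b, b * a, hab⟩⟩
  have hn1 : Nat.card G ≠ 1 := Finite.one_lt_card.ne'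
  set p := (Nat.card G).minFac with hpdef
  have hpp : p.Prime := Nat.minFac_prime hn1
  haveI : Fact p.Prime := ⟨hpp⟩
  let T : Sylow p G := default
  have hpG : p ∣ Nat.card G := Nat.minFac_dvd _
  obtain ⟨k, hk⟩ := IsPGroup.iff_card.1 T.2
  have hkeq : k = (Nat.card G).factorization p := by
    rw [Sylow.card_eq_multiplicity T] at hk
    exact (Nat.pow_right_injective hpp.two_le hk).symm
  have hk0 : 0 < k := by
    rw [hkeq]; exact hpp.factorization_pos_of_dvd Nat.card_pos.ne' hpG
  by_cases hk3 : 3 ≤ k
  · left
    have h1 : Nat.card T ∣ Nat.card G := Subgroup.card_subgroup_dvd_card _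
    rw [hk] at h1
    exact (pow_dvd_pow p hk3).trans h1
  · right
    have hk2 : k ≤ 2 := by omega
    -- `T` is abelian
    have hTab : IsMulCommutative (T : Subgroup G) := by
      have hc : k = 1 ∨ k = 2 := by omega
      rcases hc with rfl | rfl
      · haveI : IsCyclic T := isCyclic_of_prime_card (p := p) (by simpa using hk)
        letI : CommGroup T := IsCyclic.commGroup
        exact ⟨⟨mul_comm⟩⟩
      · letI : CommGroup T := IsPGroup.commGroupOfCardEqPrimeSq hk
        exact ⟨⟨mul_comm⟩⟩
    -- `N(T)` does not centralise `T`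
    have hnc : ¬ Subgroup.normalizer (T : Set G) ≤ Subgroup.centralizer (T : Set G) := by
      intro hle
      obtain ⟨N, hNn, hc, j, hj⟩ := CfsgLib.Trans.hasNormalPComplement_iff.1
        (CfsgLib.Trans.hasNormalPComplement_of_le_centralizer T hle)
      haveI := hNn
      rcases hNn.eq_bot_or_eq_top with hN | hN
      · -- `G` is a `p`-group
        have hpg : IsPGroup p G := by
          apply IsPGroup.of_card (n := j)
          have h1 := Subgroup.card_mul_index N
          rw [hN, Subgroup.card_bot, one_mul] at h1
          rw [← h1, ← hj, hN]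
        haveI := hpg.center_nontrivial
        have hcN : (Subgroup.center G).Normal := inferInstance
        rcases hcN.eq_bot_or_eq_top with hb | ht
        · have := Subgroup.nontrivial_iff_ne_bot _ |>.1 (inferInstance : Nontrivial (Subgroup.center G))
          exact this hb
        · apply hab
          have hm : a ∈ Subgroup.center G := by rw [ht]; trivial
          exact (Subgroup.mem_center_iff.1 hm b).symm
      · rw [hN, Subgroup.card_top] at hc
        exact (Nat.Prime.coprime_iff_not_dvd hpp).1 hc.symm hpG
    obtain ⟨q, hq, hqp, hqG, d, hd1, hd2, hd3⟩ :=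
      CfsgLib.Trans.exists_prime_of_not_le_centralizer T hTab hnc
    have hpq : p < q := lt_of_le_of_ne (Nat.minFac_le_of_dvd hq.two_le hqG) (Ne.symm hqp)
    rw [hk] at hd1 hd2 hd3
    obtain ⟨i, hi, rfl⟩ := (Nat.dvd_prime_pow hpp).1 hd1
    have hik : i < k := lt_of_le_of_ne hi (fun e => hd2 (by rw [e]))
    have hd4 : q ∣ p ^ k - p ^ i := (Nat.modEq_iff_dvd' (Nat.pow_le_pow_right hpp.pos hi)).1 hd3.symm
    -- rewrite as `p^i (p^(k-i) - 1)`
    have hcop : Nat.Coprime q p := by
      rw [Nat.coprime_primes hq hpp]; exact Nat.ne_of_gt hpq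
    have hm : p ^ k - p ^ i = p ^ i * (p ^ (k - i) - 1) := by
      rw [Nat.mul_sub, mul_one, ← pow_add]
      congr 2
      omega
    rw [hm] at hd4
    have hd5 : q ∣ p ^ (k - i) - 1 := (Nat.Coprime.pow_right i hcop).dvd_of_dvd_mul_left hd4
    have hki : k - i = 1 ∨ k - i = 2 := by omega
    rcases hki with h1 | h2
    · rw [h1, pow_one] at hd5
      have := Nat.le_of_dvd (Nat.sub_pos_of_lt hpp.one_lt) hd5
      omega
    · -- `q ∣ (p - 1)(p + 1)`
      rw [h2] at hd5
      have hk2' : k = 2 := by omega
      have e : p ^ 2 - 1 = (p - 1) * (p + 1) := by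
        have := Nat.sq_sub_sq p 1
        rw [one_pow] at this
        rw [this, mul_comm]
      rw [e] at hd5
      rcases (Nat.Prime.dvd_mul hq).1 hd5 with h3 | h3
      · have := Nat.le_of_dvd (Nat.sub_pos_of_lt hpp.one_lt) h3
        omega
      · have h4 := Nat.le_of_dvd (by omega) h3
        have h5 : q = p + 1 := by omega
        -- consecutive primes
        have hp2 : p = 2 := by
          rcases hpp.eq_two_or_odd' with h | h
          · exact h
          · exfalso
            have heven : Even (p + 1) := h.add_one
            rw [← h5] at heven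
            have := hq.eq_two_or_odd'
            rcases this with h6 | h6
            · have := hpp.two_le; omega
            · exact (Nat.not_even_iff_odd.2 h6) heven
        have hq3 : q = 3 := by omega
        have h4d : 4 ∣ Nat.card G := by
          have h1 : Nat.card T ∣ Nat.card G := Subgroup.card_subgroup_dvd_card _
          rw [hk, hk2', hp2] at h1
          simpa using h1
        have h3d : 3 ∣ Nat.card G := hq3 ▸ hqG
        exact Nat.Coprime.mul_dvd_of_dvd_of_dvd (by norm_num) h3d h4d

end Cfsg.Agent.S0073
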