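import Cfsg.Statements.S0082
import Cfsg.Agent.Lib.Trans.Basic

set_option autoImplicit false
open Cfsg

namespace Cfsg.Agent.S0082

/-- With a cyclic Sylow p-subgroup, either there is a normal p-complement or the elements of order prime to p generate the whole group. -/
theorem result {G : Type*} [Group G] [Finite G] {p : ℕ} [Fact p.Prime] (P : Sylow p G) (hP : IsCyclic P) : Cfsg.HasNormalPComplement p G ∨ Cfsg.pResidual p G = ⊤ := by
  haveI hab : IsMulCommutative (P : Subgroup G) := by
    letI : CommGroup P := IsCyclic.commGroup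
    exact ⟨⟨mul_comm⟩⟩
  obtain ⟨hd1, hd2⟩ := CfsgLib.Trans.abelian_sylow_decomp P hab
  rcases CfsgLib.Trans.cyclic_indecomposable hP P.2 (CfsgLib.Trans.commutator_sylow_le_self P) inf_le_left hd2 with h | h
  · right
    -- `P` lies in `O^p(G)`
    have hPR : (P : Subgroup G) ≤ Cfsg.pResidual p G := by
      rw [← h]
      exact CfsgLib.Trans.commutator_abelian_sylow_le_pResidual P hab
    haveI := CfsgLib.Tr.pResidual_normal p G
    have hq : IsPGroup p (G ⧸ Cfsg.pResidual p G) := CfsgLib.Tr.isPGroup_quotient_pResidual p le_rfl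
    rw [eq_top_iff]
    intro x _
    obtain ⟨u, v, huv, -, ⟨k, hk⟩, hv, -, -⟩ := CfsgLib.Tr.exists_pow_decomp p x
    rw [← huv]
    refine mul_mem ?_ (Subgroup.subset_closure hv)
    have hz := CfsgLib.CT.isPGroup_zpowers_of_pow hk
    obtain ⟨R, hR⟩ := hz.exists_le_sylow
    obtain ⟨g, rfl⟩ := MulAction.exists_smul_eq G P R
    have h1 := (CfsgLib.Trans.mem_sylow_smul g P u).1 (hR (Subgroup.mem_zpowers u))
    have h2 := hPR h1
    have h3 := (inferInstance : (Cfsg.pResidual p G).Normal).conj_mem _ h2 g
    have e : g * (g⁻¹ * u * g) * g⁻¹ = u := by group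
    rwa [e] at h3
  · left
    apply CfsgLib.Trans.hasNormalPComplement_of_le_centralizer P
    have h0 : (P : Subgroup G) ≤ Subgroup.centralizer (Subgroup.normalizer (P : Set G) : Set G) :=
      h ▸ inf_le_right
    intro n hn
    refine Subgroup.mem_centralizer_iff.2 ?_
    intro x hx
    exact (Subgroup.mem_centralizer_iff.1 (h0 hx) n hn).symm

end Cfsg.Agent.S0082
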