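import Cfsg.Statements.S0083
import Cfsg.Agent.Lib.Trans.Basic

set_option autoImplicit false
open Cfsg

namespace Cfsg.Agent.S0083

/-- For an abelian Sylow p-subgroup P, a normal p-complement exists exactly when the normalizer of P is an internal direct product of P with some subgroup. -/
theorem result {G : Type*} [Group G] [Finite G] {p : ℕ} [Fact p.Prime] (P : Sylow p G) (hP : IsMulCommutative P) : Cfsg.HasNormalPComplement p G ↔ ∃ Q : Subgroup G, Q ≤ Subgroup.centralizer (P : Set G) ∧ Q ⊓ (P : Subgroup G) = ⊥ ∧ Q ⊔ (P : Subgroup G) = Subgroup.normalizer (P : Set G) := by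
  have hcomm : ∀ a ∈ (P : Subgroup G), ∀ b ∈ (P : Subgroup G), a * b = b * a := fun a ha b hb =>
    congrArg Subtype.val (hP.is_comm.comm ⟨a, ha⟩ ⟨b, hb⟩)
  constructor
  · rintro ⟨P', N, hNn, hN'⟩
    haveI := hNn
    have hN := CfsgLib.Trans.complement_of_complement P' P N hN'
    have hd : N ⊓ (P : Subgroup G) = ⊥ := hN.disjoint.eq_bot
    refine ⟨N ⊓ Subgroup.normalizer (P : Set G), ?_, ?_, ?_⟩
    · rintro q ⟨hq1, hq2⟩
      refine Subgroup.mem_centralizer_iff.2 ?_
      intro x hx
      exact (CfsgLib.Trans.commute_of_normal_of_normalizer N (P : Subgroup G) hd hq1 hq2 hx).symm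
    · rw [eq_bot_iff, ← hd]
      exact inf_le_inf_right _ inf_le_left
    · apply le_antisymm
      · exact sup_le inf_le_right Subgroup.le_normalizer
      · intro g hg
        have h1 : g ∈ ((N ⊔ (P : Subgroup G) : Subgroup G) : Set G) := by
          rw [hN.sup_eq_top]; trivial
        rw [Subgroup.normal_mul] at h1
        obtain ⟨y, hy, z, hz, rfl⟩ := h1
        simp only at hg ⊢
        have hzn : z ∈ Subgroup.normalizer (P : Set G) := Subgroup.le_normalizer hz
        have hyn : y ∈ Subgroup.normalizer (P : Set G) := by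
          have : y = y * z * z⁻¹ := by group
          rw [this]
          exact mul_mem hg (inv_mem hzn)
        exact Subgroup.mul_mem _ (Subgroup.mem_sup_left ⟨hy, hyn⟩) (Subgroup.mem_sup_right hz)
  · rintro ⟨Q, hQ1, -, hQ3⟩
    apply CfsgLib.Trans.hasNormalPComplement_of_le_centralizer P
    rw [← hQ3]
    refine sup_le hQ1 ?_
    intro x hx
    refine Subgroup.mem_centralizer_iff.2 ?_
    intro y hy
    exact hcomm y hy x hx

end Cfsg.Agent.S0083
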