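import Cfsg.Statements.S0084
import Cfsg.Agent.Lib.Trans.Basic

set_option autoImplicit false
open Cfsg

namespace Cfsg.Agent.S0084

/-- A group whose Sylow 2-subgroups are Klein four-groups and whose order is prime to 3 has a normal 2-complement. -/
theorem result {G : Type*} [Group G] [Finite G] (T : Sylow 2 G) (hT : IsKleinFour T) (h3 : ¬ 3 ∣ Nat.card G) : Cfsg.HasNormalPComplement 2 G := by
  have hc4 : Nat.card T = 4 := hT.card_four
  have hab : IsMulCommutative (T : Subgroup G) := @IsKleinFour.isMulCommutative _ _ hT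
  apply CfsgLib.Trans.hasNormalPComplement_of_le_centralizer T
  by_contra hn
  obtain ⟨q, hq, hq2, hqG, d, hd1, hd2, hd3⟩ := CfsgLib.Trans.exists_prime_of_not_le_centralizer T hab hn
  rw [hc4] at hd1 hd2 hd3
  have hq3 : q ≠ 3 := by
    rintro rfl
    exact h3 hqG
  have hle := Nat.le_of_dvd (by norm_num) hd1
  interval_cases d
  · omega
  · exact hq3 (by
      have : q ∣ 3 := (Nat.modEq_iff_dvd' (by norm_num)).1 hd3.symm
      exact (Nat.prime_dvd_prime_iff_eq hq Nat.prime_three).1 this)
  · exact hq2 (by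
      have : q ∣ 2 := (Nat.modEq_iff_dvd' (by norm_num)).1 hd3.symm
      exact (Nat.prime_dvd_prime_iff_eq hq Nat.prime_two).1 this)
  · revert hd1; decide
  · exact hd2 rfl

end Cfsg.Agent.S0084
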