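import Cfsg.Statements.S0085
import Cfsg.Agent.Lib.Trans.Basic

set_option autoImplicit false
open Cfsg

namespace Cfsg.Agent.S0085

/-- A group whose Sylow 2-subgroups are elementary abelian of order 8 and whose order is prime to 3 and to 7 has a normal 2-complement. -/
theorem result {G : Type*} [Group G] [Finite G] (T : Sylow 2 G) (h8 : Nat.card T = 8) (he : ∀ x : T, x * x = 1) (h3 : ¬ 3 ∣ Nat.card G) (h7 : ¬ 7 ∣ Nat.card G) : Cfsg.HasNormalPComplement 2 G := by
  have hab : IsMulCommutative (T : Subgroup G) := ⟨⟨by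
    intro a b
    have h1 := he (a * b)
    have h2 := he a
    have h3 := he b
    calc a * b = a * (a * b * (a * b)) * b := by rw [h1]; group
      _ = (a * a) * b * a * (b * b) := by group
      _ = b * a := by rw [h2, h3]; group⟩⟩
  apply CfsgLib.Trans.hasNormalPComplement_of_le_centralizer T
  by_contra hn
  obtain ⟨q, hq, hq2, hqG, d, hd1, hd2, hd3⟩ := CfsgLib.Trans.exists_prime_of_not_le_centralizer T hab hn
  rw [h8] at hd1 hd2 hd3
  have hq3 : q ≠ 3 := by
    rintro rfl
    exact h3 hqG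
  have hq7 : q ≠ 7 := by
    rintro rfl
    exact h7 hqG
  have hle := Nat.le_of_dvd (by norm_num) hd1
  interval_cases d
  · omega
  · exact hq7 (by
      have : q ∣ 7 := (Nat.modEq_iff_dvd' (by norm_num)).1 hd3.symm
      exact (Nat.prime_dvd_prime_iff_eq hq (by norm_num)).1 this)
  · have h6 : q ∣ 6 := (Nat.modEq_iff_dvd' (by norm_num)).1 hd3.symm
    have h6' : q ∣ 2 * 3 := by simpa using h6
    rcases (Nat.Prime.dvd_mul hq).1 h6' with h | h
    · exact hq2 ((Nat.prime_dvd_prime_iff_eq hq Nat.prime_two).1 h)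
    · exact hq3 ((Nat.prime_dvd_prime_iff_eq hq Nat.prime_three).1 h)
  · revert hd1; decide
  · have h4 : q ∣ 2 * 2 := (Nat.modEq_iff_dvd' (by norm_num)).1 hd3.symm
    rcases (Nat.Prime.dvd_mul hq).1 h4 with h | h <;>
    exact hq2 ((Nat.prime_dvd_prime_iff_eq hq Nat.prime_two).1 h)
  · revert hd1; decide
  · revert hd1; decide
  · revert hd1; decide
  · exact hd2 rfl

end Cfsg.Agent.S0085
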