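import Cfsg.Statements.S0086
import Cfsg.Agent.Lib.Trans.Basic

set_option autoImplicit false
open Cfsg

namespace Cfsg.Agent.S0086

/-- A normal complement to a Sylow p-subgroup is exactly the set of elements of order prime to p. -/
theorem result {G : Type*} [Group G] [Finite G] {p : ℕ} [Fact p.Prime] (P : Sylow p G) (N : Subgroup G) [N.Normal] (hN : N.IsComplement' (P : Subgroup G)) (x : G) : x ∈ N ↔ Nat.Coprime (orderOf x) p := by
  have hp : (Nat.card N).Coprime p := by
    have h1 := hN.card_mul
    have h2 : Nat.card N = (P : Subgroup G).index := by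
      have h3 := Subgroup.card_mul_index (P : Subgroup G)
      rw [mul_comm] at h3
      exact Nat.eq_of_mul_eq_mul_right Nat.card_pos (h1.trans h3.symm)
    rw [h2]
    exact ((Nat.Prime.coprime_iff_not_dvd Fact.out).2 P.not_dvd_index).symm
  constructor
  · intro hx
    have h1 : orderOf (⟨x, hx⟩ : N) ∣ Nat.card N := orderOf_dvd_natCard _
    rw [Subgroup.orderOf_mk] at h1
    exact Nat.Coprime.coprime_dvd_left h1 hp
  · intro hx
    have hidx : N.index = Nat.card (P : Subgroup G) := by
      have h1 := hN.card_mul
      have h3 := Subgroup.card_mul_index N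
      exact Nat.eq_of_mul_eq_mul_left Nat.card_pos (h3.trans h1.symm)
    obtain ⟨k, hk⟩ := IsPGroup.iff_card.1 P.2
    apply CfsgLib.Trans.mem_of_coprime_index
    rw [hidx, hk]
    exact Nat.Coprime.pow_right k hx

end Cfsg.Agent.S0086
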