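import Cfsg.Statements.S0088
import Cfsg.Agent.Lib.Trans.Basic

set_option autoImplicit false
open Cfsg

namespace Cfsg.Agent.S0088

/-- An abelian Hall subgroup meets G' ∩ Z(G) trivially. -/
theorem result {G : Type*} [Group G] [Finite G] (H : Subgroup G) (hc : IsMulCommutative H) (hHall : Nat.Coprime (Nat.card H) H.index) : H ⊓ commutator G ⊓ Subgroup.center G = ⊥ := by
  haveI := hc
  rw [eq_bot_iff]
  rintro z ⟨⟨hzH, hzc⟩, hzZ⟩
  letI : CommGroup H := { (inferInstance : Group H) with mul_comm := hc.is_comm.comm }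
  have h1 := CfsgLib.Trans.hom_central_commutator_eq_one (MonoidHom.id H) hHall hzH hzZ hzc
  simpa using congrArg Subtype.val h1

end Cfsg.Agent.S0088
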