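import Cfsg.Statements.S0089
import Cfsg.Agent.Lib.Trans.Basic

set_option autoImplicit false
open Cfsg

namespace Cfsg.Agent.S0089

/-- When all Sylow subgroups are abelian, the derived subgroup meets the centre trivially. -/
theorem result {G : Type*} [Group G] [Finite G] (h : ∀ p : ℕ, p.Prime → ∀ P : Sylow p G, IsMulCommutative P) : commutator G ⊓ Subgroup.center G = ⊥ := by
  classical
  rw [eq_bot_iff]
  rintro z ⟨hzc, hzZ⟩
  by_contra hz
  have hz1 : z ≠ 1 := by simpa using hz
  have h1 : orderOf z ≠ 1 := by rwa [Ne, orderOf_eq_one_iff]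
  obtain ⟨p, hp, hpd⟩ := Nat.exists_prime_and_dvd h1
  haveI : Fact p.Prime := ⟨hp⟩
  obtain ⟨m, hm⟩ := hpd
  set w := z ^ m with hw
  have hwp : w ^ p = 1 := by rw [hw, ← pow_mul, mul_comm, ← hm, pow_orderOf_eq_one]
  have hwne : w ≠ 1 := by
    intro h0
    have h2 := orderOf_dvd_of_pow_eq_one h0
    have hpos : 0 < orderOf z := orderOf_pos z
    have hm0 : 0 < m := by
      rcases Nat.eq_zero_or_pos m with h | h
      · rw [h, mul_zero] at hm; omega
      · exact h
    have := Nat.le_of_dvd hm0 h2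
    nlinarith [hp.two_le]
  have hzp : IsPGroup p (Subgroup.zpowers w) := CfsgLib.CT.isPGroup_zpowers_of_pow (k := 1) (by simpa using hwp)
  obtain ⟨P, hP⟩ := hzp.exists_le_sylow
  have hwP : w ∈ (P : Subgroup G) := hP (Subgroup.mem_zpowers w)
  have hcomm := h p hp P
  letI : CommGroup P := { (inferInstance : Group P) with mul_comm := hcomm.is_comm.comm }
  have hcop : (Nat.card P).Coprime (P : Subgroup G).index := by
    obtain ⟨k, hk⟩ := IsPGroup.iff_card.1 P.2
    rw [hk]
    exact Nat.Coprime.pow_left k ((Nat.Prime.coprime_iff_not_dvd hp).2 P.not_dvd_index)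
  have h3 := CfsgLib.Trans.hom_central_commutator_eq_one (MonoidHom.id P) hcop hwP
    (pow_mem hzZ m) (pow_mem hzc m)
  apply hwne
  simpa using congrArg Subtype.val h3

end Cfsg.Agent.S0089
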