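import Cfsg.Statements.S0090
import Cfsg.Agent.Lib.Trans.Basic

set_option autoImplicit false
open Cfsg

namespace Cfsg.Agent.S0090

/-- An abelian normal Hall subgroup A splits as the internal direct product of G' ∩ A and Z(G) ∩ A, and [A, G] = G' ∩ A. -/
theorem result {G : Type*} [Group G] [Finite G] (A : Subgroup G) [A.Normal] (hc : IsMulCommutative A) (hHall : Nat.Coprime (Nat.card A) A.index) : ⁅A, (⊤ : Subgroup G)⁆ = commutator G ⊓ A ∧ (commutator G ⊓ A) ⊓ (Subgroup.center G ⊓ A) = ⊥ ∧ (commutator G ⊓ A) ⊔ (Subgroup.center G ⊓ A) = A := by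
  haveI : IsMulCommutative A := hc
  have hcA : ∀ a ∈ A, ∀ b ∈ A, a * b = b * a := fun a ha b hb =>
    congrArg Subtype.val (hc.is_comm.comm ⟨a, ha⟩ ⟨b, hb⟩)
  have hle : ⁅A, (⊤ : Subgroup G)⁆ ≤ A := Subgroup.commutator_le_left _ _
  have h1 : ⁅A, (⊤ : Subgroup G)⁆ = commutator G ⊓ A := by
    apply le_antisymm
    · exact le_inf (by rw [commutator_def]; exact Subgroup.commutator_mono le_top le_rfl) hle
    · have hdvd : (⁅A, (⊤ : Subgroup G)⁆).relIndex A ∣ Nat.card A := Subgroup.index_dvd_card _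
      obtain ⟨K, -, h2, -, h4, -⟩ := CfsgLib.Trans.exists_transfer_kernel A ⁅A, (⊤ : Subgroup G)⁆ hle
        (fun a ha b hb => by
          rw [hcA a ha b hb]
          have : b * a * a⁻¹ * b⁻¹ = 1 := by group
          rw [this]; exact one_mem _)
        (fun x hx g hg => by
          have h5 := Subgroup.commutator_mem_commutator (Subgroup.mem_top g⁻¹) hx
          rw [Subgroup.commutator_comm] at h5
          have h6 : g⁻¹ * x * g * x⁻¹ = g⁻¹ * x * g⁻¹⁻¹ * x⁻¹ := by group
          rw [h6]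
          exact h5)
        (Nat.Coprime.coprime_dvd_right hdvd hHall.symm)
      rw [← h2]
      exact inf_le_inf_right _ h4
  have hcopA : (Nat.card A).Coprime (A.relIndex (⊤ : Subgroup G)) := by
    rwa [Subgroup.relIndex_top_right]
  obtain ⟨h3, h4⟩ := CfsgLib.Trans.abelian_hall_decomp ⊤ A le_top
    (by rw [Subgroup.normalizer_eq_top_iff.2 inferInstance]) hcopA
  have hcen : A ⊓ Subgroup.centralizer ((⊤ : Subgroup G) : Set G) = Subgroup.center G ⊓ A := by
    rw [Subgroup.coe_top, Subgroup.centralizer_univ, inf_comm]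
  rw [hcen] at h3 h4
  refine ⟨h1, ?_, ?_⟩
  · rw [← h1]; exact h3
  · rw [← h1]; exact h4

end Cfsg.Agent.S0090
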