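import Cfsg.Statements.S0091
import Cfsg.Agent.Lib.Trans.Basic

set_option autoImplicit false
open Cfsg

namespace Cfsg.Agent.S0091

/-- If a nontrivial Sylow p-subgroup controls its own fusion then it is not contained in the derived subgroup. -/
theorem result {G : Type*} [Group G] [Finite G] {p : ℕ} [Fact p.Prime] (P : Sylow p G) (hp : p ∣ Nat.card G) (h : ∀ x ∈ P, ∀ y ∈ P, (∃ g : G, g * x * g⁻¹ = y) → ∃ z ∈ P, z * x * z⁻¹ = y) : ¬ (P : Subgroup G) ≤ commutator G := by
  intro hle
  have h1 := CfsgLib.Trans.commutator_inf_le_of_fusion P (P : Subgroup G) le_rfl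
    (fun x hx u hu => h x hx _ hu ⟨u, rfl⟩)
  have h2 : (P : Subgroup G) ≤ ⁅(P : Subgroup G), (P : Subgroup G)⁆ :=
    (le_inf hle le_rfl).trans h1
  -- a nontrivial `p`-group is not perfect
  have hn : Group.IsNilpotent P := P.2.isNilpotent
  have hnt : Nontrivial P := by
    obtain ⟨k, hk⟩ := IsPGroup.iff_card.1 P.2
    have h3 := P.card_eq_multiplicity
    have hfac : 0 < (Nat.card G).factorization p :=
      (Fact.out : p.Prime).factorization_pos_of_dvd Nat.card_pos.ne' hp
    apply Finite.one_lt_card_iff_nontrivial.1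
    rw [h3]
    exact Nat.one_lt_pow hfac.ne' (Fact.out : p.Prime).one_lt
  have h4 := Group.IsSolvable.commutator_lt_top_of_nontrivial (P : Subgroup G)
  apply (ne_of_lt h4)
  rw [eq_top_iff]
  intro x _
  have h5 := h2 x.2
  rw [← Subgroup.map_subtype_commutator] at h5
  obtain ⟨y, hy, hyx⟩ := h5
  have : y = x := Subtype.ext hyx
  rwa [← this]

end Cfsg.Agent.S0091
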