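import Cfsg.Statements.S0096
import Cfsg.Agent.Lib.Trans.PGrp

set_option autoImplicit false
open Cfsg

namespace Cfsg.Agent.S0096

/-- For odd p, in a p-group of class at most two the elements of order dividing p generate a subgroup of exponent dividing p. -/
theorem result {P : Type*} [Group P] [Finite P] {p : ℕ} [Fact p.Prime] (hp : p ≠ 2) (hP : IsPGroup p P) (h2 : ⁅commutator P, (⊤ : Subgroup P)⁆ = ⊥) (g : P) (hg : g ∈ Subgroup.closure {x : P | x ^ p = 1}) : g ^ p = 1 := by
  have hcen : ∀ x y : P, y⁻¹ * x⁻¹ * y * x ∈ Subgroup.center P := by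
    intro x y
    rw [Subgroup.mem_center_iff]
    intro g
    have h1 : y⁻¹ * x⁻¹ * y * x ∈ commutator P := by
      have := Subgroup.commutator_mem_commutator (Subgroup.mem_top y⁻¹) (Subgroup.mem_top x⁻¹)
      have e : y⁻¹ * x⁻¹ * y * x = y⁻¹ * x⁻¹ * y⁻¹⁻¹ * x⁻¹⁻¹ := by group
      rw [e]
      exact this
    have h3 := Subgroup.commutator_mem_commutator h1 (Subgroup.mem_top g)
    rw [h2, Subgroup.mem_bot] at h3
    exact ((commutatorElement_eq_one_iff_mul_comm).1 h3).symm
  let E : Subgroup P :=
    { carrier := {x | x ^ p = 1}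
      one_mem' := one_pow _
      mul_mem' := fun {a b} ha hb => by
        simp only [Set.mem_setOf_eq] at ha hb ⊢
        rw [CfsgLib.Trans.pow_mul_of_central hp (hcen a b) hb, ha]
      inv_mem' := fun {a} ha => by
        simp only [Set.mem_setOf_eq] at ha ⊢
        rw [inv_pow, ha, inv_one] }
  have hle : Subgroup.closure {x : P | x ^ p = 1} ≤ E := Subgroup.closure_le _ |>.2 (fun x hx => hx)
  exact hle hg

end Cfsg.Agent.S0096
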