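import Cfsg.Statements.S0098
import Cfsg.Agent.Lib.OOL.ES

set_option autoImplicit false
open Cfsg

namespace Cfsg.Agent.S0098

/-- For odd p, extraspecial p-groups of exponent p are determined up to isomorphism by their order. -/
theorem result {E₁ : Type*} {E₂ : Type*} [Group E₁] [Group E₂] [Finite E₁] [Finite E₂] {p : ℕ} [Fact p.Prime] (hp : p ≠ 2) (h₁ : Cfsg.IsExtraspecial p E₁) (h₂ : Cfsg.IsExtraspecial p E₂) (he₁ : Monoid.exponent E₁ = p) (he₂ : Monoid.exponent E₂ = p) (hc : Nat.card E₁ = Nat.card E₂) : Nonempty (E₁ ≃* E₂) := by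
  classical
  have hpp : p.Prime := Fact.out
  have h1 := CfsgLib.OOL.ES.isES_of_extraspecial h₁
  have h2 := CfsgLib.OOL.ES.isES_of_extraspecial h₂
  obtain ⟨z₁, hz₁, hz₁1⟩ : ∃ z ∈ Subgroup.center E₁, z ≠ 1 := by
    have hb : Subgroup.center E₁ ≠ ⊥ := by
      intro h
      have := h1.card_center
      rw [h, Subgroup.card_bot] at this
      exact hpp.one_lt.ne this
    obtain ⟨z, hz, hz1⟩ := (Subgroup.bot_or_exists_ne_one _).resolve_left hb
    exact ⟨z, hz, hz1⟩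
  obtain ⟨z₂, hz₂, hz₂1⟩ : ∃ z ∈ Subgroup.center E₂, z ≠ 1 := by
    have hb : Subgroup.center E₂ ≠ ⊥ := by
      intro h
      have := h2.card_center
      rw [h, Subgroup.card_bot] at this
      exact hpp.one_lt.ne this
    obtain ⟨z, hz, hz1⟩ := (Subgroup.bot_or_exists_ne_one _).resolve_left hb
    exact ⟨z, hz, hz1⟩
  obtain ⟨Φ, -⟩ := CfsgLib.OOL.ES.es_unique_exp _ E₁ E₂ h1 h2
    (fun g => by rw [← he₁]; exact Monoid.pow_exponent_eq_one g)
    (fun g => by rw [← he₂]; exact Monoid.pow_exponent_eq_one g) rfl hc.symm z₁ hz₁ hz₁1 z₂ hz₂ hz₂1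
  exact ⟨Φ⟩

end Cfsg.Agent.S0098
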