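import Cfsg.Statements.S0101
import Cfsg.Agent.Lib.Trans.PGrp

set_option autoImplicit false
open Cfsg

namespace Cfsg.Agent.S0101

/-- In a perfect central extension, the kernel meets each Sylow p-subgroup P inside the Frattini subgroup of P. -/
theorem result {H : Type*} {G : Type*} [Group H] [Group G] [Finite H] (σ : H →* G) (hσ : Function.Surjective σ) (hc : σ.ker ≤ Subgroup.center H) (hH : commutator H = ⊤) {p : ℕ} [Fact p.Prime] (P : Sylow p H) : σ.ker ⊓ (P : Subgroup H) ≤ (frattini P).map (P : Subgroup H).subtype := by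
  rintro z ⟨hzk, hzP⟩
  have hcop : (Nat.card (Multiplicative (ZMod p))).Coprime (P : Subgroup H).index := by
    rw [Nat.card_congr Multiplicative.toAdd, Nat.card_zmod]
    exact (Nat.Prime.coprime_iff_not_dvd Fact.out).2 P.not_dvd_index
  have h1 : (⟨z, hzP⟩ : (P : Subgroup H)) ∈ frattini (P : Subgroup H) := by
    rw [CfsgLib.Trans.mem_frattini_iff_hom P.2]
    intro f
    haveI : Finite (Multiplicative (ZMod p)) := Finite.of_equiv (ZMod p) Multiplicative.ofAdd
    exact CfsgLib.Trans.hom_central_commutator_eq_one f hcop hzP (hc hzk) (by rw [hH]; trivial)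
  exact ⟨_, h1, rfl⟩

end Cfsg.Agent.S0101
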