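import Cfsg.Statements.S0102
import Cfsg.Agent.Lib.Trans.Basic

set_option autoImplicit false
open Cfsg

namespace Cfsg.Agent.S0102

/-- A finite perfect group with cyclic Sylow p-subgroups has no perfect central extension whose kernel has order divisible by p. -/
theorem result {G : Type*} {H : Type*} [Group G] [Group H] [Finite G] [Finite H] (hG : commutator G = ⊤) {p : ℕ} [Fact p.Prime] (hcyc : ∀ P : Sylow p G, IsCyclic P) (σ : H →* G) (hσ : Function.Surjective σ) (hz : σ.ker ≤ Subgroup.center H) (hH : commutator H = ⊤) : ¬ p ∣ Nat.card σ.ker := by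
  classical
  intro hd
  obtain ⟨⟨z, hzk⟩, hzo⟩ := exists_prime_orderOf_dvd_card' p hd
  rw [Subgroup.orderOf_mk] at hzo
  have hpp : p.Prime := Fact.out
  have hz1 : z ≠ 1 := by
    rintro rfl
    rw [orderOf_one] at hzo
    exact hpp.one_lt.ne hzo
  have hzp : IsPGroup p (Subgroup.zpowers z) := by
    rw [IsPGroup.iff_card, Nat.card_zpowers, hzo]
    exact ⟨1, (pow_one p).symm⟩
  obtain ⟨Q, hQ⟩ := hzp.exists_le_sylow
  have hzQ : z ∈ (Q : Subgroup H) := hQ (Subgroup.mem_zpowers z)
  -- the image is cyclic
  have himg : IsPGroup p ((Q : Subgroup H).map σ) := Q.isPGroup'.map σ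
  obtain ⟨P, hP⟩ := himg.exists_le_sylow
  haveI hPc : IsCyclic (P : Subgroup G) := hcyc P
  haveI hc : IsCyclic ((Q : Subgroup H).map σ) := isCyclic_of_injective (Subgroup.inclusion hP) (Subgroup.inclusion_injective hP)
  have hcomm : ∀ a b : (Q : Subgroup H), a * b = b * a := by
    apply commutative_of_cyclic_center_quotient (σ.subgroupMap (Q : Subgroup H))
    intro x hx
    rw [Subgroup.mem_center_iff]
    intro y
    have h1 : σ x = 1 := by
      have := congrArg Subtype.val (MonoidHom.mem_ker.mp hx)
      simpa using this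
    have h2 : (x : H) ∈ Subgroup.center H := hz (MonoidHom.mem_ker.mpr h1)
    apply Subtype.ext
    exact (Subgroup.mem_center_iff.mp h2 y)
  letI : CommGroup (Q : Subgroup H) := { (inferInstance : Group (Q : Subgroup H)) with mul_comm := hcomm }
  have hzc : z ∈ Subgroup.center H := hz hzk
  have ht := CfsgLib.Trans.transfer_central_eq_pow (MonoidHom.id (Q : Subgroup H)) hzQ hzc
  have ht1 : MonoidHom.transfer (MonoidHom.id (Q : Subgroup H)) z = 1 := by
    have h3 : z ∈ commutator H := by rw [hH]; trivial
    exact Abelianization.commutator_subset_ker _ h3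
  rw [ht1] at ht
  have h4 : z ^ (Q : Subgroup H).index = 1 := by
    have := congrArg Subtype.val ht.symm
    simpa using this
  have h5 : p ∣ (Q : Subgroup H).index := by
    have := orderOf_dvd_of_pow_eq_one h4
    rwa [hzo] at this
  have h6 : p ∣ Nat.card (Q : Subgroup H) := by
    have := Subgroup.orderOf_dvd_natCard _ hzQ
    rwa [hzo] at this
  exact Nat.Prime.not_coprime_iff_dvd.mpr ⟨p, hpp, h6, h5⟩ Q.card_coprime_index

end Cfsg.Agent.S0102
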