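import Cfsg.Statements.S0103
import Cfsg.Agent.Lib.Trans.Basic

set_option autoImplicit false
open Cfsg

namespace Cfsg.Agent.S0103

/-- If a Sylow p-subgroup P intersects every distinct conjugate trivially, then its normalizer controls fusion in P. -/
theorem result {G : Type*} [Group G] [Finite G] {p : ℕ} [Fact p.Prime] (P : Sylow p G) (hTI : ∀ g : G, (P : Subgroup G).map (MulAut.conj g).toMonoidHom ≠ (P : Subgroup G) → (P : Subgroup G) ⊓ (P : Subgroup G).map (MulAut.conj g).toMonoidHom = ⊥) (x y : G) (hx : x ∈ P) (hy : y ∈ P) (hc : ∃ g : G, g * x * g⁻¹ = y) : ∃ n ∈ Subgroup.normalizer (P : Set G), n * x * n⁻¹ = y := by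
  obtain ⟨g, rfl⟩ := hc
  by_cases hx1 : x = 1
  · subst hx1
    exact ⟨1, Subgroup.one_mem _, by simp⟩
  by_cases hgP : g ∈ Subgroup.normalizer (P : Set G)
  · exact ⟨g, hgP, rfl⟩
  exfalso
  have hne : (P : Subgroup G).map (MulAut.conj g).toMonoidHom ≠ (P : Subgroup G) := by
    intro h
    exact hgP ((CfsgLib.CT.map_conj_eq_iff).1 h)
  have h1 := hTI g hne
  have h2 : g * x * g⁻¹ ∈ (P : Subgroup G) ⊓ (P : Subgroup G).map (MulAut.conj g).toMonoidHom :=
    ⟨hy, CfsgLib.CT.conj_mem_map hx⟩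
  rw [h1, Subgroup.mem_bot] at h2
  apply hx1
  have : g * x * g⁻¹ = g * 1 * g⁻¹ := by rw [h2]; group
  exact mul_left_cancel (mul_right_cancel this)

end Cfsg.Agent.S0103
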