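import Cfsg.Statements.S0104
import Cfsg.Agent.Lib.Trans.Basic

set_option autoImplicit false
open Cfsg

namespace Cfsg.Agent.S0104

/-- A subgroup Z of a Sylow p-subgroup P that is normalized by N_G(P) is weakly closed in P exactly when it is normal in every Sylow p-subgroup containing it. -/
theorem result {G : Type*} [Group G] [Finite G] {p : ℕ} [Fact p.Prime] (P : Sylow p G) (Z : Subgroup G) (hZP : Z ≤ (P : Subgroup G)) (hZN : Subgroup.normalizer (P : Set G) ≤ Subgroup.normalizer (Z : Set G)) : Cfsg.IsWeaklyClosed Z P ↔ ∀ R : Sylow p G, Z ≤ (R : Subgroup G) → (R : Subgroup G) ≤ Subgroup.normalizer (Z : Set G) := by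
  have hPZ : (P : Subgroup G) ≤ Subgroup.normalizer (Z : Set G) := (Subgroup.le_normalizer).trans hZN
  constructor
  · intro hW R hZR
    obtain ⟨h, rfl⟩ := MulAction.exists_smul_eq G P R
    have h1 : Z.map (MulAut.conj h⁻¹).toMonoidHom ≤ (P : Subgroup G) := by
      rintro _ ⟨z, hz, rfl⟩
      have := (CfsgLib.Trans.mem_sylow_smul h P z).1 (hZR hz)
      simpa using this
    have h3 := hW.2 _ h1
    rw [CfsgLib.CT.map_conj_eq_iff] at h3
    intro x hx
    have h4 := (CfsgLib.Trans.mem_sylow_smul h P x).1 hx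
    have h5 : x = h⁻¹⁻¹ * (h⁻¹ * x * h) * h⁻¹ := by group
    rw [h5]
    exact mul_mem (mul_mem (inv_mem h3) (hPZ h4)) h3
  · intro h
    refine ⟨hZP, ?_⟩
    intro g hg
    -- `g⁻¹ P g` contains `Z`, so normalises it
    have hZR : Z ≤ ((g⁻¹ • P : Sylow p G) : Subgroup G) := by
      intro z hz
      rw [CfsgLib.Trans.mem_sylow_smul]
      have := hg ⟨z, hz, rfl⟩
      simpa using this
    have hR := h _ hZR
    -- the two Sylows lie in `N(Z)`; conjugate them inside `N(Z)`
    obtain ⟨c, hc, hcb⟩ := CfsgLib.Lead.exists_conj_into_sylow P (Subgroup.normalizer (Z : Set G)) hPZ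
      ((g⁻¹ • P : Sylow p G) : Subgroup G) hR (Sylow.isPGroup' _)
    have h1 : c⁻¹ * g⁻¹ ∈ Subgroup.normalizer (P : Set G) := by
      refine CfsgLib.CT.mem_normalizer_of_conj_le (A := (P : Subgroup G)) ?_
      intro a ha
      have h2 := hcb (g⁻¹ * a * g) (by
        rw [CfsgLib.Trans.mem_sylow_smul]; simpa [mul_assoc] using ha)
      simpa [mul_assoc] using h2
    have h2 := hZN h1
    have h3 : g = (c⁻¹ * g⁻¹)⁻¹ * c⁻¹ := by group
    rw [CfsgLib.CT.map_conj_eq_iff, h3]
    exact mul_mem (inv_mem h2) (inv_mem hc)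

end Cfsg.Agent.S0104
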