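import Cfsg.Statements.S0105
import Cfsg.Agent.Lib.Trans.Basic

set_option autoImplicit false
open Cfsg

namespace Cfsg.Agent.S0105

/-- With an abelian Sylow p-subgroup P, some quotient of G is isomorphic to the part of P central in N_G(P). -/
theorem result {G : Type*} [Group G] [Finite G] {p : ℕ} [Fact p.Prime] (P : Sylow p G) (hP : IsMulCommutative P) : ∃ (N : Subgroup G) (hN : N.Normal), Nonempty (G ⧸ N ≃* ((P : Subgroup G) ⊓ Subgroup.centralizer (Subgroup.normalizer (P : Set G) : Set G) : Subgroup G)) := by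
  obtain ⟨K, hKn, h2, h3, -, -⟩ := CfsgLib.Trans.exists_kernel_abelian_sylow P hP
  haveI := hKn
  obtain ⟨hd1, hd2⟩ := CfsgLib.Trans.abelian_sylow_decomp P hP
  set A : Subgroup G := (P : Subgroup G) ⊓ Subgroup.centralizer (Subgroup.normalizer (P : Set G) : Set G) with hA
  set R : Subgroup G := ⁅(P : Subgroup G), Subgroup.normalizer (P : Set G)⁆ with hR
  have hRK : R ≤ K := by rw [← h2]; exact inf_le_left
  -- `G = K A`
  have hsup : K ⊔ A = ⊤ := by
    rw [eq_top_iff, ← h3, ← hd2]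
    refine sup_le le_sup_left (sup_le (hRK.trans le_sup_left) le_sup_right)
  have hinf : K ⊓ A = ⊥ := by
    rw [eq_bot_iff, ← hd1]
    rintro x ⟨hx1, hx2⟩
    refine ⟨?_, hx2⟩
    have h5 : x ∈ K ⊓ (P : Subgroup G) := ⟨hx1, hx2.1⟩
    rw [h2] at h5
    exact h5
  let f : A →* G ⧸ K := (QuotientGroup.mk' K).comp A.subtype
  have hinj : Function.Injective f := by
    rw [injective_iff_map_eq_one]
    intro a ha
    have h1 : (a : G) ∈ K := (QuotientGroup.eq_one_iff _).1 ha
    have h4 : (a : G) ∈ K ⊓ A := ⟨h1, a.2⟩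
    rw [hinf, Subgroup.mem_bot] at h4
    exact Subtype.ext h4
  have hsurj : Function.Surjective f := by
    intro q
    obtain ⟨g, rfl⟩ := QuotientGroup.mk_surjective q
    have hg : g ∈ ((K ⊔ A : Subgroup G) : Set G) := by rw [hsup]; trivial
    rw [Subgroup.normal_mul] at hg
    obtain ⟨y, hy, z, hz, rfl⟩ := hg
    refine ⟨⟨z, hz⟩, ?_⟩
    show ((z : G) : G ⧸ K) = _
    simp only
    rw [QuotientGroup.mk_mul, (QuotientGroup.eq_one_iff y).2 hy, one_mul]
  exact ⟨K, hKn, ⟨(MulEquiv.ofBijective f ⟨hinj, hsurj⟩).symm⟩⟩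

end Cfsg.Agent.S0105
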