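import Cfsg.Statements.S0106
import Cfsg.Agent.Lib.OOL.Sec23
import Cfsg.Agent.Lib.Trans.Frob

set_option autoImplicit false
open Cfsg

namespace Cfsg.Agent.S0106

/-- A finite group with generalized quaternion Sylow 2-subgroups either has a normal 2-complement or has a section isomorphic to SL(2,3). -/
theorem result {G : Type*} [Group G] [Finite G] (T : Sylow 2 G) (n : ℕ) (hn : 1 ≤ n) (hT : Nonempty ((T : Subgroup G) ≃* QuaternionGroup (2 ^ n))) : Cfsg.HasNormalPComplement 2 G ∨ ∃ (H K : Subgroup G) (hK : (K.subgroupOf H).Normal), Nonempty ((H ⧸ K.subgroupOf H) ≃* Matrix.SpecialLinearGroup (Fin 2) (ZMod 3)) := by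
  classical
  haveI : Fact (Nat.Prime 2) := ⟨Nat.prime_two⟩
  by_cases h : ∀ Q : Subgroup G, Q ≤ (T : Subgroup G) → ∀ g ∈ Subgroup.normalizer (Q : Set G),
      Nat.Coprime (orderOf g) 2 → g ∈ Subgroup.centralizer (Q : Set G)
  · left
    obtain ⟨N, hn, hN⟩ := (CfsgLib.Trans.frobenius_criterion T).2 h
    exact ⟨T, N, hn, hN⟩
  · right
    push Not at h
    obtain ⟨Q, hQT, g, hgN, hcop, hgC⟩ := h
    obtain ⟨eT⟩ := hT
    have hQ2 : IsPGroup 2 Q := T.2.to_le hQT
    have huniq : ∀ x y : Q, x ^ 2 = 1 → y ^ 2 = 1 → x ≠ 1 → y ≠ 1 → x = y := by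
      intro x y hx hy hx1 hy1
      let x' : T := ⟨x, hQT x.2⟩
      let y' : T := ⟨y, hQT y.2⟩
      have hinj : ∀ z : Q, z ≠ 1 → eT ⟨z, hQT z.2⟩ ≠ 1 := by
        intro z hz h
        have h1 := (map_eq_one_iff eT eT.injective).mp h
        exact hz (Subtype.ext (show (z : G) = 1 from congrArg (fun w : T => (w : G)) h1))
      have hsq : ∀ z : Q, z ^ 2 = 1 → (eT ⟨z, hQT z.2⟩) ^ 2 = 1 := by
        intro z hz
        rw [← map_pow]
        have h1 : (⟨z, hQT z.2⟩ : T) ^ 2 = 1 := Subtype.ext (show (z : G) ^ 2 = 1 from congrArg (fun w : Q => (w : G)) hz)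
        rw [h1, map_one]
      have h := CfsgLib.OOL.qg_unique_invol (2 ^ n) _ _ (hsq x hx) (hsq y hy) (hinj x hx1) (hinj y hy1)
      have h2 := eT.injective h
      exact Subtype.ext (show (x : G) = y from congrArg (fun w : T => (w : G)) h2)
    have hodd : Odd (orderOf g) := Nat.coprime_two_right.mp hcop
    obtain ⟨K, L, hL, -, hiso⟩ := CfsgLib.OOL.sl23_of_odd_action Q hQ2 huniq g hgN hodd hgC
    exact ⟨K, L, hL, hiso⟩

end Cfsg.Agent.S0106
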