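import Cfsg.Statements.S0109
import Cfsg.Agent.Lib.OOL.PSep3

set_option autoImplicit false
open Cfsg

namespace Cfsg.Agent.S0109

/-- The Thompson factorization Theorem for solvable groups states that, with p odd (and abelian Sylow 2-subgroups when p = 3) and no nontrivial normal subgroup of order prime to p, every element of G is a product of an element normalizing J(P) and an element centralizing the elements of order dividing p in the centre of P. -/
theorem result {G : Type*} [Group G] [Finite G] {p : ℕ} [Fact p.Prime] (hp : p ≠ 2) (hs : Group.IsSolvable G) (h3 : p = 3 → ∀ T : Sylow 2 G, IsMulCommutative T) (hF : ∀ N : Subgroup G, N.Normal → Nat.Coprime (Nat.card N) p → N = ⊥) (P : Sylow p G) (g : G) : ∃ a ∈ Subgroup.normalizer (Cfsg.thompsonSubgroupOf p (P : Subgroup G) : Set G), ∃ c ∈ Subgroup.centralizer {x : G | x ∈ (P : Subgroup G) ∧ (∀ y ∈ (P : Subgroup G), x * y = y * x) ∧ x ^ p = 1}, g = a * c := by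
  classical
  have hbot : Cfsg.pPrimeCore p G = ⊥ := by
    exact hF _ CfsgLib.PLocal.pPrimeCore_normal' CfsgLib.PLocal.pPrimeCore_coprime
  refine CfsgLib.OOL.thompson_factorization hp (CfsgLib.Solv.centralizer_pCore_le p hbot) ?_ P g
  intro T _ hT
  by_cases hp3 : p = 3
  · exact CfsgLib.OOL.isPStableOn_of_ab (h3 hp3) hp T hT
  · have hpp : p.Prime := Fact.out
    have h5 : 5 ≤ p := by
      by_contra hlt
      have h6 : p = 2 ∨ p = 3 ∨ p = 4 := by
        have := hpp.two_le
        omega
      rcases h6 with h | h | h
      · exact hp h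
      · exact hp3 h
      · subst h
        exact absurd hpp (by norm_num)
    exact CfsgLib.OOL.isPStableOn_of_ps (CfsgLib.OOL.psep_of_solvable _ G rfl) h5 T hT

end Cfsg.Agent.S0109
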