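import Cfsg.Statements.S0113
import Cfsg.Agent.Lib.OOL.MaxCl

set_option autoImplicit false
open Cfsg

namespace Cfsg.Agent.S0113

/-- A 2-group of maximal class contains a cyclic subgroup of index 2. -/
theorem result {X : Type*} [Group X] [Finite X] (n : ℕ) (hn : 3 ≤ n) (hX : Nat.card X = 2 ^ n) (hc : Group.nilpotencyClass X = n - 1) : ∃ C : Subgroup X, IsCyclic C ∧ C.index = 2 := by
  exact CfsgLib.OOL.max_class_cyclic_index_two n hn hX hc

end Cfsg.Agent.S0113
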