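import Cfsg.Statements.S0125
import Cfsg.Agent.Lib.Trans.Basic
import Cfsg.Agent.Lib.Lead.CardMul

set_option autoImplicit false
open Cfsg

namespace Cfsg.Agent.S0125

/-- The centralizer of a self-centralizing normal subgroup A of a Sylow p-subgroup is the direct product of A with a normal p'-subgroup. -/
theorem result {G : Type*} [Group G] [Finite G] {p : ℕ} [Fact p.Prime] (R : Sylow p G) (A : Subgroup G) (hAR : A ≤ (R : Subgroup G)) (hAn : (R : Subgroup G) ≤ Subgroup.normalizer (A : Set G)) (hC : (R : Subgroup G) ⊓ Subgroup.centralizer (A : Set G) = A) : ∃ H : Subgroup G, H ≤ Subgroup.centralizer (A : Set G) ∧ Nat.Coprime (Nat.card H) p ∧ Subgroup.centralizer (A : Set G) ≤ Subgroup.normalizer (H : Set G) ∧ H ⊓ A = ⊥ ∧ H ⊔ A = Subgroup.centralizer (A : Set G) := by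
  classical
  set C := Subgroup.centralizer (A : Set G) with hCdef
  have hAC : A ≤ C := by
    rw [← hC]; exact inf_le_right
  have hAp : IsPGroup p A := R.2.to_le hAR
  -- `A` is a Sylow subgroup of `C`
  have hRC : (R : Subgroup G) ≤ Subgroup.normalizer (C : Set G) := by
    intro r hr
    refine CfsgLib.CT.mem_normalizer_of_conj_le ?_
    intro c hc
    refine Subgroup.mem_centralizer_iff.2 ?_
    intro a ha
    have h1 : r⁻¹ * a * r ∈ A := by
      have := CfsgLib.CT.conj_mem_of_mem_normalizer (hAn (inv_mem hr)) ha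
      simpa using this
    have h2 := Subgroup.mem_centralizer_iff.1 hc _ h1
    calc a * (r * c * r⁻¹) = r * ((r⁻¹ * a * r) * c) * r⁻¹ := by group
      _ = r * (c * (r⁻¹ * a * r)) * r⁻¹ := by rw [h2]
      _ = _ := by group
  have hinf : (R : Subgroup G) ⊓ C = A := hC
  have hco := Subgroup.coe_mul_of_left_le_normalizer_right (R : Subgroup G) C hRC
  have hcard := CfsgLib.Lead.card_mul_card_eq_card_mul_mul_card_inf (R : Subgroup G) C
  rw [← hco, hinf] at hcard
  have hcard' : Nat.card (R : Subgroup G) * Nat.card C =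
      Nat.card ((R : Subgroup G) ⊔ C : Subgroup G) * Nat.card A := hcard
  have hAc := CfsgLib.Trans.card_mul_relIndex hAC
  have h1 : Nat.card ((R : Subgroup G) ⊔ C : Subgroup G) = Nat.card (R : Subgroup G) * A.relIndex C := by
    apply Nat.eq_of_mul_eq_mul_right (Nat.card_pos (α := A))
    rw [← hcard', ← hAc]
    ring
  have h2 : Nat.card (R : Subgroup G) * A.relIndex C ∣ Nat.card (R : Subgroup G) * (R : Subgroup G).index := by
    rw [← h1, Subgroup.card_mul_index]
    exact Subgroup.card_subgroup_dvd_card _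
  have h3 : A.relIndex C ∣ (R : Subgroup G).index := Nat.dvd_of_mul_dvd_mul_left Nat.card_pos h2
  have h4 : (A.relIndex C).Coprime p :=
    Nat.Coprime.coprime_dvd_left h3 ((Nat.Prime.coprime_iff_not_dvd Fact.out).2 R.not_dvd_index).symm
  obtain ⟨j, hj⟩ := IsPGroup.iff_card.1 hAp
  have hCN : C ≤ Subgroup.normalizer (A : Set G) := by
    intro c hc
    refine CfsgLib.CT.mem_normalizer_of_conj_le ?_
    intro a ha
    have := Subgroup.mem_centralizer_iff.1 hc a ha
    rw [← this]; simpa using ha
  obtain ⟨K, hKC, hi, hs, -, hKc⟩ := CfsgLib.Trans.exists_complement_in C A hAC hCN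
    (by rw [hj]; exact Nat.Coprime.pow_left j h4.symm)
  refine ⟨K, hKC, by rw [hKc]; exact h4, ?_, by rw [inf_comm]; exact hi, by rw [sup_comm]; exact hs⟩
  rw [← hs]
  refine sup_le ?_ Subgroup.le_normalizer
  intro a ha
  refine CfsgLib.CT.mem_normalizer_of_conj_le ?_
  intro k hk
  have := Subgroup.mem_centralizer_iff.1 (hKC hk) a ha
  rw [this]; simpa using hk

end Cfsg.Agent.S0125
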