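import Cfsg.Statements.S0131
import Cfsg.Agent.Lib.Trans.Basic

set_option autoImplicit false
open Cfsg

namespace Cfsg.Agent.S0131

/-- P/P' has a normal complement in G exactly when the focal subgroup G' ∩ P is as small as possible, namely P'. -/
theorem result {G : Type*} [Group G] [Finite G] {p : ℕ} [Fact p.Prime] (P : Sylow p G) : (∃ N : Subgroup G, N.Normal ∧ N ⊓ (P : Subgroup G) = ⁅(P : Subgroup G), (P : Subgroup G)⁆ ∧ N ⊔ (P : Subgroup G) = ⊤) ↔ commutator G ⊓ (P : Subgroup G) = ⁅(P : Subgroup G), (P : Subgroup G)⁆ := by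
  constructor
  · rintro ⟨N, hNn, hN1, hN2⟩
    haveI := hNn
    apply le_antisymm
    · rw [← hN1]
      exact inf_le_inf_right _ (CfsgLib.Trans.commutator_le_of_sup_eq_top N _ hN2 (hN1 ▸ inf_le_left))
    · exact le_inf (by rw [commutator_def]; exact Subgroup.commutator_mono le_top le_top)
        (Subgroup.commutator_le_self _)
  · intro h
    obtain ⟨K, h1, h2, h3, h4, -⟩ := CfsgLib.Trans.exists_transfer_kernel (P : Subgroup G)
      ⁅(P : Subgroup G), (P : Subgroup G)⁆ (Subgroup.commutator_le_self _)
      (fun a ha b hb => Subgroup.commutator_mem_commutator ha hb)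
      (fun x hx g hg => by
        have h5 := CfsgLib.Trans.focal_mem (P : Subgroup G) hx hg
        rw [← Subgroup.commutator_inf_eq_focalSubgroup P, h] at h5
        exact h5)
      (CfsgLib.Trans.sylow_coprime_index_relIndex P _)
    exact ⟨K, h1, h2, h3⟩

end Cfsg.Agent.S0131
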