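import Cfsg.Statements.S0207
import Cfsg.Agent.Lib.Invol.Basic

set_option autoImplicit false
open Cfsg

namespace Cfsg.Agent.S0207

/-- If x, y are distinct involutions, every element of the subgroup they generate that lies outside the cyclic subgroup generated by xy is an involution. -/
theorem result {G : Type*} [Group G] [Finite G] (x y : G) (hx : orderOf x = 2) (hy : orderOf y = 2) (hxy : x ≠ y) (d : G) (hd : d ∈ Subgroup.closure ({x, y} : Set G)) (hd' : d ∉ Subgroup.zpowers (x * y)) : orderOf d = 2 := by
  rcases (CfsgLib.Invol.mem_closure_iff hx hy d).1 hd with ⟨k, rfl⟩ | ⟨k, rfl⟩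
  · exact absurd (Subgroup.zpow_mem_zpowers _ _) hd'
  · apply CfsgLib.Invol.order_two_of_mul_self
    · have h1 := CfsgLib.Invol.conj_zpow_mul hx hy k
      calc x * (x * y) ^ k * (x * (x * y) ^ k) = (x * (x * y) ^ k * x) * (x * y) ^ k := by group
        _ = 1 := by rw [h1]; simp
    · intro h
      apply hd'
      have : x * (x * y) ^ k = 1 := h
      rw [this]
      exact one_mem _

end Cfsg.Agent.S0207
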