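import Cfsg.Statements.S0218

set_option autoImplicit false
open Cfsg

namespace Cfsg.Agent.S0218

/-- The generalized quaternion group of order 2^(n+3) contains exactly one element of order 2. -/
theorem result (n : ℕ) : Nat.card {x : QuaternionGroup (2 ^ (n + 1)) // orderOf x = 2} = 1 := by
  classical
  have hne : NeZero (2 ^ (n + 1)) := ⟨by positivity⟩
  set m := 2 ^ (n + 1) with hm
  have hm0 : m ≠ 0 := hne.out
  have hne2 : NeZero (2 * m) := ⟨by positivity⟩
  have hval : ∀ i : ZMod (2 * m), (QuaternionGroup.a i : QuaternionGroup m) * QuaternionGroup.a i = 1 →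
      i = 0 ∨ i = (m : ZMod (2 * m)) := by
    intro i hi
    rw [QuaternionGroup.a_mul_a, QuaternionGroup.one_def, QuaternionGroup.a.injEq] at hi
    have h1 : ((2 * i.val : ℕ) : ZMod (2 * m)) = 0 := by
      push_cast
      have h0 : (2 : ZMod (2 * m)) * i = i + i := two_mul i
      rw [ZMod.natCast_zmod_val, h0]
      exact hi
    rw [ZMod.natCast_eq_zero_iff] at h1
    have h2 : m ∣ i.val := Nat.dvd_of_mul_dvd_mul_left (by norm_num) h1
    obtain ⟨c, hc⟩ := h2
    have h3 : i.val < 2 * m := ZMod.val_lt i
    have hc2 : c = 0 ∨ c = 1 := by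
      rw [hc] at h3
      have : c < 2 := by
        by_contra hcon
        push Not at hcon
        have : m * 2 ≤ m * c := Nat.mul_le_mul_left m hcon
        omega
      omega
    rcases hc2 with rfl | rfl
    · left
      rw [← ZMod.natCast_zmod_val i, hc]
      simp
    · right
      rw [← ZMod.natCast_zmod_val i, hc]
      simp
  have hord : orderOf (QuaternionGroup.a (m : ZMod (2 * m)) : QuaternionGroup m) = 2 := by
    apply orderOf_eq_prime
    · rw [pow_two, QuaternionGroup.a_mul_a, QuaternionGroup.one_def, QuaternionGroup.a.injEq]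
      have : (m : ZMod (2 * m)) + m = ((2 * m : ℕ) : ZMod (2 * m)) := by
        push_cast
        ring
      rw [this]
      exact ZMod.natCast_self _
    · rw [QuaternionGroup.one_def]
      intro h
      rw [QuaternionGroup.a.injEq, ZMod.natCast_eq_zero_iff] at h
      have := Nat.le_of_dvd (Nat.pos_of_ne_zero hm0) h
      omega
  rw [Nat.card_eq_one_iff_unique]
  refine ⟨⟨?_⟩, ⟨⟨_, hord⟩⟩⟩
  have key : ∀ x : {x : QuaternionGroup m // orderOf x = 2}, x.1 = QuaternionGroup.a (m : ZMod (2 * m)) := by
    rintro ⟨x, hx⟩
    rcases x with i | i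
    · have h1 : (QuaternionGroup.a i : QuaternionGroup m) * QuaternionGroup.a i = 1 := by
        rw [← pow_two, ← hx]
        exact pow_orderOf_eq_one _
      rcases hval i h1 with rfl | h
      · rw [QuaternionGroup.a_zero, orderOf_one] at hx
        omega
      · subst h; rfl
    · rw [QuaternionGroup.orderOf_xa] at hx
      omega
  intro a b
  exact Subtype.ext ((key a).trans (key b).symm)

end Cfsg.Agent.S0218
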