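import Cfsg.Statements.S0219
import Cfsg.Agent.Lib.H3.SignIndexTwo

set_option autoImplicit false
open Cfsg

namespace Cfsg.Agent.S0219

/-- If a finite group has even order and a cyclic Sylow 2-subgroup, then it has a subgroup of index 2 (consider the parity of permutations in the regular representation). -/
theorem result {G : Type*} [Group G] [Finite G] (heven : Even (Nat.card G)) (T : Sylow 2 G) (hT : IsCyclic (T : Subgroup G)) : ∃ H : Subgroup G, H.index = 2 := by
  exact CfsgLib.SignIdx.exists_index_two_of_cyclic_sylow heven T hT

end Cfsg.Agent.S0219
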