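import Cfsg.Statements.S0225
import Cfsg.Agent.S0215
import Cfsg.Agent.Lib.H3.Wreath2

set_option autoImplicit false
open Cfsg

namespace Cfsg.Agent.S0225

/-- If a finite group G has even order but contains no Klein four-subgroup (2-rank 1), then some involution z of G is central modulo a normal subgroup of odd order: there is a normal subgroup N of odd order containing every commutator z g z⁻¹ g⁻¹. -/
theorem result {G : Type*} [Group G] [Finite G] (heven : Even (Nat.card G)) (hrank : ∀ E : Subgroup G, ¬ IsKleinFour E) : ∃ z : G, orderOf z = 2 ∧ ∃ N : Subgroup G, N.Normal ∧ Odd (Nat.card N) ∧ ∀ g : G, z * g * z⁻¹ * g⁻¹ ∈ N := by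
  classical
  haveI : Fact (Nat.Prime 2) := ⟨Nat.prime_two⟩
  obtain ⟨P⟩ : Nonempty (Sylow 2 G) := inferInstance
  have hdvd : 2 ∣ Nat.card G := heven.two_dvd
  -- a central involution of `P`
  have hPb : (P : Subgroup G) ≠ ⊥ := P.ne_bot_of_dvd_card hdvd
  haveI hPnt : Nontrivial (P : Subgroup G) := (Subgroup.nontrivial_iff_ne_bot _).2 hPb
  have hPp : IsPGroup 2 (P : Subgroup G) := P.isPGroup'
  haveI hc : Nontrivial (Subgroup.center (P : Subgroup G)) := hPp.center_nontrivial
  have hcp : IsPGroup 2 (Subgroup.center (P : Subgroup G)) := hPp.to_subgroup _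
  obtain ⟨k, hk⟩ := IsPGroup.iff_card.1 hcp
  have h2c : 2 ∣ Nat.card (Subgroup.center (P : Subgroup G)) := by
    rw [hk]
    apply dvd_pow_self
    rintro rfl
    rw [pow_zero] at hk
    have := Finite.one_lt_card (α := Subgroup.center (P : Subgroup G))
    omega
  obtain ⟨u₀, hu₀⟩ := exists_prime_orderOf_dvd_card' 2 h2c
  set u : G := ((u₀ : (P : Subgroup G)) : G) with hu
  have huP : u ∈ (P : Subgroup G) := (u₀ : (P : Subgroup G)).2
  have huo : orderOf u = 2 := by
    rw [hu, Subgroup.orderOf_coe, Subgroup.orderOf_coe]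
    exact hu₀
  have huc : ∀ t ∈ (P : Subgroup G), u * t = t * u := by
    intro t ht
    have := (Subgroup.mem_center_iff.1 u₀.2) ⟨t, ht⟩
    exact (congrArg Subtype.val this).symm
  have husq : u * u = 1 := by
    have := pow_orderOf_eq_one u
    rwa [huo, pow_two] at this
  have hu1 : u ≠ 1 := by
    intro h
    rw [h, orderOf_one] at huo
    omega
  -- the only involution of `P`
  have huniq : ∀ t ∈ (P : Subgroup G), orderOf t = 2 → t = u := by
    intro t ht hto
    by_contra hne
    have htsq : t * t = 1 := by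
      have := pow_orderOf_eq_one t
      rwa [hto, pow_two] at this
    have ht1 : t ≠ 1 := by
      intro h
      rw [h, orderOf_one] at hto
      omega
    exact hrank _ (CfsgLib.Wreath.klein_four (a := u) (b := t) (ha := husq) (hb := htsq)
      (hab := huc t ht) hu1 ht1 (Ne.symm hne))
  obtain ⟨N, hN, hodd, hcomm⟩ := Cfsg.Agent.S0215.result P u huo huP (by
    intro g hg
    apply huniq _ hg
    rw [← huo]
    exact (MulAut.conj g).orderOf_eq u)
  exact ⟨u, huo, N, hN, hodd, hcomm⟩

end Cfsg.Agent.S0225
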