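import Cfsg.Statements.S0228
import Cfsg.Agent.Lib.Invol.Order12

set_option autoImplicit false
open Cfsg

namespace Cfsg.Agent.S0228

/-- A group of order 12 in which no involution is central is isomorphic to the alternating group on four letters. -/
theorem result {G : Type*} [Group G] [Finite G] (hG : Nat.card G = 12) (hz : ∀ z : G, orderOf z = 2 → z ∉ Subgroup.center G) : Nonempty (G ≃* alternatingGroup (Fin 4)) := by
  exact CfsgLib.Invol.order12_iso_A4 hG hz

end Cfsg.Agent.S0228
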