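import Mathlib
import Cfsg.Statements.S0244

set_option autoImplicit false
open Cfsg

namespace Cfsg.Agent.S0244

/-- Sp_2 = SL_2: a matrix on Fin 1 ⊕ Fin 1 lies in Mathlib's symplectic group iff its determinant is 1. -/
theorem result {R : Type*} [CommRing R] (A : Matrix (Fin 1 ⊕ Fin 1) (Fin 1 ⊕ Fin 1) R) : A ∈ Matrix.symplecticGroup (Fin 1) R ↔ A.det = 1 := by
  rw [SymplecticGroup.mem_iff]
  have hdet : A.det = A (.inl 0) (.inl 0) * A (.inr 0) (.inr 0) - A (.inl 0) (.inr 0) * A (.inr 0) (.inl 0) := by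
    have := Matrix.det_submatrix_equiv_self (finSumFinEquiv (m := 1) (n := 1)).symm A
    rw [← this, Matrix.det_fin_two]
    simp [finSumFinEquiv]
    have h0 : (Fin.addCases Sum.inl Sum.inr (0 : Fin (1+1)) : Fin 1 ⊕ Fin 1) = Sum.inl 0 := rfl
    have h1 : (Fin.addCases Sum.inl Sum.inr (1 : Fin (1+1)) : Fin 1 ⊕ Fin 1) = Sum.inr 0 := rfl
    simp only [show ((0 : Fin 2)) = (0 : Fin (1+1)) from rfl, show ((1 : Fin 2)) = (1 : Fin (1+1)) from rfl, h0, h1]
  rw [hdet]
  constructor
  · intro h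
    have := congrFun (congrFun h (.inl 0)) (.inr 0)
    simp [Matrix.mul_apply, Matrix.J, Fintype.sum_sum_type] at this
    linear_combination -this
  · intro h
    ext i j
    rcases i with ⟨i⟩ | ⟨i⟩ <;> rcases j with ⟨j⟩ | ⟨j⟩ <;>
      obtain rfl : i = 0 := Subsingleton.elim _ _ <;> obtain rfl : j = 0 := Subsingleton.elim _ _ <;>
      simp [Matrix.mul_apply, Matrix.J, Fintype.sum_sum_type]
    · ring
    · linear_combination -h
    · linear_combination h
    · ring

end Cfsg.Agent.S0244
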