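import Mathlib
import Cfsg.Agent.Lib.ClassGeo.PermMod4
import Cfsg.Agent.Lib.ClassGeo.PermMod2
import Cfsg.Agent.S0245
import Cfsg.Statements.S0247
-- import your own Cfsg.Agent.* helpers here

set_option autoImplicit false
open Cfsg

namespace Cfsg.Agent.S0247

/-- Sp_4(2) is isomorphic to the symmetric group S_6. -/
theorem result {F : Type*} [Field F] [Fintype F] (hF : Fintype.card F = 2) : Nonempty (Matrix.symplecticGroup (Fin 2) F ≃* Equiv.Perm (Fin 6)) := by
  haveI := CfsgLib.ClassGeo.PermMod.charP_two hF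
  obtain ⟨f, hf⟩ := CfsgLib.ClassGeo.PermMod.exists_sp_hom (F := F) 3 (le_refl 3)
  have hc := Cfsg.Agent.S0245.result hF 2
  have hcard : Nat.card (Equiv.Perm (Fin (2 * 3))) = Nat.card (Matrix.symplecticGroup (Fin (3 - 1)) F) := by
    rw [Nat.card_perm]
    show Nat.factorial (Nat.card (Fin 6)) = Nat.card (Matrix.symplecticGroup (Fin 2) F)
    rw [hc, Nat.card_fin]
    simp [Finset.prod_range_succ, Nat.factorial]
  have hbij := (Nat.bijective_iff_injective_and_card f).mpr ⟨hf, hcard⟩
  exact ⟨(MulEquiv.ofBijective f hbij).symm⟩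

end Cfsg.Agent.S0247
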