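import Mathlib
import Cfsg.Agent.Lib.ClassGeo.SmallIso
import Cfsg.Agent.Lib.ClassGeo.Basic
import Cfsg.Statements.S0250
-- import your own Cfsg.Agent.* helpers here

set_option autoImplicit false
open Cfsg

namespace Cfsg.Agent.S0250

/-- SL_2(2) is isomorphic to S_3. -/
theorem result {F : Type*} [Field F] [Fintype F] (hF : Fintype.card F = 2) : Nonempty (Matrix.SpecialLinearGroup (Fin 2) F ≃* Equiv.Perm (Fin 3)) := by
  classical
  have hc : Nat.card (Projectivization F (Fin 2 → F)) = 3 := by
    rw [Projectivization.card_of_finrank_two F (Fin 2 → F) (by simp), Nat.card_eq_fintype_card, hF]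
  have : Finite (Projectivization F (Fin 2 → F)) := Nat.finite_of_card_ne_zero (by rw [hc]; omega)
  let e : Projectivization F (Fin 2 → F) ≃ Fin 3 := Finite.equivFinOfCardEq hc
  let φ : Matrix.SpecialLinearGroup (Fin 2) F →* Equiv.Perm (Fin 3) :=
    (e.permCongrHom.toMonoidHom).comp (MulAction.toPermHom _ _)
  apply CfsgLib.ClassGeo.iso_perm_of_inj φ
  · rw [injective_iff_map_eq_one]
    intro g hg
    have h1 : MulAction.toPermHom (Matrix.SpecialLinearGroup (Fin 2) F) (Projectivization F (Fin 2 → F)) g = 1 := by
      apply e.permCongrHom.injective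
      rw [map_one]
      exact hg
    have h2 : g ∈ (MulAction.toPermHom (Matrix.SpecialLinearGroup (Fin 2) F) (Projectivization F (Fin 2 → F))).ker := h1
    rw [Projectivization.SL_mulAction_ker, Matrix.SpecialLinearGroup.mem_center_iff] at h2
    obtain ⟨r, hr1, hr2⟩ := h2
    have hr : r = 1 := by
      have hr0 : r ≠ 0 := by
        rintro rfl
        simp at hr1
      have := FiniteField.pow_card_sub_one_eq_one r hr0
      rw [hF] at this
      simpa using this
    apply Subtype.ext
    rw [← hr2, hr]
    simp
  · have h1 := CfsgLib.ClassGeo.q_sub_one_mul_card_SL hF 2 (by omega)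
    norm_num [Fin.prod_univ_two, Nat.factorial] at h1 ⊢
    exact h1

end Cfsg.Agent.S0250
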