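import Mathlib
import Cfsg.Agent.Lib.ClassGeo.SmallIso
import Cfsg.Agent.Lib.ClassGeo.Basic
import Cfsg.Statements.S0252
-- import your own Cfsg.Agent.* helpers here

set_option autoImplicit false
open Cfsg

namespace Cfsg.Agent.S0252

/-- PSL_2(4) is isomorphic to A_5. -/
theorem result {F : Type*} [Field F] [Fintype F] (hF : Fintype.card F = 4) : Nonempty (Matrix.ProjectiveSpecialLinearGroup (Fin 2) F ≃* alternatingGroup (Fin 5)) := by
  apply CfsgLib.ClassGeo.psl2_iso_alt 5 (by omega)
  have h1 := CfsgLib.ClassGeo.q_sub_one_mul_card_SL hF 2 (by omega)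
  have h2 := CfsgLib.ClassGeo.card_PSL_mul hF 2 (by omega)
  rw [h2] at h1
  norm_num [Fin.prod_univ_two, Nat.factorial] at h1 ⊢
  omega

end Cfsg.Agent.S0252
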