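import Mathlib
import Cfsg.Agent.Lib.ClassGeo.Basic
import Cfsg.Agent.Lib.H9.PSLSimple
import Cfsg.Agent.Lib.H9.PSL2Class
import Cfsg.Agent.S0242
import Cfsg.Agent.S0494
import Cfsg.Statements.S0253
-- import your own Cfsg.Agent.* helpers here

set_option autoImplicit false
open Cfsg

namespace Cfsg.Agent.S0253

/-- PSL_2(5) is isomorphic to A_5. -/
theorem result {F : Type*} [Field F] [Fintype F] (hF : Fintype.card F = 5) : Nonempty (Matrix.ProjectiveSpecialLinearGroup (Fin 2) F ≃* alternatingGroup (Fin 5)) := by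
  classical
  obtain ⟨x, hx0, hx2⟩ := CfsgLib.H9.PSL2.exists_elements_even (F := F) (by omega)
  haveI := CfsgLib.H9.PSLSimple.simple (F := F) (n := 2) (Or.inr ⟨rfl, x, hx0, hx2⟩)
  have h1 := Cfsg.Agent.S0242.result hF 2 (by norm_num)
  have h2 := CfsgLib.ClassGeo.card_PSL_mul hF 2 (by norm_num)
  have h3 : ∏ i : Fin 2, (5 ^ 2 - 5 ^ (i : ℕ)) = 480 := by
    simp [Fin.prod_univ_two]
  rw [h3] at h1
  have h4 : Nat.gcd 2 (5 - 1) = 2 := by norm_num
  rw [h4] at h2
  have : Nat.card (Matrix.ProjectiveSpecialLinearGroup (Fin 2) F) = 60 := by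
    have h1' : 4 * Nat.card (Matrix.SpecialLinearGroup (Fin 2) F) = 480 := h1
    omega
  exact Cfsg.Agent.S0494.result this

end Cfsg.Agent.S0253
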