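import Mathlib
import Cfsg.Agent.Lib.ClassGeo.A6Iso
import Cfsg.Statements.S0254
-- import your own Cfsg.Agent.* helpers here

set_option autoImplicit false
open Cfsg

namespace Cfsg.Agent.S0254

/-- PSL_2(9) is isomorphic to A_6. -/
theorem result {F : Type*} [Field F] [Fintype F] (hF : Fintype.card F = 9) : Nonempty (Matrix.ProjectiveSpecialLinearGroup (Fin 2) F ≃* alternatingGroup (Fin 6)) := by
  classical
  obtain ⟨e1⟩ := CfsgLib.ClassGeo.A6Iso.pomega_a6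
  have hF3 : Fintype.card (ZMod 3) = 3 := ZMod.card 3
  have hK : Fintype.card F = 3 ^ 2 := by rw [hF]; norm_num
  have hab : ∀ z₁ z₂ : ZMod 3, z₁ ^ 2 + 0 * z₁ * z₂ + 1 * z₂ ^ 2 = 0 → z₁ = 0 ∧ z₂ = 0 := by decide
  obtain ⟨e2⟩ := Cfsg.Agent.S0300.result (F := ZMod 3) (K := F) (q := 3) hF3 hK 0 1 hab
  exact ⟨e2.symm.trans e1⟩

end Cfsg.Agent.S0254
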