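import Mathlib
import Cfsg.Agent.Lib.ClassGeo.Klein2
import Cfsg.Agent.Lib.ClassGeo.PermMod2
import Cfsg.Statements.S0256
-- import your own Cfsg.Agent.* helpers here

set_option autoImplicit false
open Cfsg

namespace Cfsg.Agent.S0256

/-- PSL_4(2) is isomorphic to A_8. -/
theorem result {F : Type*} [Field F] [Fintype F] (hF : Fintype.card F = 2) : Nonempty (Matrix.ProjectiveSpecialLinearGroup (Fin 4) F ≃* alternatingGroup (Fin 8)) := by
  classical
  obtain ⟨e⟩ := CfsgLib.ClassGeo.PermMod.plus_iso hF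
  obtain ⟨k⟩ := CfsgLib.ClassGeo.Klein.pomega_plus_iso (F := F)
  -- Ω ≃ A₈
  have h8 : 5 ≤ Nat.card (Fin 8) := by simp
  have hcomm : commutator (Equiv.Perm (Fin 8)) = alternatingGroup (Fin 8) := alternatingGroup.commutator_perm_eq h8
  have hmap : (Cfsg.Omega F (Cfsg.quadFormPlus 3 F)).map (e : _ →* Equiv.Perm (Fin 8)) = alternatingGroup (Fin 8) := by
    rw [Cfsg.Omega, commutator_def, Subgroup.map_commutator, Subgroup.map_top_of_surjective _ e.surjective, ← commutator_def, hcomm]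
  let e1 : ↥(Cfsg.Omega F (Cfsg.quadFormPlus 3 F)) ≃* ↥(alternatingGroup (Fin 8)) :=
    (Subgroup.equivMapOfInjective _ _ e.injective).trans (MulEquiv.subgroupCongr hmap)
  haveI : IsSimpleGroup ↥(alternatingGroup (Fin 8)) := alternatingGroup.isSimpleGroup h8
  have hc : Subgroup.center ↥(alternatingGroup (Fin 8)) = ⊥ :=
    CfsgLib.ClassGeo.OIso.center_eq_bot_of_simple (commutator_alternatingGroup_eq_top h8)
  have hc2 : Subgroup.center ↥(Cfsg.Omega F (Cfsg.quadFormPlus 3 F)) = ⊥ := by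
    rw [eq_bot_iff]
    intro x hx
    have h1 : e1 x ∈ Subgroup.center ↥(alternatingGroup (Fin 8)) := by
      rw [Subgroup.mem_center_iff]
      intro y
      obtain ⟨z, rfl⟩ := e1.surjective y
      rw [← map_mul, ← map_mul, (Subgroup.mem_center_iff.mp hx z)]
    rw [hc, Subgroup.mem_bot] at h1
    rw [Subgroup.mem_bot]
    exact e1.injective (h1.trans (map_one e1).symm)
  let e2 : Cfsg.POmega F (Cfsg.quadFormPlus 3 F) ≃* ↥(Cfsg.Omega F (Cfsg.quadFormPlus 3 F)) :=
    (QuotientGroup.quotientMulEquivOfEq hc2).trans (QuotientGroup.quotientBot)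
  exact ⟨k.symm.trans (e2.trans e1)⟩

end Cfsg.Agent.S0256
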