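import Mathlib
import Cfsg.Agent.Lib.ClassGeo.SmallIso
import Cfsg.Agent.Lib.ClassGeo.Basic
import Cfsg.Agent.Lib.ClassGeo.SL2Q8
import Cfsg.Statements.S0257
-- import your own Cfsg.Agent.* helpers here

set_option autoImplicit false
open Cfsg

namespace Cfsg.Agent.S0257

/-- SL_2(3) has a normal subgroup of index 3 isomorphic to the quaternion group of order 8, and its centre has order 2. -/
theorem result {F : Type*} [Field F] [Fintype F] (hF : Fintype.card F = 3) : (∃ Q : Subgroup (Matrix.SpecialLinearGroup (Fin 2) F), Q.Normal ∧ Q.index = 3 ∧ Nonempty (Q ≃* QuaternionGroup 2)) ∧ Nat.card (Subgroup.center (Matrix.SpecialLinearGroup (Fin 2) F)) = 2 := by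
  classical
  refine ⟨?_, ?_⟩
  · have hcardG : Nat.card (Matrix.SpecialLinearGroup (Fin 2) F) = 24 := by
      have h1 := CfsgLib.ClassGeo.q_sub_one_mul_card_SL hF 2 (by omega)
      norm_num [-Nat.card_eq_fintype_card, Fin.prod_univ_two] at h1
      omega
    have hcardP : Nat.card (Matrix.ProjectiveSpecialLinearGroup (Fin 2) F) = 12 := by
      have h2 := CfsgLib.ClassGeo.card_PSL_mul hF 2 (by omega)
      rw [hcardG] at h2
      norm_num [-Nat.card_eq_fintype_card] at h2
      omega
    obtain ⟨e⟩ := CfsgLib.ClassGeo.psl2_iso_alt (F := F) 4 (by omega) (by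
      rw [hcardP]; norm_num [Nat.factorial])
    have hα : Nat.card (Fin 4) = 4 := by simp
    let V := alternatingGroup.kleinFour (Fin 4)
    have hVn : V.Normal := alternatingGroup.normal_kleinFour hα
    have hVc : Nat.card V = 4 := alternatingGroup.kleinFour_card_of_card_eq_four hα
    let π : Matrix.SpecialLinearGroup (Fin 2) F →* alternatingGroup (Fin 4) :=
      e.toMonoidHom.comp (QuotientGroup.mk' _)
    have hπ : Function.Surjective π := by
      intro y
      obtain ⟨x, rfl⟩ := e.surjective y
      obtain ⟨z, rfl⟩ := QuotientGroup.mk'_surjective _ x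
      exact ⟨z, rfl⟩
    let Q := V.comap π
    have hQidx : Q.index = 3 := by
      rw [Subgroup.index_comap_of_surjective _ hπ]
      have h1 := V.card_mul_index
      have h2 : Nat.card (alternatingGroup (Fin 4)) = 12 := by
        rw [← hcardP]
        exact (Nat.card_congr e.toEquiv).symm
      rw [hVc, h2] at h1
      omega
    have hQc : Nat.card Q = 8 := by
      have h1 := Q.card_mul_index
      rw [hQidx, hcardG] at h1
      omega
    have h30 : (3 : F) = 0 := by
      have := FiniteField.cast_card_eq_zero F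
      rw [hF] at this
      exact_mod_cast this
    have h2 : (2 : F) ≠ 0 := by
      intro h
      have : (1 : F) = 0 := by linear_combination h30 - h
      exact one_ne_zero this
    obtain ⟨R, hRc, ⟨hR⟩⟩ := CfsgLib.ClassGeo.exists_Q8 h2 1 1 (by linear_combination h30)
    have hfac : 2 ^ (Nat.card (Matrix.SpecialLinearGroup (Fin 2) F)).factorization 2 = 8 := by
      rw [hcardG]
      have : (24 : ℕ) = 2 ^ 3 * 3 := by norm_num
      rw [this, Nat.factorization_mul (by norm_num) (by norm_num), Nat.Prime.factorization_pow Nat.prime_two]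
      simp [Nat.factorization_eq_zero_of_not_dvd]
    have : Fact (Nat.Prime 2) := ⟨Nat.prime_two⟩
    have : Finite (Matrix.SpecialLinearGroup (Fin 2) F) := inferInstance
    let P1 : Sylow 2 (Matrix.SpecialLinearGroup (Fin 2) F) := Sylow.ofCard Q (by rw [hQc, hfac])
    let P2 : Sylow 2 (Matrix.SpecialLinearGroup (Fin 2) F) := Sylow.ofCard R (by rw [hRc, hfac])
    refine ⟨Q, hVn.comap π, hQidx, ⟨?_⟩⟩
    have e12 : P1 ≃* P2 := Sylow.equiv P1 P2
    exact (e12.trans (MulEquiv.refl _)).trans hR
  · have := CfsgLib.ClassGeo.card_center_SL hF 2 (by omega)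
    rw [this]
    norm_num

end Cfsg.Agent.S0257
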