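import Mathlib
import Cfsg.Agent.Lib.ClassGeo.GL2Sylow
import Cfsg.Statements.S0263
-- import your own Cfsg.Agent.* helpers here

set_option autoImplicit false
open Cfsg

namespace Cfsg.Agent.S0263

/-- A Sylow p-subgroup of GL_n(q), p the characteristic, has order q^(n(n-1)/2). -/
theorem result {F : Type*} [Field F] [Fintype F] {q : ℕ} (hF : Fintype.card F = q) (p : ℕ) [Fact p.Prime] [CharP F p] (n : ℕ) (P : Sylow p (Matrix.GeneralLinearGroup (Fin n) F)) : Nat.card P = q ^ (n * (n - 1) / 2) := by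
  classical
  subst hF
  obtain ⟨f, hf1, hf⟩ := CfsgLib.ClassGeo.exists_card_eq_pow (F := F) p
  set q := Fintype.card F with hq
  have hq1 : 1 < q := Fintype.one_lt_card
  have hcard : Nat.card (Matrix.GeneralLinearGroup (Fin n) F) =
      q ^ (n * (n - 1) / 2) * ∏ i : Fin n, (q ^ (n - (i : ℕ)) - 1) := by
    rw [Matrix.card_GL_field]
    have h1 : ∀ i : Fin n, q ^ n - q ^ (i : ℕ) = q ^ (i : ℕ) * (q ^ (n - (i : ℕ)) - 1) := by
      intro i
      have hi : (i : ℕ) ≤ n := i.2.le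
      rw [Nat.mul_sub, mul_one, ← pow_add, Nat.add_sub_cancel' hi]
    rw [Finset.prod_congr rfl (fun i _ => h1 i), Finset.prod_mul_distrib, Finset.prod_pow_eq_pow_sum,
      Fin.sum_univ_eq_sum_range (fun i => i) n, Finset.sum_range_id]
  have hnd : ¬ p ∣ ∏ i : Fin n, (q ^ (n - (i : ℕ)) - 1) := by
    intro hd
    obtain ⟨i, _, hi⟩ := (Prime.dvd_finsetProd_iff (Fact.out : p.Prime).prime _).mp hd
    have hk : 0 < n - (i : ℕ) := by have := i.2; omega
    have hp : p ∣ q ^ (n - (i : ℕ)) := by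
      refine dvd_pow ?_ hk.ne'
      rw [hf]; exact dvd_pow_self p (by omega)
    have h1 : 1 ≤ q ^ (n - (i : ℕ)) := Nat.one_le_pow _ _ (by omega)
    have h2 : p ∣ 1 := by
      have := (Nat.dvd_sub hp hi)
      rwa [Nat.sub_sub_self h1] at this
    exact (Fact.out : p.Prime).one_lt.ne' (Nat.dvd_one.mp h2)
  rw [P.card_eq_multiplicity, hcard, hf, ← pow_mul]
  rw [← hf]
  exact CfsgLib.ClassGeo.pow_factorization_eq p _ _ Fact.out hnd

end Cfsg.Agent.S0263
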