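import Mathlib
import Cfsg.Agent.Lib.ClassGeo.SLGen
import Cfsg.Agent.S0836
import Cfsg.Statements.S0264
-- import your own Cfsg.Agent.* helpers here

set_option autoImplicit false
open Cfsg MatrixGroups

namespace Cfsg.Agent.S0264

open Matrix Matrix.SpecialLinearGroup in
open scoped commutatorElement in
theorem transv_comm_GL {F : Type*} [Field F] {n : ℕ} {i j : Fin n} (hij : i ≠ j) (a : F) (ha : a ≠ 0) (ha1 : a ≠ 1) (c : F) :
    ((transvection hij c : SpecialLinearGroup (Fin n) F) : GL (Fin n) F) ∈ commutator (GL (Fin n) F) := by
  classical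
  let d : Fin n → F := fun k => if k = i then a else 1
  have hd : ∀ k, d k ≠ 0 := by
    intro k; simp only [d]; split_ifs <;> simp [ha]
  have hdet : (diagonal d).det ≠ 0 := by
    rw [det_diagonal]; exact Finset.prod_ne_zero_iff.mpr (fun k _ => hd k)
  let D : GL (Fin n) F := GeneralLinearGroup.mkOfDetNeZero (diagonal d) hdet
  let T : F → GL (Fin n) F := fun b => ((transvection hij b : SpecialLinearGroup (Fin n) F) : GL (Fin n) F)
  have hTadd : ∀ b₁ b₂, T (b₁ + b₂) = T b₁ * T b₂ := by
    intro b₁ b₂
    simp only [T]
    rw [transvection_add, map_mul]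
  have hT0 : T 0 = 1 := by
    simp only [T]
    rw [transvection_coeff_zero, map_one]
  have hTinv : ∀ b, (T b)⁻¹ = T (-b) := by
    intro b
    apply inv_eq_of_mul_eq_one_right
    rw [← hTadd, add_neg_cancel, hT0]
  have hconj : ∀ b, D * T b = T (a * b) * D := by
    intro b
    apply Units.ext
    change diagonal d * (1 + Matrix.single i j b) = (1 + Matrix.single i j (a * b)) * diagonal d
    ext k l
    simp only [diagonal_mul, mul_diagonal, Matrix.add_apply, Matrix.one_apply, Matrix.single_apply]
    by_cases hc : i = k ∧ j = l
    · obtain ⟨rfl, rfl⟩ := hc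
      simp [d, hij, hij.symm]
    · rw [if_neg hc, if_neg hc]
      by_cases hkl : k = l
      · subst hkl
        simp [mul_comm]
      · simp [hkl]
  have h1 : T ((a - 1) * (c / (a - 1))) = T c := by
    rw [mul_div_cancel₀ _ (sub_ne_zero_of_ne ha1)]
  have hcomm : ⁅D, T (c / (a - 1))⁆ = T c := by
    rw [commutatorElement_def, hconj, mul_inv_cancel_right, hTinv, ← hTadd, ← h1]
    congr 1
    ring
  change T c ∈ _
  rw [← hcomm]
  exact Subgroup.commutator_mem_commutator (Subgroup.mem_top _) (Subgroup.mem_top _)

/-- GL_n(F)' = SL_n(F) (as the kernel of det), for every field F and every n, except n = 2 over the field of two elements. -/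
theorem result {F : Type*} [Field F] (n : ℕ) (h : n = 2 → ∃ a : F, a ≠ 0 ∧ a ≠ 1) : commutator (Matrix.GeneralLinearGroup (Fin n) F) = (Matrix.GeneralLinearGroup.det : Matrix.GeneralLinearGroup (Fin n) F →* Fˣ).ker := by
  classical
  apply le_antisymm
  · rw [commutator_def, Subgroup.commutator_le]
    intro g _ h _
    rw [MonoidHom.mem_ker, map_commutatorElement, commutatorElement_eq_one_iff_mul_comm]
    exact mul_comm _ _
  · intro g hg
    have hg' : (g : Matrix (Fin n) (Fin n) F).det = 1 := by
      have := congrArg Units.val (MonoidHom.mem_ker.mp hg)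
      simpa using this
    let s : Matrix.SpecialLinearGroup (Fin n) F := ⟨(g : Matrix (Fin n) (Fin n) F), hg'⟩
    have hs : (s : GL (Fin n) F) = g := by
      apply Units.ext; rfl
    rw [← hs]
    by_cases hn2 : n < 2
    · have : s = 1 := by
        apply Subtype.ext
        ext i j
        have hsub : Subsingleton (Fin n) := by
          rw [Fin.subsingleton_iff_le_one]; omega
        have hij : i = j := Subsingleton.elim _ _
        subst hij
        have hdet : (s : Matrix (Fin n) (Fin n) F).det = 1 := s.2
        have huniq : Unique (Fin n) := ⟨⟨i⟩, fun k => Subsingleton.elim _ _⟩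
        rw [Matrix.det_unique] at hdet
        have : default = i := Subsingleton.elim _ _
        rw [this] at hdet
        simpa using hdet
      rw [this, map_one]
      exact one_mem _
    · have : Nontrivial (Fin n) := Fin.nontrivial_iff_two_le.mpr (by omega)
      refine CfsgLib.ClassGeo.SL_transvection_induction (fun x : Matrix.SpecialLinearGroup (Fin n) F => (x : GL (Fin n) F) ∈ commutator (GL (Fin n) F)) s ?_ ?_
      · intro i j hij c
        by_cases hn : n = 2
        · obtain ⟨a, ha, ha1⟩ := h hn
          exact transv_comm_GL hij a ha ha1 c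
        · obtain ⟨x, y, e⟩ := Cfsg.Agent.S0836.result n (Or.inl (by omega)) i j hij c (Matrix.SpecialLinearGroup.transvection hij c) rfl
          change _ ∈ _
          rw [← e, map_commutatorElement]
          exact Subgroup.commutator_mem_commutator (Subgroup.mem_top _) (Subgroup.mem_top _)
      · intro A B hA hB
        rw [map_mul]
        exact mul_mem hA hB

end Cfsg.Agent.S0264
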