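import Mathlib
import Cfsg.Agent.Lib.ClassGeo.PGL2
import Cfsg.Statements.S0266
-- import your own Cfsg.Agent.* helpers here

set_option autoImplicit false
open scoped MatrixGroups
open Cfsg

namespace Cfsg.Agent.S0266

/-- PGL_2(F) is sharply 3-transitive on the projective line: it is 3-transitive and the stabiliser of three distinct points is trivial. -/
theorem result {F : Type*} [Field F] : MulAction.IsMultiplyPretransitive (Matrix.ProjGenLinGroup (Fin 2) F) (Projectivization F (Fin 2 → F)) 3 ∧ ∀ (g : Matrix.ProjGenLinGroup (Fin 2) F) (a b c : Projectivization F (Fin 2 → F)), a ≠ b → a ≠ c → b ≠ c → g • a = a → g • b = b → g • c = c → g = 1 := by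
  constructor
  · rw [MulAction.isMultiplyPretransitive_iff]
    have hinj : ∀ x : Fin 3 ↪ Projectivization F (Fin 2 → F), x 0 ≠ x 1 ∧ x 0 ≠ x 2 ∧ x 1 ≠ x 2 := by
      intro x
      refine ⟨?_, ?_, ?_⟩ <;> exact fun h => by simpa using x.injective h
    intro x y
    obtain ⟨h1, h2, h3⟩ := hinj x
    obtain ⟨h4, h5, h6⟩ := hinj y
    obtain ⟨g, hg0, hg1, hg2⟩ := CfsgLib.ClassGeo.exists_gl_triple (x 0) (x 1) (x 2) h1 h2 h3
    obtain ⟨g', hg0', hg1', hg2'⟩ := CfsgLib.ClassGeo.exists_gl_triple (y 0) (y 1) (y 2) h4 h5 h6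
    refine ⟨Matrix.ProjGenLinGroup.mk (g' * g⁻¹), ?_⟩
    ext i
    have hmul : ∀ p : Projectivization F (Fin 2 → F), Matrix.ProjGenLinGroup.mk (g' * g⁻¹) • p = (g' * g⁻¹) • p := fun p => rfl
    fin_cases i
    · change Matrix.ProjGenLinGroup.mk (g' * g⁻¹) • x 0 = y 0
      rw [hmul, ← hg0, ← hg0', mul_smul, inv_smul_smul]
    · change Matrix.ProjGenLinGroup.mk (g' * g⁻¹) • x 1 = y 1
      rw [hmul, ← hg1, ← hg1', mul_smul, inv_smul_smul]
    · change Matrix.ProjGenLinGroup.mk (g' * g⁻¹) • x 2 = y 2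
      rw [hmul, ← hg2, ← hg2', mul_smul, inv_smul_smul]
  · intro g a b c hab hac hbc ha hb hc
    obtain ⟨A, rfl⟩ := Matrix.ProjGenLinGroup.mk_surjective g
    have := CfsgLib.ClassGeo.gl_fix_three A a b c hab hac hbc ha hb hc
    exact (QuotientGroup.eq_one_iff A).mpr this

end Cfsg.Agent.S0266
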