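import Mathlib
import Cfsg.Agent.Lib.ClassGeo.PGL2
import Cfsg.Statements.S0267
-- import your own Cfsg.Agent.* helpers here

set_option autoImplicit false
open Cfsg

namespace Cfsg.Agent.S0267

open CfsgLib.ClassGeo Matrix in
theorem sl_triple {F : Type*} [Field F] (hsq : ∀ x : F, IsSquare x) (a b c : Projectivization F (Fin 2 → F))
    (hab : a ≠ b) (hac : a ≠ c) (hbc : b ≠ c) :
    ∃ g : SpecialLinearGroup (Fin 2) F, g • Projectivization.mk F (![1, 0] : Fin 2 → F) e0_ne = a ∧
      g • Projectivization.mk F (![0, 1] : Fin 2 → F) e1_ne = b ∧ g • Projectivization.mk F (![1, 1] : Fin 2 → F) (e2_ne 1) = c := by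
  obtain ⟨g, h0, h1, h2⟩ := exists_gl_triple a b c hab hac hbc
  have hdet : ((g : Matrix (Fin 2) (Fin 2) F)).det ≠ 0 := by
    have := g.det.ne_zero
    simpa using this
  obtain ⟨s, hs⟩ := hsq (g : Matrix (Fin 2) (Fin 2) F).det
  have hs0 : s ≠ 0 := by
    rintro rfl
    rw [mul_zero] at hs
    exact hdet hs
  let h : SpecialLinearGroup (Fin 2) F := ⟨s⁻¹ • (g : Matrix (Fin 2) (Fin 2) F), by
    rw [det_smul, Fintype.card_fin, hs]
    field_simp⟩
  have key : ∀ (v : Fin 2 → F) (hv : v ≠ 0), h • Projectivization.mk F v hv = g • Projectivization.mk F v hv := by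
    intro v hv
    rw [Projectivization.smul_mk, Projectivization.smul_mk, Projectivization.mk_eq_mk_iff']
    refine ⟨s⁻¹, ?_⟩
    change _ = (s⁻¹ • (g : Matrix (Fin 2) (Fin 2) F)) *ᵥ v
    rw [smul_mulVec]
    rfl
  exact ⟨h, by rw [key, h0], by rw [key, h1], by rw [key, h2]⟩

/-- SL_2(q) is 3-transitive on the q+1 points of the projective line if and only if q is even. -/
theorem result {F : Type*} [Field F] [Fintype F] : MulAction.IsMultiplyPretransitive (Matrix.SpecialLinearGroup (Fin 2) F) (Projectivization F (Fin 2 → F)) 3 ↔ ringChar F = 2 := by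
  classical
  constructor
  · intro h
    by_contra hne
    obtain ⟨c, hc⟩ := FiniteField.exists_nonsquare hne
    have hc0 : c ≠ 0 := by
      rintro rfl
      exact hc IsSquare.zero
    have hne1 : ∀ d : F, Projectivization.mk F (![1, 0] : Fin 2 → F) CfsgLib.ClassGeo.e0_ne ≠ Projectivization.mk F (![0, 1] : Fin 2 → F) CfsgLib.ClassGeo.e1_ne := by
      intro d h1
      rw [Projectivization.mk_eq_mk_iff'] at h1
      obtain ⟨a, ha⟩ := h1
      have := congrFun ha 0
      simp at this
    have hne2 : ∀ d : F, d ≠ 0 → Projectivization.mk F (![1, 0] : Fin 2 → F) CfsgLib.ClassGeo.e0_ne ≠ Projectivization.mk F (![1, d] : Fin 2 → F) (CfsgLib.ClassGeo.e2_ne d) := by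
      intro d hd h1
      rw [Projectivization.mk_eq_mk_iff'] at h1
      obtain ⟨a, ha⟩ := h1
      have h0 := congrFun ha 0
      have h1 := congrFun ha 1
      simp at h0 h1
      subst h0
      simp_all
    have hne3 : ∀ d : F, Projectivization.mk F (![0, 1] : Fin 2 → F) CfsgLib.ClassGeo.e1_ne ≠ Projectivization.mk F (![1, d] : Fin 2 → F) (CfsgLib.ClassGeo.e2_ne d) := by
      intro d h1
      rw [Projectivization.mk_eq_mk_iff'] at h1
      obtain ⟨a, ha⟩ := h1
      have h0 := congrFun ha 0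
      have h1 := congrFun ha 1
      simp at h0 h1
      subst h0
      simp_all
    let trip : F → F → (Fin 3 → Projectivization F (Fin 2 → F)) := fun d _ => ![Projectivization.mk F (![1, 0] : Fin 2 → F) CfsgLib.ClassGeo.e0_ne, Projectivization.mk F (![0, 1] : Fin 2 → F) CfsgLib.ClassGeo.e1_ne, Projectivization.mk F (![1, d] : Fin 2 → F) (CfsgLib.ClassGeo.e2_ne d)]
    have htrip : ∀ d : F, d ≠ 0 → Function.Injective (trip d 0) := by
      intro d hd i j hij
      have h1 := hne1 0
      have h2 := hne2 d hd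
      have h3 := hne3 d
      fin_cases i <;> fin_cases j <;> first | rfl | (simp [trip] at hij; first | exact absurd hij h1 | exact absurd hij h2 | exact absurd hij h3 | exact absurd hij.symm h1 | exact absurd hij.symm h2 | exact absurd hij.symm h3)
    rw [MulAction.isMultiplyPretransitive_iff] at h
    obtain ⟨g, hg⟩ := h ⟨trip 1 0, htrip 1 one_ne_zero⟩ ⟨trip c 0, htrip c hc0⟩
    have h0 := DFunLike.congr_fun hg 0
    have h1 := DFunLike.congr_fun hg 1
    have h2 := DFunLike.congr_fun hg 2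
    change g • Projectivization.mk F (![1, 0] : Fin 2 → F) CfsgLib.ClassGeo.e0_ne = Projectivization.mk F (![1, 0] : Fin 2 → F) CfsgLib.ClassGeo.e0_ne at h0
    change g • Projectivization.mk F (![0, 1] : Fin 2 → F) CfsgLib.ClassGeo.e1_ne = Projectivization.mk F (![0, 1] : Fin 2 → F) CfsgLib.ClassGeo.e1_ne at h1
    change g • Projectivization.mk F (![1, 1] : Fin 2 → F) (CfsgLib.ClassGeo.e2_ne 1) = Projectivization.mk F (![1, c] : Fin 2 → F) (CfsgLib.ClassGeo.e2_ne c) at h2
    rw [Projectivization.smul_mk, Projectivization.mk_eq_mk_iff'] at h0 h1 h2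
    obtain ⟨a, ha⟩ := h0
    obtain ⟨b, hb⟩ := h1
    obtain ⟨t, ht⟩ := h2
    have e1 := congrFun ha 0
    have e2 := congrFun ha 1
    have e3 := congrFun hb 0
    have e4 := congrFun hb 1
    have e5 := congrFun ht 0
    have e6 := congrFun ht 1
    have hsm : ∀ (v : Fin 2 → F) (i : Fin 2), (g • v) i = (g : Matrix (Fin 2) (Fin 2) F) i 0 * v 0 + (g : Matrix (Fin 2) (Fin 2) F) i 1 * v 1 := by
      intro v i
      change ((g : Matrix (Fin 2) (Fin 2) F).mulVec v) i = _
      simp [Matrix.mulVec, dotProduct, Fin.sum_univ_two]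
    rw [hsm] at e1 e2 e3 e4 e5 e6
    simp at e1 e2 e3 e4 e5 e6
    have hdet := g.det_coe
    rw [Matrix.det_fin_two] at hdet
    rw [← e2, ← e3, ← e1, ← e4] at hdet
    rw [← e1, ← e3] at e5
    rw [← e2, ← e4] at e6
    have ha' : a = t := by simpa using e5.symm
    have hb' : b = t * c := by simpa using e6.symm
    rw [ha', hb'] at hdet
    have ht0 : t ≠ 0 := by
      rintro rfl
      simp at hdet
    apply hc
    refine ⟨t⁻¹, ?_⟩
    field_simp
    linear_combination hdet
  · intro h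
    have hsq : ∀ x : F, IsSquare x := FiniteField.isSquare_of_char_two h
    rw [MulAction.isMultiplyPretransitive_iff]
    have hinj : ∀ x : Fin 3 ↪ Projectivization F (Fin 2 → F), x 0 ≠ x 1 ∧ x 0 ≠ x 2 ∧ x 1 ≠ x 2 := by
      intro x
      refine ⟨?_, ?_, ?_⟩ <;> exact fun h => by simpa using x.injective h
    intro x y
    obtain ⟨h1, h2, h3⟩ := hinj x
    obtain ⟨h4, h5, h6⟩ := hinj y
    obtain ⟨g, hg0, hg1, hg2⟩ := sl_triple hsq (x 0) (x 1) (x 2) h1 h2 h3
    obtain ⟨g', hg0', hg1', hg2'⟩ := sl_triple hsq (y 0) (y 1) (y 2) h4 h5 h6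
    refine ⟨g' * g⁻¹, ?_⟩
    ext i
    fin_cases i
    · change (g' * g⁻¹) • x 0 = y 0
      rw [← hg0, ← hg0', mul_smul, inv_smul_smul]
    · change (g' * g⁻¹) • x 1 = y 1
      rw [← hg1, ← hg1', mul_smul, inv_smul_smul]
    · change (g' * g⁻¹) • x 2 = y 2
      rw [← hg2, ← hg2', mul_smul, inv_smul_smul]

end Cfsg.Agent.S0267
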