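import Mathlib
import Cfsg.Statements.S0268
-- import your own Cfsg.Agent.* helpers here

set_option autoImplicit false
open Cfsg

namespace Cfsg.Agent.S0268

/-- For q odd, -1 is the unique involution of SL_2(q). -/
theorem result {F : Type*} [Field F] [Fintype F] (hF : Odd (Fintype.card F)) (g : Matrix.SpecialLinearGroup (Fin 2) F) (h1 : g ≠ 1) (h2 : g * g = 1) : (g : Matrix (Fin 2) (Fin 2) F) = -1 := by
  have h2ne : (2 : F) ≠ 0 := by
    intro h
    have : ringChar F = 2 := CharP.ringChar_of_prime_eq_zero Nat.prime_two (by exact_mod_cast h)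
    have h3 := (FiniteField.even_card_iff_char_two (F := F)).mp this
    exact absurd (Nat.even_iff.mpr h3) (Nat.not_even_iff_odd.mpr hF)
  have hdet := g.det_coe
  rw [Matrix.det_fin_two] at hdet
  have hg : (g : Matrix (Fin 2) (Fin 2) F) * g = 1 := by
    have := congrArg (fun x : Matrix.SpecialLinearGroup (Fin 2) F => (x : Matrix (Fin 2) (Fin 2) F)) h2
    simpa using this
  have e00 := congrFun (congrFun hg 0) 0
  have e01 := congrFun (congrFun hg 0) 1
  have e10 := congrFun (congrFun hg 1) 0
  have e11 := congrFun (congrFun hg 1) 1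
  simp [Matrix.mul_apply, Fin.sum_univ_two] at e00 e01 e10 e11
  set a := (g : Matrix (Fin 2) (Fin 2) F) 0 0 with ha
  set b := (g : Matrix (Fin 2) (Fin 2) F) 0 1 with hb
  set c := (g : Matrix (Fin 2) (Fin 2) F) 1 0 with hc
  set d := (g : Matrix (Fin 2) (Fin 2) F) 1 1 with hd
  have hs : a + d ≠ 0 := by
    intro hs
    have hd' : d = -a := by linear_combination hs
    apply h2ne
    rw [hd'] at hdet
    linear_combination -e00 - hdet
  have hb0 : b = 0 := by
    have : b * (a + d) = 0 := by linear_combination e01
    exact (mul_eq_zero.mp this).resolve_right hs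
  have hc0 : c = 0 := by
    have : c * (a + d) = 0 := by linear_combination e10
    exact (mul_eq_zero.mp this).resolve_right hs
  have hamd : a = d := by
    have : (a - d) * (a + d) = 0 := by
      rw [hb0] at e00
      rw [hc0] at e11
      linear_combination e00 - e11
    exact sub_eq_zero.mp ((mul_eq_zero.mp this).resolve_right hs)
  have haa : a = 1 ∨ a = -1 := by
    have : (a - 1) * (a + 1) = 0 := by
      rw [hb0] at e00
      linear_combination e00
    rcases mul_eq_zero.mp this with h | h
    · left; exact sub_eq_zero.mp h
    · right; exact eq_neg_of_add_eq_zero_left h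
  rcases haa with h | h
  · exfalso
    apply h1
    apply Subtype.ext
    ext i j
    fin_cases i <;> fin_cases j <;> simp
    · exact h
    · exact hb0
    · exact hc0
    · rw [← hd, ← hamd, h]
  · ext i j
    fin_cases i <;> fin_cases j <;> simp
    · exact h
    · exact hb0
    · exact hc0
    · rw [← hd, ← hamd, h]

end Cfsg.Agent.S0268
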