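import Mathlib
import Cfsg.Agent.Lib.ClassGeo.SpTrans
import Cfsg.Statements.S0271
-- import your own Cfsg.Agent.* helpers here

set_option autoImplicit false
open Cfsg

namespace Cfsg.Agent.S0271

/-- Sp_{2m}(F) is transitive on non-zero vectors. -/
theorem result {F : Type*} [Field F] (m : ℕ) (v w : Fin m ⊕ Fin m → F) (hv : v ≠ 0) (hw : w ≠ 0) : ∃ g : Matrix.symplecticGroup (Fin m) F, (g : Matrix (Fin m ⊕ Fin m) (Fin m ⊕ Fin m) F).mulVec v = w := by
  obtain ⟨v', hv'⟩ := CfsgLib.ClassGeo.exists_partner (CfsgLib.ClassGeo.sympBilin_sep (F := F) m) v hv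
  obtain ⟨w', hw'⟩ := CfsgLib.ClassGeo.exists_partner (CfsgLib.ClassGeo.sympBilin_sep (F := F) m) w hw
  obtain ⟨A, _, hA, _⟩ := CfsgLib.ClassGeo.sp_trans_pair ⊤ (fun u _ hu => CfsgLib.ClassGeo.symp_nondeg' (fun x => hu x trivial)) v v' w w' trivial trivial trivial trivial hv' hw'
  exact ⟨A, hA⟩

end Cfsg.Agent.S0271
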