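import Mathlib
import Cfsg.Agent.Lib.ClassGeo.GL2Sylow
import Cfsg.Statements.S0272
-- import your own Cfsg.Agent.* helpers here

set_option autoImplicit false
open Cfsg

namespace Cfsg.Agent.S0272

/-- The normaliser in GL_2(q) of a Sylow p-subgroup, p the characteristic, has order q (q-1)^2. -/
theorem result {F : Type*} [Field F] [Fintype F] {q : ℕ} (hF : Fintype.card F = q) (p : ℕ) [Fact p.Prime] [CharP F p] (P : Sylow p (Matrix.GeneralLinearGroup (Fin 2) F)) : Nat.card (Subgroup.normalizer ((P : Subgroup (Matrix.GeneralLinearGroup (Fin 2) F)) : Set (Matrix.GeneralLinearGroup (Fin 2) F))) = q * (q - 1) ^ 2 := by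
  subst hF
  have h1 := (Subgroup.normalizer ((P : Subgroup (Matrix.GeneralLinearGroup (Fin 2) F)) : Set (Matrix.GeneralLinearGroup (Fin 2) F))).card_mul_index
  have h0 : (Subgroup.normalizer ((P : Subgroup (Matrix.GeneralLinearGroup (Fin 2) F)) : Set (Matrix.GeneralLinearGroup (Fin 2) F))).index = Nat.card (Sylow p (Matrix.GeneralLinearGroup (Fin 2) F)) := (Sylow.card_eq_index_normalizer P).symm
  rw [h0, CfsgLib.ClassGeo.card_sylow_GL2 p, CfsgLib.ClassGeo.card_GL2] at h1
  set q := Fintype.card F with hq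
  have hq1 : 1 < q := Fintype.one_lt_card
  have h2 : q ^ 2 - 1 = (q - 1) * (q + 1) := by
    have := Nat.sq_sub_sq q 1
    rw [one_pow] at this
    rw [this, mul_comm]
  rw [h2] at h1
  have h3 : 0 < q + 1 := by omega
  apply Nat.eq_of_mul_eq_mul_right h3
  rw [h1]
  ring

end Cfsg.Agent.S0272
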