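import Cfsg.Statements.S0274
import Cfsg.Agent.Lib.OOL.Dickson8

set_option autoImplicit false
open Cfsg

namespace Cfsg.Agent.S0274

/-- Dickson's Theorem for SL_2: if p is odd and H is a subgroup of SL_2(q), q a power of p, with more than one Sylow p-subgroup, then H contains a copy of SL_2(p). -/
theorem result {F : Type*} [Field F] [Fintype F] (p : ℕ) [Fact p.Prime] [CharP F p] (hp : p ≠ 2) (H : Subgroup (Matrix.SpecialLinearGroup (Fin 2) F)) (hH : 1 < Nat.card (Sylow p H)) : ∃ K : Subgroup (Matrix.SpecialLinearGroup (Fin 2) F), K ≤ H ∧ Nonempty (K ≃* Matrix.SpecialLinearGroup (Fin 2) (ZMod p)) := by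
  classical

  haveI : Finite F := Finite.of_fintype F
  haveI : Nontrivial (Sylow p H) := Finite.one_lt_card_iff_nontrivial.mp hH
  obtain ⟨S₁, S₂, hne⟩ := exists_pair_ne (Sylow p H)
  have hnb : ∀ S : Sylow p H, ∃ x ∈ (S : Subgroup H), x ≠ 1 := by
    intro S
    by_contra hcon
    push Not at hcon
    have hbot : ∀ S' : Sylow p H, (S' : Subgroup H) = ⊥ := by
      intro S'
      obtain ⟨g, rfl⟩ := MulAction.exists_smul_eq H S S'
      rw [Sylow.coe_subgroup_smul]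
      have : (S : Subgroup H) = ⊥ := by
        rw [eq_bot_iff]
        intro u hu
        exact hcon u hu
      rw [this]
      simp
    exact hne (Sylow.ext ((hbot S₁).trans (hbot S₂).symm))
  obtain ⟨x, hxS, hx1⟩ := hnb S₁
  obtain ⟨y, hyS, hy1⟩ := hnb S₂
  have hpel : ∀ (S : Sylow p H) (u : H), u ∈ (S : Subgroup H) → ∃ k, ((u : Matrix.SpecialLinearGroup (Fin 2) F)) ^ (p ^ k) = 1 := by
    intro S u hu
    obtain ⟨k, hk⟩ := S.2 ⟨u, hu⟩
    refine ⟨k, ?_⟩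
    have h1 := congrArg (fun t : (S : Subgroup H) => ((t : H) : Matrix.SpecialLinearGroup (Fin 2) F)) hk
    exact h1
  obtain ⟨k₁, hk₁⟩ := hpel S₁ x hxS
  obtain ⟨k₂, hk₂⟩ := hpel S₂ y hyS
  obtain ⟨L₁, hL₁⟩ := CfsgLib.OOL.exists_fix_p hk₁
  obtain ⟨L₂, hL₂⟩ := CfsgLib.OOL.exists_fix_p hk₂
  have hxst : x ∈ CfsgLib.OOL.pStab H L₁ := ⟨hL₁, CfsgLib.OOL.ev_one_of_pow hL₁ hk₁⟩
  have hyst : y ∈ CfsgLib.OOL.pStab H L₂ := ⟨hL₂, CfsgLib.OOL.ev_one_of_pow hL₂ hk₂⟩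
  have hS₁ := CfsgLib.OOL.sylow_le_pStab H hp L₁ x hxst hx1 S₁ hxS
  have hS₂ := CfsgLib.OOL.sylow_le_pStab H hp L₂ y hyst hy1 S₂ hyS
  have hn : ¬ IsPGroup p (Subgroup.closure ({(x : Matrix.SpecialLinearGroup (Fin 2) F), (y : Matrix.SpecialLinearGroup (Fin 2) F)} : Set (Matrix.SpecialLinearGroup (Fin 2) F))) := by
    intro hP
    set A := Subgroup.closure ({(x : Matrix.SpecialLinearGroup (Fin 2) F), (y : Matrix.SpecialLinearGroup (Fin 2) F)} : Set (Matrix.SpecialLinearGroup (Fin 2) F)) with hA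
    have hAP : IsPGroup p (A.subgroupOf H) := by
      intro g
      obtain ⟨k, hk⟩ := hP ⟨g.1.1, g.2⟩
      refine ⟨k, Subtype.ext (Subtype.ext ?_)⟩
      exact congrArg (fun t : A => (t : Matrix.SpecialLinearGroup (Fin 2) F)) hk
    obtain ⟨S, hS⟩ := hAP.exists_le_sylow
    have hxS' : x ∈ (S : Subgroup H) := hS (Subgroup.mem_subgroupOf.mpr (Subgroup.subset_closure (by simp)))
    have hyS' : y ∈ (S : Subgroup H) := hS (Subgroup.mem_subgroupOf.mpr (Subgroup.subset_closure (by simp)))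
    have h1 := CfsgLib.OOL.sylow_le_pStab H hp L₁ x hxst hx1 S hxS'
    have h2 := CfsgLib.OOL.sylow_le_pStab H hp L₂ y hyst hy1 S hyS'
    have e1 := S.is_maximal' (CfsgLib.OOL.pStab_isPGroup H L₁) h1
    have e2 := S₁.is_maximal' (CfsgLib.OOL.pStab_isPGroup H L₁) hS₁
    have e3 := S.is_maximal' (CfsgLib.OOL.pStab_isPGroup H L₂) h2
    have e4 := S₂.is_maximal' (CfsgLib.OOL.pStab_isPGroup H L₂) hS₂
    exact hne (Sylow.ext ((e2.symm.trans e1).trans (e4.symm.trans e3).symm))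
  exact CfsgLib.OOL.dickson_main hp H x y x.2 y.2 (CfsgLib.OOL.pow_p_of_pelem hk₁) (CfsgLib.OOL.pow_p_of_pelem hk₂) hn

end Cfsg.Agent.S0274
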