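import Mathlib
import Cfsg.Agent.S0274
import Cfsg.Agent.S0261
import Cfsg.Agent.Lib.ClassGeo.Quat
import Cfsg.Statements.S0275
-- import your own Cfsg.Agent.* helpers here

set_option autoImplicit false
open Cfsg

namespace Cfsg.Agent.S0275

open QuaternionGroup in
theorem quat_noncyclic (n : ℕ) (hn : 2 ≤ n) : ¬ IsCyclic (QuaternionGroup n) := by
  intro h
  have hc : ∀ a b : QuaternionGroup n, a * b = b * a := fun a b => h.commutative.is_comm.comm a b
  have h1 := hc (xa 0) (a 1)
  rw [xa_mul_a, a_mul_xa] at h1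
  have h2 := QuaternionGroup.xa.inj h1
  haveI : NeZero (2 * n) := ⟨by omega⟩
  have h3 : (2 : ZMod (2 * n)) = 0 := by linear_combination h2
  have h4 : ((2 : ℕ) : ZMod (2 * n)) = 0 := by exact_mod_cast h3
  rw [ZMod.natCast_eq_zero_iff] at h4
  have := Nat.le_of_dvd (by norm_num) h4
  omega

open QuaternionGroup in
theorem noncyclic_sub (k n : ℕ) (hn : n = 2 ^ k) (T : Subgroup (QuaternionGroup n)) (hT : ¬ IsCyclic T) :
    ∃ j : ℕ, 1 ≤ j ∧ Nonempty (T ≃* QuaternionGroup (2 ^ j)) := by
  classical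
  have hn0 : 0 < n := by rw [hn]; positivity
  haveI : NeZero n := ⟨by omega⟩
  haveI hNZ : NeZero (2 * n) := ⟨by omega⟩
  set A : Subgroup (QuaternionGroup n) := Subgroup.zpowers (a 1) with hA
  have memA : ∀ i, a i ∈ A := by
    intro i
    refine ⟨i.val, ?_⟩
    have := a_one_pow (n := n) i.val
    simp only [zpow_natCast]
    rw [this, ZMod.natCast_zmod_val]
  have formA : ∀ z, z ∈ A → ∃ i, z = a i := by
    intro z hz
    have hz2 := mem_powers_iff_mem_zpowers.2 hz
    obtain ⟨m, rfl⟩ := hz2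
    exact ⟨m, a_one_pow m⟩
  have hCc : IsCyclic (T ⊓ A : Subgroup _) := by
    have h1 : IsCyclic ((T ⊓ A).subgroupOf A) := inferInstance
    exact isCyclic_of_surjective (Subgroup.subgroupOfEquivOfLe (inf_le_right : T ⊓ A ≤ A)).toMonoidHom
      (Subgroup.subgroupOfEquivOfLe (inf_le_right : T ⊓ A ≤ A)).surjective
  obtain ⟨⟨b, hbC⟩, hgen⟩ := IsCyclic.exists_generator (α := (T ⊓ A : Subgroup _))
  have hb_gen : ∀ z, z ∈ T → z ∈ A → z ∈ Subgroup.zpowers b := by
    intro z hzT hzA
    obtain ⟨i, hi⟩ := hgen ⟨z, hzT, hzA⟩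
    exact ⟨i, congrArg Subtype.val hi⟩
  obtain ⟨y, hyT, hyA⟩ : ∃ y ∈ T, y ∉ A := by
    by_contra h
    push Not at h
    apply hT
    have h1 : T ⊓ A = T := inf_eq_left.2 h
    rw [h1] at hCc
    exact hCc
  obtain ⟨i, rfl⟩ : ∃ i, y = xa i := by
    rcases y with i | i
    · exact absurd (memA i) hyA
    · exact ⟨i, rfl⟩
  have hy2 : (xa i : QuaternionGroup n) ^ 2 = a (n : ZMod (2 * n)) := xa_sq i
  have han : a (n : ZMod (2 * n)) ∈ Subgroup.zpowers b := hb_gen _ (by rw [← hy2]; exact T.pow_mem hyT 2) (memA _)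
  have han1 : (a (n : ZMod (2 * n)) : QuaternionGroup n) ≠ 1 := by
    intro h
    have h1 : (n : ZMod (2 * n)) = 0 := QuaternionGroup.a.inj h
    rw [ZMod.natCast_eq_zero_iff] at h1
    have := Nat.le_of_dvd hn0 h1
    omega
  have han2 : (a (n : ZMod (2 * n)) : QuaternionGroup n) ^ 2 = 1 := by
    rw [← hy2, ← pow_mul]
    exact xa_pow_four i
  have hbA : b ∈ A := hbC.2
  obtain ⟨s, hs⟩ := formA b hbA
  have hd : orderOf b ∣ 2 ^ (k + 1) := by
    apply orderOf_dvd_of_pow_eq_one
    rw [hs, pow_succ' 2 k, ← hn]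
    have key : ∀ m : ℕ, (a s : QuaternionGroup n) ^ m = a ((m : ZMod (2 * n)) * s) := by
      intro m
      induction m with
      | zero => simp
      | succ m ih =>
        rw [pow_succ, ih, a_mul_a]
        congr 1
        push_cast
        ring
    rw [key]
    simp
  obtain ⟨e, he, hde⟩ := (Nat.dvd_prime_pow Nat.prime_two).1 hd
  have hb1 : b ≠ 1 := by
    rintro rfl
    rw [Subgroup.zpowers_one_eq_bot, Subgroup.mem_bot] at han
    exact han1 han
  rcases e with _ | e'
  · exfalso
    rw [pow_zero, orderOf_eq_one_iff] at hde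
    exact hb1 hde
  set t := 2 ^ e' with ht
  have ht0 : 0 < t := by positivity
  have hot : orderOf b = 2 * t := by rw [hde, pow_succ', ← ht]
  have hbt : b ^ t = a (n : ZMod (2 * n)) := by
    obtain ⟨z, hz⟩ := han
    have hz' : b ^ z = a (n : ZMod (2 * n)) := hz
    have h1 : b ^ (2 * z) = 1 := by
      rw [mul_comm, zpow_mul, hz']
      exact_mod_cast han2
    have h2 := orderOf_dvd_iff_zpow_eq_one.2 h1
    rw [hot] at h2
    have h3 : (t : ℤ) ∣ z := by
      push_cast at h2
      exact (mul_dvd_mul_iff_left (by norm_num : (2 : ℤ) ≠ 0)).1 h2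
    obtain ⟨w, rfl⟩ := h3
    have hc2 : (b ^ t) ^ 2 = 1 := by
      rw [← pow_mul, mul_comm, ← hot]
      exact pow_orderOf_eq_one b
    rw [zpow_mul, zpow_natCast] at hz'
    rcases Int.even_or_odd' w with ⟨v, rfl | rfl⟩
    · exfalso
      apply han1
      rw [← hz', zpow_mul, zpow_ofNat, hc2, one_zpow]
    · rw [← hz', zpow_add, zpow_mul, zpow_ofNat, hc2, one_zpow, one_mul, zpow_one]
  have hstruct : ∀ z ∈ T, z ∈ Subgroup.zpowers b ∨ (xa i)⁻¹ * z ∈ Subgroup.zpowers b := by
    intro z hz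
    rcases z with j | j
    · left
      exact hb_gen _ hz (memA j)
    · right
      apply hb_gen _ (T.mul_mem (T.inv_mem hyT) hz)
      show (xa i)⁻¹ * xa j ∈ A
      have : ((xa i : QuaternionGroup n)⁻¹) = xa ((n : ZMod (2 * n)) + i) := rfl
      rw [this, xa_mul_xa]
      exact memA _
  by_cases ht1 : t = 1
  · exfalso
    apply hT
    have hbe : b = a (n : ZMod (2 * n)) := by
      rw [← hbt, ht1, pow_one]
    have hbz : Subgroup.zpowers b ≤ Subgroup.zpowers (xa i : QuaternionGroup n) := by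
      rw [Subgroup.zpowers_le, hbe, ← hy2]
      exact Subgroup.npow_mem_zpowers _ 2
    have hle : T ≤ Subgroup.zpowers (xa i : QuaternionGroup n) := by
      intro z hz
      rcases hstruct z hz with h | h
      · exact hbz h
      · have h1 := hbz h
        have h2 := (Subgroup.zpowers (xa i : QuaternionGroup n)).mul_mem (Subgroup.mem_zpowers (xa i)) h1
        rwa [mul_inv_cancel_left] at h2
    have h1 : IsCyclic (T.subgroupOf (Subgroup.zpowers (xa i : QuaternionGroup n))) := inferInstance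
    exact isCyclic_of_surjective (Subgroup.subgroupOfEquivOfLe hle).toMonoidHom (Subgroup.subgroupOfEquivOfLe hle).surjective
  · have he1 : 1 ≤ e' := by
      by_contra h
      have : e' = 0 := by omega
      apply ht1
      rw [ht, this, pow_zero]
    refine ⟨e', he1, ?_⟩
    haveI : NeZero t := ⟨by omega⟩
    have h_a : b ^ (2 * t) = 1 := by rw [← hot]; exact pow_orderOf_eq_one b
    have h_x : (xa i : QuaternionGroup n) ^ 2 = b ^ t := by rw [hy2, hbt]
    have h_xa : (xa i : QuaternionGroup n)⁻¹ * b * xa i = b⁻¹ := by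
      have h1 : ((xa i : QuaternionGroup n)⁻¹) = xa ((n : ZMod (2 * n)) + i) := rfl
      have h2 : ((a s : QuaternionGroup n)⁻¹) = a (-s) := rfl
      rw [hs, h1, h2, xa_mul_a, xa_mul_xa]
      congr 1
      ring
    have hxn : (xa i : QuaternionGroup n) ∉ Subgroup.zpowers b := by
      intro h
      apply hyA
      exact (Subgroup.zpowers_le.2 hbA) h
    let φ := CfsgLib.ClassGeo.quatHom t b (xa i) h_a h_x h_xa
    have hinj := CfsgLib.ClassGeo.quatHom_injective t b (xa i) h_a h_x h_xa hot hxn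
    have hbT : b ∈ T := hbC.1
    have hpsi : ∀ j, CfsgLib.ClassGeo.quatPsi t b j ∈ T := fun j => T.pow_mem hbT _
    have hTQ : T = φ.range := by
      apply le_antisymm
      · intro z hz
        have hzb : Subgroup.zpowers b ≤ φ.range := by
          rw [Subgroup.zpowers_le]
          refine ⟨QuaternionGroup.a 1, ?_⟩
          rw [CfsgLib.ClassGeo.quatHom_a]
          unfold CfsgLib.ClassGeo.quatPsi
          have hn' : 1 < 2 * t := by omega
          have : Fact (1 < 2 * t) := ⟨hn'⟩
          rw [ZMod.val_one, pow_one]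
        have hxr : (xa i : QuaternionGroup n) ∈ φ.range := by
          refine ⟨QuaternionGroup.xa 0, ?_⟩
          rw [CfsgLib.ClassGeo.quatHom_xa]
          unfold CfsgLib.ClassGeo.quatPsi
          simp
        rcases hstruct z hz with h | h
        · exact hzb h
        · have h2 := φ.range.mul_mem hxr (hzb h)
          rwa [mul_inv_cancel_left] at h2
      · rintro _ ⟨u, rfl⟩
        rcases u with j | j
        · rw [CfsgLib.ClassGeo.quatHom_a]
          exact hpsi j
        · rw [CfsgLib.ClassGeo.quatHom_xa]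
          exact T.mul_mem hyT (hpsi j)
    exact ⟨(MulEquiv.subgroupCongr hTQ).trans (MonoidHom.ofInjective hinj).symm⟩

/-- If p is odd and H is a subgroup of SL_2(q), q a power of p, with more than one Sylow p-subgroup, then the Sylow 2-subgroups of H are generalised quaternion. -/
theorem result {F : Type*} [Field F] [Fintype F] (p : ℕ) [Fact p.Prime] [CharP F p] (hp : p ≠ 2) (H : Subgroup (Matrix.SpecialLinearGroup (Fin 2) F)) (hH : 1 < Nat.card (Sylow p H)) (S : Sylow 2 H) : ∃ k : ℕ, 1 ≤ k ∧ Nonempty ((S : Subgroup H) ≃* QuaternionGroup (2 ^ k)) := by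
  classical
  haveI : Fact (p.Prime) := inferInstance
  have hodd : Odd (Fintype.card (ZMod p)) := by
    rw [ZMod.card]
    exact (Fact.out : p.Prime).odd_of_ne_two hp
  haveI : Finite F := Finite.of_fintype F
  -- `S` is not cyclic
  have hnc : ¬ IsCyclic (S : Subgroup H) := by
    intro hcyc
    obtain ⟨K, hKH, ⟨eK⟩⟩ := Cfsg.Agent.S0274.result p hp H hH
    haveI : Fact (Nat.Prime 2) := ⟨Nat.prime_two⟩
    let P₀ : Sylow 2 (Matrix.SpecialLinearGroup (Fin 2) (ZMod p)) := default
    obtain ⟨m, hm, ⟨e₀⟩⟩ := Cfsg.Agent.S0261.result hodd P₀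
    -- the copy of `P₀` inside `H`
    let ι : (Matrix.SpecialLinearGroup (Fin 2) (ZMod p)) →* H :=
      (Subgroup.inclusion hKH).comp eK.symm.toMonoidHom
    have hι : Function.Injective ι := (Subgroup.inclusion_injective hKH).comp eK.symm.injective
    let Q : Subgroup H := (P₀ : Subgroup _).map ι
    have hQp : IsPGroup 2 Q := P₀.isPGroup'.map ι
    obtain ⟨S₁, hS₁⟩ := hQp.exists_le_sylow
    obtain ⟨g, hg⟩ := MulAction.exists_smul_eq H S₁ S
    have hS₁c : IsCyclic (S₁ : Subgroup H) := by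
      rw [← hg] at hcyc
      rw [Sylow.coe_subgroup_smul] at hcyc
      have e5 := Subgroup.equivSMul (MulAut.conj g) (S₁ : Subgroup H)
      exact isCyclic_of_surjective e5.symm.toMonoidHom e5.symm.surjective
    have h1 : IsCyclic (Q.subgroupOf (S₁ : Subgroup H)) := inferInstance
    have h2 : IsCyclic (QuaternionGroup (2 ^ m)) := by
      have h3 : IsCyclic Q := isCyclic_of_surjective (Subgroup.subgroupOfEquivOfLe hS₁).toMonoidHom (Subgroup.subgroupOfEquivOfLe hS₁).surjective
      have e1 : (P₀ : Subgroup (Matrix.SpecialLinearGroup (Fin 2) (ZMod p))) ≃* Q := (P₀ : Subgroup _).equivMapOfInjective ι hι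
      exact isCyclic_of_surjective ((e1.symm.trans e₀).toMonoidHom) (e1.symm.trans e₀).surjective
    exact quat_noncyclic _ (by
      calc 2 = 2 ^ 1 := rfl
        _ ≤ 2 ^ m := Nat.pow_le_pow_right (by norm_num) hm) h2
  -- ambient quaternion group
  let S' : Subgroup (Matrix.SpecialLinearGroup (Fin 2) F) := (S : Subgroup H).map H.subtype
  have hS'p : IsPGroup 2 S' := S.isPGroup'.map H.subtype
  obtain ⟨P, hP⟩ := hS'p.exists_le_sylow
  have hoddF : Odd (Fintype.card F) := by
    obtain ⟨n, hn1, hn2⟩ := FiniteField.card F p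
    rw [hn2]
    exact ((Fact.out : p.Prime).odd_of_ne_two hp).pow
  obtain ⟨k, hk, ⟨e⟩⟩ := Cfsg.Agent.S0261.result hoddF P
  let e₁ : (S : Subgroup H) ≃* S' := (S : Subgroup H).equivMapOfInjective H.subtype H.subtype_injective
  let T₀ : Subgroup (P : Subgroup (Matrix.SpecialLinearGroup (Fin 2) F)) := S'.subgroupOf P
  let e₂ : T₀ ≃* S' := Subgroup.subgroupOfEquivOfLe hP
  let T : Subgroup (QuaternionGroup (2 ^ k)) := T₀.map e.toMonoidHom
  let e₃ : T₀ ≃* T := T₀.equivMapOfInjective e.toMonoidHom e.injective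
  let E : (S : Subgroup H) ≃* T := e₁.trans (e₂.symm.trans e₃)
  have hTc : ¬ IsCyclic T := by
    intro h
    exact hnc (isCyclic_of_surjective E.symm.toMonoidHom E.symm.surjective)
  obtain ⟨j, hj, ⟨e₄⟩⟩ := noncyclic_sub k _ rfl T hTc
  exact ⟨j, hj, ⟨E.trans e₄⟩⟩

end Cfsg.Agent.S0275
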