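import Mathlib
import Cfsg.Agent.Lib.ClassGeo.SL2Inv
import Cfsg.Statements.S0276
-- import your own Cfsg.Agent.* helpers here

set_option autoImplicit false
open Cfsg

namespace Cfsg.Agent.S0276

open CfsgLib.ClassGeo.SL2Inv CfsgLib.H9.SL2Cl CfsgLib.H9.Torus CfsgLib.H9.PSL2 CfsgLib.ClassGeo in
theorem pow4 {F : Type*} [Field F] [Fintype F] (hq : Fintype.card F % 8 = 3 ∨ Fintype.card F % 8 = 5)
    (y : Matrix.ProjectiveSpecialLinearGroup (Fin 2) F) (hy : y ^ 4 = 1) : y * y = 1 := by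
  classical
  have hodd : Odd (Fintype.card F) := by
    rw [Nat.odd_iff]
    omega
  have h2 : (2 : F) ≠ 0 := two_ne hodd
  obtain ⟨a, rfl⟩ := pr_surj y
  have h4 : pr (a ^ 4) = 1 := hy
  rw [pr_eq_one_iff] at h4
  have hsq : (a * a) * (a * a) = a ^ 4 := by
    rw [show (4 : ℕ) = 2 * 2 by norm_num, pow_mul, pow_two a, pow_two (a * a)]
  show pr (a * a) = 1
  rw [pr_eq_one_iff]
  rcases h4 with h4 | h4
  · exact sq_one_cases h2 (hsq.trans h4)
  · exfalso
    have hx : trS (a * a) = 0 := tr0_of_sq (hsq.trans h4)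
    have hc := card_cent_tr0 hodd hx
    have hord : orderOf a = 2 ^ (2 + 1) := by
      apply orderOf_eq_prime_pow
      · rw [show (2 : ℕ) ^ 2 = 4 by norm_num, h4]
        exact zS_ne_one h2
      · rw [show (2 : ℕ) ^ (2 + 1) = 4 * 2 by norm_num, pow_mul, h4, pow_two]
        exact CfsgLib.H9.BorelChar.zS_sq
    have hmem : a ∈ Subgroup.centralizer ({a * a} : Set (SL2 F)) := by
      rw [Subgroup.mem_centralizer_singleton_iff]
      rw [mul_assoc]
    have hdvd : orderOf a ∣ Nat.card (Subgroup.centralizer ({a * a} : Set (SL2 F))) := by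
      have := orderOf_dvd_natCard (⟨a, hmem⟩ : Subgroup.centralizer ({a * a} : Set (SL2 F)))
      rwa [Subgroup.orderOf_mk] at this
    rw [hord] at hdvd
    obtain ⟨k, hk⟩ := hdvd
    rcases hq with h | h
    · rw [hc.2 (by omega)] at hk
      omega
    · rw [hc.1 (by omega)] at hk
      omega

/-- For q = 3 or 5 mod 8 the Sylow 2-subgroups of PSL_2(q) are elementary abelian of order 4. -/
theorem result {F : Type*} [Field F] [Fintype F] {q : ℕ} (hF : Fintype.card F = q) (hq : q % 8 = 3 ∨ q % 8 = 5) (P : Sylow 2 (Matrix.ProjectiveSpecialLinearGroup (Fin 2) F)) : IsKleinFour (P : Subgroup (Matrix.ProjectiveSpecialLinearGroup (Fin 2) F)) := by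
  classical
  subst hF
  have hodd : (Fintype.card F) % 2 = 1 := by omega
  have h1 := CfsgLib.ClassGeo.card_SL2 (F := F)
  have h3 := CfsgLib.ClassGeo.card_PSL_mul (F := F) rfl 2 (by norm_num)
  have hg : Nat.gcd 2 (Fintype.card F - 1) = 2 := by
    apply Nat.gcd_eq_left
    omega
  rw [hg, h1] at h3
  obtain ⟨m, hm, hmodd⟩ : ∃ m, Fintype.card F ^ 2 - 1 = 8 * m ∧ m % 2 = 1 := by
    obtain ⟨k, hk⟩ : ∃ k, Fintype.card F = 8 * k + 3 ∨ Fintype.card F = 8 * k + 5 := by
      refine ⟨Fintype.card F / 8, ?_⟩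
      omega
    rcases hk with hk | hk
    · refine ⟨8 * k ^ 2 + 6 * k + 1, ?_, ?_⟩
      · rw [hk]
        have : (8 * k + 3) ^ 2 = 8 * (8 * k ^ 2 + 6 * k + 1) + 1 := by ring
        omega
      · omega
    · refine ⟨8 * k ^ 2 + 10 * k + 3, ?_, ?_⟩
      · rw [hk]
        have : (8 * k + 5) ^ 2 = 8 * (8 * k ^ 2 + 10 * k + 3) + 1 := by ring
        omega
      · omega
  have hcard : Nat.card (Matrix.ProjectiveSpecialLinearGroup (Fin 2) F) = 2 ^ 2 * (Fintype.card F * m) := by
    rw [hm] at h3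
    have : Fintype.card F * (8 * m) = (2 ^ 2 * (Fintype.card F * m)) * 2 := by ring
    rw [this] at h3
    exact (Nat.eq_of_mul_eq_mul_right (by norm_num) h3).symm
  have hP : Nat.card P = 4 := by
    rw [Sylow.card_eq_multiplicity, hcard, CfsgLib.ClassGeo.pow_factorization_eq 2 2 _ Nat.prime_two]
    · norm_num
    · rw [Nat.Prime.dvd_mul Nat.prime_two]
      omega
  haveI : Nontrivial P := by
    rw [← Finite.one_lt_card_iff_nontrivial, hP]
    norm_num
  refine ⟨hP, (Monoid.exponent_eq_prime_iff Nat.prime_two).2 ?_⟩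
  intro g hg1
  apply orderOf_eq_prime
  · have h4 : g ^ 4 = 1 := by
      have := pow_card_eq_one' (x := g)
      rwa [hP] at this
    apply Subtype.ext
    have h5 := congrArg Subtype.val h4
    have h6 := pow4 hq (g : Matrix.ProjectiveSpecialLinearGroup (Fin 2) F) h5
    show (g : Matrix.ProjectiveSpecialLinearGroup (Fin 2) F) ^ 2 = 1
    rw [pow_two]
    exact h6
  · exact hg1

end Cfsg.Agent.S0276
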