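import Mathlib
import Cfsg.Agent.Lib.ClassGeo.UCount
import Cfsg.Statements.S0284
-- import your own Cfsg.Agent.* helpers here

set_option autoImplicit false
open Cfsg

namespace Cfsg.Agent.S0284

/-- The standard Hermitian form on F^n, |F| = q^2, has exactly q^(n-1) (q^n - (-1)^n) vectors of norm 1. -/
theorem result {F : Type*} [Field F] [Fintype F] {q : ℕ} (hF : Fintype.card F = q ^ 2) (n : ℕ) : Nat.card {v : Fin n → F // Cfsg.hermForm n F q v v = 1} = (if Even n then q ^ (n - 1) * (q ^ n - 1) else q ^ (n - 1) * (q ^ n + 1)) := by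
  have hq2 := CfsgLib.ClassGeo.qfrob_two_le hF
  cases n with
  | zero =>
    rw [CfsgLib.ClassGeo.herm_count_zero_one hF]
    simp
  | succ m =>
    have h := CfsgLib.ClassGeo.herm_one_closed hF m
    have h1 : 1 ≤ q ^ (m + 1) := Nat.one_le_pow _ _ (by omega)
    simp only [Nat.add_sub_cancel]
    split_ifs with he
    · rw [he.neg_one_pow] at h
      zify [h1]
      linarith
    · have ho : Odd (m + 1) := Nat.not_even_iff_odd.mp he
      rw [ho.neg_one_pow] at h
      zify
      linarith

end Cfsg.Agent.S0284
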