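import Mathlib
import Cfsg.Agent.Lib.ClassGeo.OOrder2
import Cfsg.Agent.Lib.ClassGeo.SymOver
import Cfsg.Statements.S0286
-- import your own Cfsg.Agent.* helpers here

set_option autoImplicit false
open Cfsg

namespace Cfsg.Agent.S0286

/-- |GO_{2m+1}(q)| = 2 q^(m^2) prod_{i=1}^{m} (q^(2i) - 1) for q odd. -/
theorem result {F : Type*} [Field F] [Fintype F] {q : ℕ} (hF : Fintype.card F = q) (hodd : Odd q) (m : ℕ) : Nat.card (Cfsg.isometryGroup F (Cfsg.quadFormOdd m F)) = 2 * q ^ (m ^ 2) * ∏ i ∈ Finset.range m, (q ^ (2 * (i + 1)) - 1) := by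
  subst hF
  have h2 : (2 : F) ≠ 0 := CfsgLib.ClassGeo.two_ne_zero_of_odd_card hodd
  rw [CfsgLib.ClassGeo.Orth.card_isometry_eq, CfsgLib.ClassGeo.Orth.card_isom_odd h2, Nat.card_eq_fintype_card (α := F)]

end Cfsg.Agent.S0286
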