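import Mathlib
import Cfsg.Agent.Lib.ClassGeo.OSimple
import Cfsg.Agent.Lib.ClassGeo.SymOver
import Cfsg.Statements.S0295
-- import your own Cfsg.Agent.* helpers here

set_option autoImplicit false
open Cfsg

namespace Cfsg.Agent.S0295

/-- PΩ_{2m+1}(q) is simple for q odd and m at least 3. -/
theorem result {F : Type*} [Field F] [Fintype F] (hodd : Odd (Fintype.card F)) (m : ℕ) (hm : 3 ≤ m) : IsSimpleGroup (Cfsg.POmega F (Cfsg.quadFormOdd m F)) := by
  classical
  have h2 : (2 : F) ≠ 0 := CfsgLib.ClassGeo.two_ne_zero_of_odd_card hodd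
  open CfsgLib.ClassGeo.Orth in
  have hnd := quadFormOdd_nondeg h2 m
  exact CfsgLib.ClassGeo.Orth.POmega_simple (mkQ hnd) (mkQ_nondeg hnd) (by simp; omega)

end Cfsg.Agent.S0295
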