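import Mathlib
import Cfsg.Agent.Lib.ClassGeo.OSimple
import Cfsg.Statements.S0296
-- import your own Cfsg.Agent.* helpers here

set_option autoImplicit false
open Cfsg

namespace Cfsg.Agent.S0296

/-- PΩ^+_{2m}(q) is simple for m at least 4. -/
theorem result {F : Type*} [Field F] [Fintype F] (m : ℕ) (hm : 4 ≤ m) : IsSimpleGroup (Cfsg.POmega F (Cfsg.quadFormPlus m F)) := by
  classical
  open CfsgLib.ClassGeo.Orth in
  have hnd := quadFormPlus_nondeg (F := F) m
  exact CfsgLib.ClassGeo.Orth.POmega_simple (mkQ hnd) (mkQ_nondeg hnd) (by simp; omega)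

end Cfsg.Agent.S0296
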