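import Mathlib
import Cfsg.Agent.Lib.ClassGeo.OLow
import Cfsg.Agent.Lib.ClassGeo.OCenter3
import Cfsg.Statements.S0298
-- import your own Cfsg.Agent.* helpers here

set_option autoImplicit false
open Cfsg

namespace Cfsg.Agent.S0298

abbrev I3 : Type := Unit ⊕ (Fin 1 ⊕ Fin 1)

open Matrix CfsgLib.ClassGeo CfsgLib.ClassGeo.Orth CfsgLib.ClassGeo.OLow CfsgLib.ClassGeo.OIso

/-- conjugation on trace zero matrices, in coordinates -/
def a3 {F : Type*} [Field F] (M : Matrix (Fin 2) (Fin 2) F) : (I3 → F) →ₗ[F] (I3 → F) where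
  toFun v := Sum.elim (fun _ => (M 0 0 * M 1 1 + M 0 1 * M 1 0) * v (.inl ()) - M 0 0 * M 1 0 * v (.inr (.inl 0)) + M 0 1 * M 1 1 * v (.inr (.inr 0)))
     (Sum.elim (fun _ => M 0 0 ^ 2 * v (.inr (.inl 0)) - M 0 1 ^ 2 * v (.inr (.inr 0)) - 2 * M 0 0 * M 0 1 * v (.inl ()))
        (fun _ => M 1 1 ^ 2 * v (.inr (.inr 0)) - M 1 0 ^ 2 * v (.inr (.inl 0)) + 2 * M 1 0 * M 1 1 * v (.inl ())))
  map_add' v w := by
    funext c
    rcases c with c | c | c <;> simp <;> ring
  map_smul' c v := by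
    funext d
    rcases d with d | d | d <;> simp <;> ring

theorem a3_inl {F : Type*} [Field F] (M : Matrix (Fin 2) (Fin 2) F) (v : I3 → F) (c : Unit) :
    a3 M v (.inl c) = (M 0 0 * M 1 1 + M 0 1 * M 1 0) * v (.inl ()) - M 0 0 * M 1 0 * v (.inr (.inl 0)) + M 0 1 * M 1 1 * v (.inr (.inr 0)) := rfl

theorem a3_inrl {F : Type*} [Field F] (M : Matrix (Fin 2) (Fin 2) F) (v : I3 → F) (c : Fin 1) :
    a3 M v (.inr (.inl c)) = M 0 0 ^ 2 * v (.inr (.inl 0)) - M 0 1 ^ 2 * v (.inr (.inr 0)) - 2 * M 0 0 * M 0 1 * v (.inl ()) := rfl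

theorem a3_inrr {F : Type*} [Field F] (M : Matrix (Fin 2) (Fin 2) F) (v : I3 → F) (c : Fin 1) :
    a3 M v (.inr (.inr c)) = M 1 1 ^ 2 * v (.inr (.inr 0)) - M 1 0 ^ 2 * v (.inr (.inl 0)) + 2 * M 1 0 * M 1 1 * v (.inl ()) := rfl

theorem a3_one {F : Type*} [Field F] (v : I3 → F) : a3 (1 : Matrix (Fin 2) (Fin 2) F) v = v := by
  funext c
  rcases c with c | c | c
  · obtain rfl : c = () := rfl
    rw [a3_inl]; simp
  · obtain rfl := Subsingleton.elim c 0
    rw [a3_inrl]; simp
  · obtain rfl := Subsingleton.elim c 0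
    rw [a3_inrr]; simp

theorem a3_mul {F : Type*} [Field F] (M N : Matrix (Fin 2) (Fin 2) F) (hM : M.det = 1) (hN : N.det = 1) (v : I3 → F) :
    a3 (M * N) v = a3 M (a3 N v) := by
  rw [Matrix.det_fin_two] at hM hN
  funext c
  rcases c with c | c | c
  · simp only [a3_inl, a3_inrl, a3_inrr, Matrix.mul_apply, Fin.sum_univ_two]
    ring
  · simp only [a3_inl, a3_inrl, a3_inrr, Matrix.mul_apply, Fin.sum_univ_two]
    ring
  · simp only [a3_inl, a3_inrl, a3_inrr, Matrix.mul_apply, Fin.sum_univ_two]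
    ring

theorem a3_q {F : Type*} [Field F] (M : Matrix (Fin 2) (Fin 2) F) (hM : M.det = 1) (v : I3 → F) :
    Cfsg.quadFormOdd 1 F (a3 M v) = Cfsg.quadFormOdd 1 F v := by
  rw [Matrix.det_fin_two] at hM
  simp only [Cfsg.quadFormOdd, Fin.sum_univ_one, a3_inl, a3_inrl, a3_inrr]
  linear_combination ((M 0 0 * M 1 1 - M 0 1 * M 1 0) + 1) * (v (.inl ()) ^ 2 + v (.inr (.inl 0)) * v (.inr (.inr 0))) * hM

/-- the homomorphism to the isometry group -/
noncomputable def φ3 (F : Type*) [Field F] : SpecialLinearGroup (Fin 2) F →* Cfsg.isometryGroup F (Cfsg.quadFormOdd 1 F) :=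
  isomHom (Cfsg.quadFormOdd 1 F) (fun g => a3 (g : Matrix (Fin 2) (Fin 2) F))
    (fun v => (congrArg (fun M => a3 M v) (Matrix.SpecialLinearGroup.coe_one)).trans (a3_one v))
    (fun g h v => (congrArg (fun M => a3 M v) (Matrix.SpecialLinearGroup.coe_mul g h)).trans (a3_mul _ _ g.2 h.2 v))
    (fun g v => a3_q _ g.2 v)

theorem mem_ker_φ3 {F : Type*} [Field F] (g : SpecialLinearGroup (Fin 2) F) :
    g ∈ (φ3 F).ker ↔ ∀ v, a3 (g : Matrix (Fin 2) (Fin 2) F) v = v :=
  mem_ker_isomHom _ _ _ _ _ g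

theorem ker_scalar3 {F : Type*} [Field F] (h2 : (2 : F) ≠ 0) (g : SpecialLinearGroup (Fin 2) F) (hg : g ∈ (φ3 F).ker) :
    ∃ c : F, c * c = 1 ∧ (g : Matrix (Fin 2) (Fin 2) F) = c • 1 := by
  rw [mem_ker_φ3] at hg
  have hdet := g.2
  rw [Matrix.det_fin_two] at hdet
  set M := (g : Matrix (Fin 2) (Fin 2) F) with hM
  have e1 := hg (Function.update 0 (.inr (.inl 0)) 1)
  have e2 := hg (Function.update 0 (.inr (.inr 0)) 1)
  have e3 : M 0 0 ^ 2 = 1 := by
    have := congrFun e1 (.inr (.inl 0))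
    simpa [a3_inrl] using this
  have e4 : M 1 0 ^ 2 = 0 := by
    have := congrFun e1 (.inr (.inr 0))
    simpa [a3_inrr] using this
  have e5 : M 0 1 ^ 2 = 0 := by
    have := congrFun e2 (.inr (.inl 0))
    simpa [a3_inrl] using this
  have e6 : M 1 0 = 0 := pow_eq_zero_iff (two_ne_zero) |>.mp e4
  have e7 : M 0 1 = 0 := pow_eq_zero_iff (two_ne_zero) |>.mp e5
  rw [e6, e7] at hdet
  have e8 : M 1 1 = M 0 0 := by
    have h : M 0 0 * (M 1 1 - M 0 0) = 0 := by
      linear_combination hdet - e3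
    have h00 : M 0 0 ≠ 0 := by
      intro h0
      rw [h0] at e3
      simp at e3
    exact sub_eq_zero.mp ((mul_eq_zero.mp h).resolve_left h00)
  refine ⟨M 0 0, by linear_combination e3, ?_⟩
  ext i j
  fin_cases i <;> fin_cases j <;> simp [e6, e7, e8]

theorem card_ker3 {F : Type*} [Field F] (h2 : (2 : F) ≠ 0) : Nat.card (φ3 F).ker = 2 := by
  classical
  let m : SpecialLinearGroup (Fin 2) F := ⟨-1, by
    rw [Matrix.det_neg]; simp⟩
  have hm : m ∈ (φ3 F).ker := by
    rw [mem_ker_φ3]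
    intro v
    funext c
    rcases c with c | c | c
    · show a3 (-1) v _ = _
      rw [a3_inl]; simp
    · obtain rfl := Subsingleton.elim c 0
      show a3 (-1) v _ = _
      rw [a3_inrl]; simp
    · obtain rfl := Subsingleton.elim c 0
      show a3 (-1) v _ = _
      rw [a3_inrr]; simp
  rw [Nat.card_eq_two_iff]
  refine ⟨1, ⟨m, hm⟩, ?_, ?_⟩
  · intro h
    have h1 := congrArg (fun x : (φ3 F).ker => ((x.1 : SpecialLinearGroup (Fin 2) F) : Matrix (Fin 2) (Fin 2) F) 0 0) h
    have h3 : (1 : F) = -1 := by simpa [m] using h1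
    apply h2
    linear_combination h3
  · ext ⟨g, hg⟩
    simp only [Set.mem_insert_iff, Set.mem_singleton_iff, Set.mem_univ, iff_true]
    obtain ⟨c, hc, hgc⟩ := ker_scalar3 h2 g hg
    have h3 : (c - 1) * (c + 1) = 0 := by linear_combination hc
    rcases mul_eq_zero.mp h3 with h4 | h4
    · left
      apply Subtype.ext
      apply Subtype.ext
      have : c = 1 := sub_eq_zero.mp h4
      rw [this, one_smul] at hgc
      exact hgc
    · right
      apply Subtype.ext
      apply Subtype.ext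
      have : c = -1 := eq_neg_of_add_eq_zero_left h4
      rw [this, neg_one_smul] at hgc
      exact hgc

theorem ker_le_center3 {F : Type*} [Field F] (h2 : (2 : F) ≠ 0) : (φ3 F).ker ≤ Subgroup.center (SpecialLinearGroup (Fin 2) F) := by
  intro g hg
  obtain ⟨c, hc, hgc⟩ := ker_scalar3 h2 g hg
  rw [Matrix.SpecialLinearGroup.mem_center_iff]
  refine ⟨c, ?_, ?_⟩
  · simp only [Fintype.card_fin]
    rw [pow_two]; exact hc
  · rw [hgc]
    ext i j
    simp [Matrix.scalar_apply, Matrix.diagonal_apply, Matrix.one_apply]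

/-- PΩ_3(q) is isomorphic to PSL_2(q) for q odd. -/
theorem result {F : Type*} [Field F] [Fintype F] (hodd : Odd (Fintype.card F)) : Nonempty (Cfsg.POmega F (Cfsg.quadFormOdd 1 F) ≃* Matrix.ProjectiveSpecialLinearGroup (Fin 2) F) := by
  classical
  have h2 : (2 : F) ≠ 0 := CfsgLib.ClassGeo.two_ne_zero_of_odd_card hodd
  obtain ⟨q, hF⟩ : ∃ q, Fintype.card F = q := ⟨_, rfl⟩
  have hcF : Nat.card F = q := by rw [Nat.card_eq_fintype_card, hF]
  have hq : 3 ≤ q := by
    have h1 : 2 ≤ q := by rw [← hF]; exact Fintype.one_lt_card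
    rw [hF] at hodd
    rcases hodd with ⟨k, hk⟩
    omega
  have hnd := quadFormOdd_nondeg h2 1
  let Q : QuadraticForm F (I3 → F) := mkQ hnd
  have hQnd : (QuadraticMap.polarBilin Q).Nondegenerate := mkQ_nondeg _
  have hO : Nat.card (Cfsg.isometryGroup F (Cfsg.quadFormOdd 1 F)) = 2 * (q * (q ^ 2 - 1)) := by
    rw [card_isometry_eq, card_isom_odd h2 1, hcF]
    simp [Finset.prod_range_succ]
    ring
  refine pomega_iso (Cfsg.quadFormOdd 1 F) (φ3 F) ?_ (ker_le_center3 h2) (center_PSL2_eq_bot (by omega)) ?_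
  · rintro _ ⟨g, rfl⟩
    induction g using CfsgLib.ClassGeo.SL_transvection_induction with
    | htransvec i j hij a =>
      have e : SpecialLinearGroup.transvection hij a = SpecialLinearGroup.transvection hij (a / 2) * SpecialLinearGroup.transvection hij (a / 2) := by
        apply Subtype.ext
        show Matrix.transvection i j a = Matrix.transvection i j (a / 2) * Matrix.transvection i j (a / 2)
        rw [Matrix.transvection_mul_transvection_same i j hij]
        congr 1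
        field_simp
        ring
      rw [e, map_mul]
      exact sq_mem_omega h2 (by simp) Q hQnd _
    | hmul A B hA hB =>
      rw [map_mul]
      exact mul_mem hA hB
  · rw [card_SL2 hF, card_ker3 h2]
    have h3 := card_Omega_mul_odd (Q := Q) h2 (by simp) hQnd
    have h4 : Nat.card (Cfsg.Omega F (Cfsg.quadFormOdd 1 F)) * 4 = Nat.card (Cfsg.isometryGroup F (Cfsg.quadFormOdd 1 F)) := h3
    rw [hO] at h4
    omega

end Cfsg.Agent.S0298
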