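import Mathlib
import Cfsg.Agent.Lib.ClassGeo.OLow
import Cfsg.Statements.S0299
-- import your own Cfsg.Agent.* helpers here

set_option autoImplicit false
open Cfsg

namespace Cfsg.Agent.S0299

abbrev I4 : Type := Fin 2 ⊕ Fin 2

open Matrix CfsgLib.ClassGeo CfsgLib.ClassGeo.Orth CfsgLib.ClassGeo.OLow CfsgLib.ClassGeo.OIso

/-- the matrix with given coordinates -/
def mat4 {F : Type*} [Field F] (v : I4 → F) : Matrix (Fin 2) (Fin 2) F :=
  !![v (.inl 0), v (.inl 1); -v (.inr 1), v (.inr 0)]

/-- the coordinates of a matrix -/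
def crd4 {F : Type*} [Field F] (X : Matrix (Fin 2) (Fin 2) F) : I4 → F :=
  Sum.elim ![X 0 0, X 0 1] ![X 1 1, -X 1 0]

theorem crd_mat4 {F : Type*} [Field F] (v : I4 → F) : crd4 (mat4 v) = v := by
  funext c
  rcases c with c | c <;> fin_cases c <;> simp [crd4, mat4]

theorem mat_crd4 {F : Type*} [Field F] (X : Matrix (Fin 2) (Fin 2) F) : mat4 (crd4 X) = X := by
  ext i j
  fin_cases i <;> fin_cases j <;> simp [crd4, mat4]

theorem det_mat4 {F : Type*} [Field F] (v : I4 → F) : (mat4 v).det = Cfsg.quadFormPlus 2 F v := by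
  rw [Matrix.det_fin_two]
  simp [mat4, Cfsg.quadFormPlus, Fin.sum_univ_two]

/-- the action `X ↦ g X h⁻¹` -/
def a4 {F : Type*} [Field F] (g h : Matrix (Fin 2) (Fin 2) F) : (I4 → F) →ₗ[F] (I4 → F) where
  toFun v := crd4 (g * mat4 v * h.adjugate)
  map_add' v w := by
    have e : mat4 (v + w) = mat4 v + mat4 w := by
      ext i j
      fin_cases i <;> fin_cases j <;> simp [mat4]
      ring
    rw [e, Matrix.mul_add, Matrix.add_mul]
    funext c
    rcases c with c | c <;> fin_cases c <;> simp [crd4]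
    ring
  map_smul' c v := by
    have e : mat4 (c • v) = c • mat4 v := by
      ext i j
      fin_cases i <;> fin_cases j <;> simp [mat4]
    rw [e, Matrix.mul_smul, Matrix.smul_mul]
    funext d
    rcases d with d | d <;> fin_cases d <;> simp [crd4]

theorem a4_apply {F : Type*} [Field F] (g h : Matrix (Fin 2) (Fin 2) F) (v : I4 → F) :
    a4 g h v = crd4 (g * mat4 v * h.adjugate) := rfl

theorem a4_one {F : Type*} [Field F] (v : I4 → F) : a4 (1 : Matrix (Fin 2) (Fin 2) F) 1 v = v := by
  rw [a4_apply, Matrix.adjugate_one, Matrix.one_mul, Matrix.mul_one, crd_mat4]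

theorem a4_mul {F : Type*} [Field F] (g h g' h' : Matrix (Fin 2) (Fin 2) F) (v : I4 → F) :
    a4 (g * g') (h * h') v = a4 g h (a4 g' h' v) := by
  rw [a4_apply, a4_apply, a4_apply, mat_crd4, Matrix.adjugate_mul_distrib]
  simp only [Matrix.mul_assoc]

theorem a4_q {F : Type*} [Field F] (g h : Matrix (Fin 2) (Fin 2) F) (hg : g.det = 1) (hh : h.det = 1) (v : I4 → F) :
    Cfsg.quadFormPlus 2 F (a4 g h v) = Cfsg.quadFormPlus 2 F v := by
  rw [← det_mat4, ← det_mat4, a4_apply, mat_crd4, Matrix.det_mul, Matrix.det_mul, hg, Matrix.det_adjugate, hh]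
  simp

/-- the homomorphism -/
noncomputable def φ4 (F : Type*) [Field F] : SpecialLinearGroup (Fin 2) F × SpecialLinearGroup (Fin 2) F →* Cfsg.isometryGroup F (Cfsg.quadFormPlus 2 F) :=
  isomHom (Cfsg.quadFormPlus 2 F) (fun g => a4 (g.1 : Matrix (Fin 2) (Fin 2) F) (g.2 : Matrix (Fin 2) (Fin 2) F))
    (fun v => (congrArg (fun M => a4 M (1 : Matrix (Fin 2) (Fin 2) F) v) (Matrix.SpecialLinearGroup.coe_one)).trans
      ((congrArg (fun M => a4 (1 : Matrix (Fin 2) (Fin 2) F) M v) (Matrix.SpecialLinearGroup.coe_one)).trans (a4_one v)))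
    (fun g h v => (congrArg (fun M => a4 M ((g * h).2 : Matrix (Fin 2) (Fin 2) F) v) (Matrix.SpecialLinearGroup.coe_mul g.1 h.1)).trans
      ((congrArg (fun M => a4 ((g.1 : Matrix (Fin 2) (Fin 2) F) * (h.1 : Matrix (Fin 2) (Fin 2) F)) M v) (Matrix.SpecialLinearGroup.coe_mul g.2 h.2)).trans (a4_mul _ _ _ _ v)))
    (fun g v => a4_q _ _ g.1.2 g.2.2 v)

theorem mem_ker_φ4 {F : Type*} [Field F] (g : SpecialLinearGroup (Fin 2) F × SpecialLinearGroup (Fin 2) F) :
    g ∈ (φ4 F).ker ↔ ∀ v, a4 (g.1 : Matrix (Fin 2) (Fin 2) F) (g.2 : Matrix (Fin 2) (Fin 2) F) v = v :=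
  mem_ker_isomHom _ _ _ _ _ g

theorem ker_scalar4 {F : Type*} [Field F] (g : SpecialLinearGroup (Fin 2) F × SpecialLinearGroup (Fin 2) F) (hg : g ∈ (φ4 F).ker) :
    ∃ c : F, c * c = 1 ∧ (g.1 : Matrix (Fin 2) (Fin 2) F) = c • 1 ∧ (g.2 : Matrix (Fin 2) (Fin 2) F) = c • 1 := by
  rw [mem_ker_φ4] at hg
  have hdet := g.1.2
  have hdet2 := g.2.2
  set M := (g.1 : Matrix (Fin 2) (Fin 2) F) with hM
  set N := (g.2 : Matrix (Fin 2) (Fin 2) F) with hN
  have h1 : ∀ X : Matrix (Fin 2) (Fin 2) F, M * X = X * N := by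
    intro X
    have h2 := hg (crd4 X)
    rw [a4_apply, mat_crd4] at h2
    have h3 := congrArg mat4 h2
    rw [mat_crd4, mat_crd4] at h3
    calc M * X = M * X * (N.adjugate * N) := by rw [Matrix.adjugate_mul, hdet2, one_smul, Matrix.mul_one]
      _ = (M * X * N.adjugate) * N := by simp only [Matrix.mul_assoc]
      _ = X * N := by rw [h3]
  have e1 : M = N := by simpa using h1 1
  have e2 := h1 (Matrix.single 0 1 1)
  have e3 := h1 (Matrix.single 1 0 1)
  rw [← e1] at e2 e3
  have f1 : M 1 0 = 0 := by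
    have := congrFun (congrFun e2 1) 1
    simpa [Matrix.mul_apply, Fin.sum_univ_two, Matrix.single_apply] using this
  have f2 : M 0 0 = M 1 1 := by
    have := congrFun (congrFun e2 0) 1
    simpa [Matrix.mul_apply, Fin.sum_univ_two, Matrix.single_apply] using this
  have f3 : M 0 1 = 0 := by
    have := congrFun (congrFun e3 1) 1
    simpa [Matrix.mul_apply, Fin.sum_univ_two, Matrix.single_apply] using this.symm
  rw [Matrix.det_fin_two, f1, f3, ← f2] at hdet
  have hs : M = M 0 0 • (1 : Matrix (Fin 2) (Fin 2) F) := by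
    ext i j
    fin_cases i <;> fin_cases j <;> simp [f1, f2, f3]
  exact ⟨M 0 0, by linear_combination hdet, hs, by rw [← e1]; exact hs⟩

theorem ker_le_center4 {F : Type*} [Field F] : (φ4 F).ker ≤ Subgroup.center (SpecialLinearGroup (Fin 2) F × SpecialLinearGroup (Fin 2) F) := by
  intro g hg
  obtain ⟨c, hc, hg1, hg2⟩ := ker_scalar4 g hg
  have key : ∀ x : SpecialLinearGroup (Fin 2) F, (x : Matrix (Fin 2) (Fin 2) F) = c • 1 → x ∈ Subgroup.center (SpecialLinearGroup (Fin 2) F) := by
    intro x hx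
    rw [Matrix.SpecialLinearGroup.mem_center_iff]
    refine ⟨c, ?_, ?_⟩
    · simp only [Fintype.card_fin]
      rw [pow_two]; exact hc
    · rw [hx]
      ext i j
      simp [Matrix.scalar_apply, Matrix.diagonal_apply, Matrix.one_apply]
  rw [Subgroup.mem_center_iff]
  intro y
  have h1 := Subgroup.mem_center_iff.mp (key g.1 hg1) y.1
  have h2 := Subgroup.mem_center_iff.mp (key g.2 hg2) y.2
  exact Prod.ext h1 h2

theorem card_ker4 {F : Type*} [Field F] (h2 : (2 : F) ≠ 0) : Nat.card (φ4 F).ker = 2 := by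
  classical
  let m : SpecialLinearGroup (Fin 2) F := ⟨-1, by
    rw [Matrix.det_neg]; simp⟩
  have hm : (m, m) ∈ (φ4 F).ker := by
    rw [mem_ker_φ4]
    intro v
    show a4 (-1) (-1) v = v
    rw [a4_apply]
    have : Matrix.adjugate (-1 : Matrix (Fin 2) (Fin 2) F) = -1 := by
      rw [Matrix.adjugate_fin_two]
      ext i j
      fin_cases i <;> fin_cases j <;> simp
    rw [this]
    simp [crd_mat4]
  rw [Nat.card_eq_two_iff]
  refine ⟨1, ⟨(m, m), hm⟩, ?_, ?_⟩
  · intro h
    have h1 := congrArg (fun x : (φ4 F).ker => ((x.1.1 : SpecialLinearGroup (Fin 2) F) : Matrix (Fin 2) (Fin 2) F) 0 0) h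
    have h3 : (1 : F) = -1 := by simpa [m] using h1
    apply h2
    linear_combination h3
  · ext ⟨g, hg⟩
    simp only [Set.mem_insert_iff, Set.mem_singleton_iff, Set.mem_univ, iff_true]
    obtain ⟨c, hc, hg1, hg2⟩ := ker_scalar4 g hg
    have h3 : (c - 1) * (c + 1) = 0 := by linear_combination hc
    rcases mul_eq_zero.mp h3 with h4 | h4
    · left
      apply Subtype.ext
      have e : c = 1 := sub_eq_zero.mp h4
      rw [e, one_smul] at hg1 hg2
      exact Prod.ext (Subtype.ext hg1) (Subtype.ext hg2)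
    · right
      apply Subtype.ext
      have e : c = -1 := eq_neg_of_add_eq_zero_left h4
      rw [e, neg_one_smul] at hg1 hg2
      exact Prod.ext (Subtype.ext hg1) (Subtype.ext hg2)

theorem ker_bot4 {F : Type*} [Field F] (h2 : (2 : F) = 0) : (φ4 F).ker = ⊥ := by
  rw [eq_bot_iff]
  intro g hg
  obtain ⟨c, hc, hg1, hg2⟩ := ker_scalar4 g hg
  have h3 : (c + 1) ^ 2 = 0 := by
    linear_combination hc + c * h2 + h2 * 1
  have h4 : c + 1 = 0 := pow_eq_zero_iff (two_ne_zero) |>.mp h3
  have h5 : c = 1 := by linear_combination h4 - h2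
  rw [h5, one_smul] at hg1 hg2
  rw [Subgroup.mem_bot]
  exact Prod.ext (Subtype.ext hg1) (Subtype.ext hg2)

/-- the central quotient of a direct product -/
theorem quot_prod {A B : Type*} [Group A] [Group B] :
    Nonempty (((A × B) ⧸ Subgroup.center (A × B)) ≃* ((A ⧸ Subgroup.center A) × (B ⧸ Subgroup.center B))) := by
  let f : A × B →* (A ⧸ Subgroup.center A) × (B ⧸ Subgroup.center B) :=
    MonoidHom.prodMap (QuotientGroup.mk' _) (QuotientGroup.mk' _)
  have hs : Function.Surjective f := by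
    rintro ⟨x, y⟩
    obtain ⟨a, rfl⟩ := QuotientGroup.mk'_surjective _ x
    obtain ⟨b, rfl⟩ := QuotientGroup.mk'_surjective _ y
    exact ⟨(a, b), rfl⟩
  have hk : f.ker = Subgroup.center (A × B) := by
    ext ⟨a, b⟩
    rw [MonoidHom.mem_ker, Subgroup.mem_center_iff]
    constructor
    · intro h
      have h1 : (QuotientGroup.mk' (Subgroup.center A)) a = 1 := congrArg Prod.fst h
      have h2 : (QuotientGroup.mk' (Subgroup.center B)) b = 1 := congrArg Prod.snd h
      rw [QuotientGroup.mk'_apply, QuotientGroup.eq_one_iff, Subgroup.mem_center_iff] at h1 h2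
      intro y
      exact Prod.ext (h1 y.1) (h2 y.2)
    · intro h
      apply Prod.ext
      · show (QuotientGroup.mk' (Subgroup.center A)) a = 1
        rw [QuotientGroup.mk'_apply, QuotientGroup.eq_one_iff, Subgroup.mem_center_iff]
        intro y
        exact congrArg Prod.fst (h (y, 1))
      · show (QuotientGroup.mk' (Subgroup.center B)) b = 1
        rw [QuotientGroup.mk'_apply, QuotientGroup.eq_one_iff, Subgroup.mem_center_iff]
        intro y
        exact congrArg Prod.snd (h (1, y))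
  exact ⟨(QuotientGroup.quotientMulEquivOfEq hk.symm).trans (QuotientGroup.quotientKerEquivOfSurjective f hs)⟩

theorem center_bot_of_equiv {A B : Type*} [Group A] [Group B] (e : A ≃* B) (h : Subgroup.center B = ⊥) : Subgroup.center A = ⊥ := by
  rw [eq_bot_iff]
  intro x hx
  have h6 : e x ∈ Subgroup.center B := by
    rw [Subgroup.mem_center_iff] at hx ⊢
    intro y
    obtain ⟨z, rfl⟩ := e.surjective y
    rw [← map_mul, ← map_mul, hx z]
  rw [h, Subgroup.mem_bot] at h6
  rw [Subgroup.mem_bot]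
  exact e.injective (h6.trans (map_one e).symm)

/-- PΩ^+_4(q) is isomorphic to PSL_2(q) x PSL_2(q) for q at least 3. -/
theorem result {F : Type*} [Field F] [Fintype F] (hF : 3 ≤ Fintype.card F) : Nonempty (Cfsg.POmega F (Cfsg.quadFormPlus 2 F) ≃* Matrix.ProjectiveSpecialLinearGroup (Fin 2) F × Matrix.ProjectiveSpecialLinearGroup (Fin 2) F) := by
  classical
  obtain ⟨q, hq⟩ : ∃ q, Fintype.card F = q := ⟨_, rfl⟩
  have hcF : Nat.card F = q := by rw [Nat.card_eq_fintype_card, hq]
  have hnd := quadFormPlus_nondeg (F := F) 2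
  let Q : QuadraticForm F (I4 → F) := mkQ hnd
  have hQnd : (QuadraticMap.polarBilin Q).Nondegenerate := mkQ_nondeg _
  have hO : Nat.card (Cfsg.isometryGroup F (Cfsg.quadFormPlus 2 F)) = 2 * (q * (q ^ 2 - 1)) * (q * (q ^ 2 - 1)) := by
    rw [card_isometry_eq, card_isom_plus 1, hcF]
    simp [Finset.prod_range_succ]
    ring
  obtain ⟨e⟩ := quot_prod (A := SpecialLinearGroup (Fin 2) F) (B := SpecialLinearGroup (Fin 2) F)
  have hc0 := center_PSL2_eq_bot (F := F) hF
  have hc : Subgroup.center ((SpecialLinearGroup (Fin 2) F × SpecialLinearGroup (Fin 2) F) ⧸ Subgroup.center (SpecialLinearGroup (Fin 2) F × SpecialLinearGroup (Fin 2) F)) = ⊥ := by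
    apply center_bot_of_equiv e
    rw [eq_bot_iff]
    intro x hx
    rw [Subgroup.mem_center_iff] at hx
    have h1 : x.1 ∈ Subgroup.center (Matrix.ProjectiveSpecialLinearGroup (Fin 2) F) := by
      rw [Subgroup.mem_center_iff]
      intro y
      exact congrArg Prod.fst (hx (y, 1))
    have h2 : x.2 ∈ Subgroup.center (Matrix.ProjectiveSpecialLinearGroup (Fin 2) F) := by
      rw [Subgroup.mem_center_iff]
      intro y
      exact congrArg Prod.snd (hx (1, y))
    rw [hc0, Subgroup.mem_bot] at h1 h2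
    rw [Subgroup.mem_bot]
    exact Prod.ext h1 h2
  have hr : (φ4 F).range ≤ Cfsg.Omega F (Cfsg.quadFormPlus 2 F) := by
    have key : ∀ ψ : SpecialLinearGroup (Fin 2) F →* Cfsg.isometryGroup F (Cfsg.quadFormPlus 2 F), ψ.range ≤ Cfsg.Omega F (Cfsg.quadFormPlus 2 F) := by
      intro ψ
      by_cases h2 : (2 : F) = 0
      · have h5 : ∃ x : F, x ≠ 0 ∧ x ^ 2 ≠ 1 := by
          have hq4 : 4 ≤ Fintype.card F := by
            have hev : Even (Fintype.card F) := by
              have h3 : ringChar F = 2 := CharP.ringChar_of_prime_eq_zero Nat.prime_two (by exact_mod_cast h2)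
              exact Nat.even_iff.mpr (FiniteField.even_card_of_char_two h3)
            rcases hev with ⟨k, hk⟩
            omega
          obtain ⟨ζ, hζ⟩ := IsCyclic.exists_generator (α := Fˣ)
          have hord : orderOf ζ = Fintype.card F - 1 := by
            rw [orderOf_eq_card_of_forall_mem_zpowers hζ, Nat.card_units, Nat.card_eq_fintype_card]
          refine ⟨ζ, ζ.ne_zero, ?_⟩
          intro h
          have h2 : ζ ^ 2 = 1 := Units.ext (by simpa using h)
          have h3 := orderOf_le_of_pow_eq_one (by norm_num) h2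
          omega
        have h1 := Subgroup.map_commutator (⊤ : Subgroup (SpecialLinearGroup (Fin 2) F)) ⊤ ψ
        rw [← commutator_def, CfsgLib.H9.PSLSimple.perf (F := F) (n := 2) (Or.inr ⟨rfl, h5⟩)] at h1
        rw [MonoidHom.range_eq_map, h1]
        rw [Cfsg.Omega, commutator_def]
        exact Subgroup.commutator_mono le_top le_top
      · rintro _ ⟨g, rfl⟩
        induction g using CfsgLib.ClassGeo.SL_transvection_induction with
        | htransvec i j hij a =>
          have e : SpecialLinearGroup.transvection hij a = SpecialLinearGroup.transvection hij (a / 2) * SpecialLinearGroup.transvection hij (a / 2) := by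
            apply Subtype.ext
            show Matrix.transvection i j a = Matrix.transvection i j (a / 2) * Matrix.transvection i j (a / 2)
            rw [Matrix.transvection_mul_transvection_same i j hij]
            congr 1
            field_simp
            ring
          rw [e, map_mul]
          exact sq_mem_omega h2 (by simp) Q hQnd _
        | hmul A B hA hB =>
          rw [map_mul]
          exact mul_mem hA hB
    rintro _ ⟨g, rfl⟩
    have e1 : g = (g.1, 1) * (1, g.2) := by simp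
    rw [e1, map_mul]
    exact mul_mem (key ((φ4 F).comp (MonoidHom.inl _ _)) ⟨g.1, rfl⟩) (key ((φ4 F).comp (MonoidHom.inr _ _)) ⟨g.2, rfl⟩)
  have hcard : Nat.card (Cfsg.Omega F (Cfsg.quadFormPlus 2 F)) * Nat.card (φ4 F).ker = Nat.card (SpecialLinearGroup (Fin 2) F × SpecialLinearGroup (Fin 2) F) := by
    rw [Nat.card_prod, card_SL2 hq]
    by_cases h2 : (2 : F) = 0
    · rw [ker_bot4 h2, Subgroup.card_bot, mul_one]
      have h3 := card_Omega_mul_even (Q := Q) h2 (by simp) hQnd (Or.inl (by omega))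
      have h4 : Nat.card (Cfsg.Omega F (Cfsg.quadFormPlus 2 F)) * 2 = Nat.card (Cfsg.isometryGroup F (Cfsg.quadFormPlus 2 F)) := h3
      rw [hO] at h4
      have : 2 * (q * (q ^ 2 - 1)) * (q * (q ^ 2 - 1)) = 2 * ((q * (q ^ 2 - 1)) * (q * (q ^ 2 - 1))) := by ring
      omega
    · rw [card_ker4 h2]
      have h3 := card_Omega_mul_odd (Q := Q) h2 (by simp) hQnd
      have h4 : Nat.card (Cfsg.Omega F (Cfsg.quadFormPlus 2 F)) * 4 = Nat.card (Cfsg.isometryGroup F (Cfsg.quadFormPlus 2 F)) := h3
      rw [hO] at h4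
      have : 2 * (q * (q ^ 2 - 1)) * (q * (q ^ 2 - 1)) = 2 * ((q * (q ^ 2 - 1)) * (q * (q ^ 2 - 1))) := by ring
      omega
  obtain ⟨i⟩ := pomega_iso (Cfsg.quadFormPlus 2 F) (φ4 F) hr ker_le_center4 hc hcard
  exact ⟨i.trans e⟩

end Cfsg.Agent.S0299
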