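import Mathlib
import Cfsg.Agent.Lib.ClassGeo.OChar2
import Cfsg.Statements.S0304
-- import your own Cfsg.Agent.* helpers here

set_option autoImplicit false
open Cfsg

namespace Cfsg.Agent.S0304

/-- In characteristic 2, O_{2m+1}(q) is isomorphic to Sp_{2m}(q). -/
theorem result {F : Type*} [Field F] [Fintype F] [CharP F 2] (m : ℕ) : Nonempty (Cfsg.isometryGroup F (Cfsg.quadFormOdd m F) ≃* Matrix.symplecticGroup (Fin m) F) := by
  exact ⟨(CfsgLib.ClassGeo.preservingEquiv (fun a _ : (Unit ⊕ (Fin m ⊕ Fin m) → F) => Cfsg.quadFormOdd m F a)).trans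
    ((CfsgLib.ClassGeo.OChar2.isoSp (m := m)).trans (CfsgLib.ClassGeo.spEquiv m).symm)⟩

end Cfsg.Agent.S0304
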