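import Mathlib
import Cfsg.Agent.Lib.ClassGeo.CyclicQuot
import Cfsg.Agent.Lib.ClassGeo.Basic
import Cfsg.Statements.S0307
-- import your own Cfsg.Agent.* helpers here

set_option autoImplicit false
open Cfsg

namespace Cfsg.Agent.S0307

/-- PSL_n(q) is normal in PGL_n(q) with cyclic quotient of order gcd(n, q-1): the image of the natural map PSL_n → PGL_n is the kernel of a surjective homomorphism onto the cyclic group of that order. -/
theorem result {F : Type*} [Field F] [Fintype F] {q : ℕ} (hF : Fintype.card F = q) (n : ℕ) (hn : 1 ≤ n) : ∃ g : Matrix.ProjGenLinGroup (Fin n) F →* Multiplicative (ZMod (Nat.gcd n (q - 1))), Function.Surjective g ∧ g.ker = (Matrix.ProjectiveSpecialLinearGroup.toPGL : Matrix.ProjectiveSpecialLinearGroup (Fin n) F →* Matrix.ProjGenLinGroup (Fin n) F).range := by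
  classical
  have hne : Nonempty (Fin n) := ⟨⟨0, hn⟩⟩
  have h0 := CfsgLib.ClassGeo.cyclic_pow_quot (C := Fˣ) n
  rw [CfsgLib.ClassGeo.card_units_of_card hF] at h0
  obtain ⟨φ, hφs, hφ⟩ := h0
  let g₀ : Matrix.GeneralLinearGroup (Fin n) F →* Multiplicative (ZMod (Nat.gcd n (q - 1))) :=
    φ.comp Matrix.GeneralLinearGroup.det
  have hscal : g₀.comp (Matrix.GeneralLinearGroup.scalar (Fin n)) = 1 := by
    ext u
    change φ (Matrix.GeneralLinearGroup.det (Matrix.GeneralLinearGroup.scalar (Fin n) u)) = 1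
    rw [hφ]
    refine ⟨u, ?_⟩
    ext
    simp [Matrix.GeneralLinearGroup.scalar]
  refine ⟨Matrix.ProjGenLinGroup.lift g₀ hscal, ?_, ?_⟩
  · intro y
    obtain ⟨u, rfl⟩ := hφs y
    obtain ⟨A, rfl⟩ := Matrix.GeneralLinearGroup.det_surjective (n := Fin n) u
    exact ⟨Matrix.ProjGenLinGroup.mk A, rfl⟩
  · ext x
    constructor
    · intro hx
      obtain ⟨A, rfl⟩ := Matrix.ProjGenLinGroup.mk_surjective x
      have h1 : φ (Matrix.GeneralLinearGroup.det A) = 1 := hx
      obtain ⟨u, hu⟩ := (hφ _).mp h1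
      let s : Matrix.SpecialLinearGroup (Fin n) F := ⟨(A * Matrix.GeneralLinearGroup.scalar (Fin n) u⁻¹ : Matrix.GeneralLinearGroup (Fin n) F), by
        have := congrArg Units.val (show Matrix.GeneralLinearGroup.det (A * Matrix.GeneralLinearGroup.scalar (Fin n) u⁻¹) = 1 by
          rw [map_mul, ← hu]
          ext
          simp [Matrix.GeneralLinearGroup.scalar])
        simpa using this⟩
      refine ⟨(QuotientGroup.mk s : Matrix.ProjectiveSpecialLinearGroup (Fin n) F), ?_⟩
      rw [Matrix.ProjectiveSpecialLinearGroup.toPGL_mk, Matrix.ProjGenLinGroup.mk_eq_mk_iff]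
      refine ⟨u, ?_⟩
      apply Units.ext
      change (((A * Matrix.GeneralLinearGroup.scalar (Fin n) u⁻¹ : Matrix.GeneralLinearGroup (Fin n) F) : Matrix (Fin n) (Fin n) F) * ((Matrix.GeneralLinearGroup.scalar (Fin n) u : Matrix.GeneralLinearGroup (Fin n) F) : Matrix (Fin n) (Fin n) F)) = A
      rw [← Units.val_mul, mul_assoc, ← map_mul, inv_mul_cancel, map_one, mul_one]
    · rintro ⟨y, rfl⟩
      obtain ⟨s, rfl⟩ := QuotientGroup.mk'_surjective _ y
      change φ (Matrix.GeneralLinearGroup.det (Matrix.SpecialLinearGroup.toGL s)) = 1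
      have : Matrix.GeneralLinearGroup.det (Matrix.SpecialLinearGroup.toGL s) = 1 := by
        ext
        simp
      rw [this, map_one]

end Cfsg.Agent.S0307
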