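import Cfsg.Statements.S0313
import Cfsg.Agent.Lib.BN.Parabolic

set_option autoImplicit false
open Cfsg

namespace Cfsg.Agent.S0313

/-- Two standard parabolic subgroups of a group with a (B,N)-pair which are conjugate in `G` coincide. -/
theorem result {G : Type*} [Group G] (P : Cfsg.BNPair G) {J K : Set G}
    (hJ : J ⊆ P.S) (hK : K ⊆ P.S) (g : G)
    (h : (P.parabolic J).map (MulAut.conj g).toMonoidHom = P.parabolic K) :
    P.parabolic J = P.parabolic K := by
  have hg : g ∈ P.parabolic K := by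
    apply CfsgLib.BN.mem_of_conj_le (CfsgLib.BN.le_parabolic K)
    intro b hb
    rw [← h]
    exact Subgroup.mem_map.2 ⟨b, CfsgLib.BN.le_parabolic J hb, rfl⟩
  apply le_antisymm
  · intro x hx
    have h1 : g * x * g⁻¹ ∈ P.parabolic K := by
      rw [← h]
      exact Subgroup.mem_map.2 ⟨x, hx, rfl⟩
    have := Subgroup.mul_mem _ (Subgroup.mul_mem _ (Subgroup.inv_mem _ hg) h1) hg
    simpa [mul_assoc] using this
  · intro x hx
    have h1 : g * x * g⁻¹ ∈ P.parabolic K :=
      Subgroup.mul_mem _ (Subgroup.mul_mem _ hg hx) (Subgroup.inv_mem _ hg)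
    rw [← h] at h1
    obtain ⟨y, hy, hye⟩ := Subgroup.mem_map.1 h1
    have : y = x := by
      have h2 : g * y * g⁻¹ = g * x * g⁻¹ := hye
      simpa using h2
    rwa [← this]

end Cfsg.Agent.S0313
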