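import Cfsg.Statements.S0316
import Cfsg.Agent.Lib.BN.Parabolic

set_option autoImplicit false
open Cfsg

namespace Cfsg.Agent.S0316

/-- The map `J ↦ P_J` is a lattice isomorphism from the power set of the set of distinguished generators onto the
subgroups containing `B`. -/
theorem result {G : Type*} [Group G] (P : Cfsg.BNPair G) :
    ∃ e : Set P.S ≃o {M : Subgroup G // P.B ≤ M},
      ∀ J : Set P.S, ((e J : {M : Subgroup G // P.B ≤ M}) : Subgroup G) = P.parabolic (Subtype.val '' J) := by
  refine ⟨{ toFun := fun J => ⟨P.parabolic (Subtype.val '' J), CfsgLib.BN.le_parabolic _⟩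
            invFun := fun M => {s : P.S | (s : G) ∈ M.1}
            left_inv := ?_
            right_inv := ?_
            map_rel_iff' := ?_ }, fun J => rfl⟩
  · intro J
    ext s
    have hJ : Subtype.val '' J ⊆ P.S := by
      rintro _ ⟨x, _, rfl⟩; exact x.2
    simp only [Set.mem_setOf_eq]
    rw [CfsgLib.BN.S_mem_parabolic_iff hJ s.2]
    simp
  · rintro ⟨M, hM⟩
    apply Subtype.ext
    simp only
    have h := CfsgLib.BN.eq_parabolic_of_le M hM
    rw [h]
    congr 1
    ext x
    constructor
    · rintro ⟨y, hy, rfl⟩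
      refine ⟨y.2, ?_⟩
      have : (y : G) ∈ M := by
        rw [h]
        simpa using hy
      exact this
    · rintro ⟨hx, hxM⟩
      refine ⟨⟨x, hx⟩, ?_, rfl⟩
      show x ∈ P.parabolic (P.S ∩ (M : Set G))
      rw [← h]
      exact hxM
  · intro J K
    have hJ : Subtype.val '' J ⊆ P.S := by
      rintro _ ⟨x, _, rfl⟩; exact x.2
    have hK : Subtype.val '' K ⊆ P.S := by
      rintro _ ⟨x, _, rfl⟩; exact x.2
    show P.parabolic (Subtype.val '' J) ≤ P.parabolic (Subtype.val '' K) ↔ J ≤ K
    rw [CfsgLib.BN.parabolic_le_iff hJ hK]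
    exact Set.image_subset_image_iff Subtype.val_injective

end Cfsg.Agent.S0316
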