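import Cfsg.Statements.S0320
import Cfsg.Agent.Lib.BN.Coxeter

set_option autoImplicit false
open Cfsg

namespace Cfsg.Agent.S0320

/-- The Weyl group `W = N / (B ⊓ N)` of a (B,N)-pair, with its distinguished involutions, is a Coxeter system. -/
theorem result {G : Type*} [Group G] (P : Cfsg.BNPair G)
    [hN : ((P.B ⊓ P.N).subgroupOf P.N).Normal] :
    ∃ (M : CoxeterMatrix P.S) (cs : CoxeterSystem M (P.N ⧸ (P.B ⊓ P.N).subgroupOf P.N)),
      ∀ s : P.S, cs.simple s = QuotientGroup.mk (⟨(s : G), P.subset s.2⟩ : P.N) := by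
  classical
  let mkW : P.N →* (P.N ⧸ (P.B ⊓ P.N).subgroupOf P.N) := QuotientGroup.mk' _
  have hker : ∀ u : P.N, mkW u = 1 ↔ (u : G) ∈ P.B := by
    intro u
    show ((u : P.N ⧸ (P.B ⊓ P.N).subgroupOf P.N) = 1) ↔ _
    rw [QuotientGroup.eq_one_iff, Subgroup.mem_subgroupOf]
    exact ⟨fun h => h.1, fun h => ⟨h, u.2⟩⟩
  have hmkeq : ∀ u v : P.N, mkW u = mkW v ↔ (u : G)⁻¹ * v ∈ P.B := by
    intro u v
    have h1 := hker (u⁻¹ * v)
    rw [map_mul, map_inv, inv_mul_eq_one] at h1
    rw [h1]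
    simp
  let σ : P.S → (P.N ⧸ (P.B ⊓ P.N).subgroupOf P.N) := fun s => mkW ⟨s, P.subset s.2⟩
  have hσ2 : ∀ s, σ s * σ s = 1 := by
    intro s
    show mkW _ * mkW _ = 1
    rw [← map_mul, hker]
    exact P.sq_mem s s.2
  have hσinv : ∀ s, (σ s)⁻¹ = σ s := fun s => inv_eq_of_mul_eq_one_left (hσ2 s)
  let M : CoxeterMatrix P.S :=
    { M := fun s s' => orderOf (σ s * σ s')
      isSymm := by
        apply Matrix.IsSymm.ext
        intro i j
        show orderOf (σ j * σ i) = orderOf (σ i * σ j)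
        rw [← orderOf_inv, mul_inv_rev, hσinv, hσinv]
      diagonal := by
        intro i
        show orderOf (σ i * σ i) = 1
        rw [hσ2, orderOf_one]
      off_diagonal := by
        intro i j hij h
        have h1 : orderOf (σ i * σ j) = 1 := h
        rw [orderOf_eq_one_iff] at h1
        have h2 : σ i = σ j := by
          rw [← hσinv j]
          exact eq_inv_of_mul_eq_one_left h1
        have h3 := (hmkeq _ _).1 h2
        exact hij (Subtype.ext (P.inj i i.2 j j.2 h3)) }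
  have hMapply : ∀ s s', M s s' = orderOf (σ s * σ s') := fun _ _ => rfl
  let φ : M.Group →* (P.N ⧸ (P.B ⊓ P.N).subgroupOf P.N) :=
    M.toCoxeterSystem.lift ⟨σ, fun s s' => by
      rw [hMapply]; exact pow_orderOf_eq_one _⟩
  have hφ : ∀ s, φ (M.simple s) = σ s := by
    intro s
    exact M.toCoxeterSystem.lift_apply_simple _ s
  have hss : ∀ s, M.simple s * M.simple s = 1 := fun s =>
    M.toCoxeterSystem.simple_mul_simple_self s
  have hspow : ∀ s s', (M.simple s * M.simple s') ^ (M s s') = 1 := fun s s' =>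
    M.toCoxeterSystem.simple_mul_simple_pow s s'
  let f : G → M.Group := fun x => if h : x ∈ P.S then M.simple ⟨x, h⟩ else 1
  have hfS : ∀ {x : G} (h : x ∈ P.S), f x = M.simple ⟨x, h⟩ := fun h => dif_pos h
  let g : G → (P.N ⧸ (P.B ⊓ P.N).subgroupOf P.N) := fun x => if h : x ∈ P.N then mkW ⟨x, h⟩ else 1
  have hgN : ∀ {x : G} (h : x ∈ P.N), g x = mkW ⟨x, h⟩ := fun h => dif_pos h
  have hgmul : ∀ {x y : G}, x ∈ P.N → y ∈ P.N → g (x * y) = g x * g y := by
    intro x y hx hy
    rw [hgN hx, hgN hy, hgN (P.N.mul_mem hx hy), ← map_mul]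
    rfl
  have hgone : g 1 = 1 := by
    rw [hgN P.N.one_mem]
    exact map_one mkW
  have hgprod : ∀ L : List G, (∀ x ∈ L, x ∈ P.N) → g L.prod = (L.map g).prod := by
    intro L
    induction L with
    | nil => intro _; simpa using hgone
    | cons a L ih =>
      intro hL
      have ha : a ∈ P.N := hL a (by simp)
      have hLN : ∀ x ∈ L, x ∈ P.N := fun x hx => hL x (by simp [hx])
      have hprod : L.prod ∈ P.N := Subgroup.list_prod_mem _ hLN
      simp only [List.prod_cons, List.map_cons]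
      rw [hgmul ha hprod, ih hLN]
  have hφg : ∀ L : List G, (∀ x ∈ L, x ∈ P.S) → φ (L.map f).prod = g L.prod := by
    intro L
    induction L with
    | nil => intro _; simpa using hgone.symm
    | cons a L ih =>
      intro hL
      have ha : a ∈ P.S := hL a (by simp)
      have hLS : ∀ x ∈ L, x ∈ P.S := fun x hx => hL x (by simp [hx])
      have hprod : L.prod ∈ P.N := CfsgLib.BN.word_prod_mem_N hLS
      simp only [List.prod_cons, List.map_cons]
      rw [map_mul, ih hLS, hgmul (P.subset ha) hprod, hfS ha, hφ, hgN (P.subset ha)]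
  have hf1 : ∀ s ∈ P.S, f s * f s = 1 := by
    intro s hs
    rw [hfS hs]
    exact hss _
  have hf2 : ∀ x ∈ P.S, ∀ y ∈ P.S, ∀ n,
      (CfsgLib.BN.alt n y x).prod⁻¹ * (CfsgLib.BN.alt n x y).prod ∈ P.B →
      ((CfsgLib.BN.alt n x y).map f).prod = ((CfsgLib.BN.alt n y x).map f).prod := by
    intro x hx y hy n h
    have hxyN : (CfsgLib.BN.alt n x y).prod ∈ P.N :=
      CfsgLib.BN.word_prod_mem_N (CfsgLib.BN.alt_mem hx hy n)
    have hyxN : (CfsgLib.BN.alt n y x).prod ∈ P.N :=
      CfsgLib.BN.word_prod_mem_N (CfsgLib.BN.alt_mem hy hx n)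
    have h1 : g (CfsgLib.BN.alt n y x).prod = g (CfsgLib.BN.alt n x y).prod := by
      rw [hgN hxyN, hgN hyxN]
      exact (hmkeq _ _).2 h
    rw [hgprod _ (fun z hz => P.subset (CfsgLib.BN.alt_mem hy hx n z hz)),
      hgprod _ (fun z hz => P.subset (CfsgLib.BN.alt_mem hx hy n z hz)),
      CfsgLib.BN.alt_map, CfsgLib.BN.alt_map] at h1
    have hgx : g x = σ ⟨x, hx⟩ := hgN (P.subset hx)
    have hgy : g y = σ ⟨y, hy⟩ := hgN (P.subset hy)
    have h2 := (CfsgLib.BN.alt_prod_eq (x := g x) (y := g y)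
      (by rw [hgx]; exact hσ2 _) (by rw [hgy]; exact hσ2 _) n).1
    rw [← h1] at h2
    have h3 : (g x * g y) ^ n = 1 := by
      have := mul_eq_right.1 h2.symm
      exact this
    rw [hgx, hgy] at h3
    have h4 : M ⟨x, hx⟩ ⟨y, hy⟩ ∣ n := orderOf_dvd_of_pow_eq_one h3
    have h5 : (f x * f y) ^ n = 1 := by
      rw [hfS hx, hfS hy]
      obtain ⟨c, rfl⟩ := h4
      rw [pow_mul, hspow, one_pow]
    have h6 := (CfsgLib.BN.alt_prod_eq (x := f x) (y := f y) (hf1 x hx) (hf1 y hy) n).1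
    rw [h5, one_mul] at h6
    rw [CfsgLib.BN.alt_map, CfsgLib.BN.alt_map]
    exact h6
  have hrepr : ∀ a : M.Group, ∃ L : List G, (∀ x ∈ L, x ∈ P.S) ∧ a = (L.map f).prod := by
    intro a
    refine M.toCoxeterSystem.simple_induction (p := fun a => ∃ L : List G, (∀ x ∈ L, x ∈ P.S) ∧ a = (L.map f).prod) a ?_ ?_ ?_
    · intro s
      refine ⟨[(s : G)], ?_, ?_⟩
      · intro x hx
        rw [List.mem_singleton] at hx
        rw [hx]
        exact s.2
      · simp only [List.map_cons, List.map_nil, List.prod_cons, List.prod_nil, mul_one]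
        rw [hfS s.2]
        rfl
    · exact ⟨[], by simp, rfl⟩
    · rintro w w' ⟨L, hL, rfl⟩ ⟨L', hL', rfl⟩
      refine ⟨L ++ L', ?_, by simp⟩
      intro x hx
      rcases List.mem_append.1 hx with hx | hx
      · exact hL x hx
      · exact hL' x hx
  have hinj : Function.Injective φ := by
    rw [injective_iff_map_eq_one]
    intro a ha
    obtain ⟨L, hL, rfl⟩ := hrepr a
    rw [hφg L hL, hgN (CfsgLib.BN.word_prod_mem_N hL)] at ha
    have hB := (hker _).1 ha
    exact CfsgLib.BN.map_prod_eq_one_of_mem_B f hf1 hf2 hL hB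
  have hsurj : Function.Surjective φ := by
    intro q
    induction q using QuotientGroup.induction_on with
    | H u =>
    obtain ⟨L, hred, hb⟩ := CfsgLib.BN.exists_red u.2
    refine ⟨(L.map f).prod, ?_⟩
    rw [hφg L hred.1, hgN hred.prod_mem]
    exact (hmkeq _ _).2 hb
  let e : M.Group ≃* (P.N ⧸ (P.B ⊓ P.N).subgroupOf P.N) := MulEquiv.ofBijective φ ⟨hinj, hsurj⟩
  refine ⟨M, ⟨e.symm⟩, ?_⟩
  intro s
  show e.symm.symm (PresentedGroup.of s) = _
  exact hφ s

end Cfsg.Agent.S0320
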