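import Cfsg.Statements.S0321
import Cfsg.Agent.Lib.BN.Parabolic

set_option autoImplicit false
open Cfsg

namespace Cfsg.Agent.S0321

/-- For `n ∈ N` not in `B`, the union `B ∪ B n B` is (the underlying set of) a subgroup exactly when `n` agrees
modulo `B ⊓ N` with one of the distinguished representatives; thus the distinguished involutions are
determined by `B` and `N`. -/
theorem result {G : Type*} [Group G] (P : Cfsg.BNPair G) {n : G}
    (hn : n ∈ P.N) (hnB : n ∉ P.B) :
    (∃ H : Subgroup G, (H : Set G) = (P.B : Set G) ∪ DoubleCoset.doubleCoset n (P.B : Set G) P.B) ↔ ∃ s ∈ P.S, s⁻¹ * n ∈ P.B := by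
  constructor
  · rintro ⟨H, hH⟩
    have hBH : P.B ≤ H := by
      intro b hb
      have : b ∈ (H : Set G) := by rw [hH]; exact Or.inl hb
      exact this
    have hnH : n ∈ H := by
      have : n ∈ (H : Set G) := by rw [hH]; exact Or.inr (CfsgLib.BN.self_mem_dc n)
      exact this
    obtain ⟨L, hred, hb⟩ := CfsgLib.BN.exists_red hn
    have hLM : L.prod ∈ H := by
      have e : L.prod = n * (L.prod⁻¹ * n)⁻¹ := by group
      rw [e]
      exact H.mul_mem hnH (hBH (P.B.inv_mem hb))
    have hlet := CfsgLib.BN.letters_mem hBH L hred hLM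
    cases L with
    | nil =>
      exfalso
      apply hnB
      simpa using hb
    | cons s L' =>
      have hsS : s ∈ P.S := hred.mem (by simp)
      have hsH : s ∈ (H : Set G) := hlet s (by simp)
      rw [hH] at hsH
      rcases hsH with hsH | hsH
      · exact absurd hsH (CfsgLib.BN.S_not_mem_B hsS)
      · exact ⟨s, hsS, (CfsgLib.BN.mem_dc_iff_of_N (P.subset hsS) hn).1 hsH⟩
  · rintro ⟨s, hs, hsn⟩
    have hC : DoubleCoset.doubleCoset n (P.B : Set G) P.B = CfsgLib.BN.dc P s := by
      symm
      exact (CfsgLib.BN.dc_eq_dc_iff (P.subset hs) hn).2 hsn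
    rw [hC]
    refine ⟨{ carrier := (P.B : Set G) ∪ CfsgLib.BN.dc P s
              mul_mem' := ?_
              one_mem' := Or.inl P.B.one_mem
              inv_mem' := ?_ }, rfl⟩
    · rintro x y (hx | hx) (hy | hy)
      · exact Or.inl (P.B.mul_mem hx hy)
      · exact Or.inr (CfsgLib.BN.mul_mem_dc_left hx hy)
      · exact Or.inr (CfsgLib.BN.mul_mem_dc_right hy hx)
      · have h := CfsgLib.BN.S_mul_mem_union hs (P.subset hs) hx hy
        rcases h with h | h
        · left
          rw [CfsgLib.BN.dc_of_mem_B (P.sq_mem s hs)] at h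
          exact h
        · exact Or.inr h
    · rintro x (hx | hx)
      · exact Or.inl (P.B.inv_mem hx)
      · right
        have := CfsgLib.BN.inv_mem_dc hx
        rwa [CfsgLib.BN.dc_S_inv hs] at this

end Cfsg.Agent.S0321
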