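import Cfsg.Statements.S0322
import Cfsg.Agent.Lib.BN.Parabolic

set_option autoImplicit false
open Cfsg

namespace Cfsg.Agent.S0322

/-- A group with a (B,N)-pair of rank one acts doubly transitively on the left cosets of `B`. -/
theorem result {G : Type*} [Group G] (P : Cfsg.BNPair G) (h : P.rank = 1) : MulAction.IsMultiplyPretransitive G (G ⧸ P.B) 2 := by
  classical
  have hcard : Nat.card P.S = 1 := h
  obtain ⟨hsub, ⟨⟨s, hs⟩⟩⟩ := Nat.card_eq_one_iff_unique.1 hcard
  have huniq : ∀ x : P.S, x = ⟨s, hs⟩ := fun x => Subsingleton.elim _ _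
  have hS : P.S = {s} := by
    ext x
    constructor
    · intro hx
      have := huniq ⟨x, hx⟩
      exact congrArg Subtype.val this
    · rintro rfl; exact hs
  let U : Subgroup G :=
    { carrier := (P.B : Set G) ∪ CfsgLib.BN.dc P s
      mul_mem' := by
        rintro x y (hx | hx) (hy | hy)
        · exact Or.inl (P.B.mul_mem hx hy)
        · exact Or.inr (CfsgLib.BN.mul_mem_dc_left hx hy)
        · exact Or.inr (CfsgLib.BN.mul_mem_dc_right hy hx)
        · have h := CfsgLib.BN.S_mul_mem_union hs (P.subset hs) hx hy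
          rcases h with h | h
          · left
            rw [CfsgLib.BN.dc_of_mem_B (P.sq_mem s hs)] at h
            exact h
          · exact Or.inr h
      one_mem' := Or.inl P.B.one_mem
      inv_mem' := by
        rintro x (hx | hx)
        · exact Or.inl (P.B.inv_mem hx)
        · right
          have := CfsgLib.BN.inv_mem_dc hx
          rwa [CfsgLib.BN.dc_S_inv hs] at this }
  have hU : U = ⊤ := by
    rw [eq_top_iff, ← CfsgLib.BN.closure_union_top (P := P), Subgroup.closure_le]
    rintro x (hx | hx)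
    · exact Or.inl hx
    · rw [hS] at hx
      exact Or.inr (by rw [hx]; exact CfsgLib.BN.self_mem_dc s)
  have hall : ∀ g : G, g ∉ P.B → g ∈ CfsgLib.BN.dc P s := by
    intro g hg
    have : g ∈ U := by rw [hU]; trivial
    rcases this with h | h
    · exact absurd h hg
    · exact h
  have key : ∀ a b : G ⧸ P.B, a ≠ b → ∃ g : G, g • a = (QuotientGroup.mk 1 : G ⧸ P.B) ∧ g • b = (QuotientGroup.mk s : G ⧸ P.B) := by
    intro a b
    induction a using QuotientGroup.induction_on with
    | H g₁ =>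
    induction b using QuotientGroup.induction_on with
    | H g₂ =>
    intro hab
    have hnot : g₁⁻¹ * g₂ ∉ P.B := by
      intro hmem
      exact hab (QuotientGroup.eq.2 hmem)
    obtain ⟨b₁, hb₁, b₂, hb₂, e⟩ := CfsgLib.BN.mem_dc.1 (hall _ hnot)
    refine ⟨b₁⁻¹ * g₁⁻¹, ?_, ?_⟩
    · rw [MulAction.Quotient.smul_mk, QuotientGroup.eq]
      simpa using P.B.mul_mem hb₁ P.B.one_mem
    · rw [MulAction.Quotient.smul_mk, QuotientGroup.eq]
      have e' : ((b₁⁻¹ * g₁⁻¹) • g₂)⁻¹ * s = b₂⁻¹ := by
        have e2 : g₂ = g₁ * (b₁ * s * b₂) := by rw [← e]; group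
        rw [e2, smul_eq_mul]
        group
      rw [e']
      exact P.B.inv_mem hb₂
  rw [MulAction.is_two_pretransitive_iff]
  intro a b c d hab hcd
  obtain ⟨g, hg₁, hg₂⟩ := key a b hab
  obtain ⟨g', hg₁', hg₂'⟩ := key c d hcd
  refine ⟨g'⁻¹ * g, ?_, ?_⟩
  · rw [mul_smul, hg₁, ← hg₁', inv_smul_smul]
  · rw [mul_smul, hg₂, ← hg₂', inv_smul_smul]

end Cfsg.Agent.S0322
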