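import Cfsg.Statements.S0323
import Cfsg.Agent.Lib.BN.Parabolic

set_option autoImplicit false
open scoped Pointwise
open Cfsg

namespace Cfsg.Agent.S0323

/-- A doubly transitive action on a set with at least three points yields a (B,N)-pair of rank one:
`B` is the stabiliser of a point `x`, `N` the setwise stabiliser of a pair `{x, y}`. -/
theorem result {G Ω : Type*} [Group G] [MulAction G Ω]
    (h2 : MulAction.IsMultiplyPretransitive G Ω 2) {x y z : Ω} (hxy : x ≠ y) (hyz : y ≠ z) (hxz : x ≠ z) :
    ∃ P : Cfsg.BNPair G, P.B = MulAction.stabilizer G x ∧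
      P.N = MulAction.stabilizer G ({x, y} : Set Ω) ∧ P.rank = 1 := by
  classical
  have h2' : ∀ {a b c d : Ω}, a ≠ b → c ≠ d → ∃ g : G, g • a = c ∧ g • b = d :=
    fun {a b c d} => MulAction.is_two_pretransitive_iff.1 h2
  obtain ⟨s, hsx, hsy⟩ := h2' hxy hxy.symm
  set B : Subgroup G := MulAction.stabilizer G x with hB
  set N : Subgroup G := MulAction.stabilizer G ({x, y} : Set Ω) with hN
  have memB : ∀ {g : G}, g ∈ B ↔ g • x = x := Iff.rfl
  have memN : ∀ {g : G}, g ∈ N ↔ (g • x = x ∧ g • y = y) ∨ (g • x = y ∧ g • y = x) := by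
    intro g
    rw [hN, MulAction.mem_stabilizer_iff, Set.smul_set_insert, Set.smul_set_singleton]
    constructor
    · intro h
      have h1 : g • x ∈ ({x, y} : Set Ω) := by rw [← h]; simp
      have h3 : g • y ∈ ({x, y} : Set Ω) := by rw [← h]; simp
      have hne : g • x ≠ g • y := fun e => hxy (MulAction.injective g e)
      rcases h1 with h1 | h1 <;> rcases h3 with h3 | h3
      · exact absurd (h1.trans h3.symm) hne
      · exact Or.inl ⟨h1, h3⟩
      · exact Or.inr ⟨h1, h3⟩
      · exact absurd (h1.trans h3.symm) hne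
    · rintro (⟨h1, h3⟩ | ⟨h1, h3⟩)
      · rw [h1, h3]
      · rw [h1, h3, Set.pair_comm]
  have hsN : s ∈ N := memN.2 (Or.inr ⟨hsx, hsy⟩)
  have hsB : s ∉ B := fun h => hxy ((memB.1 h).symm.trans hsx)
  have hall : ∀ g : G, g ∉ B → ∃ b ∈ B, ∃ b' ∈ B, g = b * s * b' := by
    intro g hg
    have hne : x ≠ g • x := fun e => hg (memB.2 e.symm)
    obtain ⟨b, hbx, hby⟩ := h2' hxy hne
    refine ⟨b, memB.2 hbx, (s⁻¹ * b⁻¹ * g), ?_, by group⟩
    apply memB.2
    rw [mul_smul, mul_smul, ← hby, inv_smul_smul, inv_smul_eq_iff, hsx]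
  have hdc : ∀ g : G, g ∉ B → g ∈ DoubleCoset.doubleCoset s (B : Set G) B := by
    intro g hg
    obtain ⟨b, hb, b', hb', e⟩ := hall g hg
    exact DoubleCoset.mem_doubleCoset.2 ⟨b, hb, b', hb', e⟩
  have hsdc : ∀ (b b' : G), b ∈ B → b' ∈ B → b * s * b' ∈ DoubleCoset.doubleCoset s (B : Set G) B :=
    fun b b' hb hb' => DoubleCoset.mem_doubleCoset.2 ⟨b, hb, b', hb', rfl⟩
  let P : Cfsg.BNPair G :=
    { B := B
      N := N
      S := {s}
      sup_eq_top := by
        rw [eq_top_iff]
        intro g _
        by_cases hg : g ∈ B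
        · exact (le_sup_left : B ≤ B ⊔ N) hg
        · obtain ⟨b, hb, b', hb', rfl⟩ := hall g hg
          have h1 : b ∈ B ⊔ N := (le_sup_left : B ≤ B ⊔ N) hb
          have h3 : b' ∈ B ⊔ N := (le_sup_left : B ≤ B ⊔ N) hb'
          have h4 : s ∈ B ⊔ N := (le_sup_right : N ≤ B ⊔ N) hsN
          exact Subgroup.mul_mem _ (Subgroup.mul_mem _ h1 h4) h3
      conj_mem := by
        rintro n hn t ⟨htB, htN⟩
        have htx : t • x = x := memB.1 htB
        have hty : t • y = y := by
          rcases memN.1 htN with ⟨_, h⟩ | ⟨h, _⟩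
          · exact h
          · exact absurd (htx.symm.trans h) hxy
        apply memB.2
        rcases memN.1 hn with ⟨h1, h3⟩ | ⟨h1, h3⟩
        · rw [mul_smul, mul_smul, inv_smul_eq_iff.2 h1.symm, htx, h1]
        · rw [mul_smul, mul_smul, inv_smul_eq_iff.2 h3.symm, hty, h3]
      subset := by
        rintro _ rfl
        exact hsN
      sq_mem := by
        rintro _ rfl
        apply memB.2
        rw [mul_smul, hsx, hsy]
      inj := by
        rintro _ rfl _ rfl _
        rfl
      closure_sup := by
        apply le_antisymm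
        · apply sup_le
          · rw [Subgroup.closure_le]
            rintro _ rfl
            exact hsN
          · exact inf_le_right
        · intro n hn
          have hcl : s ∈ Subgroup.closure ({s} : Set G) := Subgroup.subset_closure rfl
          rcases memN.1 hn with ⟨h1, h3⟩ | ⟨h1, h3⟩
          · exact (le_sup_right : (B ⊓ N) ≤ Subgroup.closure ({s} : Set G) ⊔ (B ⊓ N)) ⟨memB.2 h1, hn⟩
          · have : s⁻¹ * n ∈ B ⊓ N := by
              refine ⟨memB.2 ?_, N.mul_mem (N.inv_mem hsN) hn⟩
              rw [mul_smul, h1, inv_smul_eq_iff, hsx]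
            have e : n = s * (s⁻¹ * n) := by group
            rw [e]
            exact Subgroup.mul_mem _ ((le_sup_left : Subgroup.closure ({s} : Set G) ≤ _) hcl)
              ((le_sup_right : (B ⊓ N) ≤ _) this)
      mul_mem_union := by
        intro t ht n hn b hb
        rw [show t = s from ht]
        by_cases hnB : n ∈ B
        · left
          have hg : s * b * n ∉ B := by
            intro hmem
            have h1 : (s * b * n) • x = y := by
              rw [mul_smul, mul_smul, memB.1 hnB, memB.1 hb, hsx]
            exact hxy ((memB.1 hmem).symm.trans h1)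
          obtain ⟨c, hc, c', hc', e⟩ := hall _ hg
          refine DoubleCoset.mem_doubleCoset.2 ⟨c, hc, n⁻¹ * c', B.mul_mem (B.inv_mem hnB) hc', ?_⟩
          rw [e]
          group
        · have hnx : n • x = y := by
            rcases memN.1 hn with ⟨h1, _⟩ | ⟨h1, _⟩
            · exact absurd (memB.2 h1) hnB
            · exact h1
          by_cases hg : s * b * n ∈ B
          · left
            have hsnB : s * n ∈ B := by
              apply memB.2
              rw [mul_smul, hnx, hsy]
            refine DoubleCoset.mem_doubleCoset.2 ⟨s * b * n * (s * n)⁻¹, B.mul_mem hg (B.inv_mem hsnB), 1, B.one_mem, ?_⟩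
            group
          · right
            have hsn : s⁻¹ * n ∈ B := by
              apply memB.2
              rw [mul_smul, hnx, inv_smul_eq_iff, hsx]
            obtain ⟨c, hc, c', hc', e⟩ := hall _ hg
            refine DoubleCoset.mem_doubleCoset.2 ⟨c, hc, (s⁻¹ * n)⁻¹ * c', B.mul_mem (B.inv_mem hsn) hc', ?_⟩
            rw [e]
            group
      conj_ne := by
        intro t ht hconj
        rw [show t = s from ht] at hconj
        obtain ⟨b, hbx, hby⟩ := h2' hxy hxz
        have hbB : b ∈ B := memB.2 hbx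
        have h1 : s * b * s ∈ (fun b : G => s * b * s) '' (B : Set G) := ⟨b, hbB, rfl⟩
        rw [hconj] at h1
        have h3 : (s * b * s) • x = x := memB.1 h1
        rw [mul_smul, mul_smul, hsx, hby] at h3
        have h4 : s • z = s • y := h3.trans hsy.symm
        exact hyz (MulAction.injective s h4).symm }
  refine ⟨P, rfl, rfl, ?_⟩
  show Nat.card (({s} : Set G) : Type _) = 1
  simp

end Cfsg.Agent.S0323
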