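import Cfsg.Statements.S0352
import Cfsg.Agent.Lib.Steiner.Basic

set_option autoImplicit false
open Cfsg

namespace Cfsg.Agent.S0352

/-- In a Steiner system S(5, 8, 24), two distinct blocks intersect in 0, 2 or 4 points. -/
theorem result {α : Type*} [Fintype α] [DecidableEq α] (hα : Fintype.card α = 24) {B : Set (Finset α)} (hB : Cfsg.IsSteinerSystem 5 8 B) {b c : Finset α} (hb : b ∈ B) (hc : c ∈ B) (hbc : b ≠ c) : (b ∩ c).card = 0 ∨ (b ∩ c).card = 2 ∨ (b ∩ c).card = 4 := by
  have hL := CfsgLib.Steiner.hL5824 hα hB hb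
  have hcb : b.card = 8 := hB.1 b hb
  have hcc : c.card = 8 := hB.1 c hc
  have hle : (b ∩ c).card ≤ 8 := by
    rw [← hcb]; exact Finset.card_le_card Finset.inter_subset_left
  have h8 : (b ∩ c).card ≠ 8 := by
    intro h
    have h1 : b ∩ c = b := Finset.eq_of_subset_of_card_le Finset.inter_subset_left (by omega)
    have h2 : b ∩ c = c := Finset.eq_of_subset_of_card_le Finset.inter_subset_right (by omega)
    exact hbc (h1.symm.trans h2)
  have h1 := CfsgLib.Steiner.inter_card_ne _ hL hc 1 (by rw [hcb]; rfl)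
  have h3 := CfsgLib.Steiner.inter_card_ne _ hL hc 3 (by rw [hcb]; rfl)
  have h5 := CfsgLib.Steiner.inter_card_ne _ hL hc 5 (by rw [hcb]; rfl)
  have h6 := CfsgLib.Steiner.inter_card_ne _ hL hc 6 (by rw [hcb]; rfl)
  have h7 := CfsgLib.Steiner.inter_card_ne _ hL hc 7 (by rw [hcb]; rfl)
  omega

end Cfsg.Agent.S0352
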