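import Cfsg.Statements.S0353
import Cfsg.Agent.Lib.StCert.W24
import Cfsg.Agent.Lib.StCert.Transport

set_option autoImplicit false
open Cfsg

namespace Cfsg.Agent.S0353

/-- In an S(5, 8, 24), the symmetric difference of two blocks meeting in four points is a block. -/
theorem result {α : Type*} [Fintype α] [DecidableEq α] (hα : Fintype.card α = 24) {B : Set (Finset α)} (hB : Cfsg.IsSteinerSystem 5 8 B) {b c : Finset α} (hb : b ∈ B) (hc : c ∈ B) (h4 : (b ∩ c).card = 4) : symmDiff b c ∈ B := by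
  obtain ⟨f, hf⟩ := CfsgLib.StCert.std_of_T (n := 24) (by norm_num) CfsgLib.StCert.W24.T24 hα hB
  have h1 := (hf b).mp hb
  have h2 := (hf c).mp hc
  rw [hf]
  rw [CfsgLib.StCert.W24.setOf_E24] at h1 h2 ⊢
  obtain ⟨a1, ha1, h8a, he1⟩ := (CfsgLib.Golay.mem_octads_iff _).mp h1
  obtain ⟨a2, ha2, h8c, he2⟩ := (CfsgLib.Golay.mem_octads_iff _).mp h2
  have hmap : (symmDiff b c).map (CfsgLib.StCert.embP f) = CfsgLib.Golay.fs (a1 ^^^ a2) := by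
    rw [CfsgLib.Golay.fs_xor, ← he1, ← he2]
    ext q
    simp only [Finset.mem_map, Finset.mem_symmDiff]
    constructor
    · rintro ⟨x, (⟨h3, h4⟩ | ⟨h3, h4⟩), rfl⟩
      · exact Or.inl ⟨⟨x, h3, rfl⟩, fun ⟨y, hy, he⟩ => h4 ((CfsgLib.StCert.embP f).injective he ▸ hy)⟩
      · exact Or.inr ⟨⟨x, h3, rfl⟩, fun ⟨y, hy, he⟩ => h4 ((CfsgLib.StCert.embP f).injective he ▸ hy)⟩
    · rintro (⟨⟨x, hx, rfl⟩, h4⟩ | ⟨⟨x, hx, rfl⟩, h4⟩)
      · exact ⟨x, Or.inl ⟨hx, fun h5 => h4 ⟨x, h5, rfl⟩⟩, rfl⟩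
      · exact ⟨x, Or.inr ⟨hx, fun h5 => h4 ⟨x, h5, rfl⟩⟩, rfl⟩
  rw [hmap, CfsgLib.Golay.mem_octads_iff]
  refine ⟨_, CfsgLib.Golay.xor_mem_allCode ha1 ha2, ?_, rfl⟩
  have h5 := CfsgLib.Golay.pop_xor_add a1 a2
  have h6 : CfsgLib.Golay.pop (a1 &&& a2) = (b ∩ c).card := by
    rw [← CfsgLib.Golay.card_fs, CfsgLib.Golay.fs_land, ← he1, ← he2, ← Finset.map_inter, Finset.card_map]
  omega

end Cfsg.Agent.S0353
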