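import Cfsg.Statements.S0357
import Cfsg.Agent.Lib.Steiner.Basic

set_option autoImplicit false
open Cfsg

namespace Cfsg.Agent.S0357

/-- In a Steiner system S(5, 6, 12), the complement of every block is again a block. -/
theorem result {α : Type*} [Fintype α] [DecidableEq α] (hα : Fintype.card α = 12) {B : Set (Finset α)} (hB : Cfsg.IsSteinerSystem 5 6 B) {b : Finset α} (hb : b ∈ B) : bᶜ ∈ B := by
  have hL := CfsgLib.Steiner.hL5612 hα hB hb
  have hcb : b.card = 6 := hB.1 b hb
  have h := CfsgLib.Steiner.count_exact _ b ∅ hL (Finset.empty_subset _)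
  simp only [Finset.card_empty, hcb] at h
  have h1 : CfsgLib.Steiner.tri CfsgLib.Steiner.L5612 0 (6 - 0) = 1 := rfl
  rw [h1, Set.ncard_eq_one] at h
  obtain ⟨c, hc⟩ := h
  have hc' : c ∈ ({c | c ∈ B ∧ b ∩ c = ∅} : Set (Finset α)) := by rw [hc]; exact rfl
  obtain ⟨hcB, hbc⟩ := hc'
  have hcc : c.card = 6 := hB.1 c hcB
  have hsub : c ⊆ bᶜ := by
    intro x hx
    rw [Finset.mem_compl]
    intro hxb
    have : x ∈ b ∩ c := Finset.mem_inter.mpr ⟨hxb, hx⟩
    rw [hbc] at this
    simp at this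
  have hcompl : bᶜ.card = 6 := by
    rw [Finset.card_compl, hα, hcb]
  have : c = bᶜ := Finset.eq_of_subset_of_card_le hsub (by omega)
  rw [← this]
  exact hcB

end Cfsg.Agent.S0357
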