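import Cfsg.Statements.S0359
import Cfsg.Agent.Lib.Golay.Code

set_option autoImplicit false
open Cfsg

namespace Cfsg.Agent.S0359

/-- The weight of every word of the length-24 code is one of 0, 8, 12, 16, 24. -/
theorem result (w : Cfsg.GolayPt → ZMod 2) (hw : w ∈ Cfsg.golayCode) : hammingNorm w = 0 ∨ hammingNorm w = 8 ∨ hammingNorm w = 12 ∨ hammingNorm w = 16 ∨ hammingNorm w = 24 := by
  obtain ⟨c, hc, rfl⟩ := (CfsgLib.Golay.mem_golayCode_iff w).mp hw
  rw [CfsgLib.Golay.hammingNorm_word]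
  exact CfsgLib.Golay.weight_cases c hc

end Cfsg.Agent.S0359
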