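import Cfsg.Statements.S0373
import Cfsg.Agent.Lib.Golay.Gens

set_option autoImplicit false
open Cfsg

namespace Cfsg.Agent.S0373

/-- The cube-twist permutation (squares t ↦ t^3/9, non-squares t ↦ 9t^3, extra point fixed) lies in the group of the length-24 code. -/
theorem result : Cfsg.cubeTwist ∈ Cfsg.M24 := CfsgLib.Golay.cubeTwist_mem

end Cfsg.Agent.S0373
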