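import Cfsg.Statements.S0374
import Cfsg.Agent.Lib.Golay.SLP
import Cfsg.Agent.Lib.Golay.Gens

set_option autoImplicit false
open Cfsg

namespace Cfsg.Agent.S0374

open CfsgLib.Golay

/-- The program producing a transversal chain from the three generators. -/
def prog0 : List (ℕ × ℕ) := [(0, 9999), (3, 0), (0, 4), (1, 4), (0, 5), (1, 5), (2, 5), (0, 7), (1, 7), (2, 7), (2, 8), (0, 9), (2, 9), (1, 10), (0, 11), (0, 12), (2, 13), (0, 14), (0, 15), (0, 16), (0, 17), (1, 17), (2, 17), (2, 20), (1, 21), (18, 9999), (1, 23), (28, 29), (2, 26), (28, 31), (32, 4), (32, 33), (30, 34), (32, 34), (30, 35), (32, 35), (30, 36), (32, 36), (30, 37), (32, 37), (32, 38), (32, 39), (32, 41), (32, 42), (32, 43), (30, 44), (32, 44), (30, 45), (30, 46), (32, 46), (32, 47), (30, 52), (53, 9999), (30, 49), (55, 56), (45, 9999), (30, 50), (58, 59), (4, 9999), (30, 4), (61, 62), (57, 4), (60, 4), (63, 4), (57, 64), (60, 64), (63, 64), (63, 65), (57, 66), (60, 66), (60, 67), (63, 67), (57, 69), (63, 69), (57, 70), (63, 70), (57, 72), (63, 72), (63, 74), (63, 75), (57, 77), (63,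 81), (76, 9999), (60, 76), (85, 86), (4, 9999), (57, 68), (88, 89), (84, 9999), (60, 82), (91, 92), (70, 9999), (57, 67), (94, 95), (87, 4), (90, 4), (93, 4), (96, 4), (90, 97), (93, 97), (96, 97), (87, 98), (87, 99), (93, 99), (96, 99), (87, 100), (96, 100), (90, 101), (93, 101), (93, 102), (96, 102), (90, 104), (96, 108), (93, 109), (97, 9999), (90, 102), (117, 118), (108, 9999), (93, 105), (120, 121), (90, 102), (117, 123), (109, 9999), (93, 108), (125, 126), (105, 9999), (90, 109), (128, 129), (122, 4), (127, 4), (130, 4), (119, 131), (122, 131), (127, 131), (130, 131), (119, 133), (122, 133), (127, 134), (130, 134), (127, 135), (130, 135), (119, 137), (122, 137), (119, 138), (122, 138), (127, 138), (119, 139), (135, 9999), (124, 134), (150, 151), (136, 9999), (124, 132), (153, 154), (138, 9999), (130, 139), (156, 157), (152, 4), (158, 4), (4, 9999), (152, 160), (161, 162), (159, 9999), (158, 160), (164, 165), (155, 160), (161, 167), (155, 4), (164, 169), (163, 4), (166, 4), (168, 4), (170, 4), (166, 171), (168, 171), (170, 171), (168, 172), (170,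 172), (170, 173), (168, 175), (170, 175), (170, 176), (170, 178), (170, 181)]


/-- The group of the length-24 code is generated by x ↦ x+1, x ↦ -1/x and the cube-twist permutation. -/
theorem result : Subgroup.closure {Equiv.optionCongr (Equiv.addRight (1 : ZMod 23)), Cfsg.projInv, Cfsg.cubeTwist} = Cfsg.M24 := by
  set C := Subgroup.closure {Equiv.optionCongr (Equiv.addRight (1 : ZMod 23)), Cfsg.projInv, Cfsg.cubeTwist} with hCdef
  have hC : C ≤ M24 := by
    rw [hCdef, Subgroup.closure_le]
    intro x hx
    rcases hx with rfl | rfl | rfl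
    · exact addRight_mem
    · exact projInv_mem
    · exact cubeTwist_mem
  have h0 : ∀ v ∈ [gAdd, gInv, gCube], valid v = true ∧ mk v ∈ C := by
    intro v hv
    simp only [List.mem_cons, List.not_mem_nil, or_false] at hv
    rcases hv with rfl | rfl | rfl
    · refine ⟨isAut_valid isAut_gAdd, ?_⟩
      rw [← addRight_eq]
      exact Subgroup.subset_closure (by simp)
    · refine ⟨isAut_valid isAut_gInv, ?_⟩
      rw [← projInv_eq]
      exact Subgroup.subset_closure (by simp)
    · refine ⟨isAut_valid isAut_gCube, ?_⟩
      rw [← cubeTwist_eq]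
      exact Subgroup.subset_closure (by simp)
  have hs := slpOut_sound (prog := prog0) h0
  exact eq_M24_of_levels hC (levelOK_of_out hs (by decide +kernel)) (levelOK_of_out hs (by decide +kernel))
    (levelOK_of_out hs (by decide +kernel)) (levelOK_of_out hs (by decide +kernel))
    (levelOK_of_out hs (by decide +kernel)) (levelOK_of_out hs (by decide +kernel))
    (levelOK_of_out hs (by decide +kernel))

end Cfsg.Agent.S0374
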