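import Cfsg.Statements.S0427
import Mathlib
import Cfsg.Agent.Lib.Steiner.SRG

set_option autoImplicit false
open Cfsg

namespace Cfsg.Agent.S0427

/-- The block graph (adjacent = disjoint) of an S(3, 6, 22) is strongly regular with parameters (77, 16, 0, 4). -/
theorem result {α : Type*} [Fintype α] (hα : Fintype.card α = 22) {B : Set (Finset α)} (hB : Cfsg.IsSteinerSystem 3 6 B) [Fintype B] [DecidableRel (Cfsg.blockGraph B).Adj] : (Cfsg.blockGraph B).IsSRGWith 77 16 0 4 := by
  classical
  open CfsgLib.Steiner in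
  have hne0 : ∀ b ∈ B, b ≠ ∅ := by
    intro b hb h
    have := hB.1 b hb
    rw [h] at this; simp at this
  have hadj : ∀ b c : B, (Cfsg.blockGraph B).Adj b c ↔ ((b : Finset α) ∩ c = ∅) := by
    intro b c
    unfold Cfsg.blockGraph
    rw [SimpleGraph.fromRel_adj]
    constructor
    · rintro ⟨_, h | h⟩
      · exact Finset.disjoint_iff_inter_eq_empty.1 h
      · rw [Finset.inter_comm]; exact Finset.disjoint_iff_inter_eq_empty.1 h
    · intro h
      refine ⟨?_, Or.inl (Finset.disjoint_iff_inter_eq_empty.2 h)⟩
      rintro rfl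
      rw [Finset.inter_self] at h
      exact hne0 _ b.2 h
  -- counting subtype sets by finsets
  have hcount : ∀ (P : Finset α → Prop) [DecidablePred P], Set.ncard {c : B | P (c : Finset α)} = ((blockF B).filter P).card := by
    intro P _
    rw [← ncard_blocks]
    have : {b | b ∈ B ∧ P b} = Subtype.val '' {c : B | P (c : Finset α)} := by
      ext b
      simp [and_comm]
    rw [this]
    exact (Set.ncard_image_of_injective _ Subtype.val_injective).symm
  refine ⟨?_, ?_, ?_, ?_⟩
  · rw [← Nat.card_eq_fintype_card, Nat.card_coe_set_eq]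
    have := card_blocks hα hB
    rw [← this, ← Set.ncard_coe_finset]
    congr 1
    ext b
    simp [mem_blockF]
  · intro b
    rw [← SimpleGraph.card_neighborSet_eq_degree, ← Nat.card_eq_fintype_card, Nat.card_coe_set_eq]
    have h1 : (Cfsg.blockGraph B).neighborSet b = {c : B | (b : Finset α) ∩ c = ∅} := by
      ext c
      simp [hadj]
    rw [h1, hcount (fun c => (b : Finset α) ∩ c = ∅)]
    exact disj_count hα hB b.2
  · intro b c h
    rw [← Nat.card_eq_fintype_card, Nat.card_coe_set_eq]
    have hbc := (hadj b c).1 h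
    have h1 : (Cfsg.blockGraph B).commonNeighbors b c = {d : B | (b : Finset α) ∩ d = ∅ ∧ (c : Finset α) ∩ d = ∅} := by
      ext d
      simp [SimpleGraph.mem_commonNeighbors, hadj]
    rw [h1, hcount (fun d => (b : Finset α) ∩ d = ∅ ∧ (c : Finset α) ∩ d = ∅)]
    refine common_disjoint hα hB b.2 c.2 ?_ (by rw [hbc]; simp)
    intro he
    apply h.ne
    exact Subtype.ext he
  · intro b c hne h
    rw [← Nat.card_eq_fintype_card, Nat.card_coe_set_eq]
    have hne' : (b : Finset α) ≠ c := fun he => hne (Subtype.ext he)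
    have h1 : (Cfsg.blockGraph B).commonNeighbors b c = {d : B | (b : Finset α) ∩ d = ∅ ∧ (c : Finset α) ∩ d = ∅} := by
      ext d
      simp [SimpleGraph.mem_commonNeighbors, hadj]
    rw [h1, hcount (fun d => (b : Finset α) ∩ d = ∅ ∧ (c : Finset α) ∩ d = ∅)]
    refine common_meeting hα hB b.2 c.2 hne' ?_
    rcases inter_cases hα hB b.2 c.2 hne' with h0 | h2
    · exfalso; apply h
      rw [hadj]
      exact Finset.card_eq_zero.1 h0
    · exact h2

end Cfsg.Agent.S0427
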