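import Cfsg.Statements.S0439
import Mathlib

set_option autoImplicit false
open Cfsg

namespace Cfsg.Agent.S0439

/-- In the symmetric group of degree n ≥ 2, the set of transpositions is a conjugacy class of 3-transpositions which generates the group. -/
theorem result (n : ℕ) (hn : 2 ≤ n) : Cfsg.IsThreeTranspositionClass {σ : Equiv.Perm (Fin n) | σ.IsSwap} := by
  classical
  let x : Fin n := ⟨0, by omega⟩
  let y : Fin n := ⟨1, by omega⟩
  have hxy : x ≠ y := by simp [x, y, Fin.ext_iff]
  refine ⟨⟨?_, ?_⟩, ⟨Equiv.swap x y, ⟨x, y, hxy, rfl⟩, ?_⟩, Equiv.Perm.closure_isSwap⟩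
  · intro d hd
    exact Equiv.Perm.IsSwap.orderOf hd
  · rintro d ⟨a, b, hab, rfl⟩ e ⟨c, f, hcf, rfl⟩
    have hsq : ∀ u v : Fin n, u ≠ v → ∀ w : Fin n, v ≠ w → u ≠ w → (Equiv.swap u v * Equiv.swap u w) ^ 3 = 1 := by
      intro u v huv w hvw huw
      have := Equiv.Perm.isThreeCycle_swap_mul_swap_same huv huw hvw
      rw [← this.orderOf]; exact pow_orderOf_eq_one _
    by_cases h1 : a = c
    · subst h1
      by_cases h2 : b = f
      · subst h2; left; simp
      · right; exact hsq a b hab f h2 hcf
    · by_cases h3 : a = f
      · subst h3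
        by_cases h2 : b = c
        · subst h2; left; rw [Equiv.swap_comm b a]; simp
        · right; rw [Equiv.swap_comm c a]; exact hsq a b hab c h2 (Ne.symm hcf)
      · by_cases h4 : b = c
        · subst h4
          right; rw [Equiv.swap_comm a b]; exact hsq b a (Ne.symm hab) f (Ne.symm h3 |>.symm) hcf
        · by_cases h5 : b = f
          · subst h5
            right; rw [Equiv.swap_comm a b, Equiv.swap_comm c b]; exact hsq b a (Ne.symm hab) c h1 h4
          · left
            have hd : Equiv.Perm.Disjoint (Equiv.swap a b) (Equiv.swap c f) := by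
              intro t
              by_cases ha : t = a
              · right; subst ha; exact Equiv.swap_apply_of_ne_of_ne h1 h3
              · by_cases hb : t = b
                · right; subst hb; exact Equiv.swap_apply_of_ne_of_ne h4 h5
                · left; exact Equiv.swap_apply_of_ne_of_ne ha hb
            have hc := hd.commute
            rw [pow_two]
            calc Equiv.swap a b * Equiv.swap c f * (Equiv.swap a b * Equiv.swap c f)
                = Equiv.swap a b * Equiv.swap a b * (Equiv.swap c f * Equiv.swap c f) := by
                  rw [mul_assoc, ← mul_assoc (Equiv.swap c f), ← hc.eq]; simp only [mul_assoc]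
              _ = 1 := by simp
  · ext σ
    constructor
    · rintro ⟨a, b, hab, rfl⟩
      exact Equiv.Perm.isConj_swap hxy hab
    · intro h
      obtain ⟨c, hc⟩ := isConj_iff.1 h
      rw [← hc]
      refine ⟨c x, c y, fun h => hxy (c.injective h), ?_⟩
      rw [Equiv.swap_apply_apply]

end Cfsg.Agent.S0439
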