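import Cfsg.Statements.S0442
import Mathlib

set_option autoImplicit false
open Cfsg

namespace Cfsg.Agent.S0442

/-- A standard trick for producing elements of an involution centraliser: for an involution a and an element g, let b be the conjugate g⁻¹ * a * g. If a * b has odd order 2m + 1 then g * (a * b) ^ m commutes with a; if a * b has even order 2m then (a * b) ^ m and (a * (g * a * g⁻¹)) ^ m commute with a. -/
theorem result {G : Type*} [Group G] (a g : G) (ha : orderOf a = 2) : (∀ m : ℕ, orderOf (a * (g⁻¹ * a * g)) = 2 * m + 1 → Commute (g * (a * (g⁻¹ * a * g)) ^ m) a) ∧ (∀ m : ℕ, orderOf (a * (g⁻¹ * a * g)) = 2 * m → Commute ((a * (g⁻¹ * a * g)) ^ m) a ∧ Commute ((a * (g * a * g⁻¹)) ^ m) a) := by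
  have h2 : a * a = 1 := by rw [← pow_two, ← ha]; exact pow_orderOf_eq_one a
  have hinv : a⁻¹ = a := inv_eq_of_mul_eq_one_left h2
  -- generic facts for `z = a * b`, `b` involution
  have gen : ∀ b : G, b * b = 1 → ∀ n : ℕ, a * (a * b) ^ n * a = ((a * b) ^ n)⁻¹ := by
    intro b hb n
    have hz : a * (a * b) * a⁻¹ = (a * b)⁻¹ := by
      rw [hinv, mul_inv_rev, hinv, inv_eq_of_mul_eq_one_left hb]
      simp only [← mul_assoc, h2, one_mul]
    have := conj_pow (a := a) (b := a * b) (i := n)
    rw [hz, hinv, inv_pow] at this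
    exact this.symm
  have hb2 : ∀ g : G, (g⁻¹ * a * g) * (g⁻¹ * a * g) = 1 := by
    intro g
    calc g⁻¹ * a * g * (g⁻¹ * a * g) = g⁻¹ * (a * a) * g := by group
      _ = 1 := by rw [h2]; group
  have hb3 : ∀ g : G, (g * a * g⁻¹) * (g * a * g⁻¹) = 1 := by
    intro g
    calc g * a * g⁻¹ * (g * a * g⁻¹) = g * (a * a) * g⁻¹ := by group
      _ = 1 := by rw [h2]; group
  have comm_of : ∀ (b : G), b * b = 1 → ∀ m : ℕ, ((a * b) ^ m) * ((a * b) ^ m) = 1 → Commute ((a * b) ^ m) a := by
    intro b hb m hm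
    have h3 := gen b hb m
    have h4 : ((a * b) ^ m)⁻¹ = (a * b) ^ m := inv_eq_of_mul_eq_one_left hm
    rw [h4] at h3
    show (a * b) ^ m * a = a * (a * b) ^ m
    calc (a * b) ^ m * a = a * (a * (a * b) ^ m * a) := by simp only [← mul_assoc, h2, one_mul]
      _ = a * (a * b) ^ m := by rw [h3]
  refine ⟨?_, ?_⟩
  · intro m hm
    set b := g⁻¹ * a * g with hb
    set z := a * b with hz
    have hz1 : z ^ (2 * m + 1) = 1 := by rw [← hm]; exact pow_orderOf_eq_one z
    have hinvz := gen b (hb2 g) m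
    -- `b * z ^ m * b = z⁻ᵐ`
    have hbz : b * z ^ m * b = (z ^ m)⁻¹ := by
      have hbb : b * b = 1 := hb2 g
      have binv : b⁻¹ = b := inv_eq_of_mul_eq_one_left hbb
      have h5 : b * z * b⁻¹ = z⁻¹ := by
        calc b * z * b⁻¹ = b * (a * b) * b := by rw [hz, binv]
          _ = b * a * (b * b) := by simp only [mul_assoc]
          _ = b * a := by rw [hbb, mul_one]
          _ = z⁻¹ := by rw [hz, mul_inv_rev, hinv, binv]
      have := conj_pow (a := b) (b := z) (i := m)
      rw [h5, inv_eq_of_mul_eq_one_left (hb2 g), inv_pow] at this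
      exact this.symm
    show g * z ^ m * a = a * (g * z ^ m)
    -- `a = g b g⁻¹`
    have ha' : a = g * b * g⁻¹ := by rw [hb]; group
    have hz2 : (z ^ m)⁻¹ * z⁻¹ = z ^ m := by
      have : z ^ m * z ^ m * z = 1 := by
        rw [← pow_add, ← pow_succ, ← hz1]; congr 1; ring
      have h6 : z ^ m * (z ^ m * z) = 1 := by rw [← mul_assoc]; exact this
      have h7 : (z ^ m)⁻¹ = z ^ m * z := inv_eq_of_mul_eq_one_right h6
      rw [h7]; simp
    -- `z ^ m * a = b * z ^ m`
    have key : z ^ m * a = b * z ^ m := by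
      have h8 : a = z * b := by rw [hz, mul_assoc, hb2 g, mul_one]
      calc z ^ m * a = z ^ m * z * b := by rw [mul_assoc, ← h8]
        _ = ((z ^ m)⁻¹) * b := by
            congr 1
            have : z ^ m * z ^ m * z = 1 := by
              rw [← pow_add, ← pow_succ, ← hz1]; congr 1; ring
            have h6 : z ^ m * (z ^ m * z) = 1 := by rw [← mul_assoc]; exact this
            exact (inv_eq_of_mul_eq_one_right h6).symm
        _ = b * z ^ m * b * b := by rw [hbz]
        _ = b * z ^ m := by rw [mul_assoc, hb2 g, mul_one]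
    calc g * z ^ m * a = g * (z ^ m * a) := by rw [mul_assoc]
      _ = g * (b * z ^ m) := by rw [key]
      _ = (g * b * g⁻¹) * (g * z ^ m) := by group
      _ = a * (g * z ^ m) := by rw [← ha']
  · intro m hm
    constructor
    · apply comm_of _ (hb2 g)
      rw [← pow_add, ← two_mul, ← hm]; exact pow_orderOf_eq_one _
    · apply comm_of _ (hb3 g)
      have h9 : orderOf (a * (g * a * g⁻¹)) = 2 * m := by
        rw [← hm]
        have h10 : a * (g * a * g⁻¹) = (MulAut.conj g) ((g⁻¹ * a * g) * a) := by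
          rw [MulAut.conj_apply]; group
        rw [h10, MulEquiv.orderOf_eq]
        have h11 : (g⁻¹ * a * g) * a = (a * (g⁻¹ * a * g))⁻¹ := by
          rw [mul_inv_rev, hinv, inv_eq_of_mul_eq_one_left (hb2 g)]
        rw [h11, orderOf_inv]
      rw [← pow_add, ← two_mul, ← h9]; exact pow_orderOf_eq_one _

end Cfsg.Agent.S0442
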