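import Cfsg.Statements.S0443


set_option autoImplicit false
open Cfsg

namespace Cfsg.Agent.S0443

/-- Two definitions of a 2-central involution agree: an element t of order 2 of a finite group lies in the centre of some Sylow 2-subgroup if and only if its centraliser contains some Sylow 2-subgroup. -/
theorem result {G : Type*} [Group G] [Finite G] (t : G) (ht : orderOf t = 2) : Cfsg.IsTwoCentralInvolution t ↔ ∃ P : Sylow 2 G, (P : Subgroup G) ≤ Subgroup.centralizer ({t} : Set G) := by
  constructor
  · rintro ⟨_, P, _, hP⟩
    refine ⟨P, ?_⟩
    intro x hx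
    rw [Subgroup.mem_centralizer_iff]
    rintro _ rfl
    exact (hP x hx).symm
  · rintro ⟨P, hP⟩
    refine ⟨ht, P, ?_, ?_⟩
    · -- `t` normalises `P`, hence lies in it
      have hp : IsPGroup 2 (Subgroup.zpowers t) := by
        refine IsPGroup.of_card (n := 1) ?_
        rw [Nat.card_zpowers, ht, pow_one]
      have hfix : P ∈ MulAction.fixedPoints (Subgroup.zpowers t) (Sylow 2 G) := by
        rintro ⟨g, hg⟩
        obtain ⟨k, rfl⟩ := Subgroup.mem_zpowers_iff.1 hg
        have hcomm : ∀ x ∈ (P : Subgroup G), x * t = t * x := by
          intro x hx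
          have := hP hx
          rw [Subgroup.mem_centralizer_iff] at this
          exact (this t rfl).symm
        apply Sylow.ext
        ext y
        change y ∈ (P : Subgroup G).map (MulAut.conj (t ^ k)).toMonoidHom ↔ y ∈ (P : Subgroup G)
        have hc : ∀ x ∈ (P : Subgroup G), Commute x (t ^ k) := fun x hx => Commute.zpow_right (hcomm x hx) k
        constructor
        · rintro ⟨x, hx, rfl⟩
          have : (MulAut.conj (t ^ k)).toMonoidHom x = x := by
            show (MulAut.conj (t ^ k)) x = x
            rw [MulAut.conj_apply, ← (hc x hx).eq, mul_inv_cancel_right]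
          rw [this]; exact hx
        · intro hy
          refine ⟨y, hy, ?_⟩
          show (MulAut.conj (t ^ k)) y = y
          rw [MulAut.conj_apply, ← (hc y hy).eq, mul_inv_cancel_right]
      have := (hp.sylow_mem_fixedPoints_iff).1 hfix
      exact this (Subgroup.mem_zpowers t)
    · intro x hx
      have := hP hx
      rw [Subgroup.mem_centralizer_iff] at this
      exact (this t rfl).symm

end Cfsg.Agent.S0443
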