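import Cfsg.Statements.S0446


set_option autoImplicit false
open Cfsg

namespace Cfsg.Agent.S0446

/-- Every finite group of even order contains a 2-central involution, i.e. an element of order 2 in the centre of some Sylow 2-subgroup. -/
theorem result {G : Type*} [Group G] [Finite G] (h : Even (Nat.card G)) : ∃ t : G, Cfsg.IsTwoCentralInvolution t := by
  classical
  have : Fact (Nat.Prime 2) := ⟨Nat.prime_two⟩
  obtain P : Sylow 2 G := default
  have hdvd : 2 ∣ Nat.card G := h.two_dvd
  have hcard : Nat.card (P : Subgroup G) = 2 ^ (Nat.card G).factorization 2 := P.card_eq_multiplicity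
  have hfac : 0 < (Nat.card G).factorization 2 := by
    apply Nat.Prime.factorization_pos_of_dvd Nat.prime_two Nat.card_pos.ne' hdvd
  have hnt : Nontrivial (P : Subgroup G) := by
    apply Finite.one_lt_card_iff_nontrivial.1
    rw [hcard]
    exact Nat.one_lt_two_pow hfac.ne'
  have hcn : Nontrivial (Subgroup.center (P : Subgroup G)) := P.isPGroup'.center_nontrivial
  have hpc : IsPGroup 2 (Subgroup.center (P : Subgroup G)) := (P.isPGroup').to_subgroup _
  obtain ⟨k, hk⟩ := hpc.exists_card_eq
  have h2 : 2 ∣ Nat.card (Subgroup.center (P : Subgroup G)) := by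
    have hk0 : k ≠ 0 := by
      rintro rfl
      have h1 := Finite.one_lt_card_iff_nontrivial.2 hcn
      omega
    rw [hk]; exact dvd_pow_self 2 hk0
  obtain ⟨x, hx⟩ := exists_prime_orderOf_dvd_card' 2 h2
  refine ⟨((x : Subgroup.center (P : Subgroup G)) : (P : Subgroup G)), ?_, P, ?_, ?_⟩
  · have h3 : orderOf ((x : (P : Subgroup G)) : G) = orderOf (x : (P : Subgroup G)) := Subgroup.orderOf_coe _
    have h4 : orderOf (x : (P : Subgroup G)) = orderOf x := Subgroup.orderOf_coe _
    rw [h3, h4, hx]
  · exact ((x : (P : Subgroup G))).2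
  · intro y hy
    have := (Subgroup.mem_center_iff.1 x.2) ⟨y, hy⟩
    have h5 := congrArg (Subtype.val) this
    simpa using h5

end Cfsg.Agent.S0446
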