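import Cfsg.Statements.S0481
import Mathlib
import Cfsg.Agent.Lib.T3.Large
import Cfsg.Agent.S0443

set_option autoImplicit false
open Cfsg

namespace Cfsg.Agent.S0481

/-- Large extraspecial subgroups: let z be an involution of a finite group G whose centraliser C contains a normal 2-subgroup Q with centre of order 2 and all squares central, such that every element of G centralising Q lies in Q. Then C contains a Sylow 2-subgroup of G, and any involution of G whose centraliser contains a Sylow 2-subgroup of G is conjugate to z. -/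
theorem result {G : Type*} [Group G] [Finite G] (z : G) (hz : orderOf z = 2) (Q : Subgroup G) (hQC : Q ≤ Subgroup.centralizer ({z} : Set G)) (hQn : ∀ g ∈ Subgroup.centralizer ({z} : Set G), ∀ q ∈ Q, g * q * g⁻¹ ∈ Q) (hQ2 : IsPGroup 2 Q) (hZ : Nat.card (Subgroup.center Q) = 2) (hsq : ∀ x : Q, x ^ 2 ∈ Subgroup.center Q) (hlarge : Subgroup.centralizer (Q : Set G) ≤ Q) : (∃ P : Sylow 2 G, (P : Subgroup G) ≤ Subgroup.centralizer ({z} : Set G)) ∧ ∀ u : G, orderOf u = 2 → (∃ P : Sylow 2 G, (P : Subgroup G) ≤ Subgroup.centralizer ({u} : Set G)) → IsConj z u := by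
  classical
  have hzc : ∀ q ∈ Q, q * z = z * q := by
    intro q hq
    have := hQC hq
    rw [Subgroup.mem_centralizer_iff] at this
    exact (this z rfl).symm
  have hz1 : z ≠ 1 := by
    rintro rfl
    simp at hz
  have hzQ : z ∈ Q := by
    apply hlarge
    rw [Subgroup.mem_centralizer_iff]
    intro q hq
    exact hzc q hq
  haveI : Fact (Nat.Prime 2) := ⟨Nat.prime_two⟩
  obtain ⟨P, hP⟩ := hQ2.exists_le_sylow
  obtain ⟨h1, h2⟩ := CfsgLib.T3.center_overgroup hlarge hZ hzQ hz1 hzc hP P.isPGroup'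
  refine ⟨⟨P, ?_⟩, ?_⟩
  · intro t ht
    rw [Subgroup.mem_centralizer_iff]
    rintro _ rfl
    exact (h1 t ht).symm
  · rintro u hu ⟨P', hP'⟩
    obtain ⟨-, P'', hu1, hu2⟩ := (Cfsg.Agent.S0443.result u hu).2 ⟨P', hP'⟩
    obtain ⟨g, rfl⟩ := MulAction.exists_smul_eq G P P''
    have hmem : ∀ x, x ∈ (g • P : Sylow 2 G) ↔ g⁻¹ * x * g ∈ P := by
      intro x
      change x ∈ ((g • P : Sylow 2 G) : Subgroup G) ↔ _
      rw [Sylow.coe_subgroup_smul, Subgroup.mem_pointwise_smul_iff_inv_smul_mem, MulAut.smul_def,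
        MulAut.conj_inv_apply]
      rfl
    have h5 : g⁻¹ * u * g ∈ (P : Subgroup G) := (hmem u).1 hu1
    have hcen : ∀ t ∈ (P : Subgroup G), t * (g⁻¹ * u * g) = (g⁻¹ * u * g) * t := by
      intro t ht
      have h6 : g * t * g⁻¹ ∈ (g • P : Sylow 2 G) := by
        rw [hmem]
        have : g⁻¹ * (g * t * g⁻¹) * g = t := by group
        rw [this]; exact ht
      have h7 := hu2 _ h6
      calc t * (g⁻¹ * u * g) = g⁻¹ * ((g * t * g⁻¹) * u) * g := by group
        _ = g⁻¹ * (u * (g * t * g⁻¹)) * g := by rw [h7]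
        _ = (g⁻¹ * u * g) * t := by group
    rcases h2 _ h5 hcen with h | h
    · exfalso
      have hu1' : u = 1 := by
        have : g * (g⁻¹ * u * g) * g⁻¹ = u := by group
        rw [← this, h]; group
      rw [hu1'] at hu
      simp at hu
    · rw [isConj_iff]
      refine ⟨g, ?_⟩
      rw [← h]; group

end Cfsg.Agent.S0481
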