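import Cfsg.Statements.S0987
import Cfsg.Agent.Lib.H9.SylowTools

set_option autoImplicit false
open Cfsg

namespace Cfsg.Agent.S0987

/-- If a finite group has order pqr for primes p < q < r, then its Sylow r-subgroups are normal. -/
theorem result {G : Type*} [Group G] [Finite G] (p q r : ℕ) (hp : p.Prime) (hq : q.Prime) [Fact r.Prime] (hpq : p < q) (hqr : q < r) (hG : Nat.card G = p * q * r) (R : Sylow r G) : (R : Subgroup G).Normal := by
  classical
  have hr : r.Prime := Fact.out
  haveI : Fact q.Prime := ⟨hq⟩
  haveI : Fact p.Prime := ⟨hp⟩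
  have hp0 := hp.pos
  have hq0 := hq.pos
  have hr0 := hr.pos
  have hnepq : p ≠ q := hpq.ne
  have hnepr : p ≠ r := (hpq.trans hqr).ne
  have hneqr : q ≠ r := hqr.ne
  -- factorisations
  have hfr : (Nat.card G).factorization r = 1 := by
    rw [hG, Nat.factorization_mul (by positivity) hr.ne_zero, Nat.factorization_mul hp.ne_zero hq.ne_zero]
    simp [hp.factorization, hq.factorization, hr.factorization, hnepr, hneqr]
  have hfq : (Nat.card G).factorization q = 1 := by
    rw [hG, Nat.factorization_mul (by positivity) hr.ne_zero, Nat.factorization_mul hp.ne_zero hq.ne_zero]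
    simp [hp.factorization, hq.factorization, hr.factorization, hnepq, hneqr.symm]
  have hcR : ∀ P : Sylow r G, Nat.card P = r := by
    intro P; rw [Sylow.card_eq_multiplicity, hfr, pow_one]
  have hcQ : ∀ P : Sylow q G, Nat.card P = q := by
    intro P; rw [Sylow.card_eq_multiplicity, hfq, pow_one]
  -- counts
  have hnr : Nat.card (Sylow r G) ∣ p * q := by
    apply CfsgLib.H9.sylow_count_dvd
    rw [hfr, pow_one, hG]; ring
  have hnr1 : Nat.card (Sylow r G) ≡ 1 [MOD r] := card_sylow_modEq_one r G
  have hnq : Nat.card (Sylow q G) ∣ p * r := by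
    apply CfsgLib.H9.sylow_count_dvd
    rw [hfq, pow_one, hG]; ring
  have hnq1 : Nat.card (Sylow q G) ≡ 1 [MOD q] := card_sylow_modEq_one q G
  by_contra hnorm
  have hne1 : Nat.card (Sylow r G) ≠ 1 := by
    intro h
    haveI : Subsingleton (Sylow r G) := (Nat.card_eq_one_iff_unique.1 h).1
    exact hnorm (Sylow.normal_of_subsingleton R)
  -- `n_r = pq`
  have hnrpq : Nat.card (Sylow r G) = p * q := by
    obtain ⟨a, b, ha, hb, hab⟩ := (Nat.dvd_mul).1 hnr
    rcases (Nat.dvd_prime hp).1 ha with ha' | ha'
    · rcases (Nat.dvd_prime hq).1 hb with hb' | hb'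
      · rw [ha', hb'] at hab
        exact absurd hab.symm (by simpa using hne1)
      · exfalso
        rw [← hab, ha', hb', one_mul] at hnr1
        have h3 : q % r = 1 % r := hnr1
        rw [Nat.mod_eq_of_lt hqr, Nat.mod_eq_of_lt hr.one_lt] at h3
        exact hq.one_lt.ne' h3
    · rcases (Nat.dvd_prime hq).1 hb with hb' | hb'
      · exfalso
        rw [← hab, ha', hb', mul_one] at hnr1
        have h3 : p % r = 1 % r := hnr1
        rw [Nat.mod_eq_of_lt (hpq.trans hqr), Nat.mod_eq_of_lt hr.one_lt] at h3
        exact hp.one_lt.ne' h3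
      · rw [← hab, ha', hb']
  -- number of elements of order r and q
  have hcr := CfsgLib.H9.card_orderOf_eq_prime_of_sylow hcR
  have hcq := CfsgLib.H9.card_orderOf_eq_prime_of_sylow hcQ
  -- disjoint union
  have hcount : Nat.card {g : G // orderOf g = r} + Nat.card {g : G // orderOf g = q} + 1 ≤ Nat.card G := by
    classical
    haveI := Fintype.ofFinite G
    have hS : Nat.card {g : G // orderOf g = r} = (Finset.univ.filter (fun g : G => orderOf g = r)).card := by
      rw [Nat.card_eq_fintype_card, Fintype.card_subtype]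
    have hT : Nat.card {g : G // orderOf g = q} = (Finset.univ.filter (fun g : G => orderOf g = q)).card := by
      rw [Nat.card_eq_fintype_card, Fintype.card_subtype]
    rw [hS, hT, Nat.card_eq_fintype_card]
    have hdisj : Disjoint (Finset.univ.filter (fun g : G => orderOf g = r)) (Finset.univ.filter (fun g : G => orderOf g = q)) := by
      rw [Finset.disjoint_left]
      intro g h1 h2
      simp only [Finset.mem_filter, Finset.mem_univ, true_and] at h1 h2
      exact hneqr (h2.symm.trans h1)
    rw [← Finset.card_union_of_disjoint hdisj]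
    have h1 : (1 : G) ∉ (Finset.univ.filter (fun g : G => orderOf g = r)) ∪ (Finset.univ.filter (fun g : G => orderOf g = q)) := by
      simp only [Finset.mem_union, Finset.mem_filter, Finset.mem_univ, true_and, orderOf_one, not_or]
      exact ⟨hr.one_lt.ne, hq.one_lt.ne⟩
    rw [← Finset.card_insert_of_notMem h1]
    exact Finset.card_le_univ _
  rw [hcr, hcq, hnrpq, hG] at hcount
  -- `n_q = 1`
  have hnq_one : Nat.card (Sylow q G) = 1 := by
    by_contra hne
    have hge : r ≤ Nat.card (Sylow q G) := by
      obtain ⟨a, b, ha, hb, hab⟩ := (Nat.dvd_mul).1 hnq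
      rcases (Nat.dvd_prime hp).1 ha with ha' | ha'
      · rcases (Nat.dvd_prime hr).1 hb with hb' | hb'
        · rw [ha', hb'] at hab
          exact absurd hab.symm (by simpa using hne)
        · rw [← hab, ha', hb']; omega
      · rcases (Nat.dvd_prime hr).1 hb with hb' | hb'
        · exfalso
          rw [← hab, ha', hb', mul_one] at hnq1
          have h3 : p % q = 1 % q := hnq1
          rw [Nat.mod_eq_of_lt hpq, Nat.mod_eq_of_lt hq.one_lt] at h3
          exact hp.one_lt.ne' h3
        · rw [← hab, ha', hb']; exact Nat.le_mul_of_pos_left _ hp0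
    -- arithmetic contradiction
    have h4 : r * (q - 1) ≤ Nat.card (Sylow q G) * (q - 1) := Nat.mul_le_mul_right _ hge
    have h5 : p * q * (r - 1) + r * (q - 1) + 1 ≤ p * q * r := by
      have := Nat.add_le_add_right (Nat.add_le_add_left h4 (p * q * (r - 1))) 1
      exact this.trans hcount
    have h6 : p * q * r = p * q * (r - 1) + p * q := by
      have : r = (r - 1) + 1 := by omega
      conv_lhs => rw [this]
      rw [Nat.mul_add, mul_one]
    rw [h6] at h5
    have h7 : r * (q - 1) + 1 ≤ p * q := by omega
    have h8 : p * q ≤ (q - 1) * r := by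
      have : p ≤ q - 1 := by omega
      exact Nat.mul_le_mul this hqr.le
    rw [mul_comm r] at h7
    omega
  haveI : Subsingleton (Sylow q G) := (Nat.card_eq_one_iff_unique.1 hnq_one).1
  let Q : Sylow q G := default
  have hQnormal : (Q : Subgroup G).Normal := Sylow.normal_of_subsingleton Q
  -- the subgroup `QR`
  let K : Subgroup G := (Q : Subgroup G) ⊔ (R : Subgroup G)
  have hRK : (R : Subgroup G) ≤ K := le_sup_right
  have hQK : (Q : Subgroup G) ≤ K := le_sup_left
  have hcardK : Nat.card K ≤ q * r := by
    have h1 : (Q : Subgroup G).relIndex K = (Q : Subgroup G).relIndex (R : Subgroup G) :=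
      Subgroup.relIndex_sup_left (R : Subgroup G) (Q : Subgroup G)
    have h2 : (Q : Subgroup G).relIndex (R : Subgroup G) ∣ Nat.card (R : Subgroup G) :=
      Subgroup.relIndex_dvd_card _ _
    rw [hcR R] at h2
    have h3 : Nat.card ((Q : Subgroup G).subgroupOf K) * (Q : Subgroup G).relIndex K = Nat.card K :=
      Subgroup.card_mul_index _
    have h4 : Nat.card ((Q : Subgroup G).subgroupOf K) = q := by
      exact (Nat.card_congr (Subgroup.subgroupOfEquivOfLe hQK).toEquiv).trans (hcQ Q)
    rw [h4, h1] at h3
    rw [← h3]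
    exact Nat.mul_le_mul_left _ (Nat.le_of_dvd hr0 h2)
  have hindex : ((R : Subgroup G).subgroupOf K).index < r := by
    have h3 : Nat.card ((R : Subgroup G).subgroupOf K) * ((R : Subgroup G).subgroupOf K).index = Nat.card K :=
      Subgroup.card_mul_index _
    have h4 : Nat.card ((R : Subgroup G).subgroupOf K) = r := by
      exact (Nat.card_congr (Subgroup.subgroupOfEquivOfLe hRK).toEquiv).trans (hcR R)
    rw [h4] at h3
    have h5 : r * ((R : Subgroup G).subgroupOf K).index ≤ r * q := by
      rw [h3]; rw [mul_comm r]; exact hcardK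
    have := Nat.le_of_mul_le_mul_left h5 hr0
    omega
  have hKN := CfsgLib.H9.le_normalizer_of_index_lt R K hRK hindex
  -- index of the normaliser
  set N := Subgroup.normalizer ((R : Subgroup G) : Set G) with hN
  have hnidx : Nat.card (Sylow r G) = N.index := Sylow.card_eq_index_normalizer R
  have hdvdN : q * r ∣ Nat.card N := by
    have h1 : Nat.card (R : Subgroup G) ∣ Nat.card N := Subgroup.card_dvd_of_le (hRK.trans hKN)
    have h2 : Nat.card (Q : Subgroup G) ∣ Nat.card N := Subgroup.card_dvd_of_le (hQK.trans hKN)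
    rw [hcR R] at h1
    rw [hcQ Q] at h2
    exact Nat.Coprime.mul_dvd_of_dvd_of_dvd ((Nat.coprime_primes hq hr).2 hneqr) h2 h1
  have h5 : Nat.card N * N.index = p * q * r := by
    rw [Subgroup.card_mul_index, hG]
  obtain ⟨t, ht⟩ := hdvdN
  rw [ht] at h5
  have h6 : N.index * t = p := by
    have h7 : q * r * (t * N.index) = q * r * p := by
      calc q * r * (t * N.index) = q * r * t * N.index := by ring
        _ = p * q * r := h5
        _ = q * r * p := by ring
    have h8 := Nat.eq_of_mul_eq_mul_left (by positivity) h7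
    rw [← h8]; ring
  rw [← hnidx, hnrpq] at h6
  have h9 : q ∣ p := by
    rw [← h6]
    exact Dvd.dvd.mul_right (Dvd.intro_left p rfl) t
  have := Nat.le_of_dvd hp0 h9
  omega

end Cfsg.Agent.S0987
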