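import Cfsg.Statements.S0988
import Cfsg.Agent.Lib.H9.SimpleTools
import Mathlib

set_option autoImplicit false
open Cfsg

namespace Cfsg.Agent.S0988

variable {G : Type*} [Group G]

theorem dvd_sub_one_of_mod {n q : ℕ} (h : n % q = 1) : q ∣ n - 1 := by
  refine ⟨n / q, ?_⟩
  have := Nat.div_add_mod n q
  omega

theorem prime_data [Finite G] [IsSimpleGroup G] (hG : ¬ IsMulCommutative G) {x m : ℕ} (hx : x.Prime)
    (hcard : Nat.card G = x * m) (hnd : ¬ x ∣ m) (hm1 : m ≠ 1) :
    ∃ n u y : ℕ, n * u = m ∧ n % x = 1 ∧ n ≠ 1 ∧ y.Prime ∧ y ∣ u ∧ y ∣ x - 1 := by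
  haveI : Fact x.Prime := ⟨hx⟩
  have h1 : Nat.card G = x ^ 1 * m := by rw [hcard, pow_one]
  let P : Sylow x G := default
  have hP := CfsgLib.H9.card_sylow_of_factor h1 hnd P
  rw [pow_one] at hP
  obtain ⟨hd, hmod⟩ := CfsgLib.H9.card_sylow_dvd_cofactor h1 hnd
  have hm0 : 0 < m := by
    rcases Nat.eq_zero_or_pos m with h | h
    · exact absurd (h ▸ dvd_zero x) hnd
    · exact h
  have hne : Nat.card (Sylow x G) ≠ 1 := by
    apply CfsgLib.H9.card_sylow_ne_one ⟨m, hcard⟩
    intro k hk
    rw [hcard] at hk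
    rcases k with _ | k
    · rw [pow_zero] at hk
      have := hx.two_le
      have : x * m ≥ 2 * 1 := Nat.mul_le_mul this hm0
      omega
    · rw [pow_succ'] at hk
      have h2 : m = x ^ k := Nat.eq_of_mul_eq_mul_left hx.pos hk
      rcases k with _ | k
      · exact hm1 (by simpa using h2)
      · exact hnd (by rw [h2, pow_succ']; exact dvd_mul_right _ _)
  have hmul := CfsgLib.H9.card_normalizer_mul_card_sylow P
  obtain ⟨u, hu⟩ := hd
  have hn0 : 0 < Nat.card (Sylow x G) := Nat.card_pos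
  have hN : Nat.card (Subgroup.normalizer ((P : Subgroup G) : Set G)) = x * u := by
    apply Nat.eq_of_mul_eq_mul_right hn0
    rw [hmul, hcard, hu]
    ring
  have hnc : ¬ Nat.Coprime (Nat.card (Subgroup.normalizer ((P : Subgroup G) : Set G))) (x - 1) :=
    fun hc => CfsgLib.H9.false_of_coprime hG P hP hc
  rw [hN] at hnc
  have hcx : Nat.Coprime x (x - 1) := by
    have := hx.one_lt
    rw [Nat.coprime_comm]
    have h3 : x = (x - 1) + 1 := by omega
    conv_rhs => rw [h3]
    exact (Nat.coprime_self_add_right).mpr (Nat.coprime_one_right _)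
  have h4 : ¬ Nat.Coprime u (x - 1) := fun hc => hnc (Nat.Coprime.mul_left hcx hc)
  obtain ⟨y, hy, hyu, hyx⟩ := Nat.Prime.not_coprime_iff_dvd.mp h4
  exact ⟨_, u, y, hu.symm, hmod, hne, hy, hyu, hyx⟩

theorem dvd_p2q {n p q : ℕ} (hp : p.Prime) (hq : q.Prime) (h : n ∣ p ^ 2 * q) :
    n = 1 ∨ n = p ∨ n = p ^ 2 ∨ n = q ∨ n = p * q ∨ n = p ^ 2 * q := by
  obtain ⟨k₁, k₂, h1, h2, rfl⟩ := (Nat.dvd_mul).mp h
  obtain ⟨i, hi, rfl⟩ := (Nat.dvd_prime_pow hp).mp h1
  rcases (Nat.dvd_prime hq).mp h2 with rfl | rfl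
  · interval_cases i <;> simp
  · interval_cases i <;> simp

theorem dvd_sq_cases {n p : ℕ} (hp : p.Prime) (h : n ∣ p ^ 2) : n = 1 ∨ n = p ∨ n = p ^ 2 := by
  obtain ⟨i, hi, rfl⟩ := (Nat.dvd_prime_pow hp).mp h
  interval_cases i <;> simp

theorem dvd_cube_cases {n p : ℕ} (hp : p.Prime) (h : n ∣ p ^ 3) :
    n = 1 ∨ n = p ∨ n = p ^ 2 ∨ n = p ^ 3 := by
  obtain ⟨i, hi, rfl⟩ := (Nat.dvd_prime_pow hp).mp h
  interval_cases i <;> simp

/-- Two consecutive primes are `2, 3`. -/
theorem consecutive {p q : ℕ} (hp : p.Prime) (hq : q.Prime) (h : q = p + 1) : p = 2 ∧ q = 3 := by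
  rcases hp.eq_two_or_odd with h1 | h1
  · subst h1; exact ⟨rfl, h⟩
  · rcases hq.eq_two_or_odd with h2 | h2
    · have := hp.two_le
      omega
    · omega

/-- If `n = p ^ 2`, `n % q = 1`, `p < q` then `q = p + 1`. -/
theorem square_mod {p q : ℕ} (hp : p.Prime) (hq : q.Prime) (hpq : p < q) (h : p ^ 2 % q = 1) :
    q = p + 1 := by
  have h1 : q ∣ p ^ 2 - 1 := dvd_sub_one_of_mod h
  have h2 : p ^ 2 - 1 = (p - 1) * (p + 1) := by
    have : 1 ≤ p := hp.one_lt.le
    obtain ⟨k, rfl⟩ : ∃ k, p = k + 1 := ⟨p - 1, by omega⟩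
    simp only [Nat.add_sub_cancel]
    have : (k + 1) ^ 2 = k * (k + 1 + 1) + 1 := by ring
    omega
  rw [h2] at h1
  rcases (Nat.Prime.dvd_mul hq).mp h1 with h3 | h3
  · have hp1 := hp.one_lt
    have := Nat.le_of_dvd (by omega) h3
    omega
  · have := Nat.le_of_dvd (by omega) h3
    omega

theorem arith {p q r : ℕ} (hp : p.Prime) (hq : q.Prime) (hr : r.Prime) (h1 : p < q) (h2 : q < r)
    (hpq : p ∣ q - 1) (hpr : p ∣ r - 1) (hrd : r ∣ p * q - 1) (hqd : q ∣ p * r - 1) :
    p = 2 ∧ q = 3 ∧ r = 5 := by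
  have hp2 := hp.two_le
  obtain ⟨k, hk⟩ := hpr
  have hrk : r = p * k + 1 := by omega
  obtain ⟨l, hl⟩ := hpq
  have hql : q = p * l + 1 := by omega
  have hpos : 1 ≤ p * q := Nat.mul_pos (by omega) (by omega)
  obtain ⟨a, ha⟩ := hrd
  have ha' : p * q = r * a + 1 := by omega
  have hap : a < p := by
    by_contra hcon
    push Not at hcon
    have h3 : r * p ≤ r * a := Nat.mul_le_mul_left r hcon
    have h4 : p * q < p * r := Nat.mul_lt_mul_of_pos_left h2 (by omega)
    have h5 : p * r = r * p := mul_comm _ _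
    omega
  have hdvd : p ∣ a + 1 := by
    have h3 : p * q = p * (k * a) + (a + 1) := by
      rw [ha', hrk]
      ring
    have h4 : p ∣ p * (k * a) + (a + 1) := by
      rw [← h3]
      exact dvd_mul_right _ _
    exact (Nat.dvd_add_right (dvd_mul_right p _)).mp h4
  have ha1 : a + 1 = p := by
    have := Nat.le_of_dvd (by omega) hdvd
    obtain ⟨c, hc⟩ := hdvd
    rcases c with _ | c
    · simp at hc
    · rcases c with _ | c
      · simpa using hc
      · exfalso
        have : p * (c + 1 + 1) ≥ p * 2 := Nat.mul_le_mul_left p (by omega)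
        omega
  -- `r = q + v`
  obtain ⟨v, hv⟩ : ∃ v, r = q + v := ⟨r - q, by omega⟩
  have hv0 : 0 < v := by omega
  have hmain : q + v = v * p + 1 := by
    have h3 : p * q + r = r * (a + 1) + 1 := by rw [ha']; ring
    rw [ha1] at h3
    rw [hv] at h3
    have h4 : p * q + (q + v) = p * q + (v * p + 1) := by
      rw [h3]; ring
    omega
  -- second divisibility
  have hpv : 1 ≤ p * v := Nat.mul_pos (by omega) hv0
  have hq1 : q ∣ p * v - 1 := by
    have h3 : p * r - 1 = p * q + (p * v - 1) := by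
      rw [hv]
      have : p * (q + v) = p * q + p * v := by ring
      omega
    rw [h3] at hqd
    exact (Nat.dvd_add_right (dvd_mul_left q p)).mp hqd
  obtain ⟨s, hs⟩ := hq1
  have hs' : p * v = q * s + 1 := by omega
  have hcomm : v * p = p * v := mul_comm _ _
  have hp2v : 2 * v ≤ p * v := Nat.mul_le_mul_right v hp2
  rcases s with _ | s
  · exfalso
    have : 2 * 1 ≤ 2 * v := by omega
    simp at hs'
    omega
  · rcases s with _ | s
    · have hqs : p * v = q + 1 := by simpa using hs'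
      have hv2 : v = 2 := by omega
      subst hv2
      have h5 : p * 2 = p * l + 2 := by
        have : q + 1 = p * l + 2 := by omega
        omega
      have h6 : p ∣ 2 := by
        have h7 : p ∣ p * l + 2 := by
          rw [← h5]
          exact dvd_mul_right _ _
        exact (Nat.dvd_add_right (dvd_mul_right p l)).mp h7
      have h8 : p = 2 := (Nat.prime_dvd_prime_iff_eq hp Nat.prime_two).mp h6
      subst h8
      refine ⟨rfl, by omega, by omega⟩
    · exfalso
      have h5 : q * 2 ≤ q * (s + 1 + 1) := Nat.mul_le_mul_left q (by omega)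
      omega

/-- The case of three distinct primes. -/
theorem distinct_case [Finite G] [IsSimpleGroup G] (hG : ¬ IsMulCommutative G) {p q r : ℕ}
    (hp : p.Prime) (hq : q.Prime) (hr : r.Prime) (hpq : p ≠ q) (hpr : p ≠ r) (hqr : q < r)
    (hcard : Nat.card G = p ^ 2 * q * r) : Nat.card G = 60 := by
  have hr2 := hr.two_le
  have hq2 := hq.two_le
  have hp2 := hp.two_le
  have hndq : ¬ q ∣ p ^ 2 * r := by
    intro h
    rcases (Nat.Prime.dvd_mul hq).mp h with h | h
    · exact hpq ((Nat.prime_dvd_prime_iff_eq hq hp).mp (hq.dvd_of_dvd_pow h)).symm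
    · exact hqr.ne ((Nat.prime_dvd_prime_iff_eq hq hr).mp h)
  have hndr : ¬ r ∣ p ^ 2 * q := by
    intro h
    rcases (Nat.Prime.dvd_mul hr).mp h with h | h
    · exact hpr ((Nat.prime_dvd_prime_iff_eq hr hp).mp (hr.dvd_of_dvd_pow h)).symm
    · exact hqr.ne' ((Nat.prime_dvd_prime_iff_eq hr hq).mp h)
  have hp2q : 1 < p ^ 2 * q := by
    have : 1 ≤ p ^ 2 := Nat.pow_pos hp.pos
    nlinarith
  have hp2r : 1 < p ^ 2 * r := by
    have : 1 ≤ p ^ 2 := Nat.pow_pos hp.pos
    nlinarith
  obtain ⟨n, u, y, hnu, hn, hn1, hy, hyu, hyx⟩ :=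
    prime_data hG hq (m := p ^ 2 * r) (by rw [hcard]; ring) hndq hp2r.ne'
  obtain ⟨n', u', y', hnu', hn', hn1', hy', hyu', hyx'⟩ :=
    prime_data hG hr (m := p ^ 2 * q) (by rw [hcard]; ring) hndr hp2q.ne'
  -- `p` is smallest
  have hylt : y < q := by
    have h1 := Nat.le_of_dvd (by omega) hyx
    omega
  have hyeq : y = p := by
    have h1 : y ∣ p ^ 2 * r := hnu ▸ dvd_mul_of_dvd_right hyu n
    rcases (Nat.Prime.dvd_mul hy).mp h1 with h | h
    · exact (Nat.prime_dvd_prime_iff_eq hy hp).mp (hy.dvd_of_dvd_pow h)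
    · have := (Nat.prime_dvd_prime_iff_eq hy hr).mp h
      omega
  subst hyeq
  have hpq' : y < q := hylt
  -- analysis of `r`
  have hn'd : n' ∣ y ^ 2 * q := ⟨u', hnu'.symm⟩
  have hcase1 : n' = y * q ∧ y ∣ r - 1 := by
    rcases dvd_p2q hy hq hn'd with h | h | h | h | h | h
    · exact absurd h hn1'
    · exfalso
      rw [h, Nat.mod_eq_of_lt (by omega)] at hn'
      omega
    · exfalso
      rw [h] at hn'
      have := square_mod hy hr (by omega) hn'
      omega
    · exfalso
      rw [h, Nat.mod_eq_of_lt (by omega)] at hn'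
      omega
    · refine ⟨h, ?_⟩
      rw [h] at hnu'
      have hu' : u' = y := by
        have : y * q * u' = y * q * y := by rw [hnu']; ring
        exact Nat.eq_of_mul_eq_mul_left (Nat.mul_pos hy.pos hq.pos) this
      rw [hu'] at hyu'
      have := (Nat.prime_dvd_prime_iff_eq hy' hy).mp hyu'
      rwa [this] at hyx'
    · exfalso
      rw [h] at hnu'
      have hu' : u' = 1 := by
        have : y ^ 2 * q * u' = y ^ 2 * q * 1 := by rw [hnu', mul_one]
        exact Nat.eq_of_mul_eq_mul_left (Nat.mul_pos (Nat.pow_pos hy.pos) hq.pos) this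
      rw [hu'] at hyu'
      exact hy'.one_lt.ne' (Nat.dvd_one.mp hyu')
  obtain ⟨hn'eq, hyr⟩ := hcase1
  have hrd : r ∣ y * q - 1 := by
    rw [hn'eq] at hn'
    exact dvd_sub_one_of_mod hn'
  -- analysis of `q`
  have hnd : n ∣ y ^ 2 * r := ⟨u, hnu.symm⟩
  have hfinal : y = 2 ∧ q = 3 ∧ r = 5 := by
    rcases dvd_p2q hy hr hnd with h | h | h | h | h | h
    · exact absurd h hn1
    · exfalso
      rw [h, Nat.mod_eq_of_lt hpq'] at hn
      omega
    · rw [h] at hn
      have h1 := square_mod hy hq hpq' hn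
      obtain ⟨h2, h3⟩ := consecutive hy hq h1
      subst h2 h3
      refine ⟨rfl, rfl, ?_⟩
      have : r ∣ 5 := hrd
      exact (Nat.prime_dvd_prime_iff_eq hr (by norm_num)).mp this
    · exfalso
      rw [h] at hn
      have h1 : q ∣ r - 1 := dvd_sub_one_of_mod hn
      have hco : Nat.Coprime y q := (Nat.coprime_primes hy hq).mpr hpq
      have h2 : y * q ∣ r - 1 := hco.mul_dvd_of_dvd_of_dvd hyr h1
      have hyq : 2 * 2 ≤ y * q := Nat.mul_le_mul hy.two_le hq2
      have h3 := Nat.le_of_dvd (by omega) h2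
      have h4 := Nat.le_of_dvd (by omega) hrd
      omega
    · have hu : u = y := by
        rw [h] at hnu
        have : y * r * u = y * r * y := by rw [hnu]; ring
        exact Nat.eq_of_mul_eq_mul_left (Nat.mul_pos hy.pos hr.pos) this
      rw [h] at hn
      have hqd : q ∣ y * r - 1 := dvd_sub_one_of_mod hn
      exact arith hy hq hr hpq' hqr hyx hyr hrd hqd
    · exfalso
      rw [h] at hnu
      have hu' : u = 1 := by
        have : y ^ 2 * r * u = y ^ 2 * r * 1 := by rw [hnu, mul_one]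
        exact Nat.eq_of_mul_eq_mul_left (Nat.mul_pos (Nat.pow_pos hy.pos) hr.pos) this
      rw [hu'] at hyu
      exact hy.one_lt.ne' (Nat.dvd_one.mp hyu)
  obtain ⟨rfl, rfl, rfl⟩ := hfinal
  rw [hcard]
  norm_num

/-- Order `p^2 q^2` with `p < q` is impossible. -/
theorem squares_case [Finite G] [IsSimpleGroup G] (hG : ¬ IsMulCommutative G) {p q : ℕ}
    (hp : p.Prime) (hq : q.Prime) (hpq : p < q) (hcard : Nat.card G = q ^ 2 * p ^ 2) : False := by
  haveI : Fact q.Prime := ⟨hq⟩
  have hnd : ¬ q ∣ p ^ 2 := by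
    intro h
    have := (Nat.prime_dvd_prime_iff_eq hq hp).mp (hq.dvd_of_dvd_pow h)
    omega
  obtain ⟨hd, hmod⟩ := CfsgLib.H9.card_sylow_dvd_cofactor hcard hnd
  have hne : Nat.card (Sylow q G) ≠ 1 :=
    CfsgLib.H9.card_sylow_ne_one' hp hpq.ne (by rw [hcard]; exact dvd_mul_of_dvd_left (dvd_pow_self q (by norm_num)) _)
      (by rw [hcard]; exact dvd_mul_of_dvd_right (dvd_pow_self p (by norm_num)) _)
  rcases dvd_sq_cases hp hd with h | h | h
  · exact hne h
  · rw [h, Nat.mod_eq_of_lt hpq] at hmod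
    exact hp.one_lt.ne' hmod
  · rw [h] at hmod
    have h1 := square_mod hp hq hpq hmod
    obtain ⟨rfl, rfl⟩ := consecutive hp hq h1
    -- order `36`, four Sylow `3`-subgroups
    let P : Sylow 3 G := default
    have hidx : (Subgroup.normalizer ((P : Subgroup G) : Set G)).index = 4 := by
      have h7 : Nat.card (Sylow 3 G) = (Subgroup.normalizer ((P : Subgroup G) : Set G)).index :=
        Sylow.card_eq_index_normalizer P
      rw [← h7, h]
      norm_num
    have hN : Subgroup.normalizer ((P : Subgroup G) : Set G) ≠ ⊤ := by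
      intro h5
      rw [h5, Subgroup.index_top] at hidx
      omega
    have h6 := CfsgLib.H9.two_mul_card_dvd_factorial hG _ hN
    rw [hidx, hcard] at h6
    norm_num [Nat.factorial] at h6

/-- Order `p^3 s` is impossible. -/
theorem cube_case [Finite G] [IsSimpleGroup G] (hG : ¬ IsMulCommutative G) {p s : ℕ}
    (hp : p.Prime) (hs : s.Prime) (hps : p ≠ s) (hcard : Nat.card G = p ^ 3 * s) : False := by
  haveI : Fact p.Prime := ⟨hp⟩
  haveI : Fact s.Prime := ⟨hs⟩
  have hp3 : ¬ p ∣ s := fun h => hps ((Nat.prime_dvd_prime_iff_eq hp hs).mp h)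
  have hs3 : ¬ s ∣ p ^ 3 := fun h => hps ((Nat.prime_dvd_prime_iff_eq hs hp).mp (hs.dvd_of_dvd_pow h)).symm
  obtain ⟨hd, hmod⟩ := CfsgLib.H9.card_sylow_dvd_cofactor hcard hp3
  have hdvdp : p ∣ Nat.card G := by rw [hcard]; exact dvd_mul_of_dvd_left (dvd_pow_self p (by norm_num)) _
  have hdvds : s ∣ Nat.card G := by rw [hcard]; exact dvd_mul_left _ _
  have hne : Nat.card (Sylow p G) ≠ 1 := CfsgLib.H9.card_sylow_ne_one' hs hps.symm hdvdp hdvds
  have hns : Nat.card (Sylow p G) = s := by
    rcases (Nat.dvd_prime hs).mp hd with h | h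
    · exact absurd h hne
    · exact h
  rw [hns] at hmod
  have hlt : p < s := by
    by_contra hcon
    push Not at hcon
    have hlt' : s < p := lt_of_le_of_ne hcon (Ne.symm hps)
    rw [Nat.mod_eq_of_lt hlt'] at hmod
    exact hs.one_lt.ne' hmod
  have hp31 : p ^ 3 ≠ 1 := by
    have := hp.two_le
    have : 2 ^ 3 ≤ p ^ 3 := Nat.pow_le_pow_left this 3
    omega
  obtain ⟨n, u, y, hnu, hn, hn1, hy, hyu, hyx⟩ :=
    prime_data hG hs (m := p ^ 3) (by rw [hcard]; ring) hs3 hp31
  have hnd : n ∣ p ^ 3 := ⟨u, hnu.symm⟩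
  rcases dvd_cube_cases hp hnd with h | h | h | h
  · exact hn1 h
  · rw [h, Nat.mod_eq_of_lt hlt] at hn
    exact hp.one_lt.ne' hn
  · rw [h] at hn
    have h1 := square_mod hp hs hlt hn
    obtain ⟨rfl, rfl⟩ := consecutive hp hs h1
    let P : Sylow 2 G := default
    have hidx : (Subgroup.normalizer ((P : Subgroup G) : Set G)).index = 3 := by
      have h7 : Nat.card (Sylow 2 G) = (Subgroup.normalizer ((P : Subgroup G) : Set G)).index :=
        Sylow.card_eq_index_normalizer P
      rw [← h7, hns]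
    have hN : Subgroup.normalizer ((P : Subgroup G) : Set G) ≠ ⊤ := by
      intro h5
      rw [h5, Subgroup.index_top] at hidx
      omega
    have h6 := CfsgLib.H9.two_mul_card_dvd_factorial hG _ hN
    rw [hidx, hcard] at h6
    norm_num [Nat.factorial] at h6
  · rw [h] at hnu
    have hu' : u = 1 := by
      have : p ^ 3 * u = p ^ 3 * 1 := by rw [hnu, mul_one]
      exact Nat.eq_of_mul_eq_mul_left (Nat.pow_pos hp.pos) this
    rw [hu'] at hyu
    exact hy.one_lt.ne' (Nat.dvd_one.mp hyu)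

/-- If a finite simple group has order p^2 * q * r with p, q and r prime, then its order is 60. -/
theorem result {G : Type*} [Group G] [Finite G] [IsSimpleGroup G] (p q r : ℕ) (hp : p.Prime) (hq : q.Prime) (hr : r.Prime) (hG : Nat.card G = p ^ 2 * q * r) : Nat.card G = 60 := by
  have hnp : ¬ (Nat.card G).Prime := by
    rw [hG]
    intro h
    have h1 := Nat.not_prime_mul (a := p ^ 2 * q) (b := r) (by
      have : 1 ≤ p ^ 2 := Nat.pow_pos hp.pos
      have := hq.two_le
      nlinarith) hr.one_lt.ne'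
    exact h1 h
  have hNC := CfsgLib.H9.not_isMulCommutative_of_not_prime (G := G) hnp
  by_cases hqr : q = r
  · subst hqr
    by_cases hpq : p = q
    · -- a `p`-group
      subst hpq
      exfalso
      have hpow : Nat.card G = p ^ 4 := by rw [hG]; ring
      haveI : Fact p.Prime := ⟨hp⟩
      have hPG : IsPGroup p G := IsPGroup.of_card hpow
      haveI : Nontrivial G := by
        rw [← Finite.one_lt_card_iff_nontrivial, hpow]
        have := hp.two_le
        have : 2 ^ 4 ≤ p ^ 4 := Nat.pow_le_pow_left this 4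
        omega
      have hcen := hPG.center_nontrivial
      have hZ : Subgroup.center G = ⊤ := by
        rcases IsSimpleGroup.eq_bot_or_eq_top_of_normal (Subgroup.center G) inferInstance with h | h
        · exfalso
          rw [h] at hcen
          exact (not_nontrivial_iff_subsingleton.mpr (inferInstance : Subsingleton (⊥ : Subgroup G))) hcen
        · exact h
      apply hNC
      refine ⟨⟨fun a b => ?_⟩⟩
      have ha : a ∈ Subgroup.center G := by rw [hZ]; trivial
      exact (Subgroup.mem_center_iff.mp ha b).symm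
    · exfalso
      rcases lt_or_gt_of_ne hpq with h | h
      · exact squares_case hNC hp hq h (by rw [hG]; ring)
      · exact squares_case hNC hq hp h (by rw [hG]; ring)
  · by_cases hpq : p = q
    · subst hpq
      exact (cube_case hNC hp hr (Ne.symm (by tauto) ) (by rw [hG]; ring)).elim
    · by_cases hpr : p = r
      · subst hpr
        exact (cube_case hNC hp hq hpq (by rw [hG]; ring)).elim
      · rcases lt_or_gt_of_ne hqr with h | h
        · exact distinct_case hNC hp hq hr hpq hpr h hG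
        · exact distinct_case hNC hp hr hq hpr hpq h (by rw [hG]; ring)

end Cfsg.Agent.S0988
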