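import Cfsg.Statements.S0493
import Cfsg.Agent.S0987
import Cfsg.Agent.S0988
import Cfsg.Agent.Lib.Char.Burnside
import Cfsg.Agent.Lib.H9.SimpleTools

set_option autoImplicit false
open Cfsg

namespace Cfsg.Agent.S0493

/-- A finite simple group of order at most 100 that is not cyclic has order 60. -/
theorem result {G : Type*} [Group G] [Finite G] [IsSimpleGroup G]
    (hG : ¬ IsCyclic G) (h : Nat.card G ≤ 100) : Nat.card G = 60 := by
  classical
  haveI : Nontrivial G := IsSimpleGroup.toNontrivial
  have hne1 : Nat.card G ≠ 1 := (Finite.one_lt_card (α := G)).ne'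
  have key : ∀ p q a b : ℕ, p.Prime → q.Prime → Nat.card G = p ^ a * q ^ b → False := by
    intro p q a b hp hq hc
    haveI hs : Group.IsSolvable G := CfsgLib.Char.solvable_of_card_eq hp hq _ G rfl ⟨a, b, hc⟩
    have hcomm := (IsSimpleGroup.comm_iff_isSolvable (G := G)).2 hs
    have hpr := CfsgLib.Char.prime_card_of_simple_comm hcomm
    haveI : Fact (Nat.card G).Prime := ⟨hpr⟩
    exact hG (isCyclic_of_prime_card rfl)
  have nopqr : ∀ p q r : ℕ, p.Prime → q.Prime → r.Prime → p < q → q < r → Nat.card G = p * q * r → False := by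
    intro p q r hp hq hr hpq hqr hc
    haveI : Fact r.Prime := ⟨hr⟩
    obtain ⟨R⟩ : Nonempty (Sylow r G) := inferInstance
    have hN := Cfsg.Agent.S0987.result p q r hp hq hpq hqr hc R
    have hcard : Nat.card (R : Subgroup G) = r := by
      have hnd : ¬ r ∣ p * q := by
        intro h
        rcases (Nat.Prime.dvd_mul hr).1 h with h1 | h1
        · have := Nat.le_of_dvd hp.pos h1
          omega
        · have := Nat.le_of_dvd hq.pos h1
          omega
      have h1 := CfsgLib.H9.card_sylow_of_factor (G := G) (p := r) (k := 1) (m := p * q)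
        (by rw [hc]; ring) hnd R
      simpa using h1
    rcases IsSimpleGroup.eq_bot_or_eq_top_of_normal _ hN with h1 | h1
    · rw [h1, Subgroup.card_bot] at hcard
      exact hr.one_lt.ne hcard
    · rw [h1, Subgroup.card_top, hc] at hcard
      have hpq1 : 1 < p * q := by
        have := hp.one_lt
        have := hq.one_lt
        nlinarith
      have hrpos := hr.pos
      nlinarith
  obtain ⟨n, hn⟩ : ∃ n, n = Nat.card G := ⟨_, rfl⟩
  rw [← hn] at h ⊢
  interval_cases n
  · exact absurd hn.symm Nat.card_pos.ne'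
  · exact absurd hn.symm hne1
  · exact (key 2 2 1 0 (by norm_num) (by norm_num) (by rw [← hn] <;> norm_num)).elim
  · exact (key 3 3 1 0 (by norm_num) (by norm_num) (by rw [← hn] <;> norm_num)).elim
  · exact (key 2 2 2 0 (by norm_num) (by norm_num) (by rw [← hn] <;> norm_num)).elim
  · exact (key 5 5 1 0 (by norm_num) (by norm_num) (by rw [← hn] <;> norm_num)).elim
  · exact (key 2 3 1 1 (by norm_num) (by norm_num) (by rw [← hn] <;> norm_num)).elim
  · exact (key 7 7 1 0 (by norm_num) (by norm_num) (by rw [← hn] <;> norm_num)).elim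
  · exact (key 2 2 3 0 (by norm_num) (by norm_num) (by rw [← hn] <;> norm_num)).elim
  · exact (key 3 3 2 0 (by norm_num) (by norm_num) (by rw [← hn] <;> norm_num)).elim
  · exact (key 2 5 1 1 (by norm_num) (by norm_num) (by rw [← hn] <;> norm_num)).elim
  · exact (key 11 11 1 0 (by norm_num) (by norm_num) (by rw [← hn] <;> norm_num)).elim
  · exact (key 2 3 2 1 (by norm_num) (by norm_num) (by rw [← hn] <;> norm_num)).elim
  · exact (key 13 13 1 0 (by norm_num) (by norm_num) (by rw [← hn] <;> norm_num)).elim
  · exact (key 2 7 1 1 (by norm_num) (by norm_num) (by rw [← hn] <;> norm_num)).elim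
  · exact (key 3 5 1 1 (by norm_num) (by norm_num) (by rw [← hn] <;> norm_num)).elim
  · exact (key 2 2 4 0 (by norm_num) (by norm_num) (by rw [← hn] <;> norm_num)).elim
  · exact (key 17 17 1 0 (by norm_num) (by norm_num) (by rw [← hn] <;> norm_num)).elim
  · exact (key 2 3 1 2 (by norm_num) (by norm_num) (by rw [← hn] <;> norm_num)).elim
  · exact (key 19 19 1 0 (by norm_num) (by norm_num) (by rw [← hn] <;> norm_num)).elim
  · exact (key 2 5 2 1 (by norm_num) (by norm_num) (by rw [← hn] <;> norm_num)).elim
  · exact (key 3 7 1 1 (by norm_num) (by norm_num) (by rw [← hn] <;> norm_num)).elim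
  · exact (key 2 11 1 1 (by norm_num) (by norm_num) (by rw [← hn] <;> norm_num)).elim
  · exact (key 23 23 1 0 (by norm_num) (by norm_num) (by rw [← hn] <;> norm_num)).elim
  · exact (key 2 3 3 1 (by norm_num) (by norm_num) (by rw [← hn] <;> norm_num)).elim
  · exact (key 5 5 2 0 (by norm_num) (by norm_num) (by rw [← hn] <;> norm_num)).elim
  · exact (key 2 13 1 1 (by norm_num) (by norm_num) (by rw [← hn] <;> norm_num)).elim
  · exact (key 3 3 3 0 (by norm_num) (by norm_num) (by rw [← hn] <;> norm_num)).elim
  · exact (key 2 7 2 1 (by norm_num) (by norm_num) (by rw [← hn] <;> norm_num)).elim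
  · exact (key 29 29 1 0 (by norm_num) (by norm_num) (by rw [← hn] <;> norm_num)).elim
  · exact (nopqr 2 3 5 (by norm_num) (by norm_num) (by norm_num) (by norm_num) (by norm_num) (by rw [← hn] <;> norm_num)).elim
  · exact (key 31 31 1 0 (by norm_num) (by norm_num) (by rw [← hn] <;> norm_num)).elim
  · exact (key 2 2 5 0 (by norm_num) (by norm_num) (by rw [← hn] <;> norm_num)).elim
  · exact (key 3 11 1 1 (by norm_num) (by norm_num) (by rw [← hn] <;> norm_num)).elim
  · exact (key 2 17 1 1 (by norm_num) (by norm_num) (by rw [← hn] <;> norm_num)).elim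
  · exact (key 5 7 1 1 (by norm_num) (by norm_num) (by rw [← hn] <;> norm_num)).elim
  · exact (key 2 3 2 2 (by norm_num) (by norm_num) (by rw [← hn] <;> norm_num)).elim
  · exact (key 37 37 1 0 (by norm_num) (by norm_num) (by rw [← hn] <;> norm_num)).elim
  · exact (key 2 19 1 1 (by norm_num) (by norm_num) (by rw [← hn] <;> norm_num)).elim
  · exact (key 3 13 1 1 (by norm_num) (by norm_num) (by rw [← hn] <;> norm_num)).elim
  · exact (key 2 5 3 1 (by norm_num) (by norm_num) (by rw [← hn] <;> norm_num)).elim
  · exact (key 41 41 1 0 (by norm_num) (by norm_num) (by rw [← hn] <;> norm_num)).elim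
  · exact (nopqr 2 3 7 (by norm_num) (by norm_num) (by norm_num) (by norm_num) (by norm_num) (by rw [← hn] <;> norm_num)).elim
  · exact (key 43 43 1 0 (by norm_num) (by norm_num) (by rw [← hn] <;> norm_num)).elim
  · exact (key 2 11 2 1 (by norm_num) (by norm_num) (by rw [← hn] <;> norm_num)).elim
  · exact (key 3 5 2 1 (by norm_num) (by norm_num) (by rw [← hn] <;> norm_num)).elim
  · exact (key 2 23 1 1 (by norm_num) (by norm_num) (by rw [← hn] <;> norm_num)).elim
  · exact (key 47 47 1 0 (by norm_num) (by norm_num) (by rw [← hn] <;> norm_num)).elim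
  · exact (key 2 3 4 1 (by norm_num) (by norm_num) (by rw [← hn] <;> norm_num)).elim
  · exact (key 7 7 2 0 (by norm_num) (by norm_num) (by rw [← hn] <;> norm_num)).elim
  · exact (key 2 5 1 2 (by norm_num) (by norm_num) (by rw [← hn] <;> norm_num)).elim
  · exact (key 3 17 1 1 (by norm_num) (by norm_num) (by rw [← hn] <;> norm_num)).elim
  · exact (key 2 13 2 1 (by norm_num) (by norm_num) (by rw [← hn] <;> norm_num)).elim
  · exact (key 53 53 1 0 (by norm_num) (by norm_num) (by rw [← hn] <;> norm_num)).elim
  · exact (key 2 3 1 3 (by norm_num) (by norm_num) (by rw [← hn] <;> norm_num)).elim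
  · exact (key 5 11 1 1 (by norm_num) (by norm_num) (by rw [← hn] <;> norm_num)).elim
  · exact (key 2 7 3 1 (by norm_num) (by norm_num) (by rw [← hn] <;> norm_num)).elim
  · exact (key 3 19 1 1 (by norm_num) (by norm_num) (by rw [← hn] <;> norm_num)).elim
  · exact (key 2 29 1 1 (by norm_num) (by norm_num) (by rw [← hn] <;> norm_num)).elim
  · exact (key 59 59 1 0 (by norm_num) (by norm_num) (by rw [← hn] <;> norm_num)).elim
  · rfl
  · exact (key 61 61 1 0 (by norm_num) (by norm_num) (by rw [← hn] <;> norm_num)).elim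
  · exact (key 2 31 1 1 (by norm_num) (by norm_num) (by rw [← hn] <;> norm_num)).elim
  · exact (key 3 7 2 1 (by norm_num) (by norm_num) (by rw [← hn] <;> norm_num)).elim
  · exact (key 2 2 6 0 (by norm_num) (by norm_num) (by rw [← hn] <;> norm_num)).elim
  · exact (key 5 13 1 1 (by norm_num) (by norm_num) (by rw [← hn] <;> norm_num)).elim
  · exact (nopqr 2 3 11 (by norm_num) (by norm_num) (by norm_num) (by norm_num) (by norm_num) (by rw [← hn] <;> norm_num)).elim
  · exact (key 67 67 1 0 (by norm_num) (by norm_num) (by rw [← hn] <;> norm_num)).elim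
  · exact (key 2 17 2 1 (by norm_num) (by norm_num) (by rw [← hn] <;> norm_num)).elim
  · exact (key 3 23 1 1 (by norm_num) (by norm_num) (by rw [← hn] <;> norm_num)).elim
  · exact (nopqr 2 5 7 (by norm_num) (by norm_num) (by norm_num) (by norm_num) (by norm_num) (by rw [← hn] <;> norm_num)).elim
  · exact (key 71 71 1 0 (by norm_num) (by norm_num) (by rw [← hn] <;> norm_num)).elim
  · exact (key 2 3 3 2 (by norm_num) (by norm_num) (by rw [← hn] <;> norm_num)).elim
  · exact (key 73 73 1 0 (by norm_num) (by norm_num) (by rw [← hn] <;> norm_num)).elim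
  · exact (key 2 37 1 1 (by norm_num) (by norm_num) (by rw [← hn] <;> norm_num)).elim
  · exact (key 3 5 1 2 (by norm_num) (by norm_num) (by rw [← hn] <;> norm_num)).elim
  · exact (key 2 19 2 1 (by norm_num) (by norm_num) (by rw [← hn] <;> norm_num)).elim
  · exact (key 7 11 1 1 (by norm_num) (by norm_num) (by rw [← hn] <;> norm_num)).elim
  · exact (nopqr 2 3 13 (by norm_num) (by norm_num) (by norm_num) (by norm_num) (by norm_num) (by rw [← hn] <;> norm_num)).elim
  · exact (key 79 79 1 0 (by norm_num) (by norm_num) (by rw [← hn] <;> norm_num)).elim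
  · exact (key 2 5 4 1 (by norm_num) (by norm_num) (by rw [← hn] <;> norm_num)).elim
  · exact (key 3 3 4 0 (by norm_num) (by norm_num) (by rw [← hn] <;> norm_num)).elim
  · exact (key 2 41 1 1 (by norm_num) (by norm_num) (by rw [← hn] <;> norm_num)).elim
  · exact (key 83 83 1 0 (by norm_num) (by norm_num) (by rw [← hn] <;> norm_num)).elim
  · have h60 := Cfsg.Agent.S0988.result 2 3 7 (by norm_num) (by norm_num) (by norm_num) (by rw [← hn] <;> norm_num) (G := G)
    omega
  · exact (key 5 17 1 1 (by norm_num) (by norm_num) (by rw [← hn] <;> norm_num)).elim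
  · exact (key 2 43 1 1 (by norm_num) (by norm_num) (by rw [← hn] <;> norm_num)).elim
  · exact (key 3 29 1 1 (by norm_num) (by norm_num) (by rw [← hn] <;> norm_num)).elim
  · exact (key 2 11 3 1 (by norm_num) (by norm_num) (by rw [← hn] <;> norm_num)).elim
  · exact (key 89 89 1 0 (by norm_num) (by norm_num) (by rw [← hn] <;> norm_num)).elim
  · have h60 := Cfsg.Agent.S0988.result 3 2 5 (by norm_num) (by norm_num) (by norm_num) (by rw [← hn] <;> norm_num) (G := G)
    omega
  · exact (key 7 13 1 1 (by norm_num) (by norm_num) (by rw [← hn] <;> norm_num)).elim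
  · exact (key 2 23 2 1 (by norm_num) (by norm_num) (by rw [← hn] <;> norm_num)).elim
  · exact (key 3 31 1 1 (by norm_num) (by norm_num) (by rw [← hn] <;> norm_num)).elim
  · exact (key 2 47 1 1 (by norm_num) (by norm_num) (by rw [← hn] <;> norm_num)).elim
  · exact (key 5 19 1 1 (by norm_num) (by norm_num) (by rw [← hn] <;> norm_num)).elim
  · exact (key 2 3 5 1 (by norm_num) (by norm_num) (by rw [← hn] <;> norm_num)).elim
  · exact (key 97 97 1 0 (by norm_num) (by norm_num) (by rw [← hn] <;> norm_num)).elim
  · exact (key 2 7 1 2 (by norm_num) (by norm_num) (by rw [← hn] <;> norm_num)).elim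
  · exact (key 3 11 2 1 (by norm_num) (by norm_num) (by rw [← hn] <;> norm_num)).elim
  · exact (key 2 5 2 2 (by norm_num) (by norm_num) (by rw [← hn] <;> norm_num)).elim

end Cfsg.Agent.S0493
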