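import Cfsg.Statements.S0499
import Cfsg.Agent.Lib.Trans.Frob

set_option autoImplicit false
open Cfsg

namespace Cfsg.Agent.S0499

open Subgroup

/-- prime power part of an element outside a subgroup -/
theorem exists_prime_power_part {G : Type*} [Group G] (C : Subgroup G) :
    ∀ (n : ℕ) (g : G), orderOf g = n → Odd n → g ∉ C →
      ∃ (r e k : ℕ), r.Prime ∧ Odd r ∧ orderOf (g ^ k) = r ^ e ∧ g ^ k ∉ C := by
  intro n
  induction n using Nat.strong_induction_on with
  | _ n ih =>
    intro g hg hodd hgC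
    have hn0 : n ≠ 0 := by
      rintro rfl
      simp at hodd
    have hn1 : n ≠ 1 := by
      rintro rfl
      have : g = 1 := orderOf_eq_one_iff.1 hg
      exact hgC (this ▸ C.one_mem)
    obtain ⟨r, hr⟩ : ∃ r, r = n.minFac := ⟨_, rfl⟩
    have hrp : r.Prime := hr ▸ Nat.minFac_prime hn1
    have hrd : r ∣ n := hr ▸ Nat.minFac_dvd n
    have hrodd : Odd r := Odd.of_dvd_nat hodd hrd
    obtain ⟨v, hv⟩ : ∃ v, v = n.factorization r := ⟨_, rfl⟩
    obtain ⟨m, hm⟩ : ∃ m, m = n / r ^ v := ⟨_, rfl⟩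
    have hpd : r ^ v ∣ n := hv ▸ Nat.ordProj_dvd n r
    have hnm : n = r ^ v * m := by rw [hm, Nat.mul_div_cancel' hpd]
    have hcop : Nat.Coprime (r ^ v) m := by
      apply Nat.Coprime.pow_left
      rw [Nat.Prime.coprime_iff_not_dvd hrp, hm, hv]
      exact Nat.not_dvd_ordCompl hrp hn0
    have hvpos : v ≠ 0 := by
      rw [hv]
      exact (hrp.dvd_iff_one_le_factorization hn0 |>.1 hrd) |> Nat.one_le_iff_ne_zero.1
    have hmpos : 0 < m := by
      rcases Nat.eq_zero_or_pos m with h | h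
      · rw [h, mul_zero] at hnm; exact absurd hnm hn0
      · exact h
    have hrvpos : 0 < r ^ v := pow_pos hrp.pos v
    by_cases h1 : g ^ m ∈ C
    · -- g ^ (r ^ v) is outside C
      have h2 : g ^ (r ^ v) ∉ C := by
        intro h3
        apply hgC
        have hb := Nat.gcd_eq_gcd_ab (r ^ v) m
        rw [hcop.gcd_eq_one] at hb
        have e : g = (g ^ (r ^ v)) ^ ((r ^ v : ℕ).gcdA m) * (g ^ m) ^ ((r ^ v : ℕ).gcdB m) := by
          rw [← zpow_natCast, ← zpow_natCast, ← zpow_mul, ← zpow_mul, ← zpow_add, ← hb]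
          simp
        rw [e]
        exact C.mul_mem (C.zpow_mem h3 _) (C.zpow_mem h1 _)
      have hord2 : orderOf (g ^ (r ^ v)) = m := by
        rw [orderOf_pow_of_dvd (pow_ne_zero v hrp.ne_zero) (hg ▸ hpd), hg, hm]
      have hmlt : m < n := by
        rw [hnm]
        have : 1 < r ^ v := Nat.one_lt_pow hvpos hrp.one_lt
        nlinarith
      have hmodd : Odd m := Odd.of_dvd_nat hodd ⟨r ^ v, by rw [hnm]; ring⟩
      obtain ⟨r', e', k', h3, h4, h5, h6⟩ := ih m hmlt (g ^ (r ^ v)) hord2 hmodd h2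
      refine ⟨r', e', r ^ v * k', h3, h4, ?_, ?_⟩
      · rwa [pow_mul]
      · rwa [pow_mul]
    · refine ⟨r, v, m, hrp, hrodd, ?_, h1⟩
      rw [orderOf_pow_of_dvd hmpos.ne' (hg ▸ ⟨r ^ v, by rw [hnm]; ring⟩), hg, hnm]
      exact Nat.mul_div_cancel _ hmpos

/-- A non-abelian finite simple group of even order has order divisible by 12, 16 or 56. -/
theorem result {G : Type*} [Group G] [Finite G] [IsSimpleGroup G]
    (hG : ¬ IsMulCommutative G) (h2 : Even (Nat.card G)) :
    12 ∣ Nat.card G ∨ 16 ∣ Nat.card G ∨ 56 ∣ Nat.card G := by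
  classical
  haveI hf2 : Fact (Nat.Prime 2) := ⟨Nat.prime_two⟩
  by_contra hno
  push Not at hno
  obtain ⟨h12, h16, h56⟩ := hno
  obtain ⟨P⟩ : Nonempty (Sylow 2 G) := inferInstance
  obtain ⟨a, ha⟩ := P.2.exists_card_eq
  have hPd : Nat.card (P : Subgroup G) ∣ Nat.card G := Subgroup.card_subgroup_dvd_card _
  have ha3 : a ≤ 3 := by
    by_contra hc
    apply h16
    have : (2:ℕ) ^ 4 ∣ 2 ^ a := pow_dvd_pow 2 (by omega)
    rw [← ha] at this
    exact this.trans hPd
  have h2dvd : 2 ∣ Nat.card G := even_iff_two_dvd.1 h2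
  have ha1 : a ≠ 0 := by
    rintro rfl
    have hc := Sylow.card_eq_multiplicity P
    rw [ha] at hc
    have hnd : 2 ∣ 2 ^ (Nat.card G).factorization 2 := by
      apply dvd_pow_self
      exact ((Nat.prime_two.dvd_iff_one_le_factorization Nat.card_pos.ne').1 h2dvd) |> Nat.one_le_iff_ne_zero.1
    rw [← hc] at hnd
    simp at hnd
  have hnoC : ¬ ∃ N : Subgroup G, N.Normal ∧ N.IsComplement' (P : Subgroup G) := by
    rintro ⟨N, hNn, hN⟩
    rcases hNn.eq_bot_or_eq_top with h | h
    · -- P = ⊤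
      have hc := hN.card_mul_card
      rw [h] at hc
      simp only [Subgroup.card_bot, one_mul] at hc
      rw [ha] at hc
      have hpG : IsPGroup 2 G := IsPGroup.iff_card.2 ⟨a, hc.symm⟩
      haveI : Nontrivial G := IsSimpleGroup.toNontrivial
      have hz := hpG.center_nontrivial
      have hcn : (Subgroup.center G).Normal := inferInstance
      rcases hcn.eq_bot_or_eq_top with h3 | h3
      · rw [h3] at hz
        exact not_nontrivial _ hz
      · apply hG
        refine ⟨⟨?_⟩⟩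
        intro x y
        have : x ∈ Subgroup.center G := h3 ▸ mem_top x
        exact (Subgroup.mem_center_iff.1 this y).symm
    · have hc := hN.card_mul_card
      rw [h] at hc
      simp only [Subgroup.card_top] at hc
      have : Nat.card (P : Subgroup G) = 1 := by
        have hpos : 0 < Nat.card G := Nat.card_pos
        nlinarith
      rw [ha] at this
      have h3 : 2 ^ a ≠ 1 := by
        exact Nat.ne_of_gt (Nat.one_lt_two_pow ha1)
      exact h3 this
  rw [CfsgLib.Trans.frobenius_criterion] at hnoC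
  push Not at hnoC
  obtain ⟨Q, hQ, g, hgN, hcop, hgC⟩ := hnoC
  have hodd : Odd (orderOf g) := Nat.coprime_two_right.1 hcop
  obtain ⟨r, e, k, hr, hrodd, hord, hkC⟩ := exists_prime_power_part (centralizer (Q : Set G)) _ g rfl hodd hgC
  obtain ⟨h, hh⟩ : ∃ h, h = g ^ k := ⟨_, rfl⟩
  rw [← hh] at hord hkC
  have hhN : h ∈ normalizer (Q : Set G) := hh ▸ (normalizer (Q : Set G)).pow_mem hgN k
  have hQP : IsPGroup 2 ↥Q := P.2.to_le hQ
  obtain ⟨b, hb⟩ := hQP.exists_card_eq
  obtain ⟨F, hF⟩ : ∃ F, F = Q ⊓ centralizer ({h} : Set G) := ⟨_, rfl⟩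
  have hFQ : F ≤ Q := by rw [hF]; exact inf_le_left
  obtain ⟨c, hc⟩ : ∃ c, Nat.card F = 2 ^ c := (hQP.to_le hFQ).exists_card_eq
  have hFne : F ≠ Q := by
    intro hE
    apply hkC
    rw [mem_centralizer_iff]
    intro q hq
    have : q ∈ F := hE ▸ hq
    rw [hF] at this
    exact (mem_centralizer_singleton_iff.1 (mem_inf.1 this).2)
  have hcb : c < b := by
    have hlt : Nat.card F < Nat.card Q := by
      by_contra hc'
      exact hFne (Subgroup.eq_of_le_of_card_ge hFQ (not_lt.1 hc'))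
    rw [hc, hb] at hlt
    exact (Nat.pow_lt_pow_iff_right (by norm_num)).1 hlt
  have hb3 : b ≤ a := by
    have : (2:ℕ) ^ b ≤ 2 ^ a := by
      rw [← hb, ← ha]; exact Subgroup.card_le_of_le hQ
    exact (Nat.pow_le_pow_iff_right (by norm_num)).1 this
  -- fixed-point congruence
  letI : Fintype ↥Q := Fintype.ofFinite _
  let f : Function.End ↥Q := fun q => ⟨h * q * h⁻¹, (mem_normalizer_iff.1 hhN q).1 q.2⟩
  have hfpow : ∀ (n : ℕ) (q : ↥Q), (((f ^ n) q : ↥Q) : G) = h ^ n * q * (h ^ n)⁻¹ := by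
    intro n
    induction n with
    | zero => intro q; simp only [pow_zero, one_mul, inv_one, mul_one]; rfl
    | succ n ih =>
      intro q
      rw [pow_succ]
      show (((f ^ n) (f q) : ↥Q) : G) = _
      rw [ih]
      show h ^ n * (h * q * h⁻¹) * (h ^ n)⁻¹ = _
      rw [pow_succ]; group
  have hf1 : f ^ (r ^ e) = 1 := by
    funext q
    apply Subtype.ext
    rw [hfpow, ← hord, pow_orderOf_eq_one]
    simp only [one_mul, inv_one, mul_one]
    rfl
  haveI hfr : Fact r.Prime := ⟨hr⟩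
  have hmod := Equiv.Perm.card_fixedPoints_modEq (f := f) (p := r) (n := e) hf1
  have hfixcard : Nat.card f.fixedPoints = Nat.card F := by
    refine Nat.card_congr ⟨fun x => ⟨(x.1 : G), ?_⟩, fun x => ⟨⟨(x : G), hFQ x.2⟩, ?_⟩, ?_, ?_⟩
    · rw [hF]
      refine mem_inf.2 ⟨x.1.2, mem_centralizer_singleton_iff.2 ?_⟩
      have hx : f x.1 = x.1 := x.2
      have h3 : h * (x.1 : G) * h⁻¹ = x.1 := congrArg Subtype.val hx
      have := congrArg (· * h) h3
      simpa using this.symm
    · show f ⟨(x : G), hFQ x.2⟩ = ⟨(x : G), hFQ x.2⟩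
      apply Subtype.ext
      show h * (x : G) * h⁻¹ = x
      have hxF : (x : G) ∈ Q ⊓ centralizer ({h} : Set G) := by rw [← hF]; exact x.2
      have := mem_centralizer_singleton_iff.1 (mem_inf.1 hxF).2
      rw [← this]; group
    · intro x; rfl
    · intro x; rfl
  rw [← Nat.card_eq_fintype_card, ← Nat.card_eq_fintype_card, hfixcard, hc, hb] at hmod
  have hrdvd : r ∣ 2 ^ b - 2 ^ c := by
    have h3 := (Nat.modEq_iff_dvd' (Nat.pow_le_pow_right (by norm_num) hcb.le)).1 hmod.symm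
    exact h3
  have hfac : 2 ^ b - 2 ^ c = 2 ^ c * (2 ^ (b - c) - 1) := by
    have e1 : 2 ^ b = 2 ^ c * 2 ^ (b - c) := by
      rw [← pow_add]; congr 1; omega
    rw [e1, Nat.mul_sub, mul_one]
  rw [hfac] at hrdvd
  have hrn2 : r ≠ 2 := by
    rintro rfl
    exact absurd hrodd (by decide)
  have hr2 : Nat.Coprime r (2 ^ c) := Nat.Coprime.pow_right _ ((Nat.coprime_primes hr Nat.prime_two).2 hrn2)
  have hrd3 : r ∣ 2 ^ (b - c) - 1 := hr2.dvd_of_dvd_mul_left hrdvd
  -- r divides |G|
  have hrG : r ∣ Nat.card G := by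
    have hh1 : h ≠ 1 := by
      rintro rfl
      exact hkC (one_mem _)
    have he : e ≠ 0 := by
      rintro rfl
      simp only [pow_zero] at hord
      exact hh1 (orderOf_eq_one_iff.1 hord)
    have : r ∣ orderOf h := by rw [hord]; exact dvd_pow_self r he
    exact this.trans (orderOf_dvd_natCard h)
  have hQG : 2 ^ b ∣ Nat.card G := by
    rw [← hb]; exact Subgroup.card_subgroup_dvd_card Q
  have hbc : b - c = 1 ∨ b - c = 2 ∨ b - c = 3 := by omega
  rcases hbc with h3 | h3 | h3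
  · rw [h3] at hrd3
    norm_num at hrd3
    exact hr.one_lt.ne' hrd3
  · rw [h3] at hrd3
    norm_num at hrd3
    have hr3 : r = 3 := (Nat.prime_dvd_prime_iff_eq hr Nat.prime_three).1 hrd3
    subst hr3
    apply h12
    have h4 : 4 ∣ Nat.card G := (pow_dvd_pow 2 (by omega : 2 ≤ b)).trans hQG
    exact Nat.Coprime.mul_dvd_of_dvd_of_dvd (by norm_num : Nat.Coprime 3 4) hrG h4 |> fun h => by simpa using h
  · rw [h3] at hrd3
    norm_num at hrd3
    have hr7 : r = 7 := (Nat.prime_dvd_prime_iff_eq hr (by norm_num)).1 hrd3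
    subst hr7
    apply h56
    have h4 : 8 ∣ Nat.card G := (pow_dvd_pow 2 (by omega : 3 ≤ b)).trans hQG
    exact Nat.Coprime.mul_dvd_of_dvd_of_dvd (by norm_num : Nat.Coprime 7 8) hrG h4 |> fun h => by simpa using h

end Cfsg.Agent.S0499
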