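import Cfsg.Statements.S0505
import Cfsg.Agent.Lib.H3.Comp4

set_option autoImplicit false
open Cfsg

namespace Cfsg.Agent.S0505

/-- Let G be a finite group of even order in which the centralizer of every involution is solvable and has trivial
core (no nontrivial normal subgroup of odd order). Then G is of characteristic 2 type. -/
theorem result {G : Type*} [Group G] [Finite G]
    (h2 : Even (Nat.card G))
    (hs : ∀ t : G, orderOf t = 2 → Group.IsSolvable (Subgroup.centralizer ({t} : Set G)))
    (hc : ∀ t : G, orderOf t = 2 → Cfsg.oddCore (Subgroup.centralizer ({t} : Set G)) = ⊥) :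
    Cfsg.IsCharacteristicTwoType G := by
  refine ⟨h2, fun T hT hT1 => ?_⟩
  have key : ∀ t : G, orderOf t = 2 → Cfsg.generalizedFittingSubgroup (Subgroup.centralizer ({t} : Set G)) =
      Cfsg.pCore 2 (Subgroup.centralizer ({t} : Set G)) := by
    intro t ht
    apply CfsgLib.Comp.gfit_eq_pCore_of _ (hc t ht)
    rw [eq_bot_iff]
    refine sSup_le ?_
    intro L hL
    exfalso
    haveI := hs t ht
    exact CfsgLib.Comp.comp_not_solvable hL inferInstance
  have h3 := CfsgLib.Comp.gfit_normalizer_of_all_involutions key T hT hT1
  unfold Cfsg.IsOfCharacteristicTwo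
  rw [← h3]
  exact CfsgLib.Comp.gfit_self_centralizing

end Cfsg.Agent.S0505
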