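import Cfsg.Statements.S0514
import Cfsg.Agent.Lib.Trans.Frob

set_option autoImplicit false
open Cfsg

namespace Cfsg.Agent.S0514

open Subgroup

section abstract

variable {Q : Type*} [Group Q] [Finite Q]

theorem sq_one_of_odd (hQ : IsPGroup 2 Q) (w : Q) (m : ℕ) (hm : Odd m) (h : w ^ m = 1) : w = 1 := by
  obtain ⟨n, hn⟩ := hQ w
  have h1 := orderOf_dvd_of_pow_eq_one h
  have h2 := orderOf_dvd_of_pow_eq_one hn
  have hc : Nat.Coprime m (2 ^ n) := Nat.Coprime.pow_right _ (Nat.coprime_two_right.2 hm)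
  have h3 : orderOf w = 1 := Nat.eq_one_of_dvd_coprimes hc h1 h2
  exact orderOf_eq_one_iff.1 h3

theorem final_step (hQ : IsPGroup 2 Q) (R : Subgroup Q)
    (hprod : ∀ x y, x ∉ R → y ∉ R → x * y ∈ R) (hout : ∀ x, x ∉ R → x * x = 1)
    (α : MulAut Q) (m : ℕ) (hm : Odd m) (hα : α ^ m = 1) (hfix : ∀ x ∈ R, α x = x) : α = 1 := by
  ext x
  by_cases hx : x ∈ R
  · simpa using hfix x hx
  have hαx : α x ∉ R := by
    intro h
    have h1 := hfix _ h
    exact hx (by rwa [α.injective h1] at h)
  have hw : α x * x ∈ R := hprod _ _ hαx hx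
  have hxx : x⁻¹ = x := by
    rw [inv_eq_iff_mul_eq_one]; exact hout x hx
  have hpow : ∀ j : ℕ, (α ^ j) x = (α x * x) ^ j * x := by
    intro j
    induction j with
    | zero => simp
    | succ j ih =>
      rw [pow_succ', MulAut.mul_apply, ih, map_mul, map_pow, hfix _ hw, pow_succ]
      have : (α x * x) ^ j * (α x * x) * x = (α x * x) ^ j * α x * (x * x) := by group
      rw [this, hout x hx]; group
  have h1 := hpow m
  rw [hα] at h1
  have h2 : (α x * x) ^ m = 1 := by
    have h3 : x = (α x * x) ^ m * x := h1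
    exact (mul_eq_right.1 h3.symm)
  have h3 := sq_one_of_odd hQ _ m hm h2
  have h4 : α x = x⁻¹ := eq_inv_of_mul_eq_one_left h3
  rw [hxx] at h4
  simpa using h4

theorem odd_aut_trivial (hQ : IsPGroup 2 Q) (R : Subgroup Q) (hcyc : IsCyclic R)
    (hprod : ∀ x y, x ∉ R → y ∉ R → x * y ∈ R) (hout : ∀ x, x ∉ R → x * x = 1)
    (α : MulAut Q) (m : ℕ) (hm : Odd m) (hα : α ^ m = 1) (z : Q) (hz2 : z * z = 1) (hz1 : z ≠ 1)
    (hαz : α z = z) : α = 1 := by
  classical
  by_cases hcase : ∃ ρ ∈ R, ρ * ρ ≠ 1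
  · -- the cyclic part is invariant and fixed
    obtain ⟨ρ₀, hρ₀⟩ := hcyc.exists_generator
    have hρ₀2 : (ρ₀ : Q) * ρ₀ ≠ 1 := by
      intro h
      obtain ⟨ρ, hρ, hρ1⟩ := hcase
      apply hρ1
      obtain ⟨k, hk⟩ := mem_zpowers_iff.1 (hρ₀ ⟨ρ, hρ⟩)
      have h1 : (ρ : Q) = (ρ₀ : Q) ^ k := by
        have := congrArg Subtype.val hk
        simpa using this.symm
      rw [h1, ← zpow_add, ← two_mul, zpow_mul, zpow_two, h]; simp
    have hαρ : α ρ₀ ∈ R := by
      by_contra h
      apply hρ₀2
      have h1 := hout _ h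
      rw [← map_mul] at h1
      exact (map_eq_one_iff α α.injective).1 h1
    have hαR : ∀ x ∈ R, α x ∈ R := by
      intro x hx
      obtain ⟨k, hk⟩ := mem_zpowers_iff.1 (hρ₀ ⟨x, hx⟩)
      have h1 : x = (ρ₀ : Q) ^ k := by
        have := congrArg Subtype.val hk
        simpa using this.symm
      rw [h1, map_zpow]
      exact R.zpow_mem hαρ k
    have hmapR : R.map α.toMonoidHom = R := by
      apply Subgroup.eq_of_le_of_card_ge
      · rintro _ ⟨x, hx, rfl⟩
        exact hαR x hx
      · rw [Subgroup.card_map_of_injective α.injective]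
    let β : MulAut ↥R := (α.subgroupMap R).trans (MulEquiv.subgroupCongr hmapR)
    have hβ : ∀ x : ↥R, ((β x : ↥R) : Q) = α x := fun x => rfl
    have hβpow : ∀ (j : ℕ) (x : ↥R), (((β ^ j) x : ↥R) : Q) = (α ^ j) x := by
      intro j
      induction j with
      | zero => intro x; simp
      | succ j ih =>
        intro x
        rw [pow_succ', MulAut.mul_apply, hβ, ih, pow_succ', MulAut.mul_apply]
    have hβm : β ^ m = 1 := by
      ext x
      rw [hβpow, hα]; simp
    have hR2 : IsPGroup 2 ↥R := IsPGroup.to_subgroup hQ R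
    obtain ⟨b, hb⟩ := hR2.exists_card_eq
    have hcard : Nat.card (MulAut ↥R) = Nat.totient (2 ^ b) := by
      rw [← hb]; exact IsCyclic.card_mulAut _
    have hord : orderOf β = 1 := by
      have h1 : orderOf β ∣ m := orderOf_dvd_of_pow_eq_one hβm
      have h2 : orderOf β ∣ Nat.card (MulAut ↥R) := orderOf_dvd_natCard β
      rw [hcard] at h2
      rcases Nat.eq_zero_or_pos b with h0 | h0
      · rw [h0] at h2
        simpa using h2
      · rw [Nat.totient_prime_pow Nat.prime_two h0] at h2
        have h3 : Nat.Coprime m (2 ^ (b - 1) * (2 - 1)) := by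
          simp only [Nat.add_one_sub_one, mul_one]
          exact Nat.Coprime.pow_right _ (Nat.coprime_two_right.2 hm)
        exact Nat.eq_one_of_dvd_coprimes h3 h1 h2
    have hβ1 : β = 1 := orderOf_eq_one_iff.1 hord
    refine final_step hQ R hprod hout α m hm hα ?_
    intro x hx
    have : ((β ⟨x, hx⟩ : ↥R) : Q) = x := by rw [hβ1]; rfl
    exact this
  · -- the elementary case
    push Not at hcase
    have hsq : ∀ x : Q, x * x = 1 := by
      intro x
      by_cases hx : x ∈ R
      · exact hcase x hx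
      · exact hout x hx
    have hcomm : ∀ x y : Q, x * y = y * x := by
      intro x y
      have h1 := hsq (x * y)
      have h2 : (x * y)⁻¹ = x * y := by rw [inv_eq_iff_mul_eq_one]; exact h1
      rw [mul_inv_rev, inv_eq_of_mul_eq_one_right (hsq x), inv_eq_of_mul_eq_one_right (hsq y)] at h2
      exact h2.symm
    -- uniqueness of nontrivial elements of R
    have huniq : ∀ a ∈ R, ∀ b ∈ R, a ≠ 1 → b ≠ 1 → a = b := by
      obtain ⟨ρ₀, hρ₀⟩ := hcyc.exists_generator
      have hform : ∀ a ∈ R, a = 1 ∨ a = (ρ₀ : Q) := by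
        intro a ha
        obtain ⟨k, hk⟩ := mem_zpowers_iff.1 (hρ₀ ⟨a, ha⟩)
        have h1 : a = (ρ₀ : Q) ^ k := by
          have := congrArg Subtype.val hk
          simpa using this.symm
        have hρ2 : (ρ₀ : Q) ^ (2 : ℤ) = 1 := by
          rw [zpow_two]; exact hsq _
        rcases Int.emod_two_eq_zero_or_one k with h | h
        · left
          obtain ⟨j, rfl⟩ : ∃ j, k = 2 * j := ⟨k / 2, by omega⟩
          rw [h1, zpow_mul, hρ2]; simp
        · right
          obtain ⟨j, rfl⟩ : ∃ j, k = 2 * j + 1 := ⟨k / 2, by omega⟩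
          rw [h1, zpow_add, zpow_mul, hρ2]; simp
      intro a ha b hb ha1 hb1
      rcases hform a ha with h | h
      · exact absurd h ha1
      rcases hform b hb with h' | h'
      · exact absurd h' hb1
      rw [h, h']
    -- R' = ⟨z⟩
    have hz_form : ∀ x ∈ zpowers z, x = 1 ∨ x = z := by
      intro x hx
      obtain ⟨k, rfl⟩ := mem_zpowers_iff.1 hx
      have hρ2 : z ^ (2 : ℤ) = 1 := by
        rw [zpow_two]; exact hz2
      rcases Int.emod_two_eq_zero_or_one k with h | h
      · left
        obtain ⟨j, rfl⟩ : ∃ j, k = 2 * j := ⟨k / 2, by omega⟩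
        rw [zpow_mul, hρ2]; simp
      · right
        obtain ⟨j, rfl⟩ : ∃ j, k = 2 * j + 1 := ⟨k / 2, by omega⟩
        rw [zpow_add, zpow_mul, hρ2]; simp
    refine final_step hQ (zpowers z) ?_ (fun x _ => hsq x) α m hm hα ?_
    · intro x y hx hy
      have hx1 : x ≠ 1 := fun h => hx (h ▸ one_mem _)
      have hy1 : y ≠ 1 := fun h => hy (h ▸ one_mem _)
      have hxz : x ≠ z := fun h => hx (h ▸ mem_zpowers z)
      have hyz : y ≠ z := fun h => hy (h ▸ mem_zpowers z)
      by_cases hzR : z ∈ R
      · -- then ⟨z⟩ = R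
        have hRz : ∀ a ∈ R, a ∈ zpowers z := by
          intro a ha
          by_cases ha1 : a = 1
          · rw [ha1]; exact one_mem _
          · rw [huniq a ha z hzR ha1 hz1]; exact mem_zpowers z
        have hxR : x ∉ R := fun h => hx (hRz x h)
        have hyR : y ∉ R := fun h => hy (hRz y h)
        exact hRz _ (hprod x y hxR hyR)
      · -- x or x z lies in R and is nontrivial
        have hρ : ∀ u : Q, u ≠ 1 → u ≠ z → ∃ ρ ∈ R, ρ ≠ 1 ∧ (u = ρ ∨ u = ρ * z) := by
          intro u hu1 huz
          by_cases huR : u ∈ R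
          · exact ⟨u, huR, hu1, Or.inl rfl⟩
          · refine ⟨u * z, hprod u z huR hzR, ?_, Or.inr ?_⟩
            · intro h
              apply huz
              have := eq_inv_of_mul_eq_one_left h
              rw [this, inv_eq_of_mul_eq_one_right hz2]
            · rw [mul_assoc, hz2, mul_one]
        obtain ⟨ρ, hρR, hρ1, hxρ⟩ := hρ x hx1 hxz
        obtain ⟨ρ', hρ'R, hρ'1, hyρ⟩ := hρ y hy1 hyz
        have hEq : ρ' = ρ := huniq _ hρ'R _ hρR hρ'1 hρ1
        rw [hEq] at hyρ
        have hρρ := hsq ρ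
        rcases hxρ with h1 | h1 <;> rcases hyρ with h2 | h2 <;> rw [h1, h2]
        · rw [hρρ]; exact one_mem _
        · have : ρ * (ρ * z) = z := by rw [← mul_assoc, hρρ, one_mul]
          rw [this]; exact mem_zpowers z
        · have : ρ * z * ρ = z := by rw [hcomm ρ z, mul_assoc, hρρ, mul_one]
          rw [this]; exact mem_zpowers z
        · have : ρ * z * (ρ * z) = 1 := hsq _
          rw [this]; exact one_mem _
    · intro x hx
      rcases hz_form x hx with rfl | rfl
      · simp
      · exact hαz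

end abstract

/-- In a finite group whose Sylow 2-subgroups are dihedral of order at least 4, the centralizer of any involution has a
normal subgroup of odd order whose index in the centralizer is a power of 2. -/
theorem result {X : Type*} [Group X] [Finite X]
    (S : Sylow 2 X) (n : ℕ) (hn : 2 ≤ n) (hS : Nonempty ((S : Subgroup X) ≃* DihedralGroup n)) (t : X)
    (ht : orderOf t = 2) :
    ∃ N : Subgroup (Subgroup.centralizer ({t} : Set X)), N.Normal ∧ Odd (Nat.card N) ∧ ∃ k : ℕ, N.index = 2 ^ k := by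
  classical
  haveI hf2 : Fact (Nat.Prime 2) := ⟨Nat.prime_two⟩
  haveI hnz : NeZero n := ⟨by omega⟩
  obtain ⟨e₀⟩ := hS
  obtain ⟨P⟩ : Nonempty (Sylow 2 ↥(Subgroup.centralizer ({t} : Set X))) := inferInstance
  have hcrit : ∃ N : Subgroup ↥(Subgroup.centralizer ({t} : Set X)), N.Normal ∧
      N.IsComplement' (P : Subgroup ↥(Subgroup.centralizer ({t} : Set X))) := by
    rw [CfsgLib.Trans.frobenius_criterion]
    intro Q hQ g hgN hcop
    obtain ⟨g, hgC⟩ := g
    obtain ⟨Q₁, hQ₁⟩ : ∃ Q₁, Q₁ = Q.map (Subgroup.centralizer ({t} : Set X)).subtype := ⟨_, rfl⟩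
    have hQ₁p : IsPGroup 2 ↥Q₁ := by
      rw [hQ₁]
      exact (P.2.to_le hQ).map _
    have htcomm : ∀ a ∈ Q₁, t * a = a * t := by
      intro a ha
      rw [hQ₁] at ha
      obtain ⟨⟨c, hc⟩, _, rfl⟩ := ha
      exact (mem_centralizer_singleton_iff.1 hc).symm
    have ht2 : t * t = 1 := by
      rw [← pow_two, ← ht]; exact pow_orderOf_eq_one t
    have htp : IsPGroup 2 ↥(zpowers t) := by
      intro a
      refine ⟨1, Subtype.ext ?_⟩
      obtain ⟨a, k, rfl⟩ := a
      show (t ^ k) ^ 2 ^ 1 = 1
      rw [← zpow_natCast, ← zpow_mul, mul_comm, zpow_mul]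
      simp [pow_two, ht2]
    have htN : zpowers t ≤ normalizer (Q₁ : Set X) := by
      rw [zpowers_le, mem_normalizer_iff]
      intro a
      constructor
      · intro ha
        rw [htcomm a ha]; simpa using ha
      · intro ha
        have h1 := htcomm _ ha
        have h2 : t * a * t⁻¹ = a := by
          have h3 : t * (t * a * t⁻¹) = t * a * t⁻¹ * t := h1
          have h4 : t * a * t⁻¹ * t = t * a := by group
          rw [h4] at h3
          exact mul_left_cancel h3
        rwa [h2] at ha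
    obtain ⟨Q₀, hQ₀⟩ : ∃ Q₀, Q₀ = Q₁ ⊔ zpowers t := ⟨_, rfl⟩
    have hQ₀p : IsPGroup 2 ↥Q₀ := by
      rw [hQ₀]
      exact hQ₁p.to_sup_of_normal_left' htp htN
    have hg₁ : g ∈ normalizer (Q₁ : Set X) := by
      rw [mem_normalizer_iff]
      intro a
      constructor
      · intro ha
        rw [hQ₁] at ha ⊢
        obtain ⟨⟨c, hc⟩, hcQ, rfl⟩ := ha
        exact ⟨_, (mem_normalizer_iff.1 hgN (⟨c, hc⟩ : ↥(Subgroup.centralizer ({t} : Set X)))).1 hcQ, rfl⟩
      · intro ha
        rw [hQ₁] at ha ⊢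
        obtain ⟨⟨c, hc⟩, hcQ, hcc⟩ := ha
        have hc' : (⟨g, hgC⟩ : ↥(Subgroup.centralizer ({t} : Set X)))⁻¹ * ⟨c, hc⟩ * ⟨g, hgC⟩ ∈ Q := by
          have := (mem_normalizer_iff.1 ((normalizer (Q : Set ↥(Subgroup.centralizer ({t} : Set X)))).inv_mem hgN) (⟨c, hc⟩ : ↥(Subgroup.centralizer ({t} : Set X)))).1 hcQ
          simpa using this
        refine ⟨_, hc', ?_⟩
        have hcc' : c = g * a * g⁻¹ := hcc
        simp only [coe_subtype, coe_mul, InvMemClass.coe_inv]
        rw [hcc']; group
    have hg₀ : g ∈ normalizer (Q₀ : Set X) := by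
      rw [hQ₀]
      have h3 : g ∈ normalizer ((zpowers t : Subgroup X) : Set X) := by
        rw [mem_normalizer_iff]
        have hgt : g * t = t * g := mem_centralizer_singleton_iff.1 hgC
        intro a
        constructor
        · rintro ⟨k, rfl⟩
          refine ⟨k, ?_⟩
          show t ^ k = g * t ^ k * g⁻¹
          rw [← conj_zpow, hgt]; simp
        · rintro ⟨k, hk⟩
          refine ⟨k, ?_⟩
          have hk' : t ^ k = g * a * g⁻¹ := hk
          have h4 : g * t ^ k * g⁻¹ = t ^ k := by
            rw [← conj_zpow, hgt]; simp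
          have h5 : g * a * g⁻¹ = g * t ^ k * g⁻¹ := by rw [h4, hk']
          have h6 : a = t ^ k := by
            have := mul_right_cancel h5
            exact mul_left_cancel this
          exact h6.symm
      exact Subgroup.normalizer_inf_normalizer_le_normalizer_sup _ _ (mem_inf.2 ⟨hg₁, h3⟩)
    obtain ⟨S', hS'⟩ := hQ₀p.exists_le_sylow
    obtain ⟨x, hx⟩ := MulAction.exists_smul_eq X S S'
    -- the embedding into the dihedral group
    let e₁ : ↥(S' : Subgroup X) ≃* DihedralGroup n :=
      ((S.equivSMul x).symm.trans e₀ : ((x • S : Sylow 2 X)) ≃* DihedralGroup n) |> fun e => by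
        rw [hx] at e; exact e
    let ι : ↥Q₀ →* DihedralGroup n := e₁.toMonoidHom.comp (Subgroup.inclusion hS')
    have hι : Function.Injective ι := by
      intro a b hab
      exact Subgroup.inclusion_injective hS' (e₁.injective hab)
    obtain ⟨R, hR⟩ : ∃ R : Subgroup ↥Q₀, R = (zpowers (DihedralGroup.r 1 : DihedralGroup n)).comap ι := ⟨_, rfl⟩
    have hrmem : ∀ i : ZMod n, (DihedralGroup.r i : DihedralGroup n) ∈ zpowers (DihedralGroup.r 1 : DihedralGroup n) := by
      intro i
      refine ⟨(i.val : ℤ), ?_⟩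
      show (DihedralGroup.r 1 : DihedralGroup n) ^ ((i.val : ℕ) : ℤ) = DihedralGroup.r i
      rw [zpow_natCast, DihedralGroup.r_one_pow, ZMod.natCast_zmod_val]
    have hform : ∀ x : ↥Q₀, x ∉ R → ∃ i, ι x = DihedralGroup.sr i := by
      intro y hy
      rcases h : ι y with i | i
      · exfalso
        apply hy
        rw [hR, mem_comap, h]
        exact hrmem i
      · exact ⟨i, rfl⟩
    have hcyc : IsCyclic ↥R := by
      let φ : ↥R →* ↥(zpowers (DihedralGroup.r 1 : DihedralGroup n)) :=
        MonoidHom.codRestrict (ι.comp R.subtype) _ (by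
          rintro ⟨y, hy⟩
          rw [hR] at hy
          exact hy)
      exact isCyclic_of_injective φ (by
        rintro ⟨a, ha⟩ ⟨b, hb⟩ hab
        have : ι a = ι b := congrArg Subtype.val hab
        exact Subtype.ext (hι this))
    have hprod : ∀ a b : ↥Q₀, a ∉ R → b ∉ R → a * b ∈ R := by
      intro a b ha hb
      obtain ⟨i, hi⟩ := hform a ha
      obtain ⟨j, hj⟩ := hform b hb
      rw [hR, mem_comap, map_mul, hi, hj]
      exact hrmem _
    have hout : ∀ a : ↥Q₀, a ∉ R → a * a = 1 := by
      intro a ha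
      obtain ⟨i, hi⟩ := hform a ha
      apply hι
      rw [map_mul, hi, map_one]
      simp [DihedralGroup.sr_mul_sr]
    -- the automorphism
    let α : MulAut ↥Q₀ :=
      { toFun := fun q => ⟨g * q * g⁻¹, (mem_normalizer_iff.1 hg₀ q).1 q.2⟩
        invFun := fun q => ⟨g⁻¹ * q * g, by
          have := (mem_normalizer_iff.1 ((normalizer (Q₀ : Set X)).inv_mem hg₀) q).1 q.2
          simpa using this⟩
        left_inv := by intro q; apply Subtype.ext; simp [mul_assoc]
        right_inv := by intro q; apply Subtype.ext; simp [mul_assoc]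
        map_mul' := by
          intro a b
          apply Subtype.ext
          show g * ((a : X) * b) * g⁻¹ = (g * a * g⁻¹) * (g * b * g⁻¹)
          group }
    have hαpow : ∀ (j : ℕ) (q : ↥Q₀), (((α ^ j) q : ↥Q₀) : X) = g ^ j * q * (g ^ j)⁻¹ := by
      intro j
      induction j with
      | zero => intro q; simp
      | succ j ih =>
        intro q
        rw [pow_succ, MulAut.mul_apply, ih]
        show g ^ j * (g * q * g⁻¹) * (g ^ j)⁻¹ = _
        rw [pow_succ]; group
    have hoddg : Odd (orderOf g) := by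
      have : Nat.Coprime (orderOf g) 2 := by
        have h3 := hcop
        rwa [Subgroup.orderOf_mk] at h3
      exact Nat.coprime_two_right.1 this
    have hαm : α ^ (orderOf g) = 1 := by
      ext q
      rw [hαpow, pow_orderOf_eq_one]
      simp
    have htQ₀ : t ∈ Q₀ := by
      rw [hQ₀]
      exact (le_sup_right : zpowers t ≤ _) (mem_zpowers t)
    have hα1 := odd_aut_trivial hQ₀p R hcyc hprod hout α _ hoddg hαm ⟨t, htQ₀⟩
      (Subtype.ext ht2) (by
        intro h
        have h1 : t = 1 := congrArg Subtype.val h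
        rw [h1] at ht
        simp at ht)
      (by
        apply Subtype.ext
        show g * t * g⁻¹ = t
        rw [mem_centralizer_singleton_iff.1 hgC]; group)
    rw [mem_centralizer_iff]
    rintro ⟨q, hq⟩ hqQ
    apply Subtype.ext
    have hqQ₀ : q ∈ Q₀ := by
      rw [hQ₀, hQ₁]
      exact (le_sup_left : Q.map _ ≤ _) ⟨⟨q, hq⟩, hqQ, rfl⟩
    have h1 : g * q * g⁻¹ = q := by
      have := congrArg (fun f : MulAut ↥Q₀ => ((f ⟨q, hqQ₀⟩ : ↥Q₀) : X)) hα1
      exact this
    show q * g = g * q
    have := congrArg (· * g) h1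
    simpa using this.symm
  obtain ⟨N, hNn, hN⟩ := hcrit
  refine ⟨N, hNn, ?_, ?_⟩
  · have h1 := hN.index_eq_card
    have h2 := Sylow.not_dvd_index (P := P)
    rw [h1] at h2
    exact Nat.odd_iff.2 (by omega)
  · have h1 := hN.symm.index_eq_card
    obtain ⟨k, hk⟩ := P.2.exists_card_eq
    exact ⟨k, by rw [h1, hk]⟩

end Cfsg.Agent.S0514
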