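import Cfsg.Statements.S0519
import Cfsg.Agent.Lib.H3.CycMax2

set_option autoImplicit false
open Cfsg

namespace Cfsg.Agent.S0519

/-- Let P be a finite p-group in which every abelian normal subgroup is cyclic, but which has a non-cyclic abelian
subgroup. Then p = 2 and P is generalized quaternion, dihedral of order at least 16, or quasi-dihedral. -/
theorem result {P : Type*} [Group P] [Finite P] (p : ℕ) [Fact p.Prime]
    (hP : IsPGroup p P) (hn : ∀ A : Subgroup P, A.Normal → IsMulCommutative A → IsCyclic A)
    (hm : ∃ B : Subgroup P, IsMulCommutative B ∧ ¬ IsCyclic B) :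
    p = 2 ∧ ((∃ n : ℕ, Nonempty (P ≃* QuaternionGroup n)) ∨ (∃ n : ℕ, 8 ≤ n ∧ Nonempty (P ≃* DihedralGroup n)) ∨
      Cfsg.IsQuasiDihedral P) := by
  classical
  have hpp : p.Prime := Fact.out
  haveI hnil : Group.IsNilpotent P := hP.isNilpotent
  have hfin : ({M : Subgroup P | M.Normal ∧ IsMulCommutative M}).Finite := Set.toFinite _
  obtain ⟨A, hA⟩ := hfin.exists_maximal ⟨⊥, inferInstance, inferInstance⟩
  haveI hAn : A.Normal := hA.1.1
  haveI hAc : IsMulCommutative A := hA.1.2
  have hCA : Subgroup.centralizer (A : Set P) = A :=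
    CfsgLib.Solv.maximal_abelian_normal_self_centralizing A (by
      intro M hMn hMc hAM
      exact le_antisymm (hA.2 ⟨hMn, hMc⟩ hAM) hAM)
  haveI hcyc : IsCyclic A := hn A hAn hAc
  obtain ⟨g, hg⟩ := IsCyclic.exists_generator (α := A)
  obtain ⟨a, ha⟩ : ∃ a : P, Subgroup.zpowers a = A := by
    refine ⟨(g : P), ?_⟩
    have h1 : (Subgroup.zpowers g).map A.subtype = Subgroup.zpowers (g : P) :=
      MonoidHom.map_zpowers A.subtype g
    have h2 : Subgroup.zpowers g = ⊤ := eq_top_iff.2 fun x _ => hg x
    rw [← h1, h2, ← MonoidHom.range_eq_map, Subgroup.range_subtype]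
  subst ha
  obtain ⟨n, hord⟩ := IsPGroup.iff_orderOf.1 hP a
  have hCen : ∀ g : P, g * a = a * g → g ∈ Subgroup.zpowers a := by
    intro x hx
    rw [← hCA, Subgroup.mem_centralizer_iff]
    rintro _ ⟨i, rfl⟩
    have h1 : Commute x a := hx
    exact (h1.zpow_right i).symm.eq
  have hna : ¬ IsMulCommutative P := by
    intro hc
    obtain ⟨B, -, hB2⟩ := hm
    have hall : ∀ x : P, x ∈ Subgroup.zpowers a := fun x => hCen x (hc.is_comm.comm x a)
    haveI : IsCyclic P := ⟨⟨a, hall⟩⟩
    exact hB2 inferInstance
  rcases CfsgLib.CycMax.structure_main hP hna a n inferInstance hord hCen with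
    ⟨h1, h2, h3, -⟩ | ⟨-, h2, h3, -, h5⟩
  · subst h1
    refine ⟨rfl, ?_⟩
    rcases h3 with ⟨m, ⟨e⟩⟩ | h3 | h3
    · -- dihedral
      right; left
      refine ⟨m, ?_, ⟨e⟩⟩
      by_contra hm8
      have hc : Nat.card P = 2 * m := by
        rw [Nat.card_congr e.toEquiv, DihedralGroup.nat_card]
      have hm2 : 2 * m = 2 ^ (n + 1) := by rw [← hc, h2]
      have hmn : m = 2 ^ n := by
        rw [pow_succ] at hm2
        omega
      have hn3 : n < 3 := by
        by_contra hn3
        have : 2 ^ 3 ≤ 2 ^ n := Nat.pow_le_pow_right (by norm_num) (by omega)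
        omega
      interval_cases n
      · -- order two
        exfalso
        apply hna
        have : Nat.card P = 2 := by rw [h2]; norm_num
        haveI : Fact (Nat.Prime (Nat.card P)) := ⟨by rw [this]; exact Nat.prime_two⟩
        haveI := isCyclic_of_prime_card (α := P) rfl
        exact IsCyclic.isMulCommutative
      · exfalso
        apply hna
        have : Nat.card P = 2 ^ 2 := by rw [h2]
        exact IsPGroup.isMulCommutative_of_card_eq_prime_sq this
      · -- `D₈`
        exfalso
        subst hmn
        have hd1 : ∀ x y : DihedralGroup (2 ^ 2),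
            (x = DihedralGroup.r 0 ∨ x = DihedralGroup.r 2 ∨ x = DihedralGroup.sr 0 ∨ x = DihedralGroup.sr 2) →
            (y = DihedralGroup.r 0 ∨ y = DihedralGroup.r 2 ∨ y = DihedralGroup.sr 0 ∨ y = DihedralGroup.sr 2) →
            (x * y = DihedralGroup.r 0 ∨ x * y = DihedralGroup.r 2 ∨ x * y = DihedralGroup.sr 0 ∨
              x * y = DihedralGroup.sr 2) ∧ x * y = y * x := by
          decide +kernel
        have hd2 : ∀ x : DihedralGroup (2 ^ 2),
            (x = DihedralGroup.r 0 ∨ x = DihedralGroup.r 2 ∨ x = DihedralGroup.sr 0 ∨ x = DihedralGroup.sr 2) →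
            x * x = 1 ∧ ∀ g : DihedralGroup (2 ^ 2),
            (g * x * g⁻¹ = DihedralGroup.r 0 ∨ g * x * g⁻¹ = DihedralGroup.r 2 ∨
              g * x * g⁻¹ = DihedralGroup.sr 0 ∨ g * x * g⁻¹ = DihedralGroup.sr 2) := by
          decide +kernel
        have hd3 : (DihedralGroup.r 2 : DihedralGroup (2 ^ 2)) ≠ 1 ∧
            (DihedralGroup.sr 0 : DihedralGroup (2 ^ 2)) ≠ 1 ∧
            (DihedralGroup.sr 0 : DihedralGroup (2 ^ 2)) ≠ DihedralGroup.r 2 := by
          decide +kernel
        let K : Subgroup (DihedralGroup (2 ^ 2)) :=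
          { carrier := {x | x = DihedralGroup.r 0 ∨ x = DihedralGroup.r 2 ∨ x = DihedralGroup.sr 0 ∨
              x = DihedralGroup.sr 2}
            mul_mem' := fun {x y} hx hy => (hd1 x y hx hy).1
            one_mem' := Or.inl rfl
            inv_mem' := fun {x} hx => by
              have h7 : x⁻¹ = x := inv_eq_of_mul_eq_one_left (hd2 x hx).1
              rw [h7]
              exact hx }
        have hKn : K.Normal := ⟨fun x hx g => (hd2 x hx).2 g⟩
        let K' : Subgroup P := K.map e.symm.toMonoidHom
        have hK'n : K'.Normal := hKn.map _ e.symm.surjective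
        let eK : K ≃* K' := K.equivMapOfInjective _ e.symm.injective
        have hKc : IsMulCommutative K := by
          apply CfsgLib.Comp.comm_of_forall
          rintro ⟨x, hx⟩ ⟨y, hy⟩
          apply Subtype.ext
          exact (hd1 x y hx hy).2
        have hK'c : IsMulCommutative K' := by
          apply CfsgLib.Comp.comm_of_forall
          intro x y
          obtain ⟨x', rfl⟩ := eK.surjective x
          obtain ⟨y', rfl⟩ := eK.surjective y
          rw [← map_mul, ← map_mul, hKc.is_comm.comm x' y']
        haveI hK'cyc : IsCyclic K' := hn K' hK'n hK'c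
        haveI hKcyc : IsCyclic K := isCyclic_of_surjective eK.symm.toMonoidHom eK.symm.surjective
        obtain ⟨w, hw⟩ := IsCyclic.exists_generator (α := K)
        have hw2 : w * w = 1 := by
          apply Subtype.ext
          exact (hd2 w.1 w.2).1
        have hvals : ∀ x : K, x = 1 ∨ x = w := by
          intro x
          obtain ⟨k, hk⟩ := mem_powers_iff_mem_zpowers.2 (hw x)
          change w ^ k = x at hk
          rcases Nat.even_or_odd' k with ⟨t, rfl | rfl⟩
          · left
            rw [← hk, pow_mul w, pow_two w, hw2, one_pow]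
          · right
            rw [← hk, pow_succ w, pow_mul w, pow_two w, hw2, one_pow, one_mul]
        have hx1 := hvals ⟨DihedralGroup.r 2, Or.inr (Or.inl rfl)⟩
        have hx2 := hvals ⟨DihedralGroup.sr 0, Or.inr (Or.inr (Or.inl rfl))⟩
        have hx1' : (⟨DihedralGroup.r 2, Or.inr (Or.inl rfl)⟩ : K) = w := by
          rcases hx1 with h | h
          · exact absurd (congrArg Subtype.val h) hd3.1
          · exact h
        have hx2' : (⟨DihedralGroup.sr 0, Or.inr (Or.inr (Or.inl rfl))⟩ : K) = w := by
          rcases hx2 with h | h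
          · exact absurd (congrArg Subtype.val h) hd3.2.1
          · exact h
        have := congrArg Subtype.val (hx2'.trans hx1'.symm)
        exact hd3.2.2 this
    · left; exact h3
    · right; right; exact h3
  · -- the normal elementary abelian subgroup of order `p²` would be cyclic
    exfalso
    haveI hcy := hn _ h5 h2.1
    obtain ⟨w, hw⟩ := IsCyclic.exists_generator (α := Cfsg.omegaOne p (CfsgLib.CycMax.MM p a))
    have hw1 : orderOf w = p ^ 2 := by
      rw [← h3]
      exact orderOf_eq_card_of_forall_mem_zpowers hw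
    have hwp : w ^ p = 1 := by
      apply Subtype.ext
      simpa using h2.2 w.1 w.2
    have h6 := orderOf_dvd_of_pow_eq_one hwp
    rw [hw1] at h6
    have h7 := Nat.le_of_dvd hpp.pos h6
    have h8 : p < p ^ 2 := by
      rw [pow_two]
      nlinarith [hpp.two_le]
    omega

end Cfsg.Agent.S0519
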