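import Cfsg.Statements.S0520
import Cfsg.Agent.Lib.H5.ElemChain

set_option autoImplicit false
open Cfsg

namespace Cfsg.Agent.S0520

open Subgroup CfsgLib.H5

section aux

variable {G : Type*} [Group G] [Finite G]

/-- Conjugate of a subgroup. -/
abbrev cj (g : G) (W : Subgroup G) : Subgroup G := W.map (MulAut.conj g).toMonoidHom

theorem mem_cj {g x : G} {W : Subgroup G} : x ∈ cj g W ↔ g⁻¹ * x * g ∈ W := by
  constructor
  · rintro ⟨a, ha, rfl⟩
    simpa [mul_assoc] using ha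
  · intro h
    exact ⟨_, h, by simp [mul_assoc]⟩

theorem cj_mul (g h : G) (W : Subgroup G) : cj (g * h) W = cj g (cj h W) := by
  ext x
  simp only [mem_cj]
  have : (g * h)⁻¹ * x * (g * h) = h⁻¹ * (g⁻¹ * x * g) * h := by group
  rw [this]

theorem cj_one (W : Subgroup G) : cj 1 W = W := by
  ext x
  simp [mem_cj]

theorem cj_le {g : G} {W V : Subgroup G} (h : W ≤ V) : cj g W ≤ cj g V := Subgroup.map_mono h

theorem klein_cj {W : Subgroup G} (h : IsKleinFour W) (g : G) : IsKleinFour (cj g W) := by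
  obtain ⟨h1, h2⟩ := elem_of_klein h
  apply klein_of_elem
  · rintro _ ⟨a, ha, rfl⟩
    rw [← map_pow, h1 a ha, map_one]
  · rw [← h2]
    exact Subgroup.card_map_of_injective (MulAut.conj g).injective

theorem mem_sylow_smul {K : Type*} [Group K] (g : K) (P : Sylow 2 K) (x : K) :
    x ∈ ((g • P : Sylow 2 K) : Subgroup K) ↔ g⁻¹ * x * g ∈ (P : Subgroup K) := by
  rw [Sylow.coe_subgroup_smul, Subgroup.mem_pointwise_smul_iff_inv_smul_mem]
  simp [MulAut.smul_def]

theorem coe_smul (g : G) (P : Sylow 2 G) : ((g • P : Sylow 2 G) : Subgroup G) = cj g (P : Subgroup G) := by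
  ext x
  rw [mem_sylow_smul, mem_cj]

/-- Contains a Klein four-group. -/
def HasK (Q : Subgroup G) : Prop := ∃ V : Subgroup G, IsKleinFour V ∧ V ≤ Q

theorem exists_klein (A : Subgroup G) (hA : Elem A) (h : 2 < Nat.card A) : HasK A := by
  haveI : Fact (Nat.Prime 2) := ⟨Nat.prime_two⟩
  have hP : IsPGroup 2 ↥A := by
    intro a
    exact ⟨1, Subtype.ext (by simpa using hA a a.2)⟩
  obtain ⟨k, hk⟩ := hP.exists_card_eq
  have hk2 : 2 ≤ k := by
    by_contra hlt
    have : k ≤ 1 := by omega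
    interval_cases k <;> simp_all
  obtain ⟨K, hK⟩ := Sylow.exists_subgroup_card_pow_prime (G := ↥A) 2 (n := 2) (by
    rw [hk]; exact pow_dvd_pow 2 hk2)
  refine ⟨K.map A.subtype, ?_, ?_⟩
  · apply klein_of_elem
    · rintro _ ⟨a, _, rfl⟩
      exact hA a a.2
    · rw [Subgroup.card_map_of_injective A.subtype_injective, hK]; norm_num
  · rintro _ ⟨a, _, rfl⟩
    exact a.2

theorem not_rank_of_hasK (Q : Subgroup G) (h : HasK Q) : ¬ Cfsg.PRankLE 2 1 ↥Q := by
  obtain ⟨V, hV, hVQ⟩ := h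
  obtain ⟨h1, h2⟩ := elem_of_klein hV
  intro hr
  have := hr (V.subgroupOf Q) ⟨⟨by
      rintro ⟨⟨a, haQ⟩, ha⟩ ⟨⟨b, hbQ⟩, hb⟩
      apply Subtype.ext
      apply Subtype.ext
      exact h1.comm (by simpa [mem_subgroupOf] using ha) (by simpa [mem_subgroupOf] using hb)⟩⟩ (by
      rintro ⟨a, haQ⟩ ha
      apply Subtype.ext
      exact h1 a (by simpa [mem_subgroupOf] using ha))
  have hc : Nat.card ↥(V.subgroupOf Q) = 4 := by
    rw [← h2]; exact Nat.card_congr (subgroupOfEquivOfLe hVQ).toEquiv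
  rw [hc] at this
  norm_num at this

theorem hasK_of_not_rank (Q : Subgroup G) (h : ¬ Cfsg.PRankLE 2 1 ↥Q) : HasK Q := by
  unfold Cfsg.PRankLE at h
  push Not at h
  obtain ⟨A, hA1, hA2, hA3⟩ := h
  have hc : Nat.card ↥(A.map Q.subtype) = Nat.card A := Subgroup.card_map_of_injective Q.subtype_injective
  obtain ⟨V, hV, hVA⟩ := exists_klein (A.map Q.subtype) (by
      rintro _ ⟨a, ha, rfl⟩
      exact congrArg Subtype.val (hA2 a ha)) (by rw [hc]; simpa using hA3)
  refine ⟨V, hV, hVA.trans ?_⟩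
  rintro _ ⟨a, _, rfl⟩
  exact a.2

theorem not_rank_top (h : ¬ Cfsg.PRankLE 2 1 G) : HasK (⊤ : Subgroup G) := by
  unfold Cfsg.PRankLE at h
  push Not at h
  obtain ⟨A, hA1, hA2, hA3⟩ := h
  obtain ⟨V, hV, _⟩ := exists_klein A hA2 (by simpa using hA3)
  exact ⟨V, hV, le_top⟩

/-- Klein four-subgroups of `G` generate a 2-group contained in a Sylow subgroup. -/
theorem klein_pgroup {V : Subgroup G} (hV : IsKleinFour V) : IsPGroup 2 ↥V := by
  obtain ⟨h1, _⟩ := elem_of_klein hV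
  intro a
  exact ⟨1, Subtype.ext (by simpa using h1 a a.2)⟩

theorem exists_norm_elt (P D : Subgroup G) (hP : IsPGroup 2 ↥P) (hD : D ≤ P) (hne : D ≠ P) :
    ∃ x ∈ P, x ∉ D ∧ x ∈ normalizer (D : Set G) := by
  haveI hnil : Group.IsNilpotent ↥P := hP.isNilpotent
  have hlt : D.subgroupOf P < ⊤ := by
    rw [lt_top_iff_ne_top]
    intro h
    apply hne
    apply le_antisymm hD
    intro x hx
    have : (⟨x, hx⟩ : ↥P) ∈ D.subgroupOf P := by rw [h]; trivial
    simpa [mem_subgroupOf] using this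
  have hcond := Group.normalizerCondition_of_isNilpotent (G := ↥P) _ hlt
  obtain ⟨x, hxN, hxD⟩ := SetLike.exists_of_lt hcond
  refine ⟨x, x.2, by simpa [mem_subgroupOf] using hxD, ?_⟩
  rw [mem_normalizer_iff]
  intro y
  constructor
  · intro hy
    have h1 := (mem_normalizer_iff.1 hxN ⟨y, hD hy⟩).1 (by simpa [mem_subgroupOf] using hy)
    simpa [mem_subgroupOf] using h1
  · intro hy
    have hyP : y ∈ P := by
      have := P.mul_mem (P.mul_mem (P.inv_mem x.2) (hD hy)) x.2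
      have e : (x : G)⁻¹ * (x * y * (x : G)⁻¹) * x = y := by group
      rwa [e] at this
    have h1 := (mem_normalizer_iff.1 hxN ⟨y, hyP⟩).2 (by simpa [mem_subgroupOf] using hy)
    simpa [mem_subgroupOf] using h1

/-- Sylow subgroups conjugate to `S` under `H`. -/
def InS (H : Subgroup G) (S P : Sylow 2 G) : Prop := ∃ h ∈ H, P = h • S

theorem star (H : Subgroup G) (S : Sylow 2 G)
    (hN : ∀ Q : Subgroup G, Q ≤ (S : Subgroup G) → HasK Q → normalizer (Q : Set G) ≤ H) :
    ∀ (n : ℕ) (S₁ S₂ : Sylow 2 G), InS H S S₁ → HasK ((S₁ : Subgroup G) ⊓ S₂) →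
      Nat.card (S : Subgroup G) - Nat.card ↥((S₁ : Subgroup G) ⊓ S₂) = n → InS H S S₂ := by
  classical
  intro n
  induction n using Nat.strong_induction_on with
  | _ n ih =>
    intro S₁ S₂ hS₁ hK hn
    obtain ⟨D, hD⟩ : ∃ D, D = (S₁ : Subgroup G) ⊓ S₂ := ⟨_, rfl⟩
    rw [← hD] at hK hn
    have hD1 : D ≤ S₁ := by rw [hD]; exact inf_le_left
    have hD2 : D ≤ S₂ := by rw [hD]; exact inf_le_right
    by_cases hS12 : S₁ = S₂
    · exact hS12 ▸ hS₁
    have hne1 : D ≠ S₁ := by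
      intro h
      apply hS12
      have hle : (S₁ : Subgroup G) ≤ S₂ := by rw [← h]; exact hD2
      exact Sylow.ext (S₁.3 S₂.2 hle).symm
    have hne2 : D ≠ S₂ := by
      intro h
      apply hS12
      have hle : (S₂ : Subgroup G) ≤ S₁ := by rw [← h]; exact hD1
      exact Sylow.ext (S₂.3 S₁.2 hle)
    obtain ⟨x₁, hx₁S, hx₁D, hx₁N⟩ := exists_norm_elt _ D S₁.2 hD1 hne1
    obtain ⟨x₂, hx₂S, hx₂D, hx₂N⟩ := exists_norm_elt _ D S₂.2 hD2 hne2
    -- N(D) ≤ H
    obtain ⟨h, hh, hS₁h⟩ := hS₁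
    have hNH : normalizer (D : Set G) ≤ H := by
      intro g hg
      have hD'S : cj h⁻¹ D ≤ S := by
        intro x hx
        rw [mem_cj] at hx
        have h1 := hD1 hx
        rw [hS₁h, mem_sylow_smul] at h1
        simpa [mul_assoc] using h1
      have hD'K : HasK (cj h⁻¹ D) := by
        obtain ⟨V, hV, hVD⟩ := hK
        exact ⟨_, klein_cj hV h⁻¹, cj_le hVD⟩
      have h1 := hN _ hD'S hD'K
      have h2 : h⁻¹ * g * h ∈ normalizer ((cj h⁻¹ D : Subgroup G) : Set G) := by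
        rw [mem_normalizer_iff]
        intro y
        rw [mem_cj, mem_cj]
        have e : (h⁻¹)⁻¹ * (h⁻¹ * g * h * y * (h⁻¹ * g * h)⁻¹) * h⁻¹ = g * ((h⁻¹)⁻¹ * y * h⁻¹) * g⁻¹ := by group
        rw [e]
        exact mem_normalizer_iff.1 hg _
      have h3 := H.mul_mem (H.mul_mem hh (h1 h2)) (H.inv_mem hh)
      have e : h * (h⁻¹ * g * h) * h⁻¹ = g := by group
      rwa [e] at h3
    obtain ⟨N, hNdef⟩ : ∃ N, N = normalizer (D : Set G) := ⟨_, rfl⟩
    rw [← hNdef] at hNH hx₁N hx₂N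
    -- Sylow subgroups of N
    have hp1 : IsPGroup 2 ↥(((S₁ : Subgroup G) ⊓ N).subgroupOf N) :=
      (S₁.2.to_le (inf_le_left : (S₁ : Subgroup G) ⊓ N ≤ S₁)).comap_subtype (K := N) 
    have hp2 : IsPGroup 2 ↥(((S₂ : Subgroup G) ⊓ N).subgroupOf N) :=
      (S₂.2.to_le (inf_le_left : (S₂ : Subgroup G) ⊓ N ≤ S₂)).comap_subtype (K := N)
    obtain ⟨U₁, hU₁⟩ := hp1.exists_le_sylow
    obtain ⟨U₂, hU₂⟩ := hp2.exists_le_sylow
    obtain ⟨y, hy⟩ := MulAction.exists_smul_eq ↥N U₁ U₂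
    obtain ⟨S₃, hS₃⟩ := (U₁.2.map N.subtype).exists_le_sylow
    have hDN : D ≤ N := by rw [hNdef]; exact le_normalizer
    -- elements of S₁ ∩ N lie in S₃
    have hU1S3 : ∀ x, x ∈ (S₁ : Subgroup G) → (hxN : x ∈ N) → x ∈ (S₃ : Subgroup G) := by
      intro x hx hxN
      apply hS₃
      refine ⟨⟨x, hxN⟩, hU₁ ?_, rfl⟩
      rw [mem_subgroupOf]
      exact mem_inf.2 ⟨hx, hxN⟩
    have hcardS : ∀ P : Sylow 2 G, Nat.card (P : Subgroup G) = Nat.card (S : Subgroup G) := by
      intro P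
      exact Sylow.card_eq_multiplicity P |>.trans (Sylow.card_eq_multiplicity S).symm
    have hDcard : ∀ E : Subgroup G, D ≤ E → (∃ x ∈ E, x ∉ D) → E ≤ S₁ ∨ True →
        Nat.card D < Nat.card E := by
      intro E hE ⟨x, hxE, hxD⟩ _
      by_contra hc
      have := Subgroup.eq_of_le_of_card_ge hE (not_lt.1 hc)
      exact hxD (this ▸ hxE)
    have hDS : Nat.card D ≤ Nat.card (S : Subgroup G) := by
      rw [← hcardS S₁]; exact Subgroup.card_le_of_le hD1
    have hgt : Nat.card D < Nat.card (S : Subgroup G) := by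
      rw [← hcardS S₁]
      exact hDcard _ hD1 ⟨x₁, hx₁S, hx₁D⟩ (Or.inr trivial)
    -- first step
    have hS₃in : InS H S S₃ := by
      refine ih (Nat.card (S : Subgroup G) - Nat.card ↥((S₁ : Subgroup G) ⊓ S₃)) ?_ S₁ S₃ ⟨h, hh, hS₁h⟩ ?_ rfl
      · have : Nat.card D < Nat.card ↥((S₁ : Subgroup G) ⊓ S₃) :=
          hDcard _ (le_inf hD1 (fun z hz => hU1S3 z (hD1 hz) (hDN hz)))
            ⟨x₁, mem_inf.2 ⟨hx₁S, hU1S3 x₁ hx₁S hx₁N⟩, hx₁D⟩ (Or.inr trivial)
        rw [← hn]
        omega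
      · obtain ⟨V, hV, hVD⟩ := hK
        exact ⟨V, hV, hVD.trans (le_inf hD1 (fun z hz => hU1S3 z (hD1 hz) (hDN hz)))⟩
    -- second step
    obtain ⟨h₃, hh₃, hS₃h⟩ := hS₃in
    have hS₄in : InS H S ((y : G) • S₃) := by
      refine ⟨y * h₃, H.mul_mem (hNH y.2) hh₃, ?_⟩
      rw [hS₃h, mul_smul]
    have hU2S4 : ∀ x, x ∈ (S₂ : Subgroup G) → (hxN : x ∈ N) → x ∈ (((y : G) • S₃ : Sylow 2 G) : Subgroup G) := by
      intro x hx hxN
      rw [mem_sylow_smul]
      have h1 : (⟨x, hxN⟩ : ↥N) ∈ (U₂ : Subgroup ↥N) := hU₂ (by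
        rw [mem_subgroupOf]
        exact mem_inf.2 ⟨hx, hxN⟩)
      rw [← hy, mem_sylow_smul] at h1
      apply hS₃
      exact ⟨_, h1, rfl⟩
    refine ih (Nat.card (S : Subgroup G) - Nat.card ↥((((y : G) • S₃ : Sylow 2 G) : Subgroup G) ⊓ S₂)) ?_ _ S₂ hS₄in ?_ rfl
    · have : Nat.card D < Nat.card ↥((((y : G) • S₃ : Sylow 2 G) : Subgroup G) ⊓ S₂) :=
        hDcard _ (le_inf (fun z hz => hU2S4 z (hD2 hz) (hDN hz)) hD2)
          ⟨x₂, mem_inf.2 ⟨hU2S4 x₂ hx₂S hx₂N, hx₂S⟩, hx₂D⟩ (Or.inr trivial)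
      rw [← hn]
      omega
    · obtain ⟨V, hV, hVD⟩ := hK
      exact ⟨V, hV, hVD.trans (le_inf (fun z hz => hU2S4 z (hD2 hz) (hDN hz)) hD2)⟩

end aux

/-- The commuting relation on Klein four-subgroups. -/
abbrev KR {S : Type*} [Group S] (A B : Subgroup S) : Prop :=
  IsKleinFour A ∧ IsKleinFour B ∧ ∀ a ∈ A, ∀ b ∈ B, a * b = b * a

section main

variable {G : Type*} [Group G] [Finite G]

theorem KR.symm' {A B : Subgroup G} (h : KR A B) : KR B A :=
  ⟨h.2.1, h.1, fun a ha b hb => (h.2.2 b hb a ha).symm⟩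

theorem chain_symm {A B : Subgroup G} (h : Relation.ReflTransGen KR A B) : Relation.ReflTransGen KR B A := by
  induction h with
  | refl => exact Relation.ReflTransGen.refl
  | tail _ hbc ih => exact Relation.ReflTransGen.head (KR.symm' hbc) ih

theorem chain_cj (g : G) {A B : Subgroup G} (h : Relation.ReflTransGen KR A B) :
    Relation.ReflTransGen KR (cj g A) (cj g B) := by
  refine Relation.ReflTransGen.lift (cj g) ?_ _ _ h
  rintro C D ⟨h1, h2, h3⟩
  refine ⟨klein_cj h1 g, klein_cj h2 g, ?_⟩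
  rintro _ ⟨a, ha, rfl⟩ _ ⟨b, hb, rfl⟩
  have := h3 a ha b hb
  show g * a * g⁻¹ * (g * b * g⁻¹) = g * b * g⁻¹ * (g * a * g⁻¹)
  calc g * a * g⁻¹ * (g * b * g⁻¹) = g * (a * b) * g⁻¹ := by group
    _ = g * (b * a) * g⁻¹ := by rw [this]
    _ = _ := by group

theorem chain_in_sylow (S : Subgroup G) (hS : Cfsg.IsFourConnected ↥S) {A B : Subgroup G}
    (hA : IsKleinFour A) (hB : IsKleinFour B) (hAS : A ≤ S) (hBS : B ≤ S) :
    Relation.ReflTransGen KR A B := by
  have hsub : ∀ {W : Subgroup G}, IsKleinFour W → W ≤ S → IsKleinFour (W.subgroupOf S) := by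
    intro W hW hWS
    obtain ⟨h1, h2⟩ := elem_of_klein hW
    apply klein_of_elem
    · rintro ⟨a, haS⟩ ha
      apply Subtype.ext
      exact h1 a (by simpa [mem_subgroupOf] using ha)
    · rw [← h2]; exact Nat.card_congr (subgroupOfEquivOfLe hWS).toEquiv
  have h := hS _ _ (hsub hA hAS) (hsub hB hBS)
  have hlift : Relation.ReflTransGen KR ((A.subgroupOf S).map S.subtype) ((B.subgroupOf S).map S.subtype) := by
    refine Relation.ReflTransGen.lift (fun W : Subgroup ↥S => W.map S.subtype) ?_ _ _ h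
    rintro C D ⟨h1, h2, h3⟩
    have hmap : ∀ W : Subgroup ↥S, IsKleinFour W → IsKleinFour (W.map S.subtype) := by
      intro W hW
      obtain ⟨h1, h2⟩ := elem_of_klein hW
      apply klein_of_elem
      · rintro _ ⟨a, ha, rfl⟩
        exact congrArg Subtype.val (h1 a ha)
      · rw [← h2]; exact Subgroup.card_map_of_injective S.subtype_injective
    refine ⟨hmap C h1, hmap D h2, ?_⟩
    rintro _ ⟨a, ha, rfl⟩ _ ⟨b, hb, rfl⟩
    exact congrArg Subtype.val (h3 a ha b hb)
  rwa [Subgroup.map_subgroupOf_eq_of_le hAS, Subgroup.map_subgroupOf_eq_of_le hBS] at hlift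

theorem exists_klein_in_sylow (S : Sylow 2 G) {W : Subgroup G} (hW : IsKleinFour W) :
    ∃ x : G, cj x⁻¹ W ≤ (S : Subgroup G) := by
  obtain ⟨P, hP⟩ := (klein_pgroup hW).exists_le_sylow
  obtain ⟨x, hx⟩ := MulAction.exists_smul_eq G S P
  refine ⟨x, ?_⟩
  intro z hz
  rw [mem_cj, inv_inv] at hz
  have := hP hz
  rw [← hx, mem_sylow_smul] at this
  have e : x⁻¹ * (x * z * x⁻¹) * x = z := by group
  rwa [e] at this

end main

/-- Let G be a finite group of 2-rank at least 2 and S a Sylow 2-subgroup whose commuting graph of Klein four-subgroups is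
connected. Then the commuting graph of Klein four-subgroups of G is disconnected if and only if the 2-generated core — the
subgroup generated by the normalizers N_G(Q) of the subgroups Q of S that contain a Klein four-group — is a proper
subgroup of G. -/
theorem result {G : Type*} [Group G] [Finite G] (h2 : ¬ Cfsg.PRankLE 2 1 G)
    (S : Sylow 2 G) (hS : Cfsg.IsFourConnected (S : Subgroup G)) :
    ¬ Cfsg.IsFourConnected G ↔
      (⨆ Q : {Q : Subgroup G // Q ≤ (S : Subgroup G) ∧ ¬ Cfsg.PRankLE 2 1 Q},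
          Subgroup.normalizer ((Q : Subgroup G) : Set G)) ≠ ⊤ := by
  classical
  obtain ⟨H, hHdef⟩ : ∃ H, H = (⨆ Q : {Q : Subgroup G // Q ≤ (S : Subgroup G) ∧ ¬ Cfsg.PRankLE 2 1 Q},
          Subgroup.normalizer ((Q : Subgroup G) : Set G)) := ⟨_, rfl⟩
  rw [← hHdef]
  have hN : ∀ Q : Subgroup G, Q ≤ (S : Subgroup G) → HasK Q → normalizer (Q : Set G) ≤ H := by
    intro Q hQ hK
    rw [hHdef]
    exact le_iSup (fun Q : {Q : Subgroup G // Q ≤ (S : Subgroup G) ∧ ¬ Cfsg.PRankLE 2 1 Q} =>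
      Subgroup.normalizer ((Q : Subgroup G) : Set G)) ⟨Q, hQ, not_rank_of_hasK Q hK⟩
  obtain ⟨W₀, hW₀, -⟩ := not_rank_top h2
  obtain ⟨x₀, hx₀⟩ := exists_klein_in_sylow S hW₀
  obtain ⟨V₀, hV₀def⟩ : ∃ V₀, V₀ = cj x₀⁻¹ W₀ := ⟨_, rfl⟩
  have hV₀ : IsKleinFour V₀ := hV₀def ▸ klein_cj hW₀ _
  have hV₀S : V₀ ≤ S := hV₀def ▸ hx₀
  rw [not_iff_comm, ne_eq, not_not]
  constructor
  · -- H = ⊤ implies connected
    intro htop
    let T : Subgroup G :=
      { carrier := {g | Relation.ReflTransGen KR V₀ (cj g V₀)}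
        one_mem' := by
          show Relation.ReflTransGen KR V₀ (cj 1 V₀)
          rw [cj_one]
        mul_mem' := by
          intro a b ha hb
          show Relation.ReflTransGen KR V₀ (cj (a * b) V₀)
          rw [cj_mul]
          exact Relation.ReflTransGen.trans ha (chain_cj a hb)
        inv_mem' := by
          intro a ha
          show Relation.ReflTransGen KR V₀ (cj a⁻¹ V₀)
          have h1 := chain_cj a⁻¹ (chain_symm ha)
          rwa [← cj_mul, inv_mul_cancel, cj_one] at h1 }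
    have hHT : H ≤ T := by
      rw [hHdef]
      apply iSup_le
      rintro ⟨Q, hQ, hrank⟩ g hg
      show Relation.ReflTransGen KR V₀ (cj g V₀)
      obtain ⟨V, hV, hVQ⟩ := hasK_of_not_rank Q hrank
      have hcgV : cj g V ≤ Q := by
        rintro _ ⟨a, ha, rfl⟩
        exact (mem_normalizer_iff.1 hg a).1 (hVQ ha)
      have h1 : Relation.ReflTransGen KR V₀ V := chain_in_sylow _ hS hV₀ hV hV₀S (hVQ.trans hQ)
      have h3 : Relation.ReflTransGen KR V₀ (cj g V) :=
        chain_in_sylow _ hS hV₀ (klein_cj hV g) hV₀S (hcgV.trans hQ)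
      exact h3.trans (chain_symm (chain_cj g h1))
    have hall : ∀ W : Subgroup G, IsKleinFour W → Relation.ReflTransGen KR V₀ W := by
      intro W hW
      obtain ⟨x, hx⟩ := exists_klein_in_sylow S hW
      have h1 : Relation.ReflTransGen KR V₀ (cj x⁻¹ W) :=
        chain_in_sylow _ hS hV₀ (klein_cj hW _) hV₀S hx
      have h3 := chain_cj x h1
      rw [← cj_mul, mul_inv_cancel, cj_one] at h3
      have hxT : x ∈ T := hHT (htop ▸ mem_top x)
      exact Relation.ReflTransGen.trans hxT h3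
    intro U V hU hV
    exact (chain_symm (hall U hU)).trans (hall V hV)
  · -- connected implies H = ⊤
    intro hconn
    have hS0 : InS H S S := ⟨1, H.one_mem, by simp⟩
    have hstar := star H S hN
    have hchain : ∀ W : Subgroup G, Relation.ReflTransGen KR V₀ W →
        ∀ P : Sylow 2 G, W ≤ (P : Subgroup G) → IsKleinFour W → InS H S P := by
      intro W hW
      induction hW with
      | refl =>
        intro P hP hk
        exact hstar _ S P hS0 ⟨V₀, hk, le_inf hV₀S hP⟩ rfl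
      | tail hab hbc ih =>
        rename_i B C
        intro P hP hk
        obtain ⟨hB, hC, hcomm⟩ := hbc
        -- B and C commute so lie in a common Sylow subgroup
        have hBC : IsPGroup 2 ↥(B ⊔ C) := by
          have hle : C ≤ normalizer (B : Set G) := by
            intro c hc
            rw [mem_normalizer_iff]
            intro b
            constructor
            · intro hb
              rw [← hcomm b hb c hc]; simpa using hb
            · intro hb
              have h1 := hcomm _ hb c hc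
              have h3 : c * b * c⁻¹ * c = c * (c * b * c⁻¹) * c⁻¹ * c := by rw [h1]; group
              have h4 : c * b = c * (c * b * c⁻¹) := by simpa using h3
              have h5 := mul_left_cancel h4
              rw [h5]; exact hb
          exact (klein_pgroup hB).to_sup_of_normal_left' (klein_pgroup hC) hle
        obtain ⟨P', hP'⟩ := hBC.exists_le_sylow
        have h1 := ih P' ((le_sup_left : B ≤ B ⊔ C).trans hP') hB
        exact hstar _ P' P h1 ⟨C, hC, le_inf ((le_sup_right : C ≤ B ⊔ C).trans hP') hP⟩ rfl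
    rw [eq_top_iff]
    intro g _
    have hcg : IsKleinFour (cj g V₀) := klein_cj hV₀ g
    have hP : cj g V₀ ≤ ((g • S : Sylow 2 G) : Subgroup G) := by
      rw [coe_smul]; exact cj_le hV₀S
    obtain ⟨h, hh, hSh⟩ := hchain _ (hconn V₀ _ hV₀ hcg) (g • S) hP hcg
    -- h⁻¹ g normalizes S
    have hnorm : h⁻¹ * g ∈ normalizer ((S : Subgroup G) : Set G) := by
      have h4 : (h⁻¹ * g) • S = S := by
        rw [mul_smul, hSh, smul_smul, inv_mul_cancel, one_smul]
      exact Sylow.smul_eq_iff_mem_normalizer.1 h4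
    have hSK : HasK (S : Subgroup G) := ⟨V₀, hV₀, hV₀S⟩
    have h1 := hN _ le_rfl hSK hnorm
    have h3 := H.mul_mem hh h1
    have e : h * (h⁻¹ * g) = g := by group
    rwa [e] at h3

end Cfsg.Agent.S0520
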