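import Cfsg.Statements.S0640
import Cfsg.Agent.Lib.OOL.Rank2

set_option autoImplicit false
open Cfsg

namespace Cfsg.Agent.S0640

/-- For odd p, a prime q ≠ p dividing the order of the automorphism group of a p-group of rank at most 2 divides p² - 1 and is less than p. -/
theorem result {R : Type*} [Group R] [Finite R] {p : ℕ} [Fact p.Prime] (hp : p ≠ 2) (hR : IsPGroup p R) (hrk : Cfsg.PRankLE p 2 R) (q : ℕ) (hq : q.Prime) (hqp : q ≠ p) (hdvd : q ∣ Nat.card (MulAut R)) : q ∣ p ^ 2 - 1 ∧ q < p := by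
  classical
  have hpp := (inferInstance : Fact p.Prime).out
  haveI hqf : Fact q.Prime := ⟨hq⟩
  have hpo : Odd p := hpp.odd_of_ne_two hp
  have hp3 : 3 ≤ p := by
    have := hpp.two_le
    omega
  have hsq : p ^ 2 - 1 = (p - 1) * (p + 1) := by
    obtain ⟨k, rfl⟩ : ∃ k, p = k + 1 := ⟨p - 1, by omega⟩
    simp only [Nat.add_sub_cancel]
    have : (k + 1) ^ 2 = k * (k + 1 + 1) + 1 := by ring
    rw [this]
    simp
  rcases hq.eq_two_or_odd' with rfl | hqodd
  · constructor
    · rw [hsq]
      obtain ⟨k, hk⟩ := hpo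
      exact Dvd.dvd.mul_left ⟨k + 1, by omega⟩ _
    · omega
  obtain ⟨α, hα⟩ := exists_prime_orderOf_dvd_card' (G := MulAut R) q hdvd
  let B : Subgroup (MulAut R) := Subgroup.zpowers α
  have hBcard : Nat.card B = q := by
    rw [Nat.card_zpowers, hα]
  have hBodd : Odd (Nat.card B) := by rw [hBcard]; exact hqodd
  haveI : IsMulCommutative B := inferInstance
  have hBs : Group.IsSolvable B := inferInstance
  have h1 := (CfsgLib.OOL.rank_two_action hp hR hrk B.subtype hBodd hBs).2 ⟨α, Subgroup.mem_zpowers α⟩ q hq hqp (by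
    show orderOf α = q
    exact hα)
  constructor
  · rw [hsq]; exact h1
  · rcases (Nat.Prime.dvd_mul hq).mp h1 with h | h
    · have := Nat.le_of_dvd (by omega) h
      omega
    · -- `q` is odd and divides the even number `p + 1`
      obtain ⟨k, hk⟩ := hpo
      have h2 : (2 : ℕ).Coprime q := Nat.coprime_two_left.mpr hqodd
      have h3 : 2 * q ∣ p + 1 := Nat.Coprime.mul_dvd_of_dvd_of_dvd h2 ⟨k + 1, by omega⟩ h
      have h4 := Nat.le_of_dvd (by omega) h3
      omega

end Cfsg.Agent.S0640
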