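import Cfsg.Statements.S0656
import Cfsg.Agent.Lib.OOL.QuadFree

set_option autoImplicit false
open Cfsg

namespace Cfsg.Agent.S0656

/-- For odd p, a faithful group on an elementary abelian p-group with no nontrivial normal p-subgroup in which some nontrivial p-element acts quadratically has a section isomorphic to SL(2, p). -/
theorem result {G : Type*} [Group G] [Finite G] {p : ℕ} [Fact p.Prime] (hp : p ≠ 2) (V H : Subgroup G) (hV : Cfsg.IsElementaryAbelian p V) (hHV : H ≤ Subgroup.normalizer (V : Set G)) (hf : H ⊓ Subgroup.centralizer (V : Set G) = ⊥) (hO : Cfsg.pCore p ↥H = ⊥) (x : G) (hxH : x ∈ H) (hx1 : x ≠ 1) (hxp : ∃ k : ℕ, orderOf x = p ^ k) (hq : ⁅⁅V, Subgroup.zpowers x⁆, Subgroup.zpowers x⁆ = ⊥) : ∃ (K L : Subgroup G) (hL : (L.subgroupOf K).Normal), K ≤ H ∧ Nonempty ((K ⧸ L.subgroupOf K) ≃* Matrix.SpecialLinearGroup (Fin 2) (ZMod p)) := by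
  classical
  by_contra hno
  have hfree : ¬ CfsgLib.OOL.SecX (Matrix.SpecialLinearGroup (Fin 2) (ZMod p)) H := fun h => hno (CfsgLib.OOL.SecX.to_section H h)
  have hC0 : (Subgroup.centralizer (V : Set G)).subgroupOf H = ⊥ := by
    rw [eq_bot_iff]
    intro u hu
    have h1 : (u : G) ∈ H ⊓ Subgroup.centralizer (V : Set G) := ⟨u.2, Subgroup.mem_subgroupOf.mp hu⟩
    rw [hf, Subgroup.mem_bot] at h1
    exact Subtype.ext h1
  haveI hC : ((Subgroup.centralizer (V : Set G)).subgroupOf H).Normal := by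
    rw [hC0]
    infer_instance
  have h1 := CfsgLib.OOL.stable_core_free hp V (CfsgLib.OOL.isPGroup_of_elem hV) H hHV hfree ⟨x, hxH⟩ (CfsgLib.OOL.quad_elem hq)
  set C' := (Subgroup.centralizer (V : Set G)).subgroupOf H with hC'
  set O := (Cfsg.pCore p (H ⧸ C')).comap (QuotientGroup.mk' C') with hOdef
  have hOn : O.Normal := by
    haveI := CfsgLib.PLocal.pCore_normal' (p := p) (G := H ⧸ C')
    exact Subgroup.Normal.comap inferInstance _
  have hOp : IsPGroup p O := by
    intro u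
    obtain ⟨k, hk⟩ := CfsgLib.PLocal.pCore_isPGroup (p := p) (G := H ⧸ C') ⟨QuotientGroup.mk' C' u.1, u.2⟩
    refine ⟨k, Subtype.ext ?_⟩
    have h2 : (QuotientGroup.mk' C') ((u.1) ^ p ^ k) = 1 := by
      rw [map_pow]
      exact congrArg Subtype.val hk
    rw [QuotientGroup.mk'_apply, QuotientGroup.eq_one_iff, hC0, Subgroup.mem_bot] at h2
    exact h2
  have h3 : O ≤ Cfsg.pCore p H := CfsgLib.PLocal.le_pCore_of_normal O hOn hOp
  rw [hO] at h3
  have h4 : (⟨x, hxH⟩ : H) ∈ O := h1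
  have h5 := (Subgroup.mem_bot).mp (h3 h4)
  exact hx1 (congrArg Subtype.val h5)

end Cfsg.Agent.S0656
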