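import Cfsg.Statements.S0657
import Cfsg.Agent.Lib.OOL.QuadFree

set_option autoImplicit false
open Cfsg

namespace Cfsg.Agent.S0657

/-- For odd p, a group that fails to be p-stable modulo its largest normal subgroup of order prime to p, and whose upper p-series does not stop there, has a section isomorphic to SL(2, p). -/
theorem result {G : Type*} [Group G] [Finite G] {p : ℕ} [Fact p.Prime] (hp : p ≠ 2) (hO : Cfsg.pPrimeCore p G < Cfsg.pPrimePCore p G) (hns : ¬ Cfsg.IsPStable p (G ⧸ Cfsg.pPrimeCore p G)) : ∃ (K L : Subgroup G) (hL : (L.subgroupOf K).Normal), K ≤ ⊤ ∧ Nonempty ((K ⧸ L.subgroupOf K) ≃* Matrix.SpecialLinearGroup (Fin 2) (ZMod p)) := by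
  classical
  by_contra hno
  have hfree : ¬ CfsgLib.OOL.SecX (Matrix.SpecialLinearGroup (Fin 2) (ZMod p)) G := fun h => by
    obtain ⟨K, L, hL, hiso⟩ := h.top
    exact hno ⟨K, L, hL, le_top, hiso⟩
  haveI hOn : (Cfsg.pPrimeCore p G).Normal := CfsgLib.PLocal.pPrimeCore_normal'
  have hfree' : ¬ CfsgLib.OOL.SecX (Matrix.SpecialLinearGroup (Fin 2) (ZMod p)) (G ⧸ Cfsg.pPrimeCore p G) := fun h =>
    hfree (CfsgLib.OOL.SecX.of_surjective (QuotientGroup.mk' _) (QuotientGroup.mk'_surjective _) h)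
  apply hns
  refine ⟨(Fact.out : p.Prime).odd_of_ne_two hp, ?_, ?_⟩
  · intro h0
    apply ne_of_lt hO
    rw [Cfsg.pPrimePCore, h0]
    ext u
    rw [Subgroup.mem_comap, Subgroup.mem_bot, QuotientGroup.mk'_apply, QuotientGroup.eq_one_iff]
  · intro A P hA hP hAP hPle hnorm hq
    rintro _ ⟨⟨a, haN⟩, haA, rfl⟩
    have haA' : a ∈ A := Subgroup.mem_subgroupOf.mp haA
    have hquad : ∀ w ∈ P, a * (a * w * a⁻¹ * w⁻¹) * a⁻¹ = a * w * a⁻¹ * w⁻¹ := by
      intro w hw
      have h1 := Subgroup.commutator_mem_commutator hw haA'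
      have h2 := Subgroup.commutator_mem_commutator h1 haA'
      rw [hq, Subgroup.mem_bot] at h2
      exact CfsgLib.OOL.quad_of_comm h2
    exact CfsgLib.OOL.stable_core_free hp P hP (Subgroup.normalizer (P : Set (G ⧸ Cfsg.pPrimeCore p G))) le_rfl
      (fun h => hfree' (CfsgLib.OOL.SecX.of_injective (Subgroup.subtype _) (Subgroup.subtype_injective _) h)) ⟨a, haN⟩ hquad

end Cfsg.Agent.S0657
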