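import Cfsg.Statements.S0668
import Mathlib

set_option autoImplicit false
open Cfsg

namespace Cfsg.Agent.S0668

/-- The equivariant linear maps between the permutation modules of two finite `G`-sets form a space whose dimension is the number of `G`-orbits on the product of the two sets. -/
theorem result {G : Type*} [Group G] {K : Type*} [Field K] {Ω₁ Ω₂ : Type*} [Fintype Ω₁] [Fintype Ω₂] [MulAction G Ω₁] [MulAction G Ω₂] : Module.finrank K ((Cfsg.permRep K G Ω₁).linHom (Cfsg.permRep K G Ω₂)).invariants = Nat.card (MulAction.orbitRel.Quotient G (Ω₁ × Ω₂)) := by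
  classical
  set Q := MulAction.orbitRel.Quotient G (Ω₁ × Ω₂) with hQ
  haveI : Finite Q := inferInstanceAs (Finite (Quotient _))
  haveI : Fintype Q := Fintype.ofFinite Q
  let mk : Ω₁ × Ω₂ → Q := fun q => Quotient.mk'' q
  have hmk : ∀ (g : G) (a : Ω₁) (b : Ω₂), mk (g • a, g • b) = mk (a, b) := by
    intro g a b
    apply Quotient.sound'
    rw [MulAction.orbitRel_apply]
    exact ⟨g, rfl⟩
  let toLin : (Q → K) →ₗ[K] ((Ω₁ → K) →ₗ[K] (Ω₂ → K)) :=
    { toFun := fun φ =>
        { toFun := fun v b => ∑ a, v a * φ (mk (a, b))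
          map_add' := fun v w => by
            ext b
            simp [add_mul, Finset.sum_add_distrib]
          map_smul' := fun c v => by
            ext b
            simp [Finset.mul_sum, mul_assoc] }
      map_add' := fun φ ψ => by
        ext a b
        simp [mul_add, Finset.sum_add_distrib]
      map_smul' := fun c φ => by
        ext a b
        simp [Finset.mul_sum, mul_left_comm] }
  have hinv : ∀ φ : Q → K, toLin φ ∈ ((Cfsg.permRep K G Ω₁).linHom (Cfsg.permRep K G Ω₂)).invariants := by
    intro φ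
    rw [Representation.mem_invariants]
    intro g
    refine LinearMap.ext fun v => funext fun b => ?_
    rw [Representation.linHom_apply]
    show ∑ a, v (g⁻¹⁻¹ • a) * φ (mk (a, g⁻¹ • b)) = ∑ a, v a * φ (mk (a, b))
    rw [← Equiv.sum_comp (MulAction.toPerm g : Equiv.Perm Ω₁) (fun a => v a * φ (mk (a, b)))]
    refine Finset.sum_congr rfl fun a _ => ?_
    have h1 : mk (g • a, b) = mk (a, g⁻¹ • b) := by
      rw [← hmk g a (g⁻¹ • b), smul_inv_smul]
    simp [h1]
  let toInv : (Q → K) →ₗ[K] ((Cfsg.permRep K G Ω₁).linHom (Cfsg.permRep K G Ω₂)).invariants :=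
    toLin.codRestrict _ hinv
  have hinj : Function.Injective toInv := by
    rw [injective_iff_map_eq_zero]
    intro φ hφ
    have h0 : toLin φ = 0 := congrArg Subtype.val hφ
    funext q
    induction q using Quotient.inductionOn' with
    | h q =>
      obtain ⟨a, b⟩ := q
      have h1 := congrArg (fun F : (Ω₁ → K) →ₗ[K] (Ω₂ → K) => F (Pi.single a 1) b) h0
      simpa [toLin, Pi.single_apply, Finset.sum_ite_eq'] using h1
  have hsurj : Function.Surjective toInv := by
    rintro ⟨F, hF⟩
    rw [Representation.mem_invariants] at hF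
    let M : Ω₁ × Ω₂ → K := fun q => F (Pi.single q.1 1) q.2
    have hM : ∀ (g : G) (a : Ω₁) (b : Ω₂), M (g • a, g • b) = M (a, b) := by
      intro g a b
      have h1 := congrArg (fun F' : (Ω₁ → K) →ₗ[K] (Ω₂ → K) => F' (Pi.single (g • a) 1) (g • b)) (hF g)
      simp only [Representation.linHom_apply] at h1
      have h2 : Cfsg.permRep K G Ω₁ g⁻¹ (Pi.single (g • a) 1) = Pi.single a 1 := by
        funext x
        show (Pi.single (g • a) (1 : K) : Ω₁ → K) (g⁻¹⁻¹ • x) = (Pi.single a (1 : K) : Ω₁ → K) x
        simp [Pi.single_apply]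
      show F (Pi.single (g • a) 1) (g • b) = F (Pi.single a 1) b
      rw [← h1]
      show ((Cfsg.permRep K G Ω₂ g) (F (Cfsg.permRep K G Ω₁ g⁻¹ (Pi.single (g • a) 1)))) (g • b) = _
      rw [h2]
      show F (Pi.single a 1) (g⁻¹ • g • b) = _
      rw [inv_smul_smul]
    let φ : Q → K := fun q => Quotient.liftOn' q M (by
      rintro ⟨a, b⟩ ⟨a', b'⟩ h
      rw [MulAction.orbitRel_apply] at h
      obtain ⟨g, hg⟩ := h
      have h1 : g • a' = a := congrArg Prod.fst hg
      have h2 : g • b' = b := congrArg Prod.snd hg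
      rw [← h1, ← h2]
      exact hM g a' b')
    refine ⟨φ, ?_⟩
    apply Subtype.ext
    refine LinearMap.ext fun v => funext fun b => ?_
    show ∑ a, v a * φ (mk (a, b)) = F v b
    have h3 : v = ∑ a, v a • (Pi.single a 1 : Ω₁ → K) := by
      funext x
      simp [Finset.sum_apply, Pi.single_apply]
    conv_rhs => rw [h3]
    rw [map_sum, Finset.sum_apply]
    refine Finset.sum_congr rfl fun a _ => ?_
    simp only [map_smul, Pi.smul_apply, smul_eq_mul]
    rfl
  let e := LinearEquiv.ofBijective toInv ⟨hinj, hsurj⟩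
  rw [← e.finrank_eq, Module.finrank_fintype_fun_eq_card, Nat.card_eq_fintype_card]

end Cfsg.Agent.S0668
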