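import Cfsg.Statements.S0669
import Mathlib.Tactic
set_option autoImplicit false
open Cfsg

namespace Cfsg.Agent.S0669

/-- The rank of a transitive action: orbits on ordered pairs correspond to orbits of a point stabiliser. -/
theorem result {G : Type*} [Group G] {Ω : Type*} [Finite Ω] [MulAction G Ω] [MulAction.IsPretransitive G Ω] (a : Ω) : Nat.card (MulAction.orbitRel.Quotient G (Ω × Ω)) = Nat.card (MulAction.orbitRel.Quotient (MulAction.stabilizer G a) Ω) := by
  classical
  -- define the bijection
  let f : MulAction.orbitRel.Quotient (MulAction.stabilizer G a) Ω → MulAction.orbitRel.Quotient G (Ω × Ω) :=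
    Quotient.map' (fun b => (a, b)) (by
      rintro b c hbc
      rw [MulAction.orbitRel_apply] at hbc ⊢
      obtain ⟨⟨s, hs⟩, rfl⟩ := hbc
      refine ⟨s, ?_⟩
      simp only [Prod.smul_mk]
      ext
      · exact hs
      · rfl)
  have hf : Function.Bijective f := by
    constructor
    · intro x y hxy
      induction x using Quotient.inductionOn' with | _ b => ?_
      induction y using Quotient.inductionOn' with | _ c => ?_
      have h1 : MulAction.orbitRel G (Ω × Ω) (a, b) (a, c) := Quotient.exact hxy
      rw [MulAction.orbitRel_apply] at h1
      obtain ⟨g, hg⟩ := h1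
      have hga : g • a = a := congrArg Prod.fst hg
      have hgb : g • c = b := congrArg Prod.snd hg
      refine Quotient.sound' ?_
      rw [MulAction.orbitRel_apply]
      exact ⟨⟨g, hga⟩, hgb⟩
    · intro x
      induction x using Quotient.inductionOn' with | _ p => ?_
      obtain ⟨g, hg⟩ := MulAction.exists_smul_eq G p.1 a
      refine ⟨Quotient.mk'' (g • p.2), ?_⟩
      refine Quotient.sound' ?_
      rw [MulAction.orbitRel_apply]
      refine ⟨g, ?_⟩
      ext
      · exact hg
      · rfl
  exact (Nat.card_eq_of_bijective f hf).symm

end Cfsg.Agent.S0669
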