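import Cfsg.Statements.S0670
import Cfsg.Agent.Lib.H9.PFixed

set_option autoImplicit false
open Cfsg

namespace Cfsg.Agent.S0670

/-- In characteristic `p`, the permutation module of a transitive action of degree `p ^ f` has the line of constant functions as its only irreducible submodule: every non-zero subrepresentation contains it. -/
theorem result {G : Type*} [Group G] [Finite G] {K : Type*} [Field K] {p f : ℕ} [Fact p.Prime] [CharP K p] {Ω : Type*} [Fintype Ω] [MulAction G Ω] [MulAction.IsPretransitive G Ω] (hf : 1 ≤ f) (hcard : Fintype.card Ω = p ^ f) (W : Subrepresentation (Cfsg.permRep K G Ω)) (hW : W.toSubmodule ≠ ⊥) : (Cfsg.permConstants K G Ω).toSubmodule ≤ W.toSubmodule := by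
  classical
  let P : Sylow p G := default
  haveI hPt : MulAction.IsPretransitive (P : Subgroup G) Ω :=
    CfsgLib.H9.sylow_isPretransitive (by rw [Nat.card_eq_fintype_card, hcard]) P
  letI : DistribMulAction (P : Subgroup G) (Ω → K) :=
    { smul := fun h v => Cfsg.permRep K G Ω h.1 v
      one_smul := fun v => by
        show Cfsg.permRep K G Ω (1 : G) v = v
        rw [map_one]; rfl
      mul_smul := fun h k v => by
        show Cfsg.permRep K G Ω (h.1 * k.1) v = Cfsg.permRep K G Ω h.1 (Cfsg.permRep K G Ω k.1 v)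
        rw [map_mul]; rfl
      smul_zero := fun h => map_zero (Cfsg.permRep K G Ω h.1)
      smul_add := fun h v w => map_add (Cfsg.permRep K G Ω h.1) v w }
  have hsmul : ∀ (h : (P : Subgroup G)) (v : Ω → K) (x : Ω), (h • v) x = v (h⁻¹ • x) := fun _ _ _ => rfl
  have hpV : ∀ v : Ω → K, p • v = 0 := by
    intro v
    funext x
    simp only [Pi.smul_apply, nsmul_eq_mul, Pi.zero_apply, CharP.cast_eq_zero, zero_mul]
  obtain ⟨v, hv, hv0⟩ := (Submodule.ne_bot_iff _).mp hW
  obtain ⟨w, hw, hw0, hfix⟩ := CfsgLib.H9.exists_fixed_vector_of_pgroup (P := (P : Subgroup G)) P.isPGroup' hpV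
    W.toSubmodule.toAddSubgroup (fun h v hv => W.apply_mem_toSubmodule h.1 hv) hv hv0
  have hconst : ∀ a b : Ω, w a = w b := by
    intro a b
    obtain ⟨h, rfl⟩ := MulAction.exists_smul_eq (P : Subgroup G) a b
    have := congrFun (hfix h) (h • a)
    rw [hsmul, inv_smul_smul] at this
    exact this
  obtain ⟨a, ha⟩ : ∃ a, w a ≠ 0 := by
    by_contra hcon
    push Not at hcon
    exact hw0 (funext hcon)
  have hone : (fun _ => 1 : Ω → K) = (w a)⁻¹ • w := by
    funext x
    simp only [Pi.smul_apply, smul_eq_mul]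
    rw [hconst x a, inv_mul_cancel₀ ha]
  show Submodule.span K {(fun _ => 1 : Ω → K)} ≤ W.toSubmodule
  rw [Submodule.span_le, Set.singleton_subset_iff, hone]
  exact W.toSubmodule.smul_mem _ hw

end Cfsg.Agent.S0670
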