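import Cfsg.Statements.S0671
import Cfsg.Agent.S0670

set_option autoImplicit false
set_option linter.unusedSimpArgs false
open Cfsg

namespace Cfsg.Agent.S0671

/-- If the heart of the permutation module in characteristic `p` of a transitive action of degree `p ^ f` has no trivial composition factor, the action is doubly transitive. The hypothesis is phrased without composition series: no invariant subspaces `W < W'` between the constants and the sum-zero functions with trivial action on the quotient. -/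
theorem result {G : Type*} [Group G] [Finite G] {K : Type*} [Field K] {p f : ℕ} [Fact p.Prime] [CharP K p] {Ω : Type*} [Fintype Ω] [MulAction G Ω] [MulAction.IsPretransitive G Ω] (hf : 1 ≤ f) (hcard : Fintype.card Ω = p ^ f) (h : ∀ W W' : Subrepresentation (Cfsg.permRep K G Ω), (Cfsg.permConstants K G Ω).toSubmodule ≤ W.toSubmodule → W.toSubmodule < W'.toSubmodule → W'.toSubmodule ≤ (Cfsg.permSumZero K G Ω).toSubmodule → ∃ g : G, ∃ v ∈ W'.toSubmodule, Cfsg.permRep K G Ω g v - v ∉ W.toSubmodule) : MulAction.IsMultiplyPretransitive G Ω 2 := by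
  classical
  have hpp : p.Prime := Fact.out
  by_contra hnot
  -- the data of a non-linked pair
  haveI hne : Nonempty Ω := by
    rw [← Fintype.card_pos_iff, hcard]
    exact pow_pos hpp.pos f
  obtain ⟨a⟩ := hne
  obtain ⟨b₀, b₁, hb₀, hb₁, hnl⟩ : ∃ b₀ b₁ : Ω, b₀ ≠ a ∧ b₁ ≠ a ∧ ¬ ∃ g : G, g • a = a ∧ g • b₀ = b₁ := by
    by_contra hcon
    push Not at hcon
    apply hnot
    rw [MulAction.is_two_pretransitive_iff]
    intro x y x' y' hxy hxy'
    obtain ⟨g₁, hg₁⟩ := MulAction.exists_smul_eq G x a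
    obtain ⟨g₂, hg₂⟩ := MulAction.exists_smul_eq G x' a
    have h1 : g₁ • y ≠ a := fun h => hxy (smul_left_cancel g₁ (hg₁.trans h.symm))
    have h2 : g₂ • y' ≠ a := fun h => hxy' (smul_left_cancel g₂ (hg₂.trans h.symm))
    obtain ⟨k, hk1, hk2⟩ := hcon _ _ h1 h2
    refine ⟨g₂⁻¹ * k * g₁, ?_, ?_⟩
    · rw [mul_smul, mul_smul, hg₁, hk1, ← hg₂, inv_smul_smul]
    · rw [mul_smul, mul_smul, hk2, inv_smul_smul]
  let R : Ω → Ω → Prop := fun x y => ∃ g : G, g • a = x ∧ g • b₀ = y
  have hR : ∀ (g : G) x y, R (g • x) (g • y) ↔ R x y := by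
    intro g x y
    constructor
    · rintro ⟨k, h2, h3⟩
      exact ⟨g⁻¹ * k, by rw [mul_smul, h2, inv_smul_smul], by rw [mul_smul, h3, inv_smul_smul]⟩
    · rintro ⟨k, h2, h3⟩
      exact ⟨g * k, by rw [mul_smul, h2], by rw [mul_smul, h3]⟩
  let ρ := Cfsg.permRep K G Ω
  have hρ : ∀ (g : G) (v : Ω → K) (x : Ω), ρ g v x = v (g⁻¹ • x) := fun _ _ _ => rfl
  let L : (Ω → K) →ₗ[K] (Ω → K) :=
    { toFun := fun v x => ∑ y, if R x y then v y - v x else 0
      map_add' := fun v w => by
        funext x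
        simp only [Pi.add_apply, ← Finset.sum_add_distrib]
        refine Finset.sum_congr rfl fun y _ => ?_
        split_ifs <;> ring
      map_smul' := fun c v => by
        funext x
        simp only [Pi.smul_apply, smul_eq_mul, RingHom.id_apply, Finset.mul_sum]
        refine Finset.sum_congr rfl fun y _ => ?_
        split_ifs <;> ring }
  have hLapp : ∀ v x, L v x = ∑ y, if R x y then v y - v x else 0 := fun _ _ => rfl
  have hequiv : ∀ (g : G) v, L (ρ g v) = ρ g (L v) := by
    intro g v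
    funext x
    rw [hρ, hLapp, hLapp]
    rw [← Equiv.sum_comp (MulAction.toPerm g⁻¹ : Equiv.Perm Ω)
      (fun y => if R (g⁻¹ • x) y then v y - v (g⁻¹ • x) else 0)]
    refine Finset.sum_congr rfl fun y _ => ?_
    simp only [MulAction.toPerm_apply, hρ]
    have h2 : R (g⁻¹ • x) (g⁻¹ • y) ↔ R x y := hR g⁻¹ x y
    simp only [h2]
  have hLδ : ∀ x y, x ≠ y → L (Pi.single y 1) x = if R x y then 1 else 0 := by
    intro x y hb
    rw [hLapp]
    have h2 : ∀ c, (if R x c then (Pi.single y (1 : K) : Ω → K) c - (Pi.single y (1 : K) : Ω → K) x else 0)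
        = if c = y then (if R x y then 1 else 0) else 0 := by
      intro c
      have h3 : (Pi.single y (1 : K) : Ω → K) x = 0 := by
        simp [Pi.single_apply, hb]
      rw [h3, sub_zero]
      by_cases hc : c = y
      · subst hc
        simp
      · simp [Pi.single_apply, hc]
    simp only [h2, Finset.sum_ite_eq', Finset.mem_univ, if_true]
  have hL1 : L (fun _ => 1) = 0 := by
    funext x
    rw [hLapp]
    simp
  -- degrees
  let outd : Ω → ℕ := fun x => (Finset.univ.filter (R x)).card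
  let ind : Ω → ℕ := fun y => (Finset.univ.filter (fun x => R x y)).card
  have houtc : ∀ (g : G) x, outd (g • x) = outd x := by
    intro g x
    apply Finset.card_bij (fun y _ => g⁻¹ • y)
    · intro y hy
      simp only [Finset.mem_filter, Finset.mem_univ, true_and] at hy ⊢
      have := (hR g⁻¹ (g • x) y).mpr hy
      rwa [inv_smul_smul] at this
    · intro y _ y' _ hyy
      exact smul_left_cancel _ hyy
    · intro y hy
      refine ⟨g • y, ?_, by simp⟩
      simp only [Finset.mem_filter, Finset.mem_univ, true_and] at hy ⊢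
      exact (hR g x y).mpr hy
  have hindc : ∀ (g : G) y, ind (g • y) = ind y := by
    intro g y
    apply Finset.card_bij (fun x _ => g⁻¹ • x)
    · intro x hx
      simp only [Finset.mem_filter, Finset.mem_univ, true_and] at hx ⊢
      have := (hR g⁻¹ x (g • y)).mpr hx
      rwa [inv_smul_smul] at this
    · intro y _ y' _ hyy
      exact smul_left_cancel _ hyy
    · intro x hx
      refine ⟨g • x, ?_, by simp⟩
      simp only [Finset.mem_filter, Finset.mem_univ, true_and] at hx ⊢
      exact (hR g x y).mpr hx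
  have houtconst : ∀ x, outd x = outd a := by
    intro x
    obtain ⟨g, rfl⟩ := MulAction.exists_smul_eq G a x
    exact houtc g a
  have hindconst : ∀ y, ind y = ind a := by
    intro x
    obtain ⟨g, rfl⟩ := MulAction.exists_smul_eq G a x
    exact hindc g a
  have hdeg : outd a = ind a := by
    have h1 : ∑ x, outd x = ∑ y, ind y := by
      simp only [outd, ind, Finset.card_filter]
      exact Finset.sum_comm
    simp only [houtconst, hindconst, Finset.sum_const] at h1
    have hc : 0 < (Finset.univ : Finset Ω).card := Finset.card_pos.mpr ⟨a, Finset.mem_univ _⟩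
    simp only [smul_eq_mul] at h1
    exact Nat.eq_of_mul_eq_mul_left hc h1
  have hsumL : ∀ v, ∑ x, L v x = 0 := by
    intro v
    simp only [hLapp]
    have h1 : ∀ x y, (if R x y then v y - v x else 0) = (if R x y then v y else 0) - (if R x y then v x else 0) := by
      intro x y
      split_ifs <;> simp
    simp only [h1, Finset.sum_sub_distrib]
    rw [Finset.sum_comm]
    rw [sub_eq_zero]
    refine Finset.sum_congr rfl fun x _ => ?_
    have h2 : ∑ y, (if R y x then v x else 0) = (ind x : K) * v x := by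
      simp only [ind]
      rw [← Finset.sum_filter, Finset.sum_const, nsmul_eq_mul]
    have h3 : ∑ y, (if R x y then v x else 0) = (outd x : K) * v x := by
      simp only [outd]
      rw [← Finset.sum_filter, Finset.sum_const, nsmul_eq_mul]
    rw [h2, h3, houtconst x, hindconst x, hdeg]
  -- the subspaces
  let V₀ : Submodule K (Ω → K) := (Cfsg.permSumZero K G Ω).toSubmodule
  have hV₀ : ∀ v, v ∈ V₀ ↔ ∑ x, v x = 0 := fun v => Iff.rfl
  let C₀ : Submodule K (Ω → K) := (Cfsg.permConstants K G Ω).toSubmodule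
  have hC₀ : ∀ v, v ∈ C₀ ↔ ∃ c : K, v = fun _ => c := by
    intro v
    show v ∈ Submodule.span K {(fun _ => 1 : Ω → K)} ↔ _
    rw [Submodule.mem_span_singleton]
    constructor
    · rintro ⟨c, rfl⟩
      exact ⟨c, by funext x; simp⟩
    · rintro ⟨c, rfl⟩
      exact ⟨c, by funext x; simp⟩
  have hC₀V₀ : C₀ ≤ V₀ := by
    intro v hv
    obtain ⟨c, rfl⟩ := (hC₀ v).mp hv
    rw [hV₀]
    simp only [Finset.sum_const, Finset.card_univ, hcard, nsmul_eq_mul]
    have : ((p ^ f : ℕ) : K) = 0 := by
      rw [Nat.cast_pow, CharP.cast_eq_zero K p, zero_pow (by omega)]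
    rw [this, zero_mul]
  have hrhoC : ∀ (g : G), ∀ v ∈ C₀, ρ g v = v := by
    intro g v hv
    obtain ⟨c, rfl⟩ := (hC₀ v).mp hv
    rfl
  have hsumρ : ∀ (g : G) v, ∑ x, ρ g v x = ∑ x, v x := by
    intro g v
    exact Fintype.sum_equiv (MulAction.toPerm g⁻¹) _ _ (fun x => rfl)
  let WS : Submodule K (Ω → K) := V₀.map L ⊔ C₀
  let WS' : Submodule K (Ω → K) := LinearMap.range L ⊔ C₀
  have hWS : ∀ (g : G) ⦃v⦄, v ∈ WS → ρ g v ∈ WS := by
    intro g v hv
    obtain ⟨y, ⟨z, hz, rfl⟩, c, hc, rfl⟩ := Submodule.mem_sup.mp hv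
    rw [map_add, ← hequiv, hrhoC g c hc]
    refine Submodule.add_mem _ (Submodule.mem_sup_left ⟨ρ g z, ?_, rfl⟩) (Submodule.mem_sup_right hc)
    rw [SetLike.mem_coe, hV₀, hsumρ]
    exact hz
  have hWS' : ∀ (g : G) ⦃v⦄, v ∈ WS' → ρ g v ∈ WS' := by
    intro g v hv
    obtain ⟨y, ⟨z, rfl⟩, c, hc, rfl⟩ := Submodule.mem_sup.mp hv
    rw [map_add, ← hequiv, hrhoC g c hc]
    exact Submodule.add_mem _ (Submodule.mem_sup_left ⟨ρ g z, rfl⟩) (Submodule.mem_sup_right hc)
  let W : Subrepresentation (Cfsg.permRep K G Ω) := ⟨WS, hWS⟩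
  let W' : Subrepresentation (Cfsg.permRep K G Ω) := ⟨WS', hWS'⟩
  have hle : WS ≤ WS' := sup_le_sup_right (by
    rintro _ ⟨z, _, rfl⟩
    exact ⟨z, rfl⟩) _
  have hW'V₀ : WS' ≤ V₀ := by
    apply sup_le _ hC₀V₀
    rintro _ ⟨z, rfl⟩
    exact hsumL z
  have heq : WS = WS' := by
    by_contra hne
    obtain ⟨g, v, hv, hnotin⟩ := h W W' le_sup_right (lt_of_le_of_ne hle hne) hW'V₀
    apply hnotin
    obtain ⟨y, ⟨z, rfl⟩, c, hc, rfl⟩ := Submodule.mem_sup.mp hv
    have h1 : Cfsg.permRep K G Ω g (L z + c) - (L z + c) = L (ρ g z - z) := by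
      show ρ g (L z + c) - (L z + c) = _
      rw [map_add, hrhoC g c hc, map_sub, hequiv]
      ring
    rw [h1]
    apply Submodule.mem_sup_left
    refine ⟨ρ g z - z, ?_, rfl⟩
    rw [SetLike.mem_coe, hV₀]
    simp only [Pi.sub_apply, Finset.sum_sub_distrib, hsumρ, sub_self]
  -- the dual statement
  have hdual : ∀ U : Subrepresentation (Cfsg.permRep K G Ω), U.toSubmodule ≠ ⊤ → U.toSubmodule ≤ V₀ := by
    intro U hU
    obtain ⟨ℓ, hℓ0, hℓ⟩ := Submodule.exists_le_ker_of_lt_top U.toSubmodule (lt_top_iff_ne_top.mpr hU)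
    let w : Ω → K := fun x => ℓ (Pi.single x 1)
    have hℓw : ∀ v, ℓ v = ∑ x, w x * v x := by
      intro v
      have h3 : v = ∑ x, v x • (Pi.single x 1 : Ω → K) := by
        funext y
        simp [Finset.sum_apply, Pi.single_apply]
      conv_lhs => rw [h3]
      rw [map_sum]
      refine Finset.sum_congr rfl fun x _ => ?_
      rw [map_smul, smul_eq_mul, mul_comm]
    have hw0 : w ≠ 0 := by
      intro hw
      apply hℓ0
      ext x
      simp only [LinearMap.coe_comp, LinearMap.coe_single, Function.comp_apply, LinearMap.zero_apply]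
      exact congrFun hw x
    let Uperp : Submodule K (Ω → K) :=
      { carrier := {w' | ∀ u ∈ U.toSubmodule, ∑ x, w' x * u x = 0}
        add_mem' := fun {a b} ha hb u hu => by
          simp only [Pi.add_apply, add_mul, Finset.sum_add_distrib, ha u hu, hb u hu, add_zero]
        zero_mem' := fun u _ => by simp
        smul_mem' := fun c w' hw' u hu => by
          simp only [Pi.smul_apply, smul_eq_mul, mul_assoc, ← Finset.mul_sum, hw' u hu, mul_zero] }
    have hUinv : ∀ (g : G) ⦃v⦄, v ∈ Uperp → ρ g v ∈ Uperp := by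
      intro g v hv u hu
      have h3 := hv (ρ g⁻¹ u) (U.apply_mem_toSubmodule g⁻¹ hu)
      rw [← h3]
      exact Fintype.sum_equiv (MulAction.toPerm g⁻¹) _ _ (fun x => by
        simp [hρ])
    let Up : Subrepresentation (Cfsg.permRep K G Ω) := ⟨Uperp, hUinv⟩
    have hUp : Up.toSubmodule ≠ ⊥ := by
      intro hb
      have hwin : w ∈ Uperp := by
        intro u hu
        rw [← hℓw]
        exact hℓ hu
      have : w ∈ Up.toSubmodule := hwin
      rw [hb, Submodule.mem_bot] at this
      exact hw0 this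
    have hcontains := Cfsg.Agent.S0670.result hf hcard Up hUp
    have h1mem : (fun _ => 1 : Ω → K) ∈ Uperp := hcontains (Submodule.mem_span_singleton_self _)
    intro u hu
    have := h1mem u hu
    rw [hV₀]
    simpa using this
  -- conclusion
  have hδ : L (Pi.single a 1) ∈ WS := by
    rw [heq]
    exact Submodule.mem_sup_left ⟨_, rfl⟩
  obtain ⟨y, ⟨z, hz, rfl⟩, c, hc, hsum⟩ := Submodule.mem_sup.mp hδ
  obtain ⟨c', rfl⟩ := (hC₀ c).mp hc
  let x : Ω → K := Pi.single a 1 - z
  have hLx : L x = fun _ => c' := by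
    show L (Pi.single a 1 - z) = _
    rw [map_sub, ← hsum]
    funext t
    simp
  have hεx : ∑ t, x t = 1 := by
    have hz0 : ∑ t, z t = 0 := hz
    simp [x, Finset.sum_sub_distrib, hz0, Finset.sum_pi_single']
  let US : Submodule K (Ω → K) := C₀.comap L
  have hUS : ∀ (g : G) ⦃v⦄, v ∈ US → ρ g v ∈ US := by
    intro g v hv
    show L (ρ g v) ∈ C₀
    rw [hequiv, hrhoC g _ hv]
    exact hv
  let U : Subrepresentation (Cfsg.permRep K G Ω) := ⟨US, hUS⟩
  have hUtop : U.toSubmodule = ⊤ := by
    by_contra hne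
    have hle := hdual U hne
    have hxU : x ∈ U.toSubmodule := by
      show L x ∈ C₀
      rw [hLx]
      exact (hC₀ _).mpr ⟨c', rfl⟩
    have := hle hxU
    rw [hV₀, hεx] at this
    exact one_ne_zero this
  have hconst : ∀ v, ∃ c : K, L v = fun _ => c := by
    intro v
    have : v ∈ U.toSubmodule := by rw [hUtop]; trivial
    exact (hC₀ _).mp this
  -- `R x b₀` for all `x ≠ b₀`
  obtain ⟨c₀, hc₀⟩ := hconst (Pi.single b₀ 1)
  have hRa : R a b₀ := ⟨1, one_smul _ _, one_smul _ _⟩
  have h1 : c₀ = 1 := by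
    have := congrFun hc₀ a
    rw [hLδ a b₀ hb₀.symm, if_pos hRa] at this
    exact this.symm
  have hRall : ∀ x, x ≠ b₀ → R x b₀ := by
    intro x hx
    have := congrFun hc₀ x
    rw [hLδ x b₀ hx, h1] at this
    by_contra hnr
    rw [if_neg hnr] at this
    exact zero_ne_one this
  obtain ⟨g, hg⟩ := MulAction.exists_smul_eq G b₀ b₁
  have h5 : g⁻¹ • a ≠ b₀ := by
    intro h6
    apply hb₁
    rw [← hg, ← h6, smul_inv_smul]
  have h6 := hRall _ h5
  have h7 := (hR g _ _).mpr h6
  rw [smul_inv_smul, hg] at h7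
  obtain ⟨k, hk1, hk2⟩ := h7
  exact hnl ⟨k, hk1, hk2⟩

end Cfsg.Agent.S0671
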