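import Cfsg.Statements.S0672
import Cfsg.Agent.Lib.H9.Three

set_option autoImplicit false
set_option linter.unusedSimpArgs false
open Cfsg

namespace Cfsg.Agent.S0672

/-- Let a finite group act faithfully and doubly transitively with point stabilisers of even order, and let `K` have characteristic `p` dividing the degree. If the heart of the permutation module admits no non-zero equivariant map to the permutation module on unordered pairs (phrased: every intertwining map from the sum-zero functions vanishing on the constants is zero), the action is triply transitive. -/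
theorem result {G : Type*} [Group G] [Finite G] {K : Type*} [Field K] {p : ℕ} [Fact p.Prime] [CharP K p] {Ω : Type*} [Fintype Ω] [DecidableEq Ω] [MulAction G Ω] [FaithfulSMul G Ω] (h2 : MulAction.IsMultiplyPretransitive G Ω 2) (hp : p ∣ Fintype.card Ω) (heven : ∀ a : Ω, Even (Nat.card (MulAction.stabilizer G a))) (h : ∀ f : Representation.IntertwiningMap (Cfsg.permSumZero K G Ω).toRepresentation (Cfsg.permRep K G (Set.powersetCard Ω 2)), (∀ v : (Cfsg.permSumZero K G Ω).toSubmodule, (v : Ω → K) ∈ (Cfsg.permConstants K G Ω).toSubmodule → f v = 0) → f = 0) : MulAction.IsMultiplyPretransitive G Ω 3 := by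
  apply CfsgLib.H9.three_trans_of_set_stabilizer h2 heven
  intro a b c₀ c₁ hab hc₀a hc₀b hc₁a hc₁b
  by_contra hnot
  push Not at hnot
  let Δ := Set.powersetCard Ω 2
  have hcardab : ({a, b} : Finset Ω).card = 2 := Finset.card_pair hab
  let δ₀ : Δ := ⟨{a, b}, hcardab⟩
  have hsmulmem : ∀ (g : G) (c : Ω) (δ : Δ), g • c ∈ ((g • δ : Δ) : Finset Ω) ↔ c ∈ (δ : Finset Ω) := by
    intro g c δ
    rw [Set.powersetCard.coe_smul]
    exact Finset.smul_mem_smul_finset_iff g
  have hg2 : ∀ g : G, g • δ₀ = δ₀ → ((g • a = a ∧ g • b = b) ∨ (g • a = b ∧ g • b = a)) := by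
    intro g hg
    have h1 : ∀ c, c ∈ (δ₀ : Finset Ω) ↔ c = a ∨ c = b := by
      intro c
      simp [δ₀]
    have h3 : g • a ∈ (δ₀ : Finset Ω) := by
      have := (hsmulmem g a δ₀).mpr ((h1 a).mpr (Or.inl rfl))
      rwa [hg] at this
    have h4 : g • b ∈ (δ₀ : Finset Ω) := by
      have := (hsmulmem g b δ₀).mpr ((h1 b).mpr (Or.inr rfl))
      rwa [hg] at this
    rcases (h1 _).mp h3 with h5 | h5 <;> rcases (h1 _).mp h4 with h6 | h6
    · exact absurd (smul_left_cancel g (h5.trans h6.symm)) hab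
    · exact Or.inl ⟨h5, h6⟩
    · exact Or.inr ⟨h5, h6⟩
    · exact absurd (smul_left_cancel g (h5.trans h6.symm)) hab
  -- the two intertwiners
  let S : Ω → Δ → Prop := fun c δ => ∃ g : G, g • c₀ = c ∧ g • δ₀ = δ
  have hSinv : ∀ (g : G) c δ, S (g • c) (g • δ) ↔ S c δ := by
    intro g c δ
    constructor
    · rintro ⟨k, h3, h4⟩
      exact ⟨g⁻¹ * k, by rw [mul_smul, h3, inv_smul_smul], by rw [mul_smul, h4, inv_smul_smul]⟩
    · rintro ⟨k, h3, h4⟩
      exact ⟨g * k, by rw [mul_smul, h3], by rw [mul_smul, h4]⟩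
  obtain ⟨Q₁, hQ₁⟩ : ∃ Q₁ : Ω → Δ → Prop, ∀ c δ, Q₁ c δ ↔ c ∈ (δ : Finset Ω) :=
    ⟨fun c δ => c ∈ (δ : Finset Ω), fun _ _ => Iff.rfl⟩
  have hQ₁inv : ∀ (g : G) c δ, Q₁ (g • c) (g • δ) ↔ Q₁ c δ := fun g c δ => by
    rw [hQ₁, hQ₁]
    exact hsmulmem g c δ
  classical
  let ρ := Cfsg.permRep K G Ω
  let σ := Cfsg.permRep K G Δ
  have mkT : ∀ Q : Ω → Δ → Prop, (∀ (g : G) c δ, Q (g • c) (g • δ) ↔ Q c δ) →
      ∃ T : (Ω → K) →ₗ[K] (Δ → K), (∀ v δ, T v δ = ∑ c, if Q c δ then v c else 0) ∧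
        ∀ (g : G) v, T (ρ g v) = σ g (T v) := by
    intro Q hQ
    refine ⟨{ toFun := fun v δ => ∑ c, if Q c δ then v c else 0
              map_add' := fun v w => by
                funext δ
                simp only [Pi.add_apply, ← Finset.sum_add_distrib]
                refine Finset.sum_congr rfl fun y _ => ?_
                split_ifs <;> ring
              map_smul' := fun c v => by
                funext δ
                simp only [Pi.smul_apply, smul_eq_mul, RingHom.id_apply, Finset.mul_sum]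
                refine Finset.sum_congr rfl fun y _ => ?_
                split_ifs <;> ring }, fun _ _ => rfl, ?_⟩
    intro g v
    funext δ
    show (∑ c, if Q c δ then v (g⁻¹ • c) else 0) = ∑ c, if Q c (g⁻¹ • δ) then v c else 0
    rw [← Equiv.sum_comp (MulAction.toPerm g⁻¹ : Equiv.Perm Ω) (fun c => if Q c (g⁻¹ • δ) then v c else 0)]
    refine Finset.sum_congr rfl fun c _ => ?_
    simp only [MulAction.toPerm_apply]
    have h3 : Q (g⁻¹ • c) (g⁻¹ • δ) ↔ Q c δ := hQ g⁻¹ c δ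
    simp only [h3]
  obtain ⟨T₁, hT₁, hT₁e⟩ := mkT Q₁ hQ₁inv
  obtain ⟨T₂, hT₂, hT₂e⟩ := mkT S hSinv
  haveI htrans : MulAction.IsPretransitive G Δ :=
    Set.powersetCard.isPretransitive_of_isMultiplyPretransitive G h2
  -- values on constants
  let kS : Δ → ℕ := fun δ => (Finset.univ.filter (fun c => S c δ)).card
  have hkS : ∀ δ, kS δ = kS δ₀ := by
    intro δ
    obtain ⟨g, rfl⟩ := MulAction.exists_smul_eq G δ₀ δ
    apply Finset.card_bij (fun c _ => g⁻¹ • c)
    · intro c hc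
      simp only [Finset.mem_filter, Finset.mem_univ, true_and] at hc ⊢
      have := (hSinv g⁻¹ c (g • δ₀)).mpr hc
      rwa [inv_smul_smul] at this
    · intro y _ y' _ hyy
      exact smul_left_cancel _ hyy
    · intro c hc
      refine ⟨g • c, ?_, by simp⟩
      simp only [Finset.mem_filter, Finset.mem_univ, true_and] at hc ⊢
      exact (hSinv g c δ₀).mpr hc
  have hT₁1 : ∀ δ, T₁ (fun _ => 1) δ = 2 := by
    intro δ
    rw [hT₁]
    have h4 : ∀ s : Finset Ω, (∀ c, c ∈ s ↔ Q₁ c δ) → s.card = 2 := by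
      intro s hs
      have h6 : s = (δ : Finset Ω) := by
        ext c
        rw [hs c, hQ₁]
      rw [h6]
      exact δ.2
    rw [← Finset.sum_filter, Finset.sum_const, nsmul_eq_mul, mul_one, h4 _ (by intro c; simp)]
    norm_num
  have hT₂1 : ∀ δ, T₂ (fun _ => 1) δ = (kS δ₀ : K) := by
    intro δ
    rw [hT₂, ← hkS δ]
    simp only [kS]
    rw [Finset.card_filter]
    push_cast
    rfl
  -- coefficients
  obtain ⟨α, β, hαβ, hne⟩ : ∃ α β : K, α * 2 + β * (kS δ₀ : K) = 0 ∧ (α ≠ 0 ∨ β ≠ 0) := by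
    by_cases h0 : (2 : K) = 0 ∧ (kS δ₀ : K) = 0
    · exact ⟨0, 1, by rw [h0.2]; ring, Or.inr one_ne_zero⟩
    · refine ⟨(kS δ₀ : K), -2, by ring, ?_⟩
      by_contra hcon
      push Not at hcon
      exact h0 ⟨neg_eq_zero.mp hcon.2, hcon.1⟩
  let V₀ := (Cfsg.permSumZero K G Ω)
  let T := α • T₁ + β • T₂
  have hTapp : ∀ v δ, T v δ = α * T₁ v δ + β * T₂ v δ := fun _ _ => rfl
  have hTe : ∀ (g : G) v, T (ρ g v) = σ g (T v) := by
    intro g v
    show α • T₁ (ρ g v) + β • T₂ (ρ g v) = σ g (α • T₁ v + β • T₂ v)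
    rw [hT₁e, hT₂e, map_add, map_smul, map_smul]
  let f : Representation.IntertwiningMap V₀.toRepresentation σ :=
    (T.comp V₀.toSubmodule.subtype).intertwiningMap_of_isIntertwiningMap _ _ (fun g v => hTe g v.1)
  have hf : f = 0 := by
    apply h f
    rintro ⟨v, hv⟩ hvc
    show T v = 0
    have hvc' : v ∈ Submodule.span K {(fun _ => 1 : Ω → K)} := hvc
    rw [Submodule.mem_span_singleton] at hvc'
    obtain ⟨c, rfl⟩ := hvc'
    rw [map_smul]
    have : T (fun _ => 1) = 0 := by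
      funext δ
      rw [hTapp, hT₁1, hT₂1, hαβ]
      rfl
    rw [this, smul_zero]
  -- test vectors
  have htest : ∀ x y : Ω, T (Pi.single x 1 - Pi.single y 1) δ₀ = 0 := by
    intro x y
    have hm : (Pi.single x 1 - Pi.single y 1 : Ω → K) ∈ V₀.toSubmodule := by
      show ∑ t, (Pi.single x 1 - Pi.single y 1 : Ω → K) t = 0
      simp [Finset.sum_sub_distrib, Finset.sum_pi_single']
    have h5 := congrArg (fun F : Representation.IntertwiningMap V₀.toRepresentation σ => F ⟨_, hm⟩ δ₀) hf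
    exact h5
  have hval : ∀ x y : Ω, T (Pi.single x 1 - Pi.single y 1) δ₀
      = α * ((if Q₁ x δ₀ then 1 else 0) - (if Q₁ y δ₀ then 1 else 0))
        + β * ((if S x δ₀ then 1 else 0) - (if S y δ₀ then 1 else 0)) := by
    intro x y
    rw [hTapp, map_sub, map_sub, Pi.sub_apply, Pi.sub_apply]
    have h5 : ∀ (P : Ω → Prop) (w : Ω), (∑ c, if P c then (Pi.single w (1 : K) : Ω → K) c else 0) = if P w then 1 else 0 := by
      intro P w
      rw [Finset.sum_eq_single w]
      · simp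
      · intro c _ hc
        simp [Pi.single_apply, hc]
      · simp
    rw [hT₁, hT₁, hT₂, hT₂, h5, h5, h5, h5]
  have hS₁ : ¬ S c₁ δ₀ := by
    rintro ⟨g, h3, h4⟩
    exact hnot g (hg2 g h4) h3
  have hS₀ : S c₀ δ₀ := ⟨1, one_smul _ _, one_smul _ _⟩
  have hSmem : ∀ c, S c δ₀ → ¬ Q₁ c δ₀ := by
    rintro c ⟨g, h3, h4⟩ hc
    have h5 : c ∈ ((g • δ₀ : Δ) : Finset Ω) := by rw [h4]; exact (hQ₁ _ _).mp hc
    rw [← h3, hsmulmem] at h5
    simp [δ₀, hQ₁] at h5
    rcases h5 with h5 | h5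
    · exact hc₀a h5
    · exact hc₀b h5
  have hQc₁ : ¬ Q₁ c₁ δ₀ := by
    rw [hQ₁]
    show c₁ ∉ (({a, b} : Finset Ω))
    simp [hc₁a, hc₁b]
  have hQc₀ : ¬ Q₁ c₀ δ₀ := hSmem c₀ hS₀
  have hQa : Q₁ a δ₀ := by
    rw [hQ₁]
    show a ∈ (({a, b} : Finset Ω))
    simp
  have hSa : ¬ S a δ₀ := fun hs => hSmem a hs hQa
  rcases hne with hα | hβ
  · have h5 := htest a c₁
    rw [hval, if_pos hQa, if_neg hQc₁, if_neg hSa, if_neg hS₁] at h5
    simp at h5
    exact hα h5
  · have h5 := htest c₀ c₁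
    rw [hval, if_neg hQc₀, if_neg hQc₁, if_pos hS₀, if_neg hS₁] at h5
    simp at h5
    exact hβ h5

end Cfsg.Agent.S0672
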