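import Cfsg.Statements.S0674
import Cfsg.Agent.Lib.H9.PrimeDeg

set_option autoImplicit false
open Cfsg

namespace Cfsg.Agent.S0674

/-- Let `G` be a non-solvable transitive permutation group of prime degree `p` and `K` a field of characteristic `p`. Then the heart of the permutation module is irreducible: an invariant subspace containing the constants and contained in the sum-zero functions is one or the other. -/
theorem result {α : Type*} [Fintype α] [DecidableEq α] {p : ℕ} [Fact p.Prime] (hα : Fintype.card α = p) (G : Subgroup (Equiv.Perm α)) [MulAction.IsPretransitive G α] (hG : ¬ Group.IsSolvable G) {K : Type*} [Field K] [CharP K p] (W : Subrepresentation (Cfsg.permRep K G α)) (h₁ : (Cfsg.permConstants K G α).toSubmodule ≤ W.toSubmodule) (h₂ : W.toSubmodule ≤ (Cfsg.permSumZero K G α).toSubmodule) : W = Cfsg.permConstants K G α ∨ W = Cfsg.permSumZero K G α := by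
  classical
  obtain ⟨e, u, hu⟩ := CfsgLib.H9.WPoly.exists_coord (G := G) (α := α) (p := p) hα
  letI act : MulAction G (ZMod p) := CfsgLib.H9.WPoly.coordAction G e
  have hsm : ∀ (g : G) (j : ZMod p), e (g • j) = g • e j := fun g j => by
    show e (e.symm (g • e j)) = g • e j
    simp
  have hu' : ∀ j : ZMod p, u • j = j + 1 := by
    intro j
    apply e.injective
    rw [hsm, hu]
  haveI hfaith : FaithfulSMul G (ZMod p) := ⟨fun {g g'} h => by
    apply Subtype.ext
    ext x
    obtain ⟨j, rfl⟩ := e.surjective x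
    have := congrArg e (h j)
    rwa [hsm, hsm] at this⟩
  have hna : ¬ ∀ g : G, ∃ a b : ZMod p, ∀ j : ZMod p, g • j = a * j + b := fun h =>
    hG (CfsgLib.H9.WPoly.isSolvable_of_affine h)
  let F := CfsgLib.H9.WPoly.coordF K e
  have hFapp : ∀ (f : α → K) (j : ZMod p), F f j = f (e j) := fun _ _ => rfl
  have hFrho : ∀ (g : G) (f : α → K), F (Cfsg.permRep K G α g f) = Cfsg.permRep K G (ZMod p) g (F f) := by
    intro g f
    funext j
    show f (g⁻¹ • e j) = f (e (g⁻¹ • j))
    rw [hsm]
  let Y : Submodule K (ZMod p → K) := W.toSubmodule.map (F : (α → K) →ₗ[K] (ZMod p → K))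
  have hY : CfsgLib.H9.WPoly.Inv K G Y := by
    rintro g _ ⟨f, hf, rfl⟩
    exact ⟨Cfsg.permRep K G α g f, W.apply_mem_toSubmodule g hf, hFrho g f⟩
  have hmemY : ∀ f : α → K, F f ∈ Y ↔ f ∈ W.toSubmodule := by
    intro f
    constructor
    · rintro ⟨f', hf', h⟩
      have : f' = f := F.injective h
      rwa [← this]
    · intro hf
      exact ⟨f, hf, rfl⟩
  have h1W : (fun _ => 1 : α → K) ∈ W.toSubmodule := h₁ (Submodule.mem_span_singleton_self _)
  have hsum : ∀ f : α → K, ∑ j, F f j = ∑ x, f x := fun f => Equiv.sum_comp e f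
  rcases CfsgLib.H9.WPoly.inv_eq_of_not_affine hu' hna hY with h | h | h | h
  · exfalso
    have h2 : F (fun _ => 1) ∈ Y := (hmemY _).mpr h1W
    rw [h, Submodule.mem_bot] at h2
    have := congrFun h2 0
    simp [hFapp] at this
  · left
    apply Subrepresentation.toSubmodule_injective
    apply le_antisymm _ h₁
    intro f hf
    have h2 : F f ∈ Y := (hmemY f).mpr hf
    rw [h] at h2
    obtain ⟨c, hc⟩ := CfsgLib.H9.WPoly.mem_W_one_iff.mp h2
    have hf2 : f = c • (fun _ => 1 : α → K) := by
      funext x
      obtain ⟨j, rfl⟩ := e.surjective x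
      have := congrFun hc j
      rw [hFapp] at this
      simpa using this
    rw [hf2]
    exact Submodule.smul_mem _ _ (Submodule.mem_span_singleton_self _)
  · right
    apply Subrepresentation.toSubmodule_injective
    apply le_antisymm h₂
    intro f hf
    have h2 : F f ∈ CfsgLib.H9.WPoly.W K p (p - 1) := by
      rw [CfsgLib.H9.WPoly.mem_W_pred_iff, hsum]
      exact hf
    rw [← h] at h2
    exact (hmemY f).mp h2
  · exfalso
    let δ : ZMod p → K := Pi.single 0 1
    have h2 : δ ∈ Y := by rw [h]; trivial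
    obtain ⟨f, hf, hfe⟩ := h2
    have h3 : ∑ x, f x = 0 := h₂ hf
    have h4 : ∑ j, F f j = 1 := by
      have : F f = δ := hfe
      rw [this]
      simp [δ, Finset.sum_pi_single']
    rw [hsum, h3] at h4
    exact zero_ne_one h4

end Cfsg.Agent.S0674
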