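import Cfsg.Statements.S0675
import Cfsg.Agent.Lib.H9.PrimeDeg

set_option autoImplicit false
open Cfsg

namespace Cfsg.Agent.S0675

/-- Burnside's Theorem on permutation groups of prime degree: a transitive permutation group of prime degree that is not solvable is doubly transitive. -/
theorem result {α : Type*} [Fintype α] [DecidableEq α] (hα : (Fintype.card α).Prime) (G : Subgroup (Equiv.Perm α)) [MulAction.IsPretransitive G α] : Group.IsSolvable G ∨ MulAction.IsMultiplyPretransitive G α 2 := by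
  classical
  set p := Fintype.card α with hp
  haveI : Fact p.Prime := ⟨hα⟩
  obtain ⟨e, u, hu⟩ := CfsgLib.H9.WPoly.exists_coord (G := G) (α := α) (p := p) rfl
  letI act : MulAction G (ZMod p) := CfsgLib.H9.WPoly.coordAction G e
  have hsm : ∀ (g : G) (j : ZMod p), e (g • j) = g • e j := fun g j => by
    show e (e.symm (g • e j)) = g • e j
    simp
  have hu' : ∀ j : ZMod p, u • j = j + 1 := by
    intro j
    apply e.injective
    rw [hsm, hu]
  by_cases hlink : ∃ d₀ d₁ : ZMod p, d₀ ≠ 0 ∧ d₁ ≠ 0 ∧ ¬ ∃ g : G, g • (0 : ZMod p) = 0 ∧ g • d₀ = d₁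
  · left
    obtain ⟨d₀, d₁, h0, h1, hnot⟩ := hlink
    have haff := CfsgLib.H9.WPoly.affine_of_not_linked (ZMod p) hu' h0 h1 hnot
    haveI : FaithfulSMul G (ZMod p) := ⟨fun {g g'} h => by
      apply Subtype.ext
      ext x
      obtain ⟨j, rfl⟩ := e.surjective x
      have := congrArg e (h j)
      rwa [hsm, hsm] at this⟩
    exact CfsgLib.H9.WPoly.isSolvable_of_affine haff
  · right
    push Not at hlink
    rw [MulAction.is_two_pretransitive_iff]
    intro a b c d hab hcd
    obtain ⟨g₁, hg₁⟩ := MulAction.exists_smul_eq G a (e 0)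
    obtain ⟨g₂, hg₂⟩ := MulAction.exists_smul_eq G c (e 0)
    set d₀ := e.symm (g₁ • b) with hd₀
    set d₁ := e.symm (g₂ • d) with hd₁
    have h0 : d₀ ≠ 0 := by
      intro h
      apply hab
      have h2 : g₁ • b = e 0 := by
        rw [← h, hd₀]; simp
      exact smul_left_cancel g₁ (hg₁.trans h2.symm)
    have h1 : d₁ ≠ 0 := by
      intro h
      apply hcd
      have h2 : g₂ • d = e 0 := by
        rw [← h, hd₁]; simp
      exact smul_left_cancel g₂ (hg₂.trans h2.symm)
    obtain ⟨h, h2, h3⟩ := hlink d₀ d₁ h0 h1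
    have h2' : h • e 0 = e 0 := by rw [← hsm, h2]
    have h3' : h • e d₀ = e d₁ := by rw [← hsm, h3]
    refine ⟨g₂⁻¹ * h * g₁, ?_, ?_⟩
    · rw [mul_smul, mul_smul, hg₁, h2', ← hg₂, inv_smul_smul]
    · have hb : g₁ • b = e d₀ := by rw [hd₀]; simp
      have hd : g₂ • d = e d₁ := by rw [hd₁]; simp
      rw [mul_smul, mul_smul, hb, h3', ← hd, inv_smul_smul]

end Cfsg.Agent.S0675
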