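import Cfsg.Statements.S0676
import Cfsg.Agent.Lib.H9.PrimeDeg2
import Cfsg.Agent.S0672
import Cfsg.Agent.S0674
import Cfsg.Agent.S0675

set_option autoImplicit false
set_option linter.unusedSimpArgs false
open Cfsg

namespace Cfsg.Agent.S0676

open scoped Pointwise
open CfsgLib.H9.WPoly in
/-- A non-solvable transitive permutation group of prime degree `p` whose Sylow `p`-normaliser has even order is triply transitive. -/
theorem result {α : Type*} [Fintype α] [DecidableEq α] {p : ℕ} [Fact p.Prime] (hα : Fintype.card α = p) (G : Subgroup (Equiv.Perm α)) [MulAction.IsPretransitive G α] (hG : ¬ Group.IsSolvable G) (P : Sylow p G) (heven : Even (Nat.card (Subgroup.normalizer ((P : Subgroup G) : Set G)))) : MulAction.IsMultiplyPretransitive G α 3 := by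
  classical
  have hpp : p.Prime := Fact.out
  obtain ⟨e, u, hu⟩ := exists_coord (G := G) (α := α) (p := p) hα
  letI act : MulAction G (ZMod p) := coordAction G e
  have hsm : ∀ (g : G) (j : ZMod p), e (g • j) = g • e j := fun g j => by
    show e (e.symm (g • e j)) = g • e j
    simp
  have hu' : ∀ j : ZMod p, u • j = j + 1 := by
    intro j
    apply e.injective
    rw [hsm, hu]
  haveI hfaith : FaithfulSMul G (ZMod p) := ⟨fun {g g'} h => by
    apply Subtype.ext
    ext x
    obtain ⟨j, rfl⟩ := e.surjective x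
    have := congrArg e (h j)
    rwa [hsm, hsm] at this⟩
  -- `p` is odd
  have hp2 : p ≠ 2 := by
    intro h2
    apply hG
    apply isSolvable_of_affine (p := p)
    intro g
    exact affine_of_inv (K := ZMod p) (inv_W_top (by omega))
  have hoddp : Odd p := hpp.odd_of_ne_two hp2
  have hp3 : 3 ≤ p := by
    have := hpp.two_le
    omega
  have hun : ∀ (n : ℕ) (i : ZMod p), u ^ n • i = i + n := by
    intro n
    induction n with
    | zero => intro i; simp
    | succ n ih =>
      intro i
      rw [pow_succ, mul_smul, hu', ih]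
      push_cast
      ring
  have huord : orderOf u = p := by
    apply orderOf_eq_prime
    · apply FaithfulSMul.eq_of_smul_eq_smul (α := ZMod p)
      intro j
      rw [hun, one_smul]
      simp
    · intro h1
      have := hu' 0
      rw [h1, one_smul] at this
      simp at this
  -- a Sylow subgroup containing `u`
  have hupg : IsPGroup p (Subgroup.zpowers u) := IsPGroup.of_card (n := 1) (by
    rw [Nat.card_zpowers, huord, pow_one])
  obtain ⟨P', hP'⟩ := hupg.exists_le_sylow
  have hP'eq : (P' : Subgroup G) = Subgroup.zpowers u := by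
    symm
    apply Subgroup.eq_of_le_of_card_ge hP'
    rw [Nat.card_zpowers, huord]
    exact (card_sylow_of_prime_degree hα G P').le
  have hNcard : Nat.card (Subgroup.normalizer ((P' : Subgroup G) : Set G)) =
      Nat.card (Subgroup.normalizer ((P : Subgroup G) : Set G)) := by
    have h1 := CfsgLib.H9.card_normalizer_mul_card_sylow P
    have h2 := CfsgLib.H9.card_normalizer_mul_card_sylow P'
    exact Nat.eq_of_mul_eq_mul_right Nat.card_pos (h2.trans h1.symm)
  have h2N : 2 ∣ Nat.card (Subgroup.normalizer ((P' : Subgroup G) : Set G)) := by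
    rw [hNcard]
    exact heven.two_dvd
  obtain ⟨t₀, ht₀⟩ := exists_prime_orderOf_dvd_card' 2 h2N
  set t : G := t₀.1 with ht_def
  have ht2 : orderOf t = 2 := (Subgroup.orderOf_coe t₀).trans ht₀
  obtain ⟨c, hc⟩ : ∃ c : ℕ, t * u * t⁻¹ = u ^ c := by
    have h1 : u ∈ (P' : Subgroup G) := hP' (Subgroup.mem_zpowers u)
    have h2 : t * u * t⁻¹ ∈ (P' : Subgroup G) := (Subgroup.mem_normalizer_iff.mp t₀.2 u).mp h1
    rw [hP'eq, ← mem_powers_iff_mem_zpowers] at h2
    obtain ⟨c, hc⟩ := h2
    exact ⟨c, hc.symm⟩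
  obtain ⟨b, hb⟩ := involution_inverts hp2 hu' hc ht2
  have htinv : t⁻¹ = t := by
    rw [inv_eq_iff_mul_eq_one, ← sq, ← ht2]
    exact pow_orderOf_eq_one t
  have h2ne : (2 : ZMod p) ≠ 0 := by
    intro h
    have h1 : ((2 : ℕ) : ZMod p) = 0 := by exact_mod_cast h
    rw [ZMod.natCast_eq_zero_iff] at h1
    exact hp2 ((Nat.prime_dvd_prime_iff_eq hpp Nat.prime_two).mp h1)
  -- stabilisers have even order
  have hevenstab : ∀ a : α, Even (Nat.card (MulAction.stabilizer G a)) := by
    have hcardstab : ∀ a a' : α, Nat.card (MulAction.stabilizer G a) = Nat.card (MulAction.stabilizer G a') := by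
      intro a a'
      have h1 := Subgroup.card_mul_index (MulAction.stabilizer G a)
      have h2 := Subgroup.card_mul_index (MulAction.stabilizer G a')
      have h3 : ∀ x : α, (MulAction.stabilizer G x).index = p := by
        intro x
        rw [MulAction.index_stabilizer, MulAction.orbit_eq_univ, Set.ncard_univ,
          Nat.card_eq_fintype_card, hα]
      rw [h3] at h1 h2
      exact Nat.eq_of_mul_eq_mul_right hpp.pos (h1.trans h2.symm)
    set j₀ : ZMod p := b / 2 with hj₀
    have hj₀' : 2 * j₀ = b := by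
      rw [hj₀]
      field_simp
    have htfix : t • e j₀ = e j₀ := by
      rw [← hsm, hb]
      congr 1
      linear_combination -hj₀'
    have htmem : t ∈ MulAction.stabilizer G (e j₀) := htfix
    have h2d : 2 ∣ Nat.card (MulAction.stabilizer G (e j₀)) := by
      have h3 := orderOf_dvd_natCard (⟨t, htmem⟩ : MulAction.stabilizer G (e j₀))
      rwa [Subgroup.orderOf_mk, ht2] at h3
    intro a
    rw [even_iff_two_dvd, hcardstab a (e j₀)]
    exact h2d
  have hcardprime : (Fintype.card α).Prime := by rw [hα]; exact hpp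
  have h2trans : MulAction.IsMultiplyPretransitive G α 2 :=
    (Cfsg.Agent.S0675.result hcardprime G).resolve_left hG
  refine Cfsg.Agent.S0672.result (K := ZMod p) (p := p) h2trans (by rw [hα]) hevenstab ?_
  intro f hf
  -- the function `x`
  let x : α → ZMod p := fun a => e.symm a
  let ρ := Cfsg.permRep (ZMod p) G α
  let σ := Cfsg.permRep (ZMod p) G (Set.powersetCard α 2)
  let V₀ := Cfsg.permSumZero (ZMod p) G α
  have hx0 : x ∈ V₀.toSubmodule := by
    show ∑ a, x a = 0
    have h1 : ∑ a, x a = ∑ j : ZMod p, j := (Equiv.sum_comp e.symm (fun j => j))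
    rw [h1]
    have h2 := sum_cast_pow_lt (K := ZMod p) (p := p) (i := 1) (by omega)
    simpa using h2
  have h10 : (fun _ => 1 : α → ZMod p) ∈ V₀.toSubmodule := by
    show ∑ _a : α, (1 : ZMod p) = 0
    simp [Finset.card_univ, hα]
  have hf1 : f ⟨_, h10⟩ = 0 := hf _ (Submodule.mem_span_singleton_self _)
  set F : Set.powersetCard α 2 → ZMod p := f ⟨x, hx0⟩ with hF
  have hue : ∀ j : ZMod p, u⁻¹ • j = j - 1 := by
    intro j
    rw [inv_smul_eq_iff, hu']
    ring
  -- `F` is invariant under `u`
  have hFu : ∀ δ, F (u⁻¹ • δ) = F δ := by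
    intro δ
    have h1 := f.isIntertwining _ _ u ⟨x, hx0⟩
    have h2 : V₀.toRepresentation u ⟨x, hx0⟩ = ⟨x, hx0⟩ - ⟨_, h10⟩ := by
      apply Subtype.ext
      funext a
      obtain ⟨j, rfl⟩ := e.surjective a
      show e.symm (u⁻¹ • e j) = e.symm (e j) - 1
      rw [← hsm, hue]
      simp
    rw [h2, map_sub, hf1, sub_zero] at h1
    have h3 := congrFun h1 δ
    exact h3.symm
  have hFu' : ∀ δ, F (u • δ) = F δ := by
    intro δ
    have := hFu (u • δ)
    rw [inv_smul_smul] at this
    exact this.symm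
  have hFun : ∀ (n : ℕ) δ, F (u ^ n • δ) = F δ := by
    intro n
    induction n with
    | zero => intro δ; simp
    | succ n ih =>
      intro δ
      rw [pow_succ, mul_smul, ih, hFu']
  -- `F` under `t`
  have hFt : ∀ δ, F (t⁻¹ • δ) = - F δ := by
    intro δ
    have h1 := f.isIntertwining _ _ t ⟨x, hx0⟩
    have h2 : V₀.toRepresentation t ⟨x, hx0⟩ = b • ⟨_, h10⟩ - ⟨x, hx0⟩ := by
      apply Subtype.ext
      funext a
      obtain ⟨j, rfl⟩ := e.surjective a
      show e.symm (t⁻¹ • e j) = b * 1 - e.symm (e j)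
      rw [htinv, ← hsm, hb]
      simp
    rw [h2, map_sub, map_smul, hf1, smul_zero, zero_sub] at h1
    have h3 := congrFun h1 δ
    exact h3.symm
  have hF0 : ∀ δ, F δ = 0 := by
    intro δ
    obtain ⟨a₁, a₂, hne, hδ⟩ := Finset.card_eq_two.mp δ.2
    set j₁ := e.symm a₁ with hj₁
    set j₂ := e.symm a₂ with hj₂
    set n := (b - j₁ - j₂).val with hn
    have hcast : (n : ZMod p) = b - j₁ - j₂ := ZMod.natCast_zmod_val _
    have hδeq : t⁻¹ • δ = u ^ n • δ := by
      apply Subtype.ext
      show t⁻¹ • (δ : Finset α) = u ^ n • (δ : Finset α)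
      rw [hδ, htinv]
      rw [Finset.smul_finset_insert, Finset.smul_finset_insert, Finset.smul_finset_singleton,
        Finset.smul_finset_singleton]
      have ha₁ : a₁ = e j₁ := by simp [hj₁]
      have ha₂ : a₂ = e j₂ := by simp [hj₂]
      have h1 : t • a₁ = u ^ n • a₂ := by
        rw [ha₁, ha₂, ← hsm, ← hsm, hb, hun, hcast]
        congr 1
        ring
      have h2 : t • a₂ = u ^ n • a₁ := by
        rw [ha₁, ha₂, ← hsm, ← hsm, hb, hun, hcast]
        congr 1
        ring
      rw [h1, h2, Finset.pair_comm]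
    have h3 := hFt δ
    rw [hδeq, hFun] at h3
    have h4 : 2 * F δ = 0 := by linear_combination h3
    exact (mul_eq_zero.mp h4).resolve_left h2ne
  have hFzero : f ⟨x, hx0⟩ = 0 := funext hF0
  -- the kernel as a subrepresentation
  let KS : Submodule (ZMod p) (α → ZMod p) :=
    (LinearMap.ker f.toLinearMap).map V₀.toSubmodule.subtype
  have hKS : ∀ v, v ∈ KS ↔ ∃ hv : v ∈ V₀.toSubmodule, f ⟨v, hv⟩ = 0 := by
    intro v
    constructor
    · rintro ⟨w, hw, rfl⟩
      exact ⟨w.2, hw⟩
    · rintro ⟨hv, h0⟩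
      exact ⟨⟨v, hv⟩, h0, rfl⟩
  have hKinv : ∀ (g : G) ⦃v⦄, v ∈ KS → ρ g v ∈ KS := by
    intro g v hv
    obtain ⟨hv, h0⟩ := (hKS v).mp hv
    have h1 := f.isIntertwining _ _ g ⟨v, hv⟩
    rw [h0, map_zero] at h1
    exact (hKS _).mpr ⟨(V₀.toRepresentation g ⟨v, hv⟩).2, h1⟩
  let Ker : Subrepresentation (Cfsg.permRep (ZMod p) G α) := ⟨KS, hKinv⟩
  have hle1 : (Cfsg.permConstants (ZMod p) G α).toSubmodule ≤ Ker.toSubmodule := by
    intro v hv
    have hv' : v ∈ Submodule.span (ZMod p) {(fun _ => 1 : α → ZMod p)} := hv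
    obtain ⟨c, rfl⟩ := Submodule.mem_span_singleton.mp hv'
    refine (hKS _).mpr ⟨V₀.toSubmodule.smul_mem c h10, ?_⟩
    have := hf ⟨c • (fun _ => 1 : α → ZMod p), V₀.toSubmodule.smul_mem c h10⟩ hv
    exact this
  have hle2 : Ker.toSubmodule ≤ (Cfsg.permSumZero (ZMod p) G α).toSubmodule := by
    intro v hv
    exact ((hKS v).mp hv).1
  rcases Cfsg.Agent.S0674.result hα G hG Ker hle1 hle2 with h1 | h1
  · exfalso
    have hxK : x ∈ Ker.toSubmodule := (hKS x).mpr ⟨hx0, hFzero⟩
    rw [h1] at hxK
    have hxK' : x ∈ Submodule.span (ZMod p) {(fun _ => 1 : α → ZMod p)} := hxK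
    obtain ⟨c, hc'⟩ := Submodule.mem_span_singleton.mp hxK'
    have h5 := congrFun hc' (e 0)
    have h6 := congrFun hc' (e 1)
    simp [x] at h5 h6
    rw [h5] at h6
    exact zero_ne_one h6
  · apply Representation.IntertwiningMap.ext
    apply LinearMap.ext
    rintro ⟨v, hv⟩
    have hvK : v ∈ Ker.toSubmodule := by rw [h1]; exact hv
    obtain ⟨hv', h0⟩ := (hKS v).mp hvK
    exact h0

end Cfsg.Agent.S0676
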