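import Cfsg.Statements.S0677
import Cfsg.Agent.Lib.H9.PrimeDeg2

set_option autoImplicit false
set_option linter.unusedSimpArgs false
open Cfsg

namespace Cfsg.Agent.S0677

open CfsgLib.H9.WPoly in
/-- In a transitive permutation group of prime degree `p` whose Sylow `p`-normaliser has even order, the point stabilisers are the only subgroups of index `p`. -/
theorem result {α : Type*} [Fintype α] [DecidableEq α] {p : ℕ} [Fact p.Prime] (hα : Fintype.card α = p) (G : Subgroup (Equiv.Perm α)) [MulAction.IsPretransitive G α] (P : Sylow p G) (heven : Even (Nat.card (Subgroup.normalizer ((P : Subgroup G) : Set G)))) (H : Subgroup G) (hH : H.index = p) : ∃ a : α, H = MulAction.stabilizer G a := by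
  classical
  have hpp : p.Prime := Fact.out
  have hidx : ∀ x : α, (MulAction.stabilizer G x).index = p := by
    intro x
    rw [MulAction.index_stabilizer, MulAction.orbit_eq_univ, Set.ncard_univ,
      Nat.card_eq_fintype_card, hα]
  have hfin : ∀ a : α, H ≤ MulAction.stabilizer G a → H = MulAction.stabilizer G a := by
    intro a hle
    apply Subgroup.eq_of_le_of_card_ge hle
    have h1 := Subgroup.card_mul_index H
    have h2 := Subgroup.card_mul_index (MulAction.stabilizer G a)
    rw [hH] at h1
    rw [hidx] at h2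
    exact (Nat.eq_of_mul_eq_mul_right hpp.pos (h2.trans h1.symm)).le
  by_cases hp2 : p = 2
  · -- degree two
    haveI : Nonempty α := by
      rw [← Fintype.card_pos_iff, hα]
      exact hpp.pos
    obtain ⟨a⟩ := ‹Nonempty α›
    refine ⟨a, hfin a ?_⟩
    have hG : Nat.card G ≤ 2 := by
      have h1 := Subgroup.card_le_card_group G
      rwa [Nat.card_eq_fintype_card (α := Equiv.Perm α), Fintype.card_perm, hα, hp2] at h1
    have h1 := Subgroup.card_mul_index H
    rw [hH, hp2] at h1
    have h3 : Nat.card H = 1 := by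
      have := Nat.card_pos (α := H)
      omega
    rw [Subgroup.eq_bot_of_card_eq H h3]
    exact bot_le
  obtain ⟨e, u, t, hu, ht, ht2⟩ := exists_coord_inv hα G hp2 P heven
  letI act : MulAction G (ZMod p) := coordAction G e
  have hsm : ∀ (g : G) (j : ZMod p), e (g • j) = g • e j := fun g j => by
    show e (e.symm (g • e j)) = g • e j
    simp
  have hu' : ∀ j : ZMod p, u • j = j + 1 := by
    intro j
    apply e.injective
    rw [hsm, hu]
  have ht' : ∀ j : ZMod p, t • j = -j := by
    intro j
    apply e.injective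
    rw [hsm, ht]
  haveI hfaith : FaithfulSMul G (ZMod p) := ⟨fun {g g'} h => by
    apply Subtype.ext
    ext x
    obtain ⟨j, rfl⟩ := e.surjective x
    have := congrArg e (h j)
    rwa [hsm, hsm] at this⟩
  -- `p` does not divide `|H|`
  have hnd : ¬ p ∣ Nat.card H := by
    intro hd
    have h1 := Subgroup.card_mul_index H
    have h2 := Subgroup.card_mul_index (P : Subgroup G)
    have h3 : Nat.card (P : Subgroup G) = p := card_sylow_of_prime_degree hα G P
    rw [h3] at h2
    rw [hH] at h1
    have h4 : (P : Subgroup G).index = Nat.card H := by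
      apply Nat.eq_of_mul_eq_mul_left hpp.pos
      rw [h2, ← h1, mul_comm]
    apply P.not_dvd_index
    rw [h4]
    exact hd
  -- `t` fixes a coset
  have ht21 : t ^ 2 = 1 := by
    rw [← ht2]
    exact pow_orderOf_eq_one t
  haveI : Fintype (G ⧸ H) := Fintype.ofFinite _
  obtain ⟨q, hq⟩ : ∃ q : G ⧸ H, t • q = q := by
    by_contra hcon
    push Not at hcon
    let σ : Equiv.Perm (G ⧸ H) := MulAction.toPermHom G (G ⧸ H) t
    have hσ : σ ^ 2 = 1 := by
      show (MulAction.toPermHom G (G ⧸ H) t) ^ 2 = 1
      rw [← map_pow, ht21, map_one]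
    have hsupp := Equiv.Perm.two_dvd_card_support hσ
    have hall : σ.support = Finset.univ := by
      ext x
      simp only [Equiv.Perm.mem_support, Finset.mem_univ, iff_true]
      exact hcon x
    rw [hall, Finset.card_univ, ← Nat.card_eq_fintype_card] at hsupp
    have h5 : Nat.card (G ⧸ H) = p := hH
    rw [h5] at hsupp
    have := (Nat.prime_dvd_prime_iff_eq Nat.prime_two hpp).mp hsupp
    exact hp2 this.symm
  obtain ⟨x, rfl⟩ := QuotientGroup.mk_surjective q
  have hxt : x⁻¹ * t * x ∈ H := by
    have h1 : ((t * x : G) : G ⧸ H) = (x : G ⧸ H) := hq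
    rw [QuotientGroup.eq] at h1
    have h2 := H.inv_mem h1
    simpa [mul_assoc] using h2
  let H' : Subgroup G := H.map (MulAut.conj x).toMonoidHom
  have hbij : Function.Bijective (MulAut.conj x).toMonoidHom := (MulAut.conj x).bijective
  have htH' : t ∈ H' := by
    refine ⟨x⁻¹ * t * x, hxt, ?_⟩
    show x * (x⁻¹ * t * x) * x⁻¹ = t
    group
  have hH'idx : H'.index = p := by
    rw [← hH]
    exact Subgroup.index_map_of_bijective hbij H
  have hH'card : Nat.card H' = Nat.card H := Subgroup.card_map_of_injective hbij.injective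
  have hfix := fixes_zero_of_index hp2 hu' ht' H' htH' hH'idx (by rw [hH'card]; exact hnd)
  refine ⟨x⁻¹ • e 0, hfin _ ?_⟩
  intro h hh
  have h1 : x * h * x⁻¹ ∈ H' := ⟨h, hh, rfl⟩
  have h2 := hfix _ h1
  have h3 : (x * h * x⁻¹) • e 0 = e 0 := by
    rw [← hsm, h2]
  show h • x⁻¹ • e 0 = x⁻¹ • e 0
  rw [← mul_smul, eq_inv_smul_iff, ← mul_smul, ← mul_assoc]
  exact h3

end Cfsg.Agent.S0677
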