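import Cfsg.Statements.S0680
import Cfsg.Agent.Lib.H9.Sharp2
import Mathlib.Tactic
import Mathlib.GroupTheory.GroupAction.MultipleTransitivity

set_option autoImplicit false
open Cfsg MulAction
open CfsgLib.H9.Sharp2

namespace Cfsg.Agent.S0680

/-- A finite sharply doubly transitive permutation group has degree a prime power `p ^ j`; a Sylow `p`-subgroup is normal, elementary abelian and regular, and consists of the identity together with the elements without fixed points. (Frobenius' Theorem is not needed.) -/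
theorem result {α : Type*} [Fintype α] [DecidableEq α] (G : Subgroup (Equiv.Perm α)) [MulAction.IsMultiplyPretransitive G α 2] (hsharp : ∀ x : Fin 2 ↪ α, MulAction.stabilizer G x = ⊥) (h2 : 2 ≤ Fintype.card α) : ∃ p j : ℕ, p.Prime ∧ 1 ≤ j ∧ Fintype.card α = p ^ j ∧ ∀ (hp : Fact p.Prime) (P : Sylow p G), (P : Subgroup G).Normal ∧ IsMulCommutative (P : Subgroup G) ∧ (∀ x ∈ (P : Subgroup G), x ^ p = 1) ∧ MulAction.IsPretransitive (P : Subgroup G) α ∧ (∀ a : α, MulAction.stabilizer (P : Subgroup G) a = ⊥) ∧ ∀ g : G, g ∈ (P : Subgroup G) ↔ g = 1 ∨ ∀ a : α, g • a ≠ a := by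
  classical
  rename_i inst
  have hS : IsSharp2 G α := {
    trans := fun hab hcd => (is_two_pretransitive_iff.mp inst) hab hcd
    sharp := by
      intro g a b hab ha hb
      have hmem : g ∈ stabilizer G (Function.Embedding.embFinTwo hab) := by
        rw [mem_stabilizer_iff]
        ext i
        fin_cases i
        · exact ha
        · exact hb
      rw [hsharp] at hmem
      exact hmem }
  haveI : Nontrivial α := Fintype.one_lt_card_iff_nontrivial.mp h2
  obtain ⟨p, j, hp, hj, hcard, hord⟩ := exists_card_eq_prime_pow hS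
  refine ⟨p, j, hp, hj, by rwa [Nat.card_eq_fintype_card] at hcard, ?_⟩
  intro hpf P
  have hP := kernel_eq_sylow hS hord hj hcard P
  rw [← hP]
  refine ⟨inferInstance, ⟨⟨fun a b => Subtype.ext (kernel_comm hS a.2 b.2).eq⟩⟩, ?_, ?_, ?_, ?_⟩
  · intro x hx
    by_cases hx1 : x = 1
    · simp [hx1]
    · rw [← hord x hx hx1, pow_orderOf_eq_one]
  · constructor
    intro c d
    obtain ⟨u, ⟨hu1, hu2⟩, -⟩ := kernel_regular hS c d
    exact ⟨⟨u, hu1⟩, hu2⟩
  · intro a
    rw [Subgroup.eq_bot_iff_forall]
    rintro ⟨u, hu⟩ hu2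
    rcases hu with rfl | hu
    · rfl
    · exact absurd hu2 (hu a)
  · intro g
    exact Iff.rfl

end Cfsg.Agent.S0680
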