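import Cfsg.Statements.S0681
import Mathlib.Tactic

set_option autoImplicit false
open Cfsg

namespace Cfsg.Agent.S0681

/-- The affine maps `x ↦ x * a + b`, `a ≠ 0`, of a near-field form a sharply doubly transitive permutation group. -/
theorem result {F : Type*} [Cfsg.NearField F] : ∃ H : Subgroup (Equiv.Perm F), (∀ σ : Equiv.Perm F, σ ∈ H ↔ ∃ a b : F, a ≠ 0 ∧ ∀ x : F, σ x = x * a + b) ∧ MulAction.IsMultiplyPretransitive H F 2 ∧ ∀ x : Fin 2 ↪ F, MulAction.stabilizer H x = ⊥ := by
  classical
  have hdist : ∀ a b c : F, (a + b) * c = a * c + b * c := Cfsg.NearField.right_distrib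
  have hzero_mul : ∀ c : F, (0 : F) * c = 0 := by
    intro c
    have h := hdist (0 : F) 0 c
    rw [add_zero] at h
    exact left_eq_add.1 h
  have hmul_zero : ∀ c : F, c * (0 : F) = 0 := Cfsg.NearField.mul_zero
  have hinv : ∀ a : F, a ≠ 0 → ∃ b : F, a * b = 1 ∧ b * a = 1 := Cfsg.NearField.exists_inv
  have hzn : (0 : F) ≠ 1 := Cfsg.NearField.zero_ne_one
  have hneg_mul : ∀ a c : F, (-a) * c = -(a * c) := by
    intro a c
    have h := hdist (-a) a c
    rw [neg_add_cancel, hzero_mul] at h
    exact (neg_eq_of_add_eq_zero_left h.symm).symm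
  have hmul_ne : ∀ a c : F, a ≠ 0 → c ≠ 0 → a * c ≠ 0 := by
    intro a c ha hc h
    obtain ⟨ci, hci, _⟩ := hinv c hc
    have : a * c * ci = 0 := by rw [h, hzero_mul]
    rw [mul_assoc, hci, mul_one] at this
    exact ha this
  have hinv_ne : ∀ a b : F, a * b = 1 → b ≠ 0 := by
    intro a b h hb
    rw [hb, hmul_zero] at h
    exact hzn h
  -- the subgroup
  let H : Subgroup (Equiv.Perm F) :=
    { carrier := {σ | ∃ a b : F, a ≠ 0 ∧ ∀ x : F, σ x = x * a + b}
      one_mem' := ⟨1, 0, hzn.symm, fun x => by simp⟩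
      mul_mem' := by
        rintro σ τ ⟨a, b, ha, hσ⟩ ⟨c, d, hc, hτ⟩
        refine ⟨c * a, d * a + b, hmul_ne c a hc ha, fun x => ?_⟩
        show σ (τ x) = _
        rw [hτ, hσ, hdist, ← add_assoc, mul_assoc]
      inv_mem' := by
        rintro σ ⟨a, b, ha, hσ⟩
        obtain ⟨ai, ha1, ha2⟩ := hinv a ha
        refine ⟨ai, -b * ai, hinv_ne _ _ ha1, fun x => ?_⟩
        apply σ.injective
        show σ (σ.symm x) = _
        rw [Equiv.apply_symm_apply, hσ, hdist, mul_assoc, mul_assoc, ha2, mul_one, mul_one, add_assoc, neg_add_cancel, add_zero] }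
  refine ⟨H, fun σ => Iff.rfl, ?_, ?_⟩
  · -- transitivity on pairs
    refine ⟨fun x y => ?_⟩
    have hx01 : x 1 + -x 0 ≠ 0 := by
      intro h
      have h1 : x 1 = x 0 := by
        have := eq_of_add_neg_eq_zero h
        exact this
      have := x.injective h1
      simp at this
    have hy01 : y 1 + -y 0 ≠ 0 := by
      intro h
      have h1 : y 1 = y 0 := eq_of_add_neg_eq_zero h
      have := y.injective h1
      simp at this
    obtain ⟨di, hd1, hd2⟩ := hinv _ hx01
    set a := di * (y 1 + -y 0) with ha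
    have ha0 : a ≠ 0 := hmul_ne _ _ (hinv_ne _ _ hd1) hy01
    have hda : (x 1 + -x 0) * a = y 1 + -y 0 := by
      rw [ha, ← mul_assoc, hd1, one_mul]
    set b := -(x 0 * a) + y 0 with hb
    obtain ⟨ai, hai1, hai2⟩ := hinv a ha0
    let σ : Equiv.Perm F :=
      { toFun := fun z => z * a + b
        invFun := fun z => (z + -b) * ai
        left_inv := by
          intro z
          show (z * a + b + -b) * ai = z
          rw [add_neg_cancel_right, mul_assoc, hai1, mul_one]
        right_inv := by
          intro z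
          show (z + -b) * ai * a + b = z
          rw [mul_assoc, hai2, mul_one, neg_add_cancel_right] }
    refine ⟨⟨σ, a, b, ha0, fun z => rfl⟩, ?_⟩
    ext i
    fin_cases i
    · show x 0 * a + b = y 0
      rw [hb, add_neg_cancel_left]
    · show x 1 * a + b = y 1
      have h3 : (x 1 + -x 0) * a = x 1 * a + -(x 0 * a) := by
        rw [hdist, hneg_mul]
      rw [hb, ← add_assoc, ← h3, hda, neg_add_cancel_right]
  · intro x
    rw [eq_bot_iff]
    rintro ⟨σ, a, b, ha, hσ⟩ hstab
    rw [Subgroup.mem_bot]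
    apply Subtype.ext
    have hfix : ∀ i, σ (x i) = x i := by
      intro i
      have := congrArg (fun f : Fin 2 ↪ F => f i) hstab
      exact this
    have hx01 : x 1 + -x 0 ≠ 0 := by
      intro h
      have h1 : x 1 = x 0 := eq_of_add_neg_eq_zero h
      have := x.injective h1
      simp at this
    have h0 := hfix 0
    have h1 := hfix 1
    rw [hσ] at h0 h1
    have h2 : (x 1 + -x 0) * a = x 1 + -x 0 := by
      rw [hdist, hneg_mul]
      have h3 : x 1 * a = x 1 + -b := eq_add_neg_of_add_eq h1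
      have h4 : x 0 * a = x 0 + -b := eq_add_neg_of_add_eq h0
      rw [h3, h4]
      simp [add_assoc]
    obtain ⟨di, hd1, hd2⟩ := hinv _ hx01
    have ha1 : a = 1 := by
      have h5 : di * ((x 1 + -x 0) * a) = di * (x 1 + -x 0) := by rw [h2]
      rw [← mul_assoc, hd2, one_mul] at h5
      exact h5
    rw [ha1, mul_one] at h0
    have hb0 : b = 0 := left_eq_add.1 h0.symm
    ext z
    rw [hσ, ha1, hb0, mul_one, add_zero]
    rfl

end Cfsg.Agent.S0681
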