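import Cfsg.Statements.S0682
import Mathlib.Tactic
import Mathlib.GroupTheory.PGroup
import Mathlib.GroupTheory.Nilpotent

set_option autoImplicit false
open Cfsg

namespace Cfsg.Agent.S0682

/-- A finite near-field has prime-power order; its additive group is commutative of prime exponent. -/
theorem result {F : Type*} [Cfsg.NearField F] [Finite F] : ∃ p j : ℕ, p.Prime ∧ 1 ≤ j ∧ Nat.card F = p ^ j ∧ (∀ x y : F, x + y = y + x) ∧ ∀ x : F, p • x = 0 := by
  classical
  -- right multiplication is additive
  have hzero_mul : ∀ c : F, (0 : F) * c = 0 := by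
    intro c
    have h := Cfsg.NearField.right_distrib (0 : F) 0 c
    rw [add_zero] at h
    exact left_eq_add.1 h
  let R : F → (F →+ F) := fun c =>
    { toFun := fun x => x * c
      map_zero' := hzero_mul c
      map_add' := fun x y => Cfsg.NearField.right_distrib x y c }
  have hR : ∀ c x, R c x = x * c := fun _ _ => rfl
  have hzn : (0 : F) ≠ 1 := Cfsg.NearField.zero_ne_one
  -- inverse
  have hinv : ∀ a : F, a ≠ 0 → ∃ b : F, a * b = 1 ∧ b * a = 1 := Cfsg.NearField.exists_inv
  have hRinj : ∀ c : F, c ≠ 0 → Function.Injective (R c) := by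
    intro c hc x y hxy
    obtain ⟨b, hb1, hb2⟩ := hinv c hc
    have h2 : x * c * b = y * c * b := congrArg (· * b) hxy
    rw [mul_assoc, mul_assoc, hb1, mul_one, mul_one] at h2
    exact h2
  -- all non-zero elements have the same additive order as `1`
  have hord : ∀ x : F, x ≠ 0 → addOrderOf x = addOrderOf (1 : F) := by
    intro x hx
    have := addOrderOf_injective (R x) (hRinj x hx) (1 : F)
    rw [hR, one_mul] at this
    exact this
  set p := addOrderOf (1 : F) with hp
  have hp0 : 0 < p := addOrderOf_pos 1
  have hp1 : p ≠ 1 := by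
    intro h
    have h2 : (1 : F) = 0 := by
      have := addOrderOf_nsmul_eq_zero (1 : F)
      rw [← hp, h, one_smul] at this
      exact this
    exact hzn h2.symm
  have hprime : p.Prime := by
    have hq : (p.minFac).Prime := Nat.minFac_prime hp1
    by_contra hnp
    have hlt : p.minFac < p := by
      have hle := Nat.minFac_le hp0
      refine lt_of_le_of_ne hle ?_
      intro h
      exact hnp (h ▸ hq)
    have hne : p.minFac • (1 : F) ≠ 0 := by
      intro h
      have h2 : p ∣ p.minFac := addOrderOf_dvd_of_nsmul_eq_zero h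
      have := Nat.le_of_dvd hq.pos h2
      omega
    have h3 := hord _ hne
    rw [addOrderOf_nsmul' _ hq.ne_zero, ← hp, Nat.gcd_eq_right (Nat.minFac_dvd p)] at h3
    have h4 : p / p.minFac * p.minFac = p := Nat.div_mul_cancel (Nat.minFac_dvd p)
    rw [h3] at h4
    have h5 : p * p.minFac = p * 1 := by rw [h4, mul_one]
    have h6 := Nat.eq_of_mul_eq_mul_left hp0 h5
    exact hq.one_lt.ne' h6
  haveI : Fact p.Prime := ⟨hprime⟩
  have hexp : ∀ x : F, p • x = 0 := by
    intro x
    by_cases hx : x = 0
    · subst hx; simp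
    · rw [← hord x hx]
      exact addOrderOf_nsmul_eq_zero x
  have hPG : IsPGroup p (Multiplicative F) := by
    intro g
    refine ⟨1, ?_⟩
    rw [pow_one]
    have := hexp (Multiplicative.toAdd g)
    exact Multiplicative.toAdd.injective (by simpa using this)
  obtain ⟨j, hj⟩ := IsPGroup.iff_card.1 hPG
  have hcardF : Nat.card F = p ^ j := by
    rw [← hj]
    rfl
  haveI : Nontrivial F := ⟨⟨0, 1, hzn⟩⟩
  have hj1 : 1 ≤ j := by
    rcases Nat.eq_zero_or_pos j with h | h
    · exfalso
      subst h
      rw [pow_zero] at hcardF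
      have := (Nat.card_eq_one_iff_unique.1 hcardF).1
      exact hzn (Subsingleton.elim _ _)
    · exact h
  refine ⟨p, j, hprime, hj1, hcardF, ?_, hexp⟩
  -- commutativity
  haveI : Nontrivial (Multiplicative F) := inferInstanceAs (Nontrivial F)
  have hcenter := hPG.center_nontrivial
  obtain ⟨z, hz⟩ := exists_ne (1 : Subgroup.center (Multiplicative F))
  set z0 : F := Multiplicative.toAdd z.1 with hz0
  have hz0ne : z0 ≠ 0 := by
    intro h
    apply hz
    apply Subtype.ext
    exact Multiplicative.toAdd.injective h
  have hz0c : ∀ y : F, z0 + y = y + z0 := by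
    intro y
    have := (Subgroup.mem_center_iff.1 z.2) (Multiplicative.ofAdd y)
    have h2 := congrArg Multiplicative.toAdd this
    exact h2.symm
  obtain ⟨zi, hzi1, hzi2⟩ := hinv z0 hz0ne
  have hcentral : ∀ x y : F, x ≠ 0 → x + y = y + x := by
    intro x y hx
    let c := zi * x
    have hzc : z0 * c = x := by
      show z0 * (zi * x) = x
      rw [← mul_assoc, hzi1, one_mul]
    have hc0 : c ≠ 0 := by
      intro h0
      rw [h0, Cfsg.NearField.mul_zero] at hzc
      exact hx hzc.symm
    obtain ⟨ci, hci1, hci2⟩ := hinv c hc0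
    let y' := y * ci
    have hy : y' * c = y := by
      show y * ci * c = y
      rw [mul_assoc, hci2, mul_one]
    have h1 : x + y = R c (z0 + y') := by
      rw [map_add, hR, hR, hzc, hy]
    have h2 : y + x = R c (y' + z0) := by
      rw [map_add, hR, hR, hzc, hy]
    rw [h1, h2, hz0c]
  intro x y
  by_cases hx : x = 0
  · subst hx; simp
  · exact hcentral x y hx

end Cfsg.Agent.S0682
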