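import Cfsg.Statements.S0683
import Cfsg.Agent.Lib.H9.NearFieldOfSharp
import Mathlib.Tactic
import Mathlib.GroupTheory.GroupAction.MultipleTransitivity

set_option autoImplicit false
open Cfsg MulAction
open CfsgLib.H9.Sharp2

namespace Cfsg.Agent.S0683

/-- A finite sharply doubly transitive permutation group is the affine group of a near-field: the permuted set carries a near-field structure for which the group consists exactly of the maps `x ↦ x * a + b` with `a ≠ 0`. -/
theorem result {α : Type*} [Fintype α] [DecidableEq α] (H : Subgroup (Equiv.Perm α)) [MulAction.IsMultiplyPretransitive H α 2] (hsharp : ∀ x : Fin 2 ↪ α, MulAction.stabilizer H x = ⊥) (h2 : 2 ≤ Fintype.card α) : ∃ _ : Cfsg.NearField α, ∀ σ : Equiv.Perm α, σ ∈ H ↔ ∃ a b : α, a ≠ 0 ∧ ∀ x : α, σ x = x * a + b := by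
  classical
  rename_i inst
  have hS : IsSharp2 H α := {
    trans := fun hab hcd => (is_two_pretransitive_iff.mp inst) hab hcd
    sharp := by
      intro g a b hab ha hb
      have hmem : g ∈ stabilizer H (Function.Embedding.embFinTwo hab) := by
        rw [mem_stabilizer_iff]
        ext i
        fin_cases i
        · exact ha
        · exact hb
      rw [hsharp] at hmem
      exact hmem }
  haveI : Nontrivial α := Fintype.one_lt_card_iff_nontrivial.mp h2
  obtain ⟨nf, h1, h3⟩ := exists_nearField hS
  refine ⟨nf, fun σ => ⟨fun hσ => ?_, ?_⟩⟩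
  · obtain ⟨a, b, ha, hab⟩ := h1 ⟨σ, hσ⟩
    exact ⟨a, b, ha, hab⟩
  · rintro ⟨a, b, ha, hab⟩
    obtain ⟨g, hg⟩ := h3 a b ha
    have : σ = (g : Equiv.Perm α) := by
      ext x
      rw [hab x]
      exact (hg x).symm
    rw [this]
    exact g.2

end Cfsg.Agent.S0683
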