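import Cfsg.Statements.S0691
import Cfsg.Agent.Lib.H9.RegTable

set_option autoImplicit false
set_option maxRecDepth 100000
open Cfsg

namespace Cfsg.Agent.S0691

/-- Table of the regular group. -/
def T : ℕ := 0xe005001101200240160120048007009001800c008002800400a001801000c005401500d003000600e003400b00c0050002012004401300a000401800a0028009012006000e004001400300e000c01200e003001700e0054008006001400d000000000100d0050005008000400f009002800a00500140140000000000

/-- Entry of the table. -/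
def ent (x y : ZMod 5) : ℕ := (T >>> (40 * (x.val * 5 + y.val))) % 2 ^ 40

/-- Second column. -/
def G2 (x y : ZMod 5) : ZMod 5 × ZMod 5 :=
  (((ent x y % 2 ^ 14 / 5 : ℕ) : ZMod 5), ((ent x y % 2 ^ 14 % 5 : ℕ) : ZMod 5))

/-- Parent vector. -/
def par (x y : ZMod 5) : ZMod 5 × ZMod 5 :=
  ((((ent x y >>> 14) % 2 ^ 14 / 5 : ℕ) : ZMod 5), (((ent x y >>> 14) % 2 ^ 14 % 5 : ℕ) : ZMod 5))

/-- Index of generator. -/
def gi (x y : ZMod 5) : ℕ := (ent x y >>> 28) % 4

/-- BFS rank. -/
def rk (x y : ZMod 5) : ℕ := ent x y >>> 30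

theorem ok_one : G2 1 0 = (0, 1) := by decide +kernel

theorem ok_A : ∀ x y : ZMod 5, G2 ((2) * x + (0) * y) ((0) * x + (-2) * y) =
    ((2) * (G2 x y).1 + (0) * (G2 x y).2, (0) * (G2 x y).1 + (-2) * (G2 x y).2) := by
  decide +kernel

theorem ok_B : ∀ x y : ZMod 5, G2 ((0) * x + (-1) * y) ((1) * x + (0) * y) =
    ((0) * (G2 x y).1 + (-1) * (G2 x y).2, (1) * (G2 x y).1 + (0) * (G2 x y).2) := by
  decide +kernel

theorem ok_C : ∀ x y : ZMod 5, G2 ((1) * x + (2) * y) ((1) * x + (-2) * y) =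
    ((1) * (G2 x y).1 + (2) * (G2 x y).2, (1) * (G2 x y).1 + (-2) * (G2 x y).2) := by
  decide +kernel

theorem ok_par : ∀ x y : ZMod 5, (x, y) ≠ (0, 0) → (x, y) ≠ (1, 0) →
    rk (par x y).1 (par x y).2 < rk x y ∧ par x y ≠ (0, 0) ∧ ((gi x y = 0 ∧ (2) * (par x y).1 + (0) * (par x y).2 = x ∧ (0) * (par x y).1 + (-2) * (par x y).2 = y) ∨ (gi x y = 1 ∧ (0) * (par x y).1 + (-1) * (par x y).2 = x ∧ (1) * (par x y).1 + (0) * (par x y).2 = y) ∨ (gi x y = 2 ∧ (1) * (par x y).1 + (2) * (par x y).2 = x ∧ (1) * (par x y).1 + (-2) * (par x y).2 = y)) := by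
  decide +kernel

/-- An exceptional sharply doubly transitive group of degree 5^2: the listed matrices generate a subgroup of GL(2,5) of order 24 acting regularly on the non-zero vectors. -/
theorem result (A : Matrix.GeneralLinearGroup (Fin 2) (ZMod 5)) (B : Matrix.GeneralLinearGroup (Fin 2) (ZMod 5)) (C : Matrix.GeneralLinearGroup (Fin 2) (ZMod 5)) (hA : (A : Matrix (Fin 2) (Fin 2) (ZMod 5)) = !![2, 0; 0, -2]) (hB : (B : Matrix (Fin 2) (Fin 2) (ZMod 5)) = !![0, -1; 1, 0]) (hC : (C : Matrix (Fin 2) (Fin 2) (ZMod 5)) = !![1, 2; 1, -2]) : Nat.card (Subgroup.closure ({A, B, C} : Set (Matrix.GeneralLinearGroup (Fin 2) (ZMod 5)))) = 24 ∧ ∀ v w : Fin 2 → ZMod 5, v ≠ 0 → w ≠ 0 → ∃! h : Subgroup.closure ({A, B, C} : Set (Matrix.GeneralLinearGroup (Fin 2) (ZMod 5))), Matrix.mulVec ((h : Matrix.GeneralLinearGroup (Fin 2) (ZMod 5)) : Matrix (Fin 2) (Fin 2) (ZMod 5)) v = w := by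
  haveI : Fact (Nat.Prime 5) := ⟨by norm_num⟩
  let genF : ZMod 5 → ZMod 5 → Matrix.GeneralLinearGroup (Fin 2) (ZMod 5) :=
    fun x y => if gi x y = 0 then A else (if gi x y = 1 then B else (C))
  have hmain := CfsgLib.H9.RegTable.regular_of_table (q := 5) (S := ({A, B, C} : Set (Matrix.GeneralLinearGroup (Fin 2) (ZMod 5)))) (G2 := G2) ok_one
    (by
      intro g hg x y
      simp only [Set.mem_insert_iff, Set.mem_singleton_iff] at hg
      rcases hg with rfl | rfl | rfl
      · rw [hA]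
        exact ok_A x y
      · rw [hB]
        exact ok_B x y
      · rw [hC]
        exact ok_C x y)
    (CfsgLib.H9.RegTable.trans_of_rank rk par genF
      (by
        intro x y _ _
        simp only [genF]
        repeat' split_ifs
        all_goals simp)
      (by
        intro x y h0 h1'
        obtain ⟨h1, h2, h3⟩ := ok_par x y h0 h1'
        rcases h3 with ⟨hi, e1, e2⟩ | ⟨hi, e1, e2⟩ | ⟨hi, e1, e2⟩
        · have hgen' : genF x y = A := by
            simp [genF, hi]
          rw [hgen', hA]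
          exact ⟨h1, h2, e1, e2⟩
        · have hgen' : genF x y = B := by
            simp [genF, hi]
          rw [hgen', hB]
          exact ⟨h1, h2, e1, e2⟩
        · have hgen' : genF x y = C := by
            simp [genF, hi]
          rw [hgen', hC]
          exact ⟨h1, h2, e1, e2⟩))
  refine ⟨?_, hmain.2⟩
  rw [hmain.1]
  norm_num

end Cfsg.Agent.S0691
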