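import Cfsg.Statements.S0694
import Mathlib

set_option autoImplicit false
open Cfsg

namespace Cfsg.Agent.S0694

open Finset in
theorem pow_sub_one_eq (x k : ℕ) (hx : 1 ≤ x) : x ^ k - 1 = (x - 1) * ∑ j ∈ range k, x ^ j := by
  obtain ⟨y, rfl⟩ : ∃ y, x = y + 1 := ⟨x - 1, by omega⟩
  have := geom_sum_mul_add y k
  simp only [Nat.add_sub_cancel]
  rw [← this, Nat.add_sub_cancel, mul_comm]

open Finset in
theorem geom_modEq {x t : ℕ} (h : x ≡ 1 [MOD t]) (k : ℕ) : ∑ j ∈ range k, x ^ j ≡ k [MOD t] := by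
  induction k with
  | zero => simp [Nat.ModEq]
  | succ k ih =>
    rw [sum_range_succ]
    have h2 : x ^ k ≡ 1 [MOD t] := by simpa using h.pow k
    exact ih.add h2

theorem dvd_of_dvd_sub_one {x t : ℕ} (hx : 1 ≤ x) (h : t ∣ x - 1) (k : ℕ) : t ∣ x ^ k - 1 := by
  rw [pow_sub_one_eq x k hx]
  exact h.mul_right _

theorem modEq_of_dvd {x t : ℕ} (hx : 1 ≤ x) (h : t ∣ x - 1) : x ≡ 1 [MOD t] :=
  ((Nat.modEq_iff_dvd' hx).mpr h).symm

theorem dvd_of_modEq {x t : ℕ} (hx : 1 ≤ x) (h : x ≡ 1 [MOD t]) : t ∣ x - 1 :=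
  (Nat.modEq_iff_dvd' hx).mp h.symm

/-- odd exponent: the 2-adic valuation is unchanged. -/
theorem val_odd_exp {q d : ℕ} (hq : 2 ≤ q) (h2 : 2 ∣ q - 1) (hd : ¬ 2 ∣ d) :
    padicValNat 2 (q ^ d - 1) = padicValNat 2 (q - 1) := by
  haveI : Fact (Nat.Prime 2) := ⟨Nat.prime_two⟩
  have hd0 : d ≠ 0 := by
    rintro rfl
    simp at hd
  rw [pow_sub_one_eq q d (by omega)]
  have hS : ¬ 2 ∣ ∑ j ∈ Finset.range d, q ^ j := by
    intro h3
    have h4 := geom_modEq (modEq_of_dvd (by omega) h2) d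
    exact hd ((h4.dvd_iff (dvd_refl 2)).mp h3)
  have hS0 : ∑ j ∈ Finset.range d, q ^ j ≠ 0 := by
    intro h0
    apply hS
    rw [h0]
    exact dvd_zero 2
  rw [padicValNat.mul (by omega) hS0, padicValNat.eq_zero_of_not_dvd hS, add_zero]

/-- Lifting the exponent in the good cases. -/
theorem val_eq {q r d : ℕ} (hq : 2 ≤ q) (hr : r.Prime) (hrq : r ∣ q - 1) (h4 : r ≠ 2 ∨ 4 ∣ q - 1)
    (hd : d ≠ 0) : padicValNat r (q ^ d - 1) = padicValNat r (q - 1) + padicValNat r d := by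
  haveI : Fact r.Prime := ⟨hr⟩
  have hrnq : ¬ r ∣ q := by
    intro h
    have h1 : r ∣ q - (q - 1) := Nat.dvd_sub h hrq
    rw [show q - (q - 1) = 1 by omega] at h1
    exact hr.one_lt.ne' (Nat.dvd_one.mp h1)
  by_cases hr2 : r = 2
  · subst hr2
    have h4' : 4 ∣ q - 1 := h4.resolve_left (by simp)
    by_cases hde : 2 ∣ d
    · have h1 := padicValNat.pow_two_sub_pow (x := q) (y := 1) (by omega) (by simpa using hrq)
        (by simpa using hrnq) hd (even_iff_two_dvd.mpr hde)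
      rw [one_pow] at h1
      have h5 : padicValNat 2 (q + 1) = 1 := by
        obtain ⟨c, hc⟩ := h4'
        have e : q + 1 = 2 * (2 * c + 1) := by omega
        rw [e, padicValNat.mul (by omega) (by omega), padicValNat.self (by norm_num),
          padicValNat.eq_zero_of_not_dvd (by omega)]
      rw [h5] at h1
      omega
    · rw [val_odd_exp hq hrq hde, padicValNat.eq_zero_of_not_dvd hde, add_zero]
  · have hodd : Odd r := hr.odd_of_ne_two hr2
    have h1 := padicValNat.pow_sub_pow (x := q) (y := 1) (p := r) hodd (by omega) hrq hrnq hd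
    rwa [one_pow] at h1

theorem val_le_of_dvd {r a b : ℕ} (hr : r.Prime) (hb : b ≠ 0) (h : a ∣ b) :
    padicValNat r a ≤ padicValNat r b := by
  haveI : Fact r.Prime := ⟨hr⟩
  have h1 : r ^ padicValNat r a ∣ b := (pow_padicValNat_dvd).trans h
  exact (padicValNat_dvd_iff_le hb).mp h1

theorem dvd_of_val_le {a b : ℕ} (ha : a ≠ 0) (hb : b ≠ 0)
    (h : ∀ r : ℕ, r.Prime → padicValNat r a ≤ padicValNat r b) : a ∣ b := by
  rw [← Nat.factorization_prime_le_iff_dvd ha hb]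
  intro r hr
  rw [Nat.factorization_def _ hr, Nat.factorization_def _ hr]
  exact h r hr

/-- First half of the forward direction. -/
theorem fwd1 {q n : ℕ} (hq : 2 ≤ q) (hn : 1 < n) (h1 : ∀ r : ℕ, r.Prime → r ∣ n → r ∣ q - 1)
    (h4 : 4 ∣ n → 4 ∣ q - 1) : n * (q - 1) ∣ q ^ n - 1 := by
  have hm0 : q - 1 ≠ 0 := by omega
  have hn0 : n ≠ 0 := by omega
  have hqn : q ^ n - 1 ≠ 0 := by
    have : q ^ 1 < q ^ n := Nat.pow_lt_pow_right (by omega) hn
    rw [pow_one] at this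
    omega
  apply dvd_of_val_le (mul_ne_zero hn0 hm0) hqn
  intro r hr
  haveI : Fact r.Prime := ⟨hr⟩
  rw [padicValNat.mul hn0 hm0]
  by_cases hrn : r ∣ n
  · have hrm := h1 r hr hrn
    by_cases hgood : r ≠ 2 ∨ 4 ∣ q - 1
    · rw [val_eq hq hr hrm hgood hn0]
      omega
    · push Not at hgood
      obtain ⟨rfl, hnot⟩ := hgood
      have hrnq : ¬ 2 ∣ q := by omega
      have hne : Even n := even_iff_two_dvd.mpr hrn
      have h2 := padicValNat.pow_two_sub_pow (x := q) (y := 1) (by omega) (by simpa using hrm)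
        (by simpa using hrnq) hn0 hne
      rw [one_pow] at h2
      have h3 : 1 ≤ padicValNat 2 (q + 1) := one_le_padicValNat_of_dvd (by omega) (by omega)
      omega
  · rw [padicValNat.eq_zero_of_not_dvd hrn, zero_add]
    apply val_le_of_dvd hr hqn
    rw [pow_sub_one_eq q n (by omega)]
    exact dvd_mul_right _ _

/-- Second half of the forward direction. -/
theorem fwd2 {q n i : ℕ} (hq : 2 ≤ q) (hn : 1 < n) (h1 : ∀ r : ℕ, r.Prime → r ∣ n → r ∣ q - 1)
    (h4 : 4 ∣ n → 4 ∣ q - 1) (hi : 0 < i) (hdvd : n * (q - 1) ∣ q ^ i - 1) : n ∣ i := by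
  have hm0 : q - 1 ≠ 0 := by omega
  have hn0 : n ≠ 0 := by omega
  have hi0 : i ≠ 0 := by omega
  have hqi : q ^ i - 1 ≠ 0 := by
    have : q ^ 0 < q ^ i := Nat.pow_lt_pow_right (by omega) hi
    rw [pow_zero] at this
    omega
  apply dvd_of_val_le hn0 hi0
  intro r hr
  haveI : Fact r.Prime := ⟨hr⟩
  by_cases hrn : r ∣ n
  · have hrm := h1 r hr hrn
    have hle := val_le_of_dvd hr hqi hdvd
    rw [padicValNat.mul hn0 hm0] at hle
    by_cases hgood : r ≠ 2 ∨ 4 ∣ q - 1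
    · rw [val_eq hq hr hrm hgood hi0] at hle
      omega
    · push Not at hgood
      obtain ⟨rfl, hnot⟩ := hgood
      have h5 : 1 ≤ padicValNat 2 n := one_le_padicValNat_of_dvd hn0 hrn
      by_cases hie : 2 ∣ i
      · have h6 : 1 ≤ padicValNat 2 i := one_le_padicValNat_of_dvd hi0 hie
        have h7 : padicValNat 2 n ≤ 1 := by
          by_contra hcon
          have h8 : 2 ≤ padicValNat 2 n := by omega
          have h9 : 2 ^ 2 ∣ n := (padicValNat_dvd_iff_le hn0).mpr h8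
          exact hnot (h4 (by simpa using h9))
        omega
      · rw [val_odd_exp hq hrm hie] at hle
        omega
  · rw [padicValNat.eq_zero_of_not_dvd hrn]
    exact Nat.zero_le _

/-- The gcd exponent lemma. -/
theorem dvd_pow_gcd {q t k : ℕ} (ht : 0 < t) (hc : Nat.Coprime q t) (hq : 1 ≤ q) (hk : 1 ≤ k)
    (h : t ∣ q ^ k - 1) : t ∣ q ^ (Nat.gcd k (Nat.totient t)) - 1 := by
  haveI : NeZero t := ⟨ht.ne'⟩
  let u := ZMod.unitOfCoprime q hc
  have hu : (u : ZMod t) = q := ZMod.coe_unitOfCoprime q hc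
  have h1 : u ^ k = 1 := by
    apply Units.ext
    rw [Units.val_pow_eq_pow_val, hu, Units.val_one]
    have h2 : q ^ k ≡ 1 [MOD t] := modEq_of_dvd (Nat.one_le_pow _ _ hq) h
    have h3 := (ZMod.natCast_eq_natCast_iff _ _ _).mpr h2
    simpa using h3
  have h2 : u ^ Nat.totient t = 1 := ZMod.pow_totient u
  have h3 : u ^ Nat.gcd k (Nat.totient t) = 1 := by
    rw [← orderOf_dvd_iff_pow_eq_one] at h1 h2 ⊢
    exact Nat.dvd_gcd h1 h2
  apply dvd_of_modEq (Nat.one_le_pow _ _ hq)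
  apply (ZMod.natCast_eq_natCast_iff _ _ _).mp
  have h4 := congrArg Units.val h3
  rw [Units.val_pow_eq_pow_val, hu, Units.val_one] at h4
  simpa using h4

theorem dvd_pow_of_dvd_exp {q t g i : ℕ} (hq : 1 ≤ q) (h : t ∣ q ^ g - 1) (hg : g ∣ i) :
    t ∣ q ^ i - 1 := by
  obtain ⟨c, rfl⟩ := hg
  rw [pow_mul]
  exact dvd_of_dvd_sub_one (Nat.one_le_pow _ _ hq) h c

theorem coprime_of_dvd_pow_sub_one {q t n : ℕ} (hn : 0 < n) (h : t ∣ q ^ n - 1) (hq : 1 ≤ q) :
    Nat.Coprime q t := by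
  apply Nat.Coprime.symm
  apply Nat.coprime_of_dvd
  intro k hk hkt hkq
  have h1 : k ∣ q ^ n := hkq.trans (dvd_pow_self q hn.ne')
  have h2 : k ∣ q ^ n - 1 := hkt.trans h
  have h3 : k ∣ q ^ n - (q ^ n - 1) := Nat.dvd_sub h1 h2
  have h4 : 1 ≤ q ^ n := Nat.one_le_pow _ _ hq
  rw [show q ^ n - (q ^ n - 1) = 1 by omega] at h3
  exact hk.one_lt.ne' (Nat.dvd_one.mp h3)

/-- Every prime factor of `n` divides `q - 1`. -/
theorem back1 {q n : ℕ} (hq : 2 ≤ q) (hn : 1 < n) (h0 : n * (q - 1) ∣ q ^ n - 1)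
    (hmin : ∀ i : ℕ, 0 < i → i < n → ¬ n * (q - 1) ∣ q ^ i - 1) :
    ∀ r : ℕ, r.Prime → r ∣ n → r ∣ q - 1 := by
  classical
  by_contra hcon
  push Not at hcon
  obtain ⟨r₀, hr₀, hr₀n, hr₀m⟩ := hcon
  set m := q - 1 with hm
  have hm0 : m ≠ 0 := by omega
  have hn0 : n ≠ 0 := by omega
  let B := n.primeFactors.filter (fun t => ¬ t ∣ m)
  have hBne : B.Nonempty := ⟨r₀, by simp [B, hr₀, hr₀n, hn0, hr₀m]⟩
  let r := B.max' hBne
  have hrB : r ∈ B := B.max'_mem hBne
  have hrB' : r.Prime ∧ r ∣ n ∧ ¬ r ∣ m := by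
    simp only [B, Finset.mem_filter, Nat.mem_primeFactors] at hrB
    exact ⟨hrB.1.1, hrB.1.2.1, hrB.2⟩
  obtain ⟨hr, hrn, hrm⟩ := hrB'
  have hmax : ∀ t : ℕ, t.Prime → t ∣ n → ¬ t ∣ m → t ≤ r := by
    intro t ht htn htm
    apply B.le_max' t
    simp [B, ht, htn, hn0, htm]
  obtain ⟨a, n₀, hn₀, hna⟩ := Nat.exists_eq_pow_mul_and_not_dvd hn0 r hr.ne_one
  have ha : a ≠ 0 := by
    rintro rfl
    rw [pow_zero, one_mul] at hna
    exact hn₀ (hna ▸ hrn)
  obtain ⟨b, rfl⟩ : ∃ b, a = b + 1 := ⟨a - 1, by omega⟩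
  set i := r ^ b * n₀ with hi
  have hni : n = r * i := by rw [hna, hi, pow_succ]; ring
  have hipos : 0 < i := Nat.pos_of_ne_zero (by
    intro h
    rw [h, mul_zero] at hni
    exact hn0 hni)
  have hilt : i < n := by
    rw [hni]
    have := hr.two_le
    nlinarith
  set w := n₀ * m with hw
  have hN : n * m = r ^ (b + 1) * w := by rw [hna, hw]; ring
  have hrw : ¬ r ∣ w := by
    intro h
    rcases (hr.dvd_mul).mp h with h1 | h1
    · exact hn₀ h1
    · exact hrm h1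
  set x := q ^ i with hx
  have hx1 : 1 ≤ x := Nat.one_le_pow _ _ (by omega)
  have hq1 : 1 ≤ q := by omega
  have hxr : x ^ r = q ^ n := by rw [hx, ← pow_mul, mul_comm, ← hni]
  -- `r ^ (b+1) ∣ x - 1`
  have h1 : r ^ (b + 1) ∣ x - 1 := by
    have h2 : r ^ (b + 1) ∣ q ^ n - 1 := (Dvd.intro _ hN.symm).trans h0
    have hc : Nat.Coprime q (r ^ (b + 1)) :=
      coprime_of_dvd_pow_sub_one (by omega) h2 hq1
    have h3 := dvd_pow_gcd (pow_pos hr.pos _) hc hq1 (by omega) h2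
    apply dvd_pow_of_dvd_exp hq1 h3
    rw [Nat.totient_prime_pow_succ hr]
    have e1 : n = r ^ b * (r * n₀) := by rw [hna, pow_succ]; ring
    rw [e1, Nat.gcd_mul_left, hi]
    apply Nat.mul_dvd_mul_left
    have hcop : Nat.Coprime r (r - 1) := by
      have h5 : Nat.Coprime (r - 1 + 1) (r - 1) := by simp
      rwa [Nat.sub_add_cancel hr.one_lt.le] at h5
    rw [hcop.gcd_mul_left_cancel]
    exact Nat.gcd_dvd_left _ _
  -- `w ∣ x - 1`
  have h2 : w ∣ x - 1 := by
    have h3 : w ∣ (x - 1) * ∑ j ∈ Finset.range r, x ^ j := by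
      rw [← pow_sub_one_eq x r hx1, hxr]
      exact (Dvd.intro_left _ hN.symm).trans h0
    refine (Nat.Coprime.dvd_of_dvd_mul_right ?_ h3)
    apply Nat.coprime_of_dvd
    intro t ht htw htΦ
    have htr : t ≠ r := by
      rintro rfl
      exact hrw htw
    -- `t ∣ x - 1`
    have hxt : t ∣ x - 1 := by
      by_cases htm : t ∣ m
      · exact dvd_of_dvd_sub_one hq1 htm i
      · have htn : t ∣ n₀ := by
          rcases (ht.dvd_mul).mp htw with h5 | h5
          · exact h5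
          · exact absurd h5 htm
        have htn' : t ∣ n := by rw [hna]; exact htn.mul_left _
        have htlt : t < r := lt_of_le_of_ne (hmax t ht htn' htm) htr
        have h5 : t ∣ q ^ n - 1 := ((htw.trans (Dvd.intro_left _ hN.symm))).trans h0
        have hc : Nat.Coprime q t := coprime_of_dvd_pow_sub_one (by omega) h5 hq1
        have h6 := dvd_pow_gcd ht.pos hc hq1 (by omega) h5
        apply dvd_pow_of_dvd_exp hq1 h6
        rw [Nat.totient_prime ht]
        -- the gcd is coprime to `r`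
        set g := Nat.gcd n (t - 1) with hg
        have hg1 : g ∣ t - 1 := Nat.gcd_dvd_right _ _
        have hg2 : g ∣ n := Nat.gcd_dvd_left _ _
        have hgpos : 0 < t - 1 := by
          have := ht.two_le
          omega
        have hgle : g ≤ t - 1 := Nat.le_of_dvd hgpos hg1
        have hcg : Nat.Coprime g r := by
          apply Nat.Coprime.symm
          rw [Nat.Prime.coprime_iff_not_dvd hr]
          intro h7
          have hg0 : 0 < g := Nat.pos_of_dvd_of_pos hg1 hgpos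
          have := Nat.le_of_dvd hg0 h7
          omega
        rw [hni] at hg2
        exact hcg.dvd_of_dvd_mul_left hg2
    have h7 := geom_modEq (modEq_of_dvd hx1 hxt) r
    have h8 : t ∣ r := (h7.dvd_iff (dvd_refl t)).mp htΦ
    exact htr ((Nat.prime_dvd_prime_iff_eq ht hr).mp h8)
  have hcoprw : Nat.Coprime (r ^ (b + 1)) w :=
    Nat.Coprime.pow_left _ ((Nat.Prime.coprime_iff_not_dvd hr).mpr hrw)
  apply hmin i hipos hilt
  rw [hN]
  exact hcoprw.mul_dvd_of_dvd_of_dvd h1 h2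

/-- The condition at `4`. -/
theorem back2 {q n : ℕ} (hq : 2 ≤ q) (hn : 1 < n) (h0 : n * (q - 1) ∣ q ^ n - 1)
    (hmin : ∀ i : ℕ, 0 < i → i < n → ¬ n * (q - 1) ∣ q ^ i - 1)
    (hall : ∀ r : ℕ, r.Prime → r ∣ n → r ∣ q - 1) (h4 : 4 ∣ n) : 4 ∣ q - 1 := by
  by_contra hnot
  haveI : Fact (Nat.Prime 2) := ⟨Nat.prime_two⟩
  set m := q - 1 with hm
  have hm0 : m ≠ 0 := by omega
  have hn0 : n ≠ 0 := by omega
  have h2n : 2 ∣ n := (by norm_num : (2 : ℕ) ∣ 4).trans h4
  have h2m : 2 ∣ m := hall 2 Nat.prime_two h2n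
  have hq1 : 1 ≤ q := by omega
  obtain ⟨n', rfl⟩ : ∃ n', n = 2 * n' := h2n
  have hn'e : 2 ∣ n' := by omega
  have hn'0 : n' ≠ 0 := by omega
  set x := q ^ n' with hx
  have hx1 : 1 ≤ x := Nat.one_le_pow _ _ hq1
  have hx2 : x ^ 2 = q ^ (2 * n') := by rw [hx, ← pow_mul, mul_comm]
  -- decomposition of the modulus
  have hN0 : 2 * n' * m ≠ 0 := mul_ne_zero (by omega) hm0
  obtain ⟨c, w, hw, hNw⟩ := Nat.exists_eq_pow_mul_and_not_dvd hN0 2 (by norm_num)
  -- `2 ^ c ∣ x - 1`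
  have hxn : x - 1 ≠ 0 := by
    have : q ^ 0 < q ^ n' := Nat.pow_lt_pow_right (by omega) (by omega)
    rw [pow_zero] at this
    omega
  have hvm : padicValNat 2 m = 1 := by
    obtain ⟨k, hk⟩ := h2m
    have hk' : ¬ 2 ∣ k := by
      intro h
      apply hnot
      rw [hk]
      exact Nat.mul_dvd_mul_left 2 h
    rw [hk, padicValNat.mul (by norm_num) (by
      intro h
      rw [h] at hk
      omega), padicValNat.self (by norm_num), padicValNat.eq_zero_of_not_dvd hk']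
  have hvq : 2 ≤ padicValNat 2 (q + 1) := by
    have h5 : 2 ^ 2 ∣ q + 1 := by
      have h6 : q % 4 = 3 := by
        have h7 : (q - 1) % 2 = 0 := Nat.mod_eq_zero_of_dvd h2m
        have h8 : (q - 1) % 4 ≠ 0 := fun h => hnot (Nat.dvd_of_mod_eq_zero h)
        omega
      have : (q + 1) % 4 = 0 := by omega
      exact Nat.dvd_of_mod_eq_zero (by simpa using this)
    exact (padicValNat_dvd_iff_le (by omega)).mp h5
  have hlte := padicValNat.pow_two_sub_pow (x := q) (y := 1) (by omega) (by simpa using h2m)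
    (by
      intro h
      have : 2 ∣ q - (q - 1) := Nat.dvd_sub h h2m
      rw [show q - (q - 1) = 1 by omega] at this
      omega) hn'0 (even_iff_two_dvd.mpr hn'e)
  rw [one_pow, ← hx, ← hm, hvm] at hlte
  have hvc : c ≤ padicValNat 2 (x - 1) := by
    have h5 : c = padicValNat 2 (2 * n' * m) := by
      rw [hNw, padicValNat.mul (by positivity) (by
        rintro rfl
        simp at hw), padicValNat.prime_pow, padicValNat.eq_zero_of_not_dvd hw, add_zero]
    rw [h5, padicValNat.mul (by omega) hm0, padicValNat.mul (by norm_num) hn'0,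
      padicValNat.self (by norm_num), hvm]
    omega
  have h1 : 2 ^ c ∣ x - 1 := (padicValNat_dvd_iff_le hxn).mpr hvc
  -- `w ∣ x - 1`
  have h2 : w ∣ x - 1 := by
    have h3 : w ∣ (x - 1) * (x + 1) := by
      have e : (x - 1) * (x + 1) = q ^ (2 * n') - 1 := by
        rw [← hx2]
        obtain ⟨y, hy⟩ : ∃ y, x = y + 1 := ⟨x - 1, by omega⟩
        rw [hy]
        simp only [Nat.add_sub_cancel]
        have : (y + 1) ^ 2 - 1 = y * (y + 1 + 1) := by
          have : (y + 1) ^ 2 = y * (y + 1 + 1) + 1 := by ring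
          omega
        exact this.symm
      rw [e]
      exact (Dvd.intro_left _ hNw.symm).trans h0
    refine Nat.Coprime.dvd_of_dvd_mul_right ?_ h3
    apply Nat.coprime_of_dvd
    intro t ht htw htx
    have ht2 : t ≠ 2 := by
      rintro rfl
      exact hw htw
    have htN : t ∣ 2 * n' * m := hNw ▸ htw.mul_left _
    have htm : t ∣ m := by
      rcases (ht.dvd_mul).mp htN with h5 | h5
      · exact hall t ht h5
      · exact h5
    have h5 : t ∣ x - 1 := dvd_of_dvd_sub_one hq1 htm n'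
    have h6 : t ∣ (x + 1) - (x - 1) := Nat.dvd_sub htx h5
    rw [show (x + 1) - (x - 1) = 2 by omega] at h6
    exact ht2 ((Nat.prime_dvd_prime_iff_eq ht Nat.prime_two).mp h6)
  have hcop : Nat.Coprime (2 ^ c) w :=
    Nat.Coprime.pow_left _ ((Nat.Prime.coprime_iff_not_dvd Nat.prime_two).mpr hw)
  apply hmin n' (by omega) (by omega)
  rw [hNw]
  exact hcop.mul_dvd_of_dvd_of_dvd h1 h2

/-- The Dickson pair condition: for a prime power `q` and `n > 1`, (every prime factor of `n` divides `q - 1`, and `4 ∣ n → 4 ∣ q - 1`) holds exactly when `q ^ n ≡ 1` modulo `n * (q - 1)` but `q ^ i` is not, for `0 < i < n`. -/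
theorem result (q n : ℕ) (hq : IsPrimePow q) (hn : 1 < n) : ((∀ r : ℕ, r.Prime → r ∣ n → r ∣ q - 1) ∧ (4 ∣ n → 4 ∣ q - 1)) ↔ (q ^ n ≡ 1 [MOD n * (q - 1)] ∧ ∀ i : ℕ, 0 < i → i < n → ¬ q ^ i ≡ 1 [MOD n * (q - 1)]) := by
  have hq2 : 2 ≤ q := hq.two_le
  have hq1 : 1 ≤ q := by omega
  constructor
  · rintro ⟨h1, h4⟩
    refine ⟨modEq_of_dvd (Nat.one_le_pow _ _ hq1) (fwd1 hq2 hn h1 h4), ?_⟩
    intro i hi hin hmod
    have := fwd2 hq2 hn h1 h4 hi (dvd_of_modEq (Nat.one_le_pow _ _ hq1) hmod)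
    have := Nat.le_of_dvd hi this
    omega
  · rintro ⟨h0, hmin⟩
    have h0' := dvd_of_modEq (Nat.one_le_pow _ _ hq1) h0
    have hmin' : ∀ i : ℕ, 0 < i → i < n → ¬ n * (q - 1) ∣ q ^ i - 1 := by
      intro i hi hin hd
      exact hmin i hi hin (modEq_of_dvd (Nat.one_le_pow _ _ hq1) hd)
    have h1 := back1 hq2 hn h0' hmin'
    exact ⟨h1, back2 hq2 hn h0' hmin' h1⟩

end Cfsg.Agent.S0694
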