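import Cfsg.Statements.S0695
import Cfsg.Agent.Lib.H9.PairBlock
import Mathlib.Tactic

set_option autoImplicit false
open Cfsg

namespace Cfsg.Agent.S0695

/-- A regular normal subgroup of a doubly primitive group of finite degree at least 2 is an elementary abelian 2-group (and the degree is a power of 2), unless the degree is 3. -/
theorem result {G : Type*} [Group G] {X : Type*} [Fintype X] [MulAction G X] (hX : 2 ≤ Fintype.card X) (h2 : MulAction.IsMultiplyPreprimitive G X 2) (N : Subgroup G) [N.Normal] (htrans : MulAction.IsPretransitive N X) (hreg : ∀ x : X, MulAction.stabilizer N x = ⊥) : Fintype.card X = 3 ∨ (IsMulCommutative N ∧ (∀ n ∈ N, n ^ 2 = 1) ∧ ∃ m : ℕ, Fintype.card X = 2 ^ m) := by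
  classical
  haveI := h2
  have hne : Nonempty X := by
    apply Fintype.card_pos_iff.mp; omega
  obtain ⟨a⟩ := hne
  have hinj : ∀ n ∈ N, ∀ m ∈ N, n • a = m • a → n = m := by
    intro n hn m hm h
    have h1 : (⟨m⁻¹ * n, N.mul_mem (N.inv_mem hm) hn⟩ : N) ∈ MulAction.stabilizer N a := by
      rw [MulAction.mem_stabilizer_iff]
      change (m⁻¹ * n) • a = a
      rw [mul_smul, h, inv_smul_smul]
    rw [hreg a, Subgroup.mem_bot] at h1
    have h3 : m⁻¹ * n = 1 := congrArg Subtype.val h1
    exact (inv_mul_eq_one.mp h3).symm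
  by_cases h : ∀ n ∈ N, n ^ 2 = 1
  · right
    refine ⟨⟨⟨?_⟩⟩, h, ?_⟩
    · rintro ⟨x, hx⟩ ⟨y, hy⟩
      apply Subtype.ext
      change x * y = y * x
      have h1 := h _ (N.mul_mem hx hy)
      have h2 := h x hx
      have h3 := h y hy
      have hxi : x⁻¹ = x := by
        rw [inv_eq_iff_mul_eq_one, ← pow_two]; exact h2
      have hyi : y⁻¹ = y := by
        rw [inv_eq_iff_mul_eq_one, ← pow_two]; exact h3
      have h4 : (x * y)⁻¹ = x * y := by
        rw [inv_eq_iff_mul_eq_one, ← pow_two]; exact h1
      rw [mul_inv_rev, hxi, hyi] at h4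
      exact h4.symm
    · have hp : IsPGroup 2 N := by
        intro g
        refine ⟨1, ?_⟩
        apply Subtype.ext
        simpa using h g g.2
      haveI : Fact (Nat.Prime 2) := ⟨Nat.prime_two⟩
      haveI : Finite N := by
        apply Finite.of_injective (fun n : N => (n : G) • a)
        intro n m hnm
        exact Subtype.ext (hinj n n.2 m m.2 hnm)
      obtain ⟨k, hk⟩ := hp.exists_card_eq
      refine ⟨k, ?_⟩
      rw [← hk, ← Nat.card_eq_fintype_card]
      apply Nat.card_congr
      refine (Equiv.ofBijective (fun n : N => (n : G) • a) ⟨?_, ?_⟩).symm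
      · intro n m hnm
        exact Subtype.ext (hinj n n.2 m m.2 hnm)
      · intro x
        obtain ⟨n, hn⟩ := htrans.exists_smul_eq a x
        exact ⟨n, hn⟩
  · left
    push Not at h
    obtain ⟨n, hn, hn2⟩ := h
    have hn1 : n ≠ 1 := by rintro rfl; simp at hn2
    have hprim := MulAction.IsMultiplyPreprimitive.isPreprimitive_ofFixingSubgroup G 2 (s := {a}) (by
      rw [Set.encard_singleton]; norm_num)
    have hxa : n • a ≠ a := by
      intro h
      exact hn1 (hinj n hn 1 N.one_mem (by simpa using h))
    have hya : n⁻¹ • a ≠ a := by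
      intro h
      exact hn1 (inv_eq_one.mp (hinj _ (N.inv_mem hn) 1 N.one_mem (by simpa using h)))
    have hxy : n • a ≠ n⁻¹ • a := by
      intro h
      have := hinj _ hn _ (N.inv_mem hn) h
      apply hn2
      rw [pow_two]
      nth_rewrite 1 [this]
      simp
    have key := CfsgLib.H9.compl_eq_pair_of_block (G := G) {a} hprim
      (x := n • a) (y := n⁻¹ • a) (by simpa using hxa) (by simpa using hya) hxy ?_
    · have huniv : (Finset.univ : Finset X) = {a, n • a, n⁻¹ • a} := by
        ext z
        simp only [Finset.mem_univ, Finset.mem_insert, Finset.mem_singleton, true_iff]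
        by_cases hz : z = a
        · exact Or.inl hz
        · exact Or.inr (key z (by simpa using hz))
      rw [← Finset.card_univ, huniv, Finset.card_eq_three]
      exact ⟨a, n • a, n⁻¹ • a, hxa.symm, hya.symm, hxy, rfl⟩
    · intro g hg hor
      have hga : g • a = a := by
        rw [mem_fixingSubgroup_iff] at hg
        exact hg a rfl
      set m := g * n * g⁻¹ with hm
      have hmN : m ∈ N := ‹N.Normal›.conj_mem n hn g
      have e1 : g • n • a = m • a := by
        rw [hm, mul_smul, mul_smul, inv_smul_eq_iff.mpr hga.symm]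
      have e2 : g • n⁻¹ • a = m⁻¹ • a := by
        have : m⁻¹ = g * n⁻¹ * g⁻¹ := by rw [hm]; group
        rw [this, mul_smul, mul_smul, inv_smul_eq_iff.mpr hga.symm]
      rw [e1, e2] at hor ⊢
      have hmi := N.inv_mem hmN
      have hni := N.inv_mem hn
      rcases hor with h | h | h | h
      · have := hinj _ hmN _ hn h
        left; rw [this]; exact ⟨rfl, rfl⟩
      · have := hinj _ hmN _ hni h
        right; rw [this]; simp
      · have := hinj _ hmi _ hn h
        right; rw [inv_eq_iff_eq_inv] at this; rw [this]; simp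
      · have := hinj _ hmi _ hni h
        left; rw [inv_inj] at this; rw [this]; exact ⟨rfl, rfl⟩

end Cfsg.Agent.S0695
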