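import Cfsg.Statements.S0696
import Cfsg.Agent.S0695
import Mathlib.Tactic

set_option autoImplicit false
open Cfsg

namespace Cfsg.Agent.S0696

/-- A triply primitive group of degree at least 3 having a regular normal subgroup has degree 3 or 4. -/
theorem result {G : Type*} [Group G] {X : Type*} [Fintype X] [MulAction G X] (hX : 3 ≤ Fintype.card X) (h3 : MulAction.IsMultiplyPreprimitive G X 3) (N : Subgroup G) [N.Normal] (htrans : MulAction.IsPretransitive N X) (hreg : ∀ x : X, MulAction.stabilizer N x = ⊥) : Fintype.card X = 3 ∨ Fintype.card X = 4 := by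
  classical
  haveI := h3
  have h2 : MulAction.IsMultiplyPreprimitive G X 2 :=
    MulAction.isMultiplyPreprimitive_of_le G X h3 (by norm_num) (by
      rw [ENat.card_eq_coe_fintype_card]; exact_mod_cast hX)
  rcases Cfsg.Agent.S0695.result (by omega) h2 N htrans hreg with h | ⟨-, hexp, -⟩
  · exact Or.inl h
  right
  have hne : Nonempty X := by
    apply Fintype.card_pos_iff.mp; omega
  obtain ⟨a⟩ := hne
  have hinj : ∀ n ∈ N, ∀ m ∈ N, n • a = m • a → n = m := by
    intro n hn m hm h
    have h1 : (⟨m⁻¹ * n, N.mul_mem (N.inv_mem hm) hn⟩ : N) ∈ MulAction.stabilizer N a := by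
      rw [MulAction.mem_stabilizer_iff]
      change (m⁻¹ * n) • a = a
      rw [mul_smul, h, inv_smul_smul]
    rw [hreg a, Subgroup.mem_bot] at h1
    have h3 : m⁻¹ * n = 1 := congrArg Subtype.val h1
    exact (inv_mul_eq_one.mp h3).symm
  have hsurj : ∀ x : X, ∃ n ∈ N, n • a = x := by
    intro x
    obtain ⟨n, hn⟩ := htrans.exists_smul_eq a x
    exact ⟨n, n.2, hn⟩
  -- three distinct points
  obtain ⟨b, hba⟩ : ∃ b : X, b ≠ a := by
    haveI : Nontrivial X := Fintype.one_lt_card_iff_nontrivial.mp (by omega)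
    exact exists_ne a
  obtain ⟨c, hcab⟩ : ∃ c : X, c ∉ ({a, b} : Finset X) := by
    by_contra hcon
    push Not at hcon
    have : Fintype.card X ≤ ({a, b} : Finset X).card := by
      rw [← Finset.card_univ]
      exact Finset.card_le_card (fun x _ => hcon x)
    have h2' := Finset.card_le_two (a := a) (b := b)
    omega
  simp only [Finset.mem_insert, Finset.mem_singleton, not_or] at hcab
  obtain ⟨n₁, hn₁, h1b⟩ := hsurj b
  obtain ⟨n, hn, hnc⟩ := hsurj c
  have hn₁2 : n₁ * n₁ = 1 := by rw [← pow_two]; exact hexp _ hn₁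
  have hn₁i : n₁⁻¹ = n₁ := by rw [inv_eq_iff_mul_eq_one]; exact hn₁2
  have hn₁1 : n₁ ≠ 1 := by
    rintro rfl
    apply hba
    rw [← h1b, one_smul]
  have hnn₁ : n * n₁ ∈ N := N.mul_mem hn hn₁
  have hprim := MulAction.IsMultiplyPreprimitive.isPreprimitive_ofFixingSubgroup G 3 (s := {a, b}) (by
    rw [Set.encard_pair hba.symm]; norm_num)
  have hxa : n • a ≠ a := by rw [hnc]; exact hcab.1
  have hxb : n • a ≠ b := by rw [hnc]; exact hcab.2
  have hya : (n * n₁) • a ≠ a := by
    intro h
    have h5 := hinj _ hnn₁ 1 N.one_mem (by simpa using h)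
    have h6 : n = n₁ := by
      calc n = n * n₁ * n₁⁻¹ := by group
        _ = n₁ := by rw [h5, hn₁i, one_mul]
    apply hxb
    rw [h6, h1b]
  have hyb : (n * n₁) • a ≠ b := by
    intro h
    rw [← h1b] at h
    have h5 := hinj _ hnn₁ _ hn₁ h
    have h6 : n = 1 := by simpa using h5
    apply hxa
    rw [h6, one_smul]
  have hxy : n • a ≠ (n * n₁) • a := by
    intro h
    have h5 := hinj _ hn _ hnn₁ h
    apply hn₁1
    simpa using h5
  have key := CfsgLib.H9.compl_eq_pair_of_block (G := G) {a, b} hprim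
      (x := n • a) (y := (n * n₁) • a) (by simp [hxa, hxb]) (by simp [hya, hyb]) hxy ?_
  · have huniv : (Finset.univ : Finset X) = {a, b, n • a, (n * n₁) • a} := by
      ext z
      simp only [Finset.mem_univ, Finset.mem_insert, Finset.mem_singleton, true_iff]
      by_cases hz : z = a
      · exact Or.inl hz
      · by_cases hz2 : z = b
        · exact Or.inr (Or.inl hz2)
        · exact Or.inr (Or.inr (key z (by simp [hz, hz2])))
    rw [← Finset.card_univ, huniv]
    have hcard : ({a, b, n • a, (n * n₁) • a} : Finset X).card = 4 := by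
      rw [Finset.card_insert_of_notMem, Finset.card_insert_of_notMem, Finset.card_pair hxy]
      · simp [hxb.symm, hyb.symm]
      · simp [hxa.symm, hya.symm, hba.symm]
    exact hcard
  · intro g hg hor
    have hga : g • a = a := by
      rw [mem_fixingSubgroup_iff] at hg
      exact hg a (by simp)
    have hgb : g • b = b := by
      rw [mem_fixingSubgroup_iff] at hg
      exact hg b (by simp)
    set m := g * n * g⁻¹ with hm
    have hmN : m ∈ N := ‹N.Normal›.conj_mem n hn g
    have hcomm : g * n₁ * g⁻¹ = n₁ := by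
      apply hinj _ (‹N.Normal›.conj_mem n₁ hn₁ g) _ hn₁
      rw [mul_smul, mul_smul, inv_smul_eq_iff.mpr hga.symm, h1b, hgb]
    have e1 : g • n • a = m • a := by
      rw [hm, mul_smul, mul_smul, inv_smul_eq_iff.mpr hga.symm]
    have e2 : g • (n * n₁) • a = (m * n₁) • a := by
      have : m * n₁ = g * (n * n₁) * g⁻¹ := by
        rw [hm]
        nth_rewrite 1 [← hcomm]
        group
      rw [this, mul_smul (g * (n * n₁)) g⁻¹, inv_smul_eq_iff.mpr hga.symm, mul_smul g]
    rw [e1, e2] at hor ⊢
    have hmi := N.mul_mem hmN hn₁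
    rcases hor with h | h | h | h
    · have := hinj _ hmN _ hn h
      left; rw [this]; exact ⟨rfl, rfl⟩
    · have := hinj _ hmN _ hnn₁ h
      right; rw [this]
      refine ⟨rfl, ?_⟩
      rw [mul_assoc, hn₁2, mul_one]
    · have := hinj _ hmi _ hn h
      have h7 : m = n * n₁ := by
        calc m = m * n₁ * n₁ := by rw [mul_assoc, hn₁2, mul_one]
          _ = n * n₁ := by rw [this]
      right; rw [h7]
      refine ⟨rfl, ?_⟩
      rw [mul_assoc, hn₁2, mul_one]
    · have := hinj _ hmi _ hnn₁ h
      have h7 : m = n := mul_right_cancel this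
      left; rw [h7]; exact ⟨rfl, rfl⟩

end Cfsg.Agent.S0696
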