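import Cfsg.Statements.S0699
import Cfsg.Agent.Lib.H9.KNormal
import Cfsg.Agent.Lib.H9.WagnerCore
import Mathlib

set_option autoImplicit false
open Cfsg

namespace Cfsg.Agent.S0699

open CfsgLib.H9.KNormal CfsgLib.H9.Wagner

/-- Wagner's Theorem: a non-trivial normal subgroup of a triply transitive permutation group of odd degree at least 5 is triply transitive. -/
theorem result {α : Type*} [Fintype α] [DecidableEq α] (G : Subgroup (Equiv.Perm α)) (hodd : Odd (Fintype.card α)) (h5 : 5 ≤ Fintype.card α) (hG : MulAction.IsMultiplyPretransitive G α 3) (N : Subgroup G) [N.Normal] (hN : N ≠ ⊥) : MulAction.IsMultiplyPretransitive N α 3 := by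
  classical
  have hcard : Nat.card α = Fintype.card α := Nat.card_eq_fintype_card
  have hdeg : 1 + 2 < Nat.card α := by rw [hcard]; omega
  have hprim : MulAction.IsPreprimitive G α := by
    haveI := hG
    have h2 : MulAction.IsMultiplyPretransitive G α 2 :=
      MulAction.isMultiplyPretransitive_of_le (n := 3) (by norm_num) (by rw [hcard]; omega)
    exact MulAction.isPreprimitive_of_is_two_pretransitive h2
  have htr := transitive_of_primitive hprim N hN
  rw [kt_iff]
  rcases jordan 1 hdeg hG N hN with h2 | ⟨-, hc, he⟩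
  · -- the main case
    let N₀ : Subgroup (Equiv.Perm α) := N.map G.subtype
    have hmem : ∀ t : Equiv.Perm α, t ∈ N₀ ↔ ∃ h : t ∈ G, (⟨t, h⟩ : G) ∈ N := by
      intro t
      constructor
      · rintro ⟨k, hk, rfl⟩
        exact ⟨k.2, hk⟩
      · rintro ⟨h, ht⟩
        exact ⟨_, ht, rfl⟩
    have hpair : ∀ a b a' b' : α, a ≠ b → a' ≠ b' → ∃ t ∈ N, t • a = a' ∧ t • b = b' := by
      intro a b a' b' hab hab'
      let x : Fin 2 ↪ α := ⟨![a, b], by
        intro i j hij
        fin_cases i <;> fin_cases j <;> simp_all [eq_comm]⟩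
      let y : Fin 2 ↪ α := ⟨![a', b'], by
        intro i j hij
        fin_cases i <;> fin_cases j <;> simp_all [eq_comm]⟩
      obtain ⟨t, ht, hxy⟩ := h2 x y
      exact ⟨t, ht, hxy 0, hxy 1⟩
    have hcore := wagner_core hodd G N₀ (by
        rintro t ⟨k, -, rfl⟩
        exact k.2)
      (by
        rintro g hg t ⟨k, hk, rfl⟩
        exact ⟨⟨g, hg⟩ * k * ⟨g, hg⟩⁻¹, Subgroup.Normal.conj_mem inferInstance k hk _, rfl⟩)
      (by
        intro a b c a' b' c' hab hac hbc hab' hac' hbc'
        obtain ⟨g, h1, h2, h3⟩ := ex3 (k := 3) le_rfl (by rw [hcard]; omega) hG hab hac hbc hab' hac' hbc'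
        exact ⟨g, g.2, h1, h2, h3⟩)
      (by
        intro a b a' b' hab hab'
        obtain ⟨t, ht, h1, h2⟩ := hpair a b a' b' hab hab'
        exact ⟨t, ⟨t, ht, rfl⟩, h1, h2⟩)
    intro x y
    have hx01 : x 0 ≠ x 1 := fun h => by
      have := x.injective h
      exact absurd this (by decide)
    have hx02 : x 0 ≠ x 2 := fun h => by
      have := x.injective h
      exact absurd this (by decide)
    have hx12 : x 1 ≠ x 2 := fun h => by
      have := x.injective h
      exact absurd this (by decide)
    have hy01 : y 0 ≠ y 1 := fun h => by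
      have := y.injective h
      exact absurd this (by decide)
    have hy02 : y 0 ≠ y 2 := fun h => by
      have := y.injective h
      exact absurd this (by decide)
    have hy12 : y 1 ≠ y 2 := fun h => by
      have := y.injective h
      exact absurd this (by decide)
    obtain ⟨m, hm, hm0, hm1⟩ := hpair (x 0) (x 1) (y 0) (y 1) hx01 hy01
    have hm2a : y 0 ≠ m • x 2 := by
      rw [← hm0]
      exact fun h => hx02 (MulAction.injective m h)
    have hm2b : y 1 ≠ m • x 2 := by
      rw [← hm1]
      exact fun h => hx12 (MulAction.injective m h)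
    obtain ⟨n, hn, hn0, hn1, hn2⟩ := hcore (y 0) (y 1) (m • x 2) (y 2) hy01 hm2a hm2b hy02 hy12
    obtain ⟨hnG, hnN⟩ := (hmem n).mp hn
    refine ⟨⟨n, hnG⟩ * m, N.mul_mem hnN hm, fun i => ?_⟩
    fin_cases i
    · change (⟨n, hnG⟩ * m : G) • x 0 = y 0
      rw [mul_smul, hm0]
      exact hn0
    · change (⟨n, hnG⟩ * m : G) • x 1 = y 1
      rw [mul_smul, hm1]
      exact hn1
    · change (⟨n, hnG⟩ * m : G) • x 2 = y 2
      rw [mul_smul]
      exact hn2
  · exfalso
    -- an abelian transitive group of exponent two on an odd set is trivial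
    apply hN
    rw [Subgroup.eq_bot_iff_forall]
    intro t ht
    have htt : ((t : Equiv.Perm α)) * t = 1 := by
      have := he t ht
      rw [pow_two] at this
      exact congrArg Subtype.val this
    obtain ⟨x, hx⟩ := exists_fixed_of_odd hodd (t : Equiv.Perm α) htt
    apply Subtype.ext
    ext y
    obtain ⟨n, hn, hny⟩ := htr x y
    have h1 : t * n = n * t := hc t ht n hn
    have h2 : (t * n : G) • x = (n * t : G) • x := by rw [h1]
    rw [mul_smul, mul_smul, hny] at h2
    have h3 : t • x = x := hx
    rw [h3, hny] at h2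
    exact h2

end Cfsg.Agent.S0699
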