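import Cfsg.Statements.S0700
import Cfsg.Agent.Lib.H9.Burnside2T
import Mathlib

set_option autoImplicit false
open Cfsg

namespace Cfsg.Agent.S0700

open CfsgLib.H9.KNormal CfsgLib.H9.Burnside

/-- Burnside's Theorem on doubly transitive groups: a minimal normal subgroup of a finite doubly transitive permutation group is elementary abelian and regular, or simple and primitive. -/
theorem result {α : Type*} [Fintype α] [DecidableEq α] (G : Subgroup (Equiv.Perm α)) (hG : MulAction.IsMultiplyPretransitive G α 2) (N : Subgroup G) [N.Normal] (hN : N ≠ ⊥) (hmin : ∀ M : Subgroup G, M.Normal → M ≤ N → M = ⊥ ∨ M = N) : (IsMulCommutative N ∧ (∃ p : ℕ, p.Prime ∧ ∀ n ∈ N, n ^ p = 1) ∧ ∀ a : α, MulAction.stabilizer N a = ⊥) ∨ (IsSimpleGroup N ∧ MulAction.IsPreprimitive N α) := by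
  classical
  have hprimG : MulAction.IsPreprimitive G α := MulAction.isPreprimitive_of_is_two_pretransitive hG
  have h2 : ∀ a b c d : α, a ≠ b → c ≠ d → ∃ g : G, g • a = c ∧ g • b = d := by
    intro a b c d hab hcd
    rw [MulAction.is_two_pretransitive_iff] at hG
    exact hG hab hcd
  have htr := transitive_of_primitive hprimG N hN
  by_cases hreg : ∃ a : α, ∀ n ∈ N, n • a = a → n = 1
  · left
    obtain ⟨a, ha⟩ := hreg
    obtain ⟨hc, hp, hs⟩ := regular_case h2 N hN hmin htr a ha
    refine ⟨⟨⟨fun x y => Subtype.ext (hc x x.2 y y.2)⟩⟩, hp, fun b => ?_⟩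
    rw [Subgroup.eq_bot_iff_forall]
    intro n hn
    exact Subtype.ext (hs b n n.2 hn)
  · right
    push Not at hreg
    have hpre : MulAction.IsPretransitive N α := ⟨fun x y => by
      obtain ⟨n, hn, hxy⟩ := htr x y
      exact ⟨⟨n, hn⟩, hxy⟩⟩
    have hprim : MulAction.IsPreprimitive N α := by
      refine { toIsPretransitive := hpre, isTrivialBlock_of_isBlock := ?_ }
      intro B hB
      by_contra hntriv
      unfold MulAction.IsTrivialBlock at hntriv
      push Not at hntriv
      obtain ⟨hB1, hB2⟩ := hntriv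
      have hBl : Bl N B := by
        intro n hn x hx hnx y hy
        have := (MulAction.isBlock_iff_smul_eq_of_mem.mp hB) (g := ⟨n, hn⟩) hx hnx
        rw [← this]
        exact Set.smul_mem_smul_set hy
      have hB3 : 2 ≤ B.ncard := by
        have : 1 < B.ncard := by
          rw [Set.one_lt_ncard_iff]
          obtain ⟨x, hx, y, hy, hxy⟩ := hB1
          exact ⟨x, y, hx, hy, hxy⟩
        omega
      have htwo := two_fix_eq_one h2 N B hBl hB3 hB2
      obtain ⟨a⟩ : Nonempty α := by
        obtain ⟨t, ht, ht1⟩ := (N.bot_or_exists_ne_one).resolve_left hN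
        by_contra hcon
        rw [not_nonempty_iff] at hcon
        apply ht1
        apply Subtype.ext
        ext x
        exact (hcon.false x).elim
      have hna : ∃ n ∈ N, n • a = a ∧ n ≠ 1 := hreg a
      obtain ⟨M, hMn, hMle, hM1, hM2⟩ := frob_step N htr a hna htwo
      rcases hmin M hMn hMle with h | h
      · exact hM1 h
      · exact hM2 h
    refine ⟨?_, hprim⟩
    haveI : Nontrivial N := (Subgroup.nontrivial_iff_ne_bot N).mpr hN
    refine ⟨fun K hK => ?_⟩
    by_contra hKne
    push Not at hKne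
    obtain ⟨hK1, hK2⟩ := hKne
    -- a minimal normal subgroup of `N`
    let Pk : ℕ → Prop := fun k => ∃ T : Subgroup G, T ≤ N ∧ (∀ n ∈ N, ∀ t ∈ T, n * t * n⁻¹ ∈ T) ∧
      T ≠ ⊥ ∧ T ≠ N ∧ Nat.card T = k
    have hPk : ∃ k, Pk k := by
      refine ⟨_, K.map N.subtype, Subgroup.map_subtype_le K, ?_, ?_, ?_, rfl⟩
      · rintro n hn _ ⟨y, hy, rfl⟩
        have := hK.conj_mem y hy ⟨n, hn⟩
        exact ⟨_, this, rfl⟩
      · intro h
        apply hK1
        rw [Subgroup.eq_bot_iff_forall]
        intro y hy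
        have : (y : G) ∈ K.map N.subtype := ⟨y, hy, rfl⟩
        rw [h, Subgroup.mem_bot] at this
        exact Subtype.ext this
      · intro h
        apply hK2
        rw [Subgroup.eq_top_iff']
        intro y
        have : (y : G) ∈ K.map N.subtype := by rw [h]; exact y.2
        obtain ⟨w, hw, hwy⟩ := this
        have : w = y := Subtype.ext hwy
        rwa [← this]
    classical
    obtain ⟨T, hTN, hTn, hT1, hT2, hTk⟩ := Nat.find_spec hPk
    refine simple_step h2 N hprim hmin T hTN hTn hT1 hT2 ?_
    intro T₁ hle hn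
    by_cases hbot : T₁ = ⊥
    · exact Or.inl hbot
    · right
      refine Subgroup.eq_of_le_of_card_ge hle ?_
      rw [hTk]
      exact Nat.find_min' hPk ⟨T₁, hle.trans hTN, hn, hbot, fun h => hT2
        (le_antisymm hTN (h ▸ hle)), rfl⟩

end Cfsg.Agent.S0700
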