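import Cfsg.Statements.S0701

set_option autoImplicit false
open Cfsg

namespace Cfsg.Agent.S0701

/-- The centraliser in the full symmetric group of a transitive permutation group `G` is semiregular, and it is transitive if and only if `G` is regular. -/
theorem result {α : Type*} (G : Subgroup (Equiv.Perm α)) [MulAction.IsPretransitive G α] : (∀ c ∈ Subgroup.centralizer (G : Set (Equiv.Perm α)), ∀ a : α, c a = a → c = 1) ∧ (MulAction.IsPretransitive (Subgroup.centralizer (G : Set (Equiv.Perm α))) α ↔ ∀ a : α, MulAction.stabilizer G a = ⊥) := by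
  classical
  have hcomm : ∀ c ∈ Subgroup.centralizer (G : Set (Equiv.Perm α)), ∀ g ∈ G, ∀ x : α, c (g x) = g (c x) := by
    intro c hc g hg x
    have := (Subgroup.mem_centralizer_iff.1 hc) g hg
    have h2 := congrArg (fun σ : Equiv.Perm α => σ x) this
    simpa using h2.symm
  refine ⟨?_, ?_, ?_⟩
  · intro c hc a hca
    ext b
    obtain ⟨g, hg⟩ := MulAction.exists_smul_eq G a b
    have hg' : g.1 a = b := hg
    rw [← hg', hcomm c hc g.1 g.2, hca]
    rfl
  · intro htr a
    rw [eq_bot_iff]
    rintro ⟨g, hgG⟩ hg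
    have hga : g a = a := hg
    rw [Subgroup.mem_bot]
    apply Subtype.ext
    ext b
    obtain ⟨c, hc⟩ := htr.exists_smul_eq a b
    have hc' : c.1 a = b := hc
    rw [← hc']
    have := hcomm c.1 c.2 g hgG a
    rw [hga] at this
    exact this.symm
  · intro hreg
    refine ⟨fun a b => ?_⟩
    -- unique lifting
    have hlift : ∀ x : α, ∃ g : G, g.1 a = x := fun x => MulAction.exists_smul_eq G a x
    choose L hL using hlift
    have huniq : ∀ g₁ g₂ : G, g₁.1 a = g₂.1 a → g₁ = g₂ := by
      intro g₁ g₂ h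
      have h1 : g₂⁻¹ * g₁ ∈ MulAction.stabilizer G a := by
        rw [MulAction.mem_stabilizer_iff]
        show (g₂⁻¹ * g₁).1 a = a
        have : (g₂⁻¹ * g₁).1 = g₂.1⁻¹ * g₁.1 := rfl
        rw [this, Equiv.Perm.mul_apply, h]
        simp
      rw [hreg a, Subgroup.mem_bot] at h1
      have := inv_mul_eq_one.1 h1
      exact this.symm
    -- define the centralising permutation with `a ↦ b`
    obtain ⟨h, hh⟩ := MulAction.exists_smul_eq G a b
    have hh' : h.1 a = b := hh
    let d : α → α := fun x => (L x).1 (h.1 a)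
    let e : α → α := fun x => (L x * h⁻¹ * (L (h.1 a))⁻¹ * L (h.1 a)).1 a
    let e' : α → α := fun x => (L x * h⁻¹).1 a
    have hde : ∀ x, d (e' x) = x := by
      intro x
      show (L ((L x * h⁻¹).1 a)).1 (h.1 a) = x
      have h1 : L ((L x * h⁻¹).1 a) = L x * h⁻¹ := huniq _ _ (hL _)
      rw [h1]
      have : (L x * h⁻¹).1 (h.1 a) = (L x).1 a := by
        show (L x).1 (h.1⁻¹ (h.1 a)) = _
        simp
      rw [this, hL]
    have hed : ∀ x, e' (d x) = x := by
      intro x
      show (L ((L x).1 (h.1 a)) * h⁻¹).1 a = x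
      have h1 : L ((L x).1 (h.1 a)) = L x * h := huniq _ _ (hL _)
      rw [h1]
      simp [hL]
    let c : Equiv.Perm α := ⟨d, e', hed, hde⟩
    have hcC : c ∈ Subgroup.centralizer (G : Set (Equiv.Perm α)) := by
      rw [Subgroup.mem_centralizer_iff]
      intro g hg
      ext x
      show g (d x) = d (g x)
      show g ((L x).1 (h.1 a)) = (L (g x)).1 (h.1 a)
      have h1 : L (g x) = (⟨g, hg⟩ : G) * L x := by
        apply huniq
        rw [hL]
        show g x = g ((L x).1 a)
        rw [hL]
      rw [h1]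
      rfl
    refine ⟨⟨c, hcC⟩, ?_⟩
    show d a = b
    show (L a).1 (h.1 a) = b
    have h1 : L a = 1 := by
      apply huniq
      rw [hL]
      rfl
    rw [h1]
    exact hh'

end Cfsg.Agent.S0701
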