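import Cfsg.Statements.S0702
import Mathlib.Tactic

set_option autoImplicit false
open Cfsg

namespace Cfsg.Agent.S0702

/-- For a transitive permutation group `G` on a finite set, the centraliser of `G` in the symmetric group is isomorphic to `N_G(G_ω)/G_ω`, and its orbit of `ω` is the set of fixed points of `G_ω`. -/
theorem result {α : Type*} [Finite α] (G : Subgroup (Equiv.Perm α)) [MulAction.IsPretransitive G α] (a : α) : Nonempty (Subgroup.centralizer (G : Set (Equiv.Perm α)) ≃* Subgroup.normalizer ((MulAction.stabilizer G a : Subgroup G) : Set G) ⧸ (MulAction.stabilizer G a).subgroupOf (Subgroup.normalizer ((MulAction.stabilizer G a : Subgroup G) : Set G))) ∧ MulAction.orbit (Subgroup.centralizer (G : Set (Equiv.Perm α))) a = MulAction.fixedPoints (MulAction.stabilizer G a) α := by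
  classical
  set S : Subgroup G := MulAction.stabilizer G a with hS
  set N : Subgroup G := Subgroup.normalizer ((S : Subgroup G) : Set G) with hN
  set C : Subgroup (Equiv.Perm α) := Subgroup.centralizer (G : Set (Equiv.Perm α)) with hC
  have memS : ∀ s : G, s ∈ S ↔ s.1 a = a := fun s => Iff.rfl
  have hcomm : ∀ c ∈ C, ∀ g : G, ∀ x : α, c (g.1 x) = g.1 (c x) := by
    intro c hc g x
    have := (Subgroup.mem_centralizer_iff.1 hc) g.1 g.2
    have h2 := congrArg (fun σ : Equiv.Perm α => σ x) this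
    simpa using h2.symm
  have hlift : ∀ x : α, ∃ g : G, g.1 a = x := fun x => MulAction.exists_smul_eq G a x
  choose L hL using hlift
  -- the elements of the centraliser are determined by the image of `a`
  have hsemi : ∀ c ∈ C, c a = a → c = 1 := by
    intro c hc hca
    ext b
    rw [← hL b, hcomm c hc, hca]
    rfl
  -- the lift of `c⁻¹ a` normalises the stabiliser
  have hnorm : ∀ c : C, L (c.1⁻¹ a) ∈ N := by
    intro c
    rw [hN, Subgroup.mem_set_normalizer_iff]
    intro s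
    simp only [SetLike.mem_coe]
    set h := L (c.1⁻¹ a) with hh
    have hha : h.1 a = c.1⁻¹ a := hL _
    have hca : h.1⁻¹ a = c.1 a := by
      have h1 : c.1 (h.1 a) = a := by rw [hha]; simp
      rw [hcomm c.1 c.2] at h1
      rw [Equiv.Perm.inv_eq_iff_eq]
      exact h1.symm
    rw [memS, memS]
    have hcoe : (h * s * h⁻¹).1 = h.1 * s.1 * h.1⁻¹ := rfl
    rw [hcoe, Equiv.Perm.mul_apply, Equiv.Perm.mul_apply, hca, ← hcomm c.1 c.2]
    have hca2 : h.1 (c.1 a) = a := by rw [← hca]; simp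
    constructor
    · intro hs
      rw [hs, hca2]
    · intro hs
      have h5 : h.1 (c.1 (s.1 a)) = h.1 (c.1 a) := hs.trans hca2.symm
      exact c.1.injective (h.1.injective h5)
  -- conjugation criterion
  have hmk : ∀ n₁ n₂ : N, ((n₁ : N ⧸ (S.subgroupOf N)) = (n₂ : N ⧸ (S.subgroupOf N))) ↔ n₁.1.1 a = n₂.1.1 a := by
    intro n₁ n₂
    rw [QuotientGroup.eq, Subgroup.mem_subgroupOf, memS]
    have hcoe : ((n₁⁻¹ * n₂ : N) : G).1 = n₁.1.1⁻¹ * n₂.1.1 := rfl
    rw [hcoe, Equiv.Perm.mul_apply, Equiv.Perm.inv_eq_iff_eq]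
    exact eq_comm
  -- key property of normalising elements
  have key1 : ∀ m : N, ∀ g₁ g₂ : G, g₁.1 a = g₂.1 a → g₁.1 (m.1.1 a) = g₂.1 (m.1.1 a) := by
    intro m g₁ g₂ h
    have hs : g₂⁻¹ * g₁ ∈ S := by
      rw [memS]
      have hcoe : (g₂⁻¹ * g₁).1 = g₂.1⁻¹ * g₁.1 := rfl
      rw [hcoe, Equiv.Perm.mul_apply, h]
      simp
    have hm : m.1⁻¹ * (g₂⁻¹ * g₁) * m.1 ∈ S := by
      have hm' : m.1⁻¹ ∈ N := N.inv_mem m.2
      have := (Subgroup.mem_set_normalizer_iff.1 hm' _).1 hs
      simpa using this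
    rw [memS] at hm
    have hcoe : (m.1⁻¹ * (g₂⁻¹ * g₁) * m.1).1 = m.1.1⁻¹ * (g₂.1⁻¹ * g₁.1) * m.1.1 := rfl
    rw [hcoe] at hm
    simp only [Equiv.Perm.mul_apply] at hm
    have h2 : g₂.1⁻¹ (g₁.1 (m.1.1 a)) = m.1.1 a := by
      have := congrArg m.1.1 hm
      simpa using this
    have h3 := congrArg g₂.1 h2
    simpa using h3
  -- every normalising element arises
  have hexists : ∀ n : N, ∃ c : C, c.1⁻¹ a = n.1.1 a := by
    intro n
    let d : α → α := fun x => (L x).1 (n.1.1 a)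
    let e' : α → α := fun x => (L x).1 (n.1.1⁻¹ a)
    have hde : ∀ x, d (e' x) = x := by
      intro x
      show (L ((L x).1 (n.1.1⁻¹ a))).1 (n.1.1 a) = x
      have h1 : (L ((L x).1 (n.1.1⁻¹ a))).1 a = (L x * n.1⁻¹).1 a := hL _
      rw [key1 n _ _ h1]
      have : (L x * n.1⁻¹).1 (n.1.1 a) = (L x).1 a := by
        show (L x).1 (n.1.1⁻¹ (n.1.1 a)) = _
        simp
      rw [this, hL]
    have hed : ∀ x, e' (d x) = x := by
      intro x
      show (L ((L x).1 (n.1.1 a))).1 (n.1.1⁻¹ a) = x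
      have h1 : (L ((L x).1 (n.1.1 a))).1 a = (L x * n.1).1 a := hL _
      have hm : (⟨n.1⁻¹, N.inv_mem n.2⟩ : N).1.1 = n.1.1⁻¹ := rfl
      have h2 := key1 ⟨n.1⁻¹, N.inv_mem n.2⟩ _ _ h1
      rw [hm] at h2
      rw [h2]
      have : (L x * n.1).1 (n.1.1⁻¹ a) = (L x).1 a := by
        show (L x).1 (n.1.1 (n.1.1⁻¹ a)) = _
        simp
      rw [this, hL]
    let c₀ : Equiv.Perm α := ⟨d, e', hed, hde⟩
    have hc₀ : c₀ ∈ C := by
      rw [hC, Subgroup.mem_centralizer_iff]
      intro g hg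
      ext x
      show g (d x) = d (g x)
      show g ((L x).1 (n.1.1 a)) = (L (g x)).1 (n.1.1 a)
      have h1 : (L (g x)).1 a = ((⟨g, hg⟩ : G) * L x).1 a := by
        rw [hL]
        show g x = g ((L x).1 a)
        rw [hL]
      rw [key1 n _ _ h1]
      rfl
    refine ⟨⟨c₀⁻¹, C.inv_mem hc₀⟩, ?_⟩
    show (c₀⁻¹)⁻¹ a = _
    rw [inv_inv]
    show (L a).1 (n.1.1 a) = _
    have h1 : (L a).1 a = (1 : G).1 a := by rw [hL]; rfl
    rw [key1 n _ _ h1]
    rfl
  refine ⟨?_, ?_⟩
  · -- the isomorphism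
    let φ : C →* N ⧸ (S.subgroupOf N) :=
      { toFun := fun c => ((⟨L (c.1⁻¹ a), hnorm c⟩ : N) : N ⧸ (S.subgroupOf N))
        map_one' := by
          have : ((1 : N) : N ⧸ (S.subgroupOf N)) = 1 := rfl
          rw [← this, hmk]
          show (L ((1 : Equiv.Perm α)⁻¹ a)).1 a = (1 : Equiv.Perm α) a
          rw [hL]
          rfl
        map_mul' := by
          intro c c'
          rw [← QuotientGroup.mk_mul, hmk]
          show (L ((c.1 * c'.1)⁻¹ a)).1 a = (L (c.1⁻¹ a) * L (c'.1⁻¹ a)).1 a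
          rw [hL]
          show _ = (L (c.1⁻¹ a)).1 ((L (c'.1⁻¹ a)).1 a)
          rw [hL, mul_inv_rev, Equiv.Perm.mul_apply]
          have h1 := hcomm (c'.1⁻¹) (C.inv_mem c'.2) (L (c.1⁻¹ a)) a
          rw [hL] at h1
          exact h1 }
    refine ⟨MulEquiv.ofBijective φ ⟨?_, ?_⟩⟩
    · rw [injective_iff_map_eq_one]
      intro c hc
      have h1 : ((⟨L (c.1⁻¹ a), hnorm c⟩ : N) : N ⧸ (S.subgroupOf N)) = ((1 : N) : N ⧸ (S.subgroupOf N)) := hc
      rw [hmk] at h1
      have h2 : (L (c.1⁻¹ a)).1 a = a := h1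
      rw [hL] at h2
      apply Subtype.ext
      have h3 : c.1⁻¹ = 1 := hsemi _ (C.inv_mem c.2) h2
      simpa using h3
    · intro q
      obtain ⟨n, rfl⟩ := QuotientGroup.mk_surjective q
      obtain ⟨c, hc⟩ := hexists n
      refine ⟨c, ?_⟩
      show ((⟨L (c.1⁻¹ a), hnorm c⟩ : N) : N ⧸ (S.subgroupOf N)) = _
      rw [hmk]
      show (L (c.1⁻¹ a)).1 a = _
      rw [hL, hc]
  · ext x
    constructor
    · rintro ⟨c, rfl⟩
      rw [MulAction.mem_fixedPoints]
      rintro ⟨s, hs⟩
      show s.1 (c.1 a) = c.1 a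
      rw [← hcomm c.1 c.2, (memS s).1 hs]
    · intro hx
      rw [MulAction.mem_fixedPoints] at hx
      have hfin : Finite S := inferInstance
      let n := L x
      have hn : n.1 a = x := hL x
      have h1 : ∀ s : S, n⁻¹ * s.1 * n ∈ S := by
        intro s
        rw [memS]
        have hcoe : (n⁻¹ * s.1 * n).1 = n.1⁻¹ * s.1.1 * n.1 := rfl
        rw [hcoe, Equiv.Perm.mul_apply, Equiv.Perm.mul_apply, hn]
        have := hx s
        have h2 : s.1.1 x = x := this
        rw [h2, ← hn]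
        simp
      let f : S → S := fun s => ⟨n⁻¹ * s.1 * n, h1 s⟩
      have hf : Function.Injective f := by
        intro s t hst
        apply Subtype.ext
        have := congrArg Subtype.val hst
        simpa [f] using this
      have hfs : Function.Surjective f := Finite.surjective_of_injective hf
      have hnN : n ∈ N := by
        rw [hN, Subgroup.mem_set_normalizer_iff]
        intro s
        simp only [SetLike.mem_coe]
        constructor
        · intro hs
          obtain ⟨t, ht⟩ := hfs ⟨s, hs⟩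
          have h3 : n⁻¹ * t.1 * n = s := congrArg Subtype.val ht
          have h4 : n * s * n⁻¹ = t.1 := by rw [← h3]; group
          rw [h4]
          exact t.2
        · intro hs
          have := h1 ⟨_, hs⟩
          have h5 : n⁻¹ * (n * s * n⁻¹) * n = s := by group
          simpa [h5] using this
      obtain ⟨c, hc⟩ := hexists ⟨n, hnN⟩
      refine ⟨⟨c.1⁻¹, C.inv_mem c.2⟩, ?_⟩
      show c.1⁻¹ a = x
      rw [hc]
      exact hn

end Cfsg.Agent.S0702
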