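import Cfsg.Statements.S0703
import Mathlib.Tactic

set_option autoImplicit false
open Cfsg

namespace Cfsg.Agent.S0703

/-- An abelian transitive minimal normal subgroup `M` of a permutation group on a finite set is self-centralising in the symmetric group, regular, elementary abelian, and is the unique minimal normal subgroup. -/
theorem result {α : Type*} [Finite α] (G : Subgroup (Equiv.Perm α)) (M : Subgroup G) [M.Normal] (hM : M ≠ ⊥) (hmin : ∀ L : Subgroup G, L.Normal → L ≤ M → L = ⊥ ∨ L = M) (hab : IsMulCommutative M) (htrans : MulAction.IsPretransitive M α) : Subgroup.centralizer ((M.map G.subtype : Subgroup (Equiv.Perm α)) : Set (Equiv.Perm α)) = M.map G.subtype ∧ (∀ a : α, MulAction.stabilizer M a = ⊥) ∧ (∃ p : ℕ, p.Prime ∧ ∀ m ∈ M, m ^ p = 1) ∧ ∀ L : Subgroup G, L.Normal → L ≠ ⊥ → (∀ L' : Subgroup G, L'.Normal → L' ≤ L → L' = ⊥ ∨ L' = L) → L = M := by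
  classical
  have smulM : ∀ (m : M) (x : α), m • x = (m.1.1 : Equiv.Perm α) x := fun _ _ => rfl
  have hcommM : ∀ m ∈ M, ∀ n ∈ M, (m * n : G) = n * m := by
    intro m hm n hn
    have := (hab.is_comm).comm ⟨m, hm⟩ ⟨n, hn⟩
    exact congrArg Subtype.val this
  have hcomm' : ∀ m ∈ M, ∀ n ∈ M, ∀ x : α, m.1 (n.1 x) = n.1 (m.1 x) := by
    intro m hm n hn x
    have := congrArg (fun g : G => g.1 x) (hcommM m hm n hn)
    exact this
  have hstabM : ∀ a : α, MulAction.stabilizer M a = ⊥ := by
    intro a
    rw [eq_bot_iff]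
    rintro m hm
    rw [Subgroup.mem_bot]
    apply Subtype.ext
    apply Subtype.ext
    ext x
    obtain ⟨n, hn⟩ := htrans.exists_smul_eq a x
    have hma : m.1.1 a = a := hm
    rw [← hn, smulM]
    rw [hcomm' m.1 m.2 n.1 n.2, hma]
    rfl
  have memMap : ∀ (S : Subgroup G) (c : Equiv.Perm α), c ∈ S.map G.subtype ↔ ∃ s ∈ S, s.1 = c := by
    intro S c
    simp [Subgroup.mem_map]
  have hne : Nonempty α := by
    by_contra hemp
    rw [not_nonempty_iff] at hemp
    apply hM
    rw [eq_bot_iff]
    intro m _
    rw [Subgroup.mem_bot]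
    apply Subtype.ext
    ext x
    exact (hemp.false x).elim
  have hcent : Subgroup.centralizer ((M.map G.subtype : Subgroup (Equiv.Perm α)) : Set (Equiv.Perm α)) = M.map G.subtype := by
    ext c
    constructor
    · intro hc
      obtain ⟨a⟩ := hne
      obtain ⟨n, hn⟩ := htrans.exists_smul_eq a (c a)
      rw [memMap]
      refine ⟨n.1, n.2, ?_⟩
      ext x
      obtain ⟨m, hm⟩ := htrans.exists_smul_eq a x
      rw [← hm, smulM]
      have h1 : c (m.1.1 a) = m.1.1 (c a) := by
        have := (Subgroup.mem_centralizer_iff.1 hc) m.1.1 ((memMap M _).2 ⟨m.1, m.2, rfl⟩)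
        have h2 := congrArg (fun σ : Equiv.Perm α => σ a) this
        exact h2.symm
      rw [h1, ← hn, smulM, hcomm' m.1 m.2 n.1 n.2]
    · intro hc
      rw [memMap] at hc
      obtain ⟨n, hn, rfl⟩ := hc
      rw [Subgroup.mem_centralizer_iff]
      intro h hh
      have hh' : h ∈ M.map G.subtype := hh
      rw [memMap] at hh'
      obtain ⟨m, hm, rfl⟩ := hh'
      ext x
      exact (hcomm' m hm n hn x)
  refine ⟨hcent, hstabM, ?_, ?_⟩
  · -- elementary abelian
    have hfin : Finite G := inferInstance
    have hfinM : Finite M := inferInstance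
    have hcard1 : Nat.card M ≠ 1 := by
      intro h
      apply hM
      have : Subsingleton M := (Nat.card_eq_one_iff_unique.1 h).1
      rw [eq_bot_iff]
      intro m hm
      have h2 := Subsingleton.elim (⟨m, hm⟩ : M) 1
      rw [Subgroup.mem_bot]
      exact congrArg Subtype.val h2
    obtain ⟨p, hp, hpd⟩ := Nat.exists_prime_and_dvd hcard1
    haveI : Fact p.Prime := ⟨hp⟩
    refine ⟨p, hp, ?_⟩
    let L : Subgroup G :=
      { carrier := {g | g ∈ M ∧ g ^ p = 1}
        one_mem' := ⟨M.one_mem, one_pow _⟩
        mul_mem' := by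
          rintro a b ⟨ha, ha'⟩ ⟨hb, hb'⟩
          refine ⟨M.mul_mem ha hb, ?_⟩
          have hc : Commute a b := hcommM a ha b hb
          rw [hc.mul_pow, ha', hb', one_mul]
        inv_mem' := by
          rintro a ⟨ha, ha'⟩
          exact ⟨M.inv_mem ha, by rw [inv_pow, ha', inv_one]⟩ }
    have hLn : L.Normal := by
      refine ⟨?_⟩
      rintro a ⟨ha, ha'⟩ g
      refine ⟨(inferInstance : M.Normal).conj_mem a ha g, ?_⟩
      rw [conj_pow, ha']
      simp
    obtain ⟨x, hx⟩ := exists_prime_orderOf_dvd_card' p hpd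
    have hxL : x.1 ∈ L := ⟨x.2, by
      have := pow_orderOf_eq_one x
      rw [hx] at this
      simpa using congrArg Subtype.val this⟩
    rcases hmin L hLn (fun g hg => hg.1) with h | h
    · exfalso
      rw [h, Subgroup.mem_bot] at hxL
      have hx1 : x = 1 := Subtype.ext hxL
      rw [hx1, orderOf_one] at hx
      exact hp.one_lt.ne hx
    · intro m hm
      rw [← h] at hm
      exact hm.2
  · intro L hL hL0 hLmin
    haveI := hL
    by_contra hne'
    have hdLM : Disjoint L M := by
      rw [disjoint_iff]
      rcases hmin (L ⊓ M) inferInstance inf_le_right with h | h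
      · exact h
      · exfalso
        have h1 : M ≤ L := inf_eq_right.1 h
        rcases hLmin M inferInstance h1 with h2 | h2
        · exact hM h2
        · exact hne' h2.symm
    have hle : L ≤ M := by
      intro l hl
      have h1 : l.1 ∈ Subgroup.centralizer ((M.map G.subtype : Subgroup (Equiv.Perm α)) : Set (Equiv.Perm α)) := by
        rw [Subgroup.mem_centralizer_iff]
        intro h hh
        have hh' : h ∈ M.map G.subtype := hh
        rw [memMap] at hh'
        obtain ⟨m, hm, rfl⟩ := hh'
        have := (Subgroup.commute_of_normal_of_disjoint L M inferInstance inferInstance hdLM l m hl hm).eq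
        exact (congrArg Subtype.val this).symm
      rw [hcent, memMap] at h1
      obtain ⟨n, hn, hnl⟩ := h1
      have : n = l := Subtype.ext hnl
      rwa [← this]
    rcases hmin L hL hle with h | h
    · exact hL0 h
    · exact hne' h

end Cfsg.Agent.S0703
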