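import Cfsg.Statements.S0704
import Mathlib.Tactic

set_option autoImplicit false
open Cfsg

namespace Cfsg.Agent.S0704

/-- Two distinct transitive minimal normal subgroups `M`, `N` of a permutation group are regular, non-abelian, isomorphic, each other's centraliser in the symmetric group, and the only minimal normal subgroups. -/
theorem result {α : Type*} (G : Subgroup (Equiv.Perm α)) (M N : Subgroup G) [M.Normal] [N.Normal] (hM : M ≠ ⊥) (hN : N ≠ ⊥) (hMmin : ∀ L : Subgroup G, L.Normal → L ≤ M → L = ⊥ ∨ L = M) (hNmin : ∀ L : Subgroup G, L.Normal → L ≤ N → L = ⊥ ∨ L = N) (hMN : M ≠ N) (hMt : MulAction.IsPretransitive M α) (hNt : MulAction.IsPretransitive N α) : (∀ a : α, MulAction.stabilizer M a = ⊥) ∧ (∀ a : α, MulAction.stabilizer N a = ⊥) ∧ ¬ IsMulCommutative M ∧ Nonempty (M ≃* N) ∧ Subgroup.centralizer ((M.map G.subtype : Subgroup (Equiv.Perm α)) : Set (Equiv.Perm α)) = N.map G.subtype ∧ Subgroup.centralizer ((N.map G.subtype : Subgroup (Equiv.Perm α)) : Set (Equiv.Perm α)) = M.map G.subtype ∧ ∀ L : Subgroup G, L.Normal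 → L ≠ ⊥ → (∀ L' : Subgroup G, L'.Normal → L' ≤ L → L' = ⊥ ∨ L' = L) → L = M ∨ L = N := by
  classical
  -- preliminary: action notation
  have smulM : ∀ (m : M) (x : α), m • x = (m.1.1 : Equiv.Perm α) x := fun _ _ => rfl
  have smulN : ∀ (n : N) (x : α), n • x = (n.1.1 : Equiv.Perm α) x := fun _ _ => rfl
  -- distinct minimal normal subgroups meet trivially
  have hdisj : Disjoint M N := by
    rw [disjoint_iff]
    have hinf : (M ⊓ N).Normal := inferInstance
    rcases hMmin _ hinf inf_le_left with h | h
    · exact h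
    · exfalso
      have h1 : M ≤ N := inf_eq_left.1 h
      rcases hNmin M inferInstance h1 with h2 | h2
      · exact hM h2
      · exact hMN h2
  have hcomm : ∀ m ∈ M, ∀ n ∈ N, (m * n : G) = n * m := fun m hm n hn =>
    (Subgroup.commute_of_normal_of_disjoint M N inferInstance inferInstance hdisj m n hm hn).eq
  have hcomm' : ∀ m ∈ M, ∀ n ∈ N, ∀ x : α, m.1 (n.1 x) = n.1 (m.1 x) := by
    intro m hm n hn x
    have := congrArg (fun g : G => g.1 x) (hcomm m hm n hn)
    exact this
  -- stabilisers trivial
  have hstabM : ∀ a : α, MulAction.stabilizer M a = ⊥ := by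
    intro a
    rw [eq_bot_iff]
    rintro m hm
    rw [Subgroup.mem_bot]
    apply Subtype.ext
    apply Subtype.ext
    ext x
    obtain ⟨n, hn⟩ := hNt.exists_smul_eq a x
    have hma : m.1.1 a = a := hm
    rw [← hn, smulN]
    rw [hcomm' m.1 m.2 n.1 n.2, hma]
    rfl
  have hstabN : ∀ a : α, MulAction.stabilizer N a = ⊥ := by
    intro a
    rw [eq_bot_iff]
    rintro n hn
    rw [Subgroup.mem_bot]
    apply Subtype.ext
    apply Subtype.ext
    ext x
    obtain ⟨m, hm⟩ := hMt.exists_smul_eq a x
    have hna : n.1.1 a = a := hn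
    rw [← hm, smulM]
    rw [← hcomm' m.1 m.2 n.1 n.2, hna]
    rfl
  -- centralisers
  have memMap : ∀ (S : Subgroup G) (c : Equiv.Perm α), c ∈ S.map G.subtype ↔ ∃ s ∈ S, s.1 = c := by
    intro S c
    simp [Subgroup.mem_map]
  have hcentM : Subgroup.centralizer ((M.map G.subtype : Subgroup (Equiv.Perm α)) : Set (Equiv.Perm α)) = N.map G.subtype := by
    ext c
    constructor
    · intro hc
      -- `a` exists by non-triviality
      have hne : Nonempty α := by
        by_contra hemp
        rw [not_nonempty_iff] at hemp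
        apply hM
        rw [eq_bot_iff]
        intro m _
        rw [Subgroup.mem_bot]
        apply Subtype.ext
        ext x
        exact (hemp.false x).elim
      obtain ⟨a⟩ := hne
      obtain ⟨n, hn⟩ := hNt.exists_smul_eq a (c a)
      rw [memMap]
      refine ⟨n.1, n.2, ?_⟩
      ext x
      obtain ⟨m, hm⟩ := hMt.exists_smul_eq a x
      rw [← hm, smulM]
      have h1 : c (m.1.1 a) = m.1.1 (c a) := by
        have := (Subgroup.mem_centralizer_iff.1 hc) m.1.1 ((memMap M _).2 ⟨m.1, m.2, rfl⟩)
        have h2 := congrArg (fun σ : Equiv.Perm α => σ a) this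
        exact h2.symm
      rw [h1, ← hn, smulN, ← hcomm' m.1 m.2 n.1 n.2]
    · intro hc
      rw [memMap] at hc
      obtain ⟨n, hn, rfl⟩ := hc
      rw [Subgroup.mem_centralizer_iff]
      intro h hh
      have hh' : h ∈ M.map G.subtype := hh
      rw [memMap] at hh'
      obtain ⟨m, hm, rfl⟩ := hh'
      ext x
      exact (hcomm' m hm n hn x)
  have hcentN : Subgroup.centralizer ((N.map G.subtype : Subgroup (Equiv.Perm α)) : Set (Equiv.Perm α)) = M.map G.subtype := by
    ext c
    constructor
    · intro hc
      have hne : Nonempty α := by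
        by_contra hemp
        rw [not_nonempty_iff] at hemp
        apply hM
        rw [eq_bot_iff]
        intro m _
        rw [Subgroup.mem_bot]
        apply Subtype.ext
        ext x
        exact (hemp.false x).elim
      obtain ⟨a⟩ := hne
      obtain ⟨m, hm⟩ := hMt.exists_smul_eq a (c a)
      rw [memMap]
      refine ⟨m.1, m.2, ?_⟩
      ext x
      obtain ⟨n, hn⟩ := hNt.exists_smul_eq a x
      rw [← hn, smulN]
      have h1 : c (n.1.1 a) = n.1.1 (c a) := by
        have := (Subgroup.mem_centralizer_iff.1 hc) n.1.1 ((memMap N _).2 ⟨n.1, n.2, rfl⟩)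
        have h2 := congrArg (fun σ : Equiv.Perm α => σ a) this
        exact h2.symm
      rw [h1, ← hm, smulM, hcomm' m.1 m.2 n.1 n.2]
    · intro hc
      rw [memMap] at hc
      obtain ⟨m, hm, rfl⟩ := hc
      rw [Subgroup.mem_centralizer_iff]
      intro h hh
      have hh' : h ∈ N.map G.subtype := hh
      rw [memMap] at hh'
      obtain ⟨n, hn, rfl⟩ := hh'
      ext x
      exact (hcomm' m hm n hn x).symm
  -- non-abelian
  have hnab : ¬ IsMulCommutative M := by
    intro hab
    -- then `M` centralises itself, so `M ≤ N`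
    have hle : M ≤ N := by
      intro m hm
      have h1 : m.1 ∈ Subgroup.centralizer ((M.map G.subtype : Subgroup (Equiv.Perm α)) : Set (Equiv.Perm α)) := by
        rw [Subgroup.mem_centralizer_iff]
        intro h hh
        have hh' : h ∈ M.map G.subtype := hh
        rw [memMap] at hh'
        obtain ⟨m', hm', rfl⟩ := hh'
        have := (hab.is_comm).comm ⟨m', hm'⟩ ⟨m, hm⟩
        have h3 : m' * m = m * m' := congrArg Subtype.val this
        exact congrArg Subtype.val h3
      rw [hcentM, memMap] at h1
      obtain ⟨n, hn, hnm⟩ := h1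
      have : n = m := Subtype.ext hnm
      rwa [← this]
    rcases hNmin M inferInstance hle with h2 | h2
    · exact hM h2
    · exact hMN h2
  -- isomorphism
  have hiso : Nonempty (M ≃* N) := by
    have hne : Nonempty α := by
      by_contra hemp
      rw [not_nonempty_iff] at hemp
      apply hM
      rw [eq_bot_iff]
      intro m _
      rw [Subgroup.mem_bot]
      apply Subtype.ext
      ext x
      exact (hemp.false x).elim
    obtain ⟨a⟩ := hne
    have huniqN : ∀ n₁ n₂ : N, n₁.1.1 a = n₂.1.1 a → n₁ = n₂ := by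
      intro n₁ n₂ h
      have h1 : n₂⁻¹ * n₁ ∈ MulAction.stabilizer N a := by
        rw [MulAction.mem_stabilizer_iff, mul_smul]
        have h2 : n₁ • a = n₂ • a := h
        rw [h2]
        simp
      rw [hstabN a, Subgroup.mem_bot] at h1
      exact (inv_mul_eq_one.1 h1).symm
    have huniqM : ∀ m₁ m₂ : M, m₁.1.1 a = m₂.1.1 a → m₁ = m₂ := by
      intro n₁ n₂ h
      have h1 : n₂⁻¹ * n₁ ∈ MulAction.stabilizer M a := by
        rw [MulAction.mem_stabilizer_iff, mul_smul]
        have h2 : n₁ • a = n₂ • a := h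
        rw [h2]
        simp
      rw [hstabM a, Subgroup.mem_bot] at h1
      exact (inv_mul_eq_one.1 h1).symm
    have hψ : ∀ m : M, ∃ n : N, n.1.1 a = m.1.1⁻¹ a := fun m => hNt.exists_smul_eq a (m.1.1⁻¹ a)
    choose ψ hψ using hψ
    have hφ : ∀ n : N, ∃ m : M, m.1.1 a = n.1.1⁻¹ a := fun n => hMt.exists_smul_eq a (n.1.1⁻¹ a)
    choose φ hφ using hφ
    refine ⟨{ toFun := ψ
              invFun := φ
              left_inv := ?_
              right_inv := ?_
              map_mul' := ?_ }⟩
    · intro m
      apply huniqM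
      rw [hφ]
      -- `(ψ m)⁻¹ a = m a`
      rw [Equiv.Perm.inv_eq_iff_eq]
      rw [← hcomm' m.1 m.2 (ψ m).1 (ψ m).2, hψ]
      simp
    · intro n
      apply huniqN
      rw [hψ]
      rw [Equiv.Perm.inv_eq_iff_eq]
      rw [hcomm' (φ n).1 (φ n).2 n.1 n.2, hφ]
      simp
    · intro m m'
      apply huniqN
      rw [hψ]
      show _ = (ψ m).1.1 ((ψ m').1.1 a)
      rw [hψ]
      have h1 := hcomm' (m'.1⁻¹) (M.inv_mem m'.2) (ψ m).1 (ψ m).2 a
      have h2 : (m'.1⁻¹ : G).1 = m'.1.1⁻¹ := rfl
      rw [h2, hψ] at h1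
      rw [← h1]
      show (m.1.1 * m'.1.1)⁻¹ a = _
      simp
  refine ⟨hstabM, hstabN, hnab, hiso, hcentM, hcentN, ?_⟩
  intro L hL hL0 hLmin
  by_cases hLM : L = M
  · exact Or.inl hLM
  · right
    haveI := hL
    have hdLM : Disjoint L M := by
      rw [disjoint_iff]
      rcases hMmin (L ⊓ M) inferInstance inf_le_right with h | h
      · exact h
      · exfalso
        have h1 : M ≤ L := inf_eq_right.1 h
        rcases hLmin M inferInstance h1 with h2 | h2
        · exact hM h2
        · exact hLM h2.symm
    have hle : L ≤ N := by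
      intro l hl
      have h1 : l.1 ∈ Subgroup.centralizer ((M.map G.subtype : Subgroup (Equiv.Perm α)) : Set (Equiv.Perm α)) := by
        rw [Subgroup.mem_centralizer_iff]
        intro h hh
        have hh' : h ∈ M.map G.subtype := hh
        rw [memMap] at hh'
        obtain ⟨m, hm, rfl⟩ := hh'
        have := (Subgroup.commute_of_normal_of_disjoint L M inferInstance inferInstance hdLM l m hl hm).eq
        exact (congrArg Subtype.val this).symm
      rw [hcentM, memMap] at h1
      obtain ⟨n, hn, hnl⟩ := h1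
      have : n = l := Subtype.ext hnl
      rwa [← this]
    rcases hNmin L hL hle with h | h
    · exact absurd h hL0
    · exact h

end Cfsg.Agent.S0704
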