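import Cfsg.Statements.S0705
import Mathlib.Tactic

set_option autoImplicit false
open scoped Pointwise
open Cfsg

namespace Cfsg.Agent.S0705

/-- A generously `k`-transitive permutation group (every `(k+1)`-subset has its full symmetric group induced by the setwise stabiliser) of degree greater than `k` is `k`-transitive, and for a `k`-subset the setwise and pointwise stabilisers have the same orbits outside it. -/
theorem result {α : Type*} [Fintype α] [DecidableEq α] (G : Subgroup (Equiv.Perm α)) {k : ℕ} (hk : k < Fintype.card α) (hgen : ∀ s : Finset α, s.card = k + 1 → ∀ σ : Equiv.Perm ↥s, ∃ g ∈ G, ∀ x : ↥s, g (x : α) = σ x) : MulAction.IsMultiplyPretransitive G α k ∧ ∀ s : Finset α, s.card = k → ∀ a b : α, a ∉ s → b ∉ s → (∃ g ∈ G, g • s = s ∧ g a = b) → ∃ g ∈ G, (∀ x ∈ s, g x = x) ∧ g a = b := by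
  classical
  constructor
  · -- Lemma A: two embeddings with images in a common `(k+1)`-set
    have lemA : ∀ (x y : Fin k ↪ α) (s : Finset α), s.card = k + 1 → (∀ i, x i ∈ s) → (∀ i, y i ∈ s) →
        ∃ g ∈ G, ∀ i, g (x i) = y i := by
      intro x y s hs hx hy
      let x' : Fin k → s := fun i => ⟨x i, hx i⟩
      let y' : Fin k → s := fun i => ⟨y i, hy i⟩
      have hx' : Function.Injective x' := fun i j h => x.injective (congrArg Subtype.val h)
      have hy' : Function.Injective y' := fun i j h => y.injective (congrArg Subtype.val h)
      obtain ⟨σ, hσ⟩ := Equiv.Perm.exists_extending_pair x' y' hx' hy'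
      obtain ⟨g, hg, hgσ⟩ := hgen s hs σ
      refine ⟨g, hg, fun i => ?_⟩
      have := hgσ (x' i)
      rw [hσ] at this
      exact this
    -- Lemma B: induction on the number of points of `y` outside `x`
    have lemB : ∀ (n : ℕ) (x y : Fin k ↪ α),
        ((Finset.univ.image y) \ (Finset.univ.image x)).card = n → ∃ g ∈ G, ∀ i, g (x i) = y i := by
      intro n
      induction n with
      | zero =>
        intro x y h
        rw [Finset.card_eq_zero, Finset.sdiff_eq_empty_iff_subset] at h
        have hcx : (Finset.univ.image x).card = k := by
          rw [Finset.card_image_of_injective _ x.injective]; simp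
        obtain ⟨t, ht⟩ : ∃ t : α, t ∉ Finset.univ.image x := by
          by_contra hcon
          push Not at hcon
          have : Fintype.card α ≤ (Finset.univ.image x).card := by
            rw [← Finset.card_univ]
            exact Finset.card_le_card (fun u _ => hcon u)
          omega
        apply lemA x y (insert t (Finset.univ.image x))
        · rw [Finset.card_insert_of_notMem ht, hcx]
        · intro i; exact Finset.mem_insert_of_mem (Finset.mem_image_of_mem _ (Finset.mem_univ _))
        · intro i; exact Finset.mem_insert_of_mem (h (Finset.mem_image_of_mem _ (Finset.mem_univ _)))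
      | succ n ih =>
        intro x y h
        -- a point `u` of `y` not in `x`
        have hne : ((Finset.univ.image y) \ (Finset.univ.image x)).Nonempty := by
          rw [← Finset.card_pos]; omega
        obtain ⟨u, hu⟩ := hne
        rw [Finset.mem_sdiff] at hu
        -- a position of `x` whose value is not in `y`
        have hcx : (Finset.univ.image x).card = k := by
          rw [Finset.card_image_of_injective _ x.injective]; simp
        have hcy : (Finset.univ.image y).card = k := by
          rw [Finset.card_image_of_injective _ y.injective]; simp
        obtain ⟨j, hj⟩ : ∃ j, x j ∉ Finset.univ.image y := by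
          by_contra hcon
          push Not at hcon
          have hsub : Finset.univ.image x ⊆ Finset.univ.image y := by
            intro v hv
            obtain ⟨i, -, rfl⟩ := Finset.mem_image.mp hv
            exact hcon i
          have := Finset.eq_of_subset_of_card_le hsub (by omega)
          exact hu.2 (this ▸ hu.1)
        -- replace `x j` by `u`
        let x' : Fin k ↪ α := ⟨Function.update x j u, by
          intro a b hab
          by_cases ha : a = j
          · by_cases hb : b = j
            · rw [ha, hb]
            · subst ha
              simp only [Function.update_self, Function.update_of_ne hb] at hab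
              exact absurd (Finset.mem_image_of_mem _ (Finset.mem_univ _)) (hab ▸ hu.2)
          · by_cases hb : b = j
            · subst hb
              simp only [Function.update_self, Function.update_of_ne ha] at hab
              exact absurd (Finset.mem_image_of_mem _ (Finset.mem_univ _)) (hab.symm ▸ hu.2)
            · simp only [Function.update_of_ne ha, Function.update_of_ne hb] at hab
              exact x.injective hab⟩
        have hx'j : x' j = u := Function.update_self _ _ _
        have hx'o : ∀ i, i ≠ j → x' i = x i := fun i hi => Function.update_of_ne hi _ _
        obtain ⟨g₁, hg₁, h₁⟩ := lemA x x' (insert u (Finset.univ.image x))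
          (by rw [Finset.card_insert_of_notMem hu.2, hcx])
          (fun i => Finset.mem_insert_of_mem (Finset.mem_image_of_mem _ (Finset.mem_univ _)))
          (fun i => by
            by_cases hi : i = j
            · rw [hi, hx'j]; exact Finset.mem_insert_self _ _
            · rw [hx'o i hi]
              exact Finset.mem_insert_of_mem (Finset.mem_image_of_mem _ (Finset.mem_univ _)))
        -- the number of points of `y` outside `x'` drops
        have hcard : ((Finset.univ.image y) \ (Finset.univ.image x')).card = n := by
          have : (Finset.univ.image y) \ (Finset.univ.image x') =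
              ((Finset.univ.image y) \ (Finset.univ.image x)).erase u := by
            ext v
            simp only [Finset.mem_sdiff, Finset.mem_erase, Finset.mem_image, Finset.mem_univ, true_and]
            constructor
            · rintro ⟨hv1, hv2⟩
              refine ⟨?_, hv1, ?_⟩
              · rintro rfl
                exact hv2 ⟨j, hx'j⟩
              · rintro ⟨i, rfl⟩
                by_cases hi : i = j
                · subst hi
                  exact hj (Finset.mem_image.mpr (by obtain ⟨l, hl⟩ := hv1; exact ⟨l, Finset.mem_univ _, hl⟩))
                · exact hv2 ⟨i, hx'o i hi⟩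
            · rintro ⟨hv0, hv1, hv2⟩
              refine ⟨hv1, ?_⟩
              rintro ⟨i, hi⟩
              by_cases hij : i = j
              · subst hij
                exact hv0 (hi.symm.trans hx'j)
              · rw [hx'o i hij] at hi
                exact hv2 ⟨i, hi⟩
          rw [this, Finset.card_erase_of_mem (Finset.mem_sdiff.mpr hu), h]
          simp
        obtain ⟨g₂, hg₂, h₂⟩ := ih x' y hcard
        refine ⟨g₂ * g₁, G.mul_mem hg₂ hg₁, fun i => ?_⟩
        rw [Equiv.Perm.mul_apply, h₁, h₂]
    rw [MulAction.isMultiplyPretransitive_iff]
    intro x y
    obtain ⟨g, hg, h⟩ := lemB _ x y rfl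
    refine ⟨⟨g, hg⟩, ?_⟩
    ext i
    exact h i
  · intro s hs a b ha hb ⟨g, hg, hgs, hgab⟩
    have hinv : ∀ x ∈ s, g⁻¹ x ∈ s := by
      intro x hx
      rw [← hgs] at hx
      obtain ⟨y, hy, rfl⟩ := Finset.mem_smul_finset.mp hx
      simpa using hy
    -- permutation of `insert a s`
    let f : (↥(insert a s)) → ↥(insert a s) := fun z =>
      if hz : (z : α) = a then z else ⟨g⁻¹ z, Finset.mem_insert_of_mem (hinv _ (by
        have := z.2
        rw [Finset.mem_insert] at this
        exact this.resolve_left hz))⟩
    have hf : Function.Injective f := by
      rintro ⟨u, hu⟩ ⟨v, hv⟩ huv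
      rw [Finset.mem_insert] at hu hv
      by_cases h1 : u = a <;> by_cases h2 : v = a
      · exact Subtype.ext (h1.trans h2.symm)
      · exfalso
        have h3 := congrArg Subtype.val huv
        simp only [f, h1, h2, dif_pos, dif_neg, not_false_iff] at h3
        have := hinv v (hv.resolve_left h2)
        exact ha (h3 ▸ this)
      · exfalso
        have h3 := congrArg Subtype.val huv
        simp only [f, h1, h2, dif_pos, dif_neg, not_false_iff] at h3
        have := hinv u (hu.resolve_left h1)
        exact ha (h3 ▸ this)
      · have h3 := congrArg Subtype.val huv
        simp only [f, h1, h2, dif_neg, not_false_iff] at h3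
        exact Subtype.ext (g⁻¹.injective h3)
    let σ : Equiv.Perm ↥(insert a s) := Equiv.ofBijective f (Finite.injective_iff_bijective.mp hf)
    obtain ⟨g', hg', hσ⟩ := hgen (insert a s) (by rw [Finset.card_insert_of_notMem ha, hs]) σ
    refine ⟨g * g', G.mul_mem hg hg', ?_, ?_⟩
    · intro x hx
      have hxa : x ≠ a := fun h => ha (h ▸ hx)
      have := hσ ⟨x, Finset.mem_insert_of_mem hx⟩
      rw [Equiv.Perm.mul_apply, this]
      simp [σ, f, hxa]
    · have := hσ ⟨a, Finset.mem_insert_self _ _⟩
      rw [Equiv.Perm.mul_apply, this]
      simpa [σ, f] using hgab

end Cfsg.Agent.S0705
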