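import Cfsg.Statements.S0706
import Cfsg.Agent.Lib.H9.SimpleTools
import Mathlib

set_option autoImplicit false
open Cfsg

namespace Cfsg.Agent.S0706

section
variable {α : Type*} [Fintype α] [DecidableEq α]
open Equiv Equiv.Perm

/-- Pointwise stabiliser in `G`, as a subgroup of the full symmetric group. -/
private def Fx (G : Subgroup (Perm α)) (S : Finset α) : Subgroup (Perm α) where
  carrier := {x | x ∈ G ∧ ∀ u ∈ S, x u = u}
  mul_mem' := by
    rintro a b ⟨ha, ha'⟩ ⟨hb, hb'⟩
    refine ⟨G.mul_mem ha hb, fun u hu => ?_⟩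
    rw [Perm.mul_apply, hb' u hu, ha' u hu]
  one_mem' := ⟨G.one_mem, fun _ _ => rfl⟩
  inv_mem' := by
    rintro a ⟨ha, ha'⟩
    refine ⟨G.inv_mem ha, fun u hu => ?_⟩
    rw [Perm.inv_eq_iff_eq, ha' u hu]

private lemma mem_Fx {G : Subgroup (Perm α)} {S : Finset α} {x : Perm α} :
    x ∈ Fx G S ↔ x ∈ G ∧ ∀ u ∈ S, x u = u := Iff.rfl

/-- Homogeneity from generosity. -/
private lemma homog (G : Subgroup (Perm α)) {k : ℕ}
    (hgen : ∀ s : Finset α, s.card = k + 1 → ∀ σ : Perm ↥s, ∃ g ∈ G, ∀ x : ↥s, g (x : α) = σ x) :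
    ∀ (t : ℕ) (A B : Finset α), A.card = k → B.card = k → (A \ B).card = t →
      ∃ g ∈ G, A.image g = B := by
  intro t
  induction t with
  | zero =>
    intro A B hA hB ht
    refine ⟨1, G.one_mem, ?_⟩
    have h1 : A ⊆ B := by
      rwa [Finset.card_eq_zero, Finset.sdiff_eq_empty_iff_subset] at ht
    have h2 : A = B := Finset.eq_of_subset_of_card_le h1 (by omega)
    simp [h2]
  | succ t ih =>
    intro A B hA hB ht
    have h1 : (B \ A).card = t + 1 := by
      rw [← ht]
      exact Finset.card_sdiff_comm (by omega)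
    obtain ⟨u, hu⟩ := Finset.card_pos.mp (by omega : 0 < (A \ B).card)
    obtain ⟨v, hv⟩ := Finset.card_pos.mp (by omega : 0 < (B \ A).card)
    rw [Finset.mem_sdiff] at hu hv
    have huv : u ≠ v := fun h => hu.2 (h ▸ hv.1)
    let s := insert v A
    have hs : s.card = k + 1 := by
      rw [Finset.card_insert_of_notMem hv.2, hA]
    have hus : u ∈ s := Finset.mem_insert_of_mem hu.1
    have hvs : v ∈ s := Finset.mem_insert_self _ _
    obtain ⟨g, hg, hgs⟩ := hgen s hs (Equiv.swap ⟨u, hus⟩ ⟨v, hvs⟩)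
    have hgu : g u = v := by simpa using hgs ⟨u, hus⟩
    have hgv : g v = u := by simpa using hgs ⟨v, hvs⟩
    have hgw : ∀ w ∈ A, w ≠ u → g w = w := by
      intro w hw hwu
      have hwv : w ≠ v := fun h => hv.2 (h ▸ hw)
      have := hgs ⟨w, Finset.mem_insert_of_mem hw⟩
      rw [Equiv.swap_apply_of_ne_of_ne (fun h => hwu (congrArg Subtype.val h))
        (fun h => hwv (congrArg Subtype.val h))] at this
      exact this
    have himg : A.image g = insert v (A.erase u) := by
      ext w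
      simp only [Finset.mem_image, Finset.mem_insert, Finset.mem_erase]
      constructor
      · rintro ⟨w', hw', rfl⟩
        by_cases h : w' = u
        · left; rw [h, hgu]
        · right; rw [hgw w' hw' h]; exact ⟨h, hw'⟩
      · rintro (rfl | ⟨h1, h2⟩)
        · exact ⟨u, hu.1, hgu⟩
        · exact ⟨w, h2, hgw w h2 h1⟩
    have hc : (A.image g).card = k := by
      rw [Finset.card_image_of_injective _ g.injective, hA]
    have hd : (A.image g \ B).card = t := by
      have : A.image g \ B = (A \ B).erase u := by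
        rw [himg]
        ext w
        simp only [Finset.mem_sdiff, Finset.mem_insert, Finset.mem_erase]
        constructor
        · rintro ⟨rfl | ⟨h1, h2⟩, h3⟩
          · exact absurd hv.1 h3
          · exact ⟨h1, h2, h3⟩
        · rintro ⟨h1, h2, h3⟩
          exact ⟨Or.inr ⟨h1, h2⟩, h3⟩
      rw [this, Finset.card_erase_of_mem (Finset.mem_sdiff.mpr hu), ht]
      rfl
    obtain ⟨g', hg', hB'⟩ := ih _ B hc hB hd
    refine ⟨g' * g, G.mul_mem hg' hg, ?_⟩
    rw [← hB', Finset.image_image]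
    rfl

private lemma card_Fx_of_image (G : Subgroup (Perm α)) {A B : Finset α} {g : Perm α} (hg : g ∈ G)
    (h : A.image g = B) : Nat.card (Fx G B) = Nat.card (Fx G A) := by
  have : Fx G B = (Fx G A).map (MulAut.conj g).toMonoidHom := by
    ext x
    simp only [Subgroup.mem_map, MulEquiv.toMonoidHom_eq_coe, MonoidHom.coe_coe, MulAut.conj_apply]
    constructor
    · rintro ⟨hx, hx'⟩
      refine ⟨g⁻¹ * x * g, ⟨G.mul_mem (G.mul_mem (G.inv_mem hg) hx) hg, fun u hu => ?_⟩, by group⟩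
      have h1 : g u ∈ B := h ▸ Finset.mem_image_of_mem g hu
      simp [hx' _ h1]
    · rintro ⟨y, ⟨hy, hy'⟩, rfl⟩
      refine ⟨G.mul_mem (G.mul_mem hg hy) (G.inv_mem hg), fun u hu => ?_⟩
      rw [← h] at hu
      obtain ⟨w, hw, rfl⟩ := Finset.mem_image.mp hu
      simp [hy' w hw]
  rw [this]
  exact Subgroup.card_map_of_injective (MulAut.conj g).injective

end

open Equiv Equiv.Perm in
/-- In a generously `k`-transitive permutation group, for a prime `p ≤ k` and a `k`-set `Γ`, there are no `p` points outside `Γ` lying in distinct orbits of the pointwise stabiliser of `Γ` all of length prime to `p` (at most `p - 1` such orbits). -/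
theorem result {α : Type*} [Fintype α] [DecidableEq α] (G : Subgroup (Equiv.Perm α)) {k : ℕ} (hk : k < Fintype.card α) (hgen : ∀ s : Finset α, s.card = k + 1 → ∀ σ : Equiv.Perm ↥s, ∃ g ∈ G, ∀ x : ↥s, g (x : α) = σ x) {p : ℕ} (hp : p.Prime) (hpk : p ≤ k) (Γ : Finset α) (hΓ : Γ.card = k) (f : Fin p → α) (hf : ∀ i, f i ∉ Γ) (hdist : ∀ i j, i ≠ j → f j ∉ MulAction.orbit (fixingSubgroup G (Γ : Set α)) (f i)) : ∃ i, p ∣ Nat.card (MulAction.orbit (fixingSubgroup G (Γ : Set α)) (f i)) := by
  classical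
  haveI : Fact p.Prime := ⟨hp⟩
  by_contra hcon
  push Not at hcon
  -- the orbits in terms of `Fx`
  have horb : ∀ (y z : α), z ∈ MulAction.orbit (fixingSubgroup G (Γ : Set α)) y ↔
      ∃ l ∈ Fx G Γ, l y = z := by
    intro y z
    constructor
    · rintro ⟨⟨⟨l, hlG⟩, hl⟩, rfl⟩
      refine ⟨l, ⟨hlG, fun u hu => ?_⟩, rfl⟩
      have := (mem_fixingSubgroup_iff _).mp hl u (by simpa using hu)
      exact this
    · rintro ⟨l, ⟨hlG, hl⟩, rfl⟩
      refine ⟨⟨⟨l, hlG⟩, (mem_fixingSubgroup_iff _).mpr fun u hu => hl u (by simpa using hu)⟩, rfl⟩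
  -- a `p`-cycle on a subset of `Γ`
  obtain ⟨Z, hZΓ, hZc⟩ := Finset.exists_subset_card_eq (s := Γ) (n := p) (by omega)
  let c : Perm α := Z.toList.formPerm
  have hnodup : Z.toList.Nodup := Finset.nodup_toList _
  have hlen : 2 ≤ Z.toList.length := by
    rw [Finset.length_toList, hZc]; exact hp.two_le
  have hcc : c.IsCycle := List.isCycle_formPerm hnodup hlen
  have hcs : c.support = Z := by
    have := List.support_formPerm_of_nodup Z.toList hnodup (by
      intro x hx
      rw [hx] at hlen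
      simp at hlen)
    rw [show c.support = Z.toList.toFinset from this, Finset.toList_toFinset]
  have hzsupp : ∀ d ∈ Subgroup.zpowers c, d.support ⊆ Z := by
    rintro d ⟨m, rfl⟩
    rw [← hcs]
    exact Equiv.Perm.support_zpow_le c m
  have hzΓ : ∀ d ∈ Subgroup.zpowers c, ∀ u ∈ Γ, d u ∈ Γ := by
    intro d hd u hu
    by_cases h : d u = u
    · rw [h]; exact hu
    · exact hZΓ (hzsupp d hd (Equiv.Perm.apply_mem_support.mpr (Equiv.Perm.mem_support.mpr h)))
  have hzΔ : ∀ d ∈ Subgroup.zpowers c, ∀ u, u ∉ Z → d u = u := by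
    intro d hd u hu
    by_contra h
    exact hu (hzsupp d hd (Equiv.Perm.mem_support.mpr h))
  have hcmem : c ∈ Subgroup.zpowers c := Subgroup.mem_zpowers c
  -- the group `H`
  let H : Subgroup (Perm α) :=
    { carrier := {x | x ∈ G ∧ ∃ d ∈ Subgroup.zpowers c, ∀ u ∈ Γ, x u = d u}
      mul_mem' := by
        rintro a b ⟨ha, d, hd, ha'⟩ ⟨hb, e, he, hb'⟩
        refine ⟨G.mul_mem ha hb, d * e, Subgroup.mul_mem _ hd he, fun u hu => ?_⟩
        rw [Perm.mul_apply, hb' u hu, ha' _ (hzΓ e he u hu), Perm.mul_apply]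
      one_mem' := ⟨G.one_mem, 1, Subgroup.one_mem _, fun _ _ => rfl⟩
      inv_mem' := by
        rintro a ⟨ha, d, hd, ha'⟩
        refine ⟨G.inv_mem ha, d⁻¹, Subgroup.inv_mem _ hd, fun u hu => ?_⟩
        rw [Perm.inv_eq_iff_eq, ha' _ (hzΓ _ (Subgroup.inv_mem _ hd) u hu)]
        simp }
  have hHmem : ∀ x : Perm α, x ∈ H ↔ x ∈ G ∧ ∃ d ∈ Subgroup.zpowers c, ∀ u ∈ Γ, x u = d u :=
    fun _ => Iff.rfl
  have hKH : Fx G Γ ≤ H := fun x hx => ⟨hx.1, 1, Subgroup.one_mem _, fun u hu => hx.2 u hu⟩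
  -- elements acting like `c` and fixing `f i`
  have hgi : ∀ i, ∃ g ∈ G, (∀ u ∈ Γ, g u = c u) ∧ g (f i) = f i := by
    intro i
    have hfZ : f i ∉ Z := fun h => hf i (hZΓ h)
    have hcf : c (f i) = f i := hzΔ c hcmem _ hfZ
    let s := insert (f i) Γ
    have hs : s.card = k + 1 := by rw [Finset.card_insert_of_notMem (hf i), hΓ]
    have hcs' : ∀ x, c x ∈ s ↔ x ∈ s := by
      intro x
      constructor
      · intro h
        by_contra hx
        have hxZ : x ∉ Z := fun h' => hx (Finset.mem_insert_of_mem (hZΓ h'))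
        rw [hzΔ c hcmem x hxZ] at h
        exact hx h
      · intro h
        rcases Finset.mem_insert.mp h with rfl | h
        · rw [hcf]; exact h
        · exact Finset.mem_insert_of_mem (hzΓ c hcmem x h)
    obtain ⟨g, hg, hgs⟩ := hgen s hs (c.subtypePerm hcs')
    refine ⟨g, hg, fun u hu => ?_, ?_⟩
    · exact hgs ⟨u, Finset.mem_insert_of_mem hu⟩
    · rw [hgs ⟨f i, Finset.mem_insert_self _ _⟩]
      exact hcf
  have hpowΓ : ∀ (g : Perm α), (∀ u ∈ Γ, g u = c u) → ∀ (n : ℕ), ∀ u ∈ Γ, (g ^ n) u = (c ^ n) u := by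
    intro g hg n
    induction n with
    | zero => intro _ _; rfl
    | succ n ih =>
      intro u hu
      rw [pow_succ, pow_succ, Perm.mul_apply, Perm.mul_apply, hg u hu,
        ih _ (hzΓ c hcmem u hu)]
  have hgiH : ∀ g ∈ G, (∀ u ∈ Γ, g u = c u) → g ∈ H := fun g hg h => ⟨hg, c, hcmem, h⟩
  -- a point of `Z`
  obtain ⟨a, ha⟩ : Z.Nonempty := by
    rw [← Finset.card_pos, hZc]; exact hp.pos
  have hca : c a ≠ a := Equiv.Perm.mem_support.mp (hcs ▸ ha)
  have hd1 : ∀ d ∈ Subgroup.zpowers c, d a = a → d = 1 := by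
    intro d hd hda
    obtain ⟨n, rfl : c ^ n = d⟩ := mem_powers_iff_mem_zpowers.mpr hd
    exact hcc.pow_eq_one_iff.mpr ⟨a, hca, hda⟩
  -- the order of `H`
  have hcardH : Nat.card H = p * Nat.card (Fx G Γ) := by
    have h1 := CfsgLib.H9.card_orbit_mul_card_stabilizer' (H := H) a
    have h2 : MulAction.orbit H a = (Z : Set α) := by
      ext u
      constructor
      · rintro ⟨⟨x, hxG, d, hd, hx⟩, rfl⟩
        change x a ∈ Z
        rw [hx a (hZΓ ha)]
        by_cases h : d a = a
        · rw [h]; exact ha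
        · exact hzsupp d hd (Equiv.Perm.apply_mem_support.mpr (Equiv.Perm.mem_support.mpr h))
      · intro hu
        obtain ⟨n, hn⟩ := hcc.exists_pow_eq hca (Equiv.Perm.mem_support.mp (hcs ▸ hu))
        obtain ⟨g, hg, hgc, _⟩ := hgi ⟨0, hp.pos⟩
        refine ⟨⟨g ^ n, H.pow_mem (hgiH g hg hgc) n⟩, ?_⟩
        change (g ^ n) a = u
        rw [hpowΓ g hgc n a (hZΓ ha), hn]
    have h3 : Nat.card (MulAction.orbit H a) = p := by
      rw [h2, Nat.card_coe_set_eq, Set.ncard_coe_finset, hZc]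
    have h4 : Nat.card (MulAction.stabilizer H a) = Nat.card (Fx G Γ) := by
      have : (MulAction.stabilizer H a).map H.subtype = Fx G Γ := by
        ext x
        simp only [Subgroup.mem_map, MulAction.mem_stabilizer_iff, Subgroup.coe_subtype,
          Subtype.exists, exists_and_right, exists_eq_right]
        constructor
        · rintro ⟨hx, hxa⟩
          obtain ⟨hxG, d, hd, hxd⟩ := hx
          have hxa' : x a = a := hxa
          have hda : d a = a := by rw [← hxd a (hZΓ ha)]; exact hxa'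
          have := hd1 d hd hda
          subst this
          exact ⟨hxG, fun u hu => hxd u hu⟩
        · intro hx
          exact ⟨hKH hx, hx.2 a (hZΓ ha)⟩
      rw [← this]
      exact (Subgroup.card_map_of_injective H.subtype_injective).symm
    rw [h3, h4] at h1
    exact h1.symm
  -- the `p`-subgroup
  set v := (Nat.card (Fx G Γ)).factorization p with hv
  have hKne : Nat.card (Fx G Γ) ≠ 0 := Nat.card_pos.ne'
  have hdvd : p ^ (v + 1) ∣ Nat.card H := by
    rw [hcardH, pow_succ, mul_comm]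
    exact mul_dvd_mul_left p (Nat.ordProj_dvd _ _)
  obtain ⟨R, hRc⟩ := Sylow.exists_subgroup_card_pow_prime p hdvd
  have hRp : IsPGroup p R := IsPGroup.of_card hRc
  -- fixed points on the orbits
  have hfix : ∀ i, ∃ y ∈ MulAction.orbit (fixingSubgroup G (Γ : Set α)) (f i),
      ∀ r : R, ((r : H) : Perm α) y = y := by
    intro i
    obtain ⟨g, hg, hgc, hgf⟩ := hgi i
    have hinv : ∀ (x : H) {y : α}, y ∈ MulAction.orbit (fixingSubgroup G (Γ : Set α)) (f i) →
        (x : Perm α) y ∈ MulAction.orbit (fixingSubgroup G (Γ : Set α)) (f i) := by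
      rintro ⟨x, hxG, d, hd, hx⟩ y hy
      obtain ⟨l, hl, rfl⟩ := (horb _ _).mp hy
      obtain ⟨n, rfl : c ^ n = d⟩ := mem_powers_iff_mem_zpowers.mpr hd
      rw [horb]
      have hgn : (g ^ n) (f i) = f i := by
        have : g ∈ MulAction.stabilizer (Perm α) (f i) := hgf
        exact (Subgroup.pow_mem _ this n)
      refine ⟨x * l * (g ^ n)⁻¹, ⟨G.mul_mem (G.mul_mem hxG hl.1) (G.inv_mem (G.pow_mem hg n)),
        fun u hu => ?_⟩, ?_⟩
      · have h1 : ((c ^ n)⁻¹ : Perm α) u ∈ Γ := hzΓ _ (Subgroup.inv_mem _ (Subgroup.pow_mem _ hcmem n)) u hu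
        have h2 : ((g ^ n)⁻¹ : Perm α) u = ((c ^ n)⁻¹ : Perm α) u := by
          rw [Perm.inv_eq_iff_eq, hpowΓ g hgc n _ h1]
          simp
        rw [Perm.mul_apply, Perm.mul_apply, h2, hl.2 _ h1, hx _ h1]
        simp
      · rw [Perm.mul_apply, Perm.mul_apply]
        have : ((g ^ n)⁻¹ : Perm α) (f i) = f i := by
          rw [Perm.inv_eq_iff_eq, hgn]
        rw [this]
    let O : SubMulAction H α :=
      { carrier := MulAction.orbit (fixingSubgroup G (Γ : Set α)) (f i)
        smul_mem' := fun x y hy => hinv x hy }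
    have hnd : ¬ p ∣ Nat.card O := hcon i
    obtain ⟨y, hy⟩ := hRp.nonempty_fixed_point_of_prime_not_dvd_card O hnd
    refine ⟨y.1, y.2, fun r => ?_⟩
    have := hy r
    exact congrArg Subtype.val this
  choose f' hf'O hf'R using hfix
  -- the new `k`-set
  have hf'Γ : ∀ i, f' i ∉ Γ := by
    intro i h
    obtain ⟨l, hl, hli⟩ := (horb _ _).mp (hf'O i)
    have h2 := hl.2 _ h
    have h3 : f' i = f i := l.injective (h2.trans hli.symm)
    exact hf i (h3 ▸ h)
  have hf'inj : Function.Injective f' := by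
    intro i j hij
    by_contra hne
    apply hdist i j hne
    obtain ⟨l, hl, hli⟩ := (horb _ _).mp (hf'O i)
    obtain ⟨l', hl', hlj⟩ := (horb _ _).mp (hf'O j)
    rw [horb]
    refine ⟨l'⁻¹ * l, (Fx G Γ).mul_mem ((Fx G Γ).inv_mem hl') hl, ?_⟩
    rw [Perm.mul_apply, hli, hij, ← hlj]
    simp
  let Γ' : Finset α := (Γ \ Z) ∪ Finset.univ.image f'
  have hdisj : Disjoint (Γ \ Z) (Finset.univ.image f') := by
    rw [Finset.disjoint_left]
    intro u hu hu'
    obtain ⟨i, -, rfl⟩ := Finset.mem_image.mp hu'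
    exact hf'Γ i (Finset.mem_sdiff.mp hu).1
  have hΓ'c : Γ'.card = k := by
    rw [Finset.card_union_of_disjoint hdisj, Finset.card_sdiff_of_subset hZΓ, hΓ, hZc,
      Finset.card_image_of_injective _ hf'inj, Finset.card_univ, Fintype.card_fin]
    omega
  obtain ⟨g, hg, hgim⟩ := homog G hgen _ Γ Γ' hΓ hΓ'c rfl
  have hcardK := card_Fx_of_image G hg hgim
  -- `R` fixes `Γ'`
  have hRle : R.map H.subtype ≤ Fx G Γ' := by
    rintro _ ⟨r, hr, rfl⟩
    refine ⟨r.2.1, fun u hu => ?_⟩
    rcases Finset.mem_union.mp hu with hu | hu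
    · obtain ⟨d, hd, hx⟩ := r.2.2
      rw [Finset.mem_sdiff] at hu
      change (r : Perm α) u = u
      rw [hx u hu.1]
      exact hzΔ d hd u hu.2
    · obtain ⟨i, -, rfl⟩ := Finset.mem_image.mp hu
      exact hf'R i ⟨r, hr⟩
  have h1 : p ^ (v + 1) ∣ Nat.card (Fx G Γ') := by
    rw [← hRc, ← Subgroup.card_map_of_injective H.subtype_injective]
    exact Subgroup.card_dvd_of_le hRle
  rw [hcardK] at h1
  exact Nat.pow_succ_factorization_not_dvd hKne hp h1

end Cfsg.Agent.S0706
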