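import Cfsg.Statements.S0707
import Mathlib.Tactic
import Mathlib.GroupTheory.SpecificGroups.Cyclic
set_option autoImplicit false
open Cfsg

namespace Cfsg.Agent.S0707

private theorem prime_card_of_isCoatom_bot {G : Type*} [Group G] (h : IsCoatom (⊥ : Subgroup G)) :
    (Nat.card G).Prime := by
  haveI : IsSimpleOrder (Subgroup G) := isSimpleOrder_iff_isCoatom_bot.2 h
  haveI : Nontrivial G := by
    by_contra hn
    rw [not_nontrivial_iff_subsingleton] at hn
    exact h.1 (Subsingleton.elim _ _)
  obtain ⟨g, hg⟩ := exists_ne (1 : G)
  have hz : Subgroup.zpowers g = ⊤ :=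
    (IsSimpleOrder.eq_bot_or_eq_top (Subgroup.zpowers g)).resolve_left (Subgroup.zpowers_ne_bot.2 hg)
  haveI hcyc : IsCyclic G := ⟨⟨g, (Subgroup.eq_top_iff' _).1 hz⟩⟩
  haveI : IsMulCommutative G := ⟨⟨fun a b => hcyc.commGroup.mul_comm a b⟩⟩
  haveI : IsSimpleGroup G := ⟨fun H _ => IsSimpleOrder.eq_bot_or_eq_top H⟩
  exact (Group.is_simple_iff_prime_card).1 inferInstance

open Pointwise in
/-- In a primitive permutation group, distinct points have distinct stabilisers unless the group is regular of prime degree. -/
theorem result {α : Type*} (G : Subgroup (Equiv.Perm α)) [MulAction.IsPreprimitive G α] (h : ¬ (Nat.card α).Prime ∨ ∃ a : α, MulAction.stabilizer G a ≠ ⊥) {a b : α} (hab : a ≠ b) : MulAction.stabilizer G a ≠ MulAction.stabilizer G b := by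
  classical
  intro hst
  set S := MulAction.stabilizer G a with hS
  -- the set of points with stabiliser `S`
  let B : Set α := {x | MulAction.stabilizer G x = S}
  have hconj : ∀ (g : G) (x : α), MulAction.stabilizer G (g • x) = (MulAction.stabilizer G x).map (MulAut.conj g).toMonoidHom := by
    intro g x
    exact MulAction.stabilizer_smul_eq_stabilizer_map_conj g x
  have hblock : MulAction.IsBlock G B := by
    rw [MulAction.isBlock_iff_smul_eq_of_mem]
    intro g x hx hgx
    have hx' : MulAction.stabilizer G x = S := hx
    have hgx' : MulAction.stabilizer G (g • x) = S := hgx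
    rw [hconj, hx'] at hgx'
    ext y
    rw [Set.mem_smul_set_iff_inv_smul_mem]
    constructor
    · intro hy
      have hy' : MulAction.stabilizer G (g⁻¹ • y) = S := hy
      have h1 : y = g • (g⁻¹ • y) := by simp
      show MulAction.stabilizer G y = S
      rw [h1, hconj, hy', hgx']
    · intro hy
      have hy' : MulAction.stabilizer G y = S := hy
      show MulAction.stabilizer G (g⁻¹ • y) = S
      rw [hconj, hy']
      conv_lhs => rw [← hgx']
      rw [Subgroup.map_map]
      have hid : (MulEquiv.toMonoidHom (MulAut.conj g⁻¹)).comp (MulEquiv.toMonoidHom (MulAut.conj g)) = MonoidHom.id G := by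
        ext u
        simp [MulAut.conj_apply]
      rw [hid, Subgroup.map_id]
  have haB : a ∈ B := rfl
  have hbB : b ∈ B := by
    show MulAction.stabilizer G b = S
    exact hst.symm
  rcases hblock.subsingleton_or_eq_univ with hsub | huniv
  · exact hab (hsub haB hbB)
  · have hall : ∀ x : α, MulAction.stabilizer G x = S := by
      intro x
      have : x ∈ B := by rw [huniv]; trivial
      exact this
    have hbot : S = ⊥ := by
      rw [eq_bot_iff]
      rintro ⟨s, hs⟩ hs2
      rw [Subgroup.mem_bot]
      apply Subtype.ext
      ext x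
      have h2 : (⟨s, hs⟩ : G) ∈ MulAction.stabilizer G x := by rw [hall x]; exact hs2
      exact h2
    rcases h with hnp | ⟨c, hc⟩
    · apply hnp
      haveI : Nontrivial α := ⟨⟨a, b, hab⟩⟩
      have hco := MulAction.IsPreprimitive.isCoatom_stabilizer_of_isPreprimitive (G := G) a
      rw [← hS, hbot] at hco
      have hp := prime_card_of_isCoatom_bot hco
      have hbij : Function.Bijective (fun g : G => g • a) := by
        constructor
        · intro g₁ g₂ h12
          have h3 : g₂⁻¹ * g₁ ∈ S := by
            show (g₂⁻¹ * g₁) • a = a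
            rw [mul_smul]
            have h12' : g₁ • a = g₂ • a := h12
            rw [h12']
            simp
          rw [hbot, Subgroup.mem_bot] at h3
          exact (inv_mul_eq_one.1 h3).symm
        · intro x
          exact MulAction.exists_smul_eq G a x
      rwa [← Nat.card_eq_of_bijective _ hbij]
    · exact hc ((hall c).trans hbot)

end Cfsg.Agent.S0707
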