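import Cfsg.Statements.S0708
import Mathlib.Tactic

set_option autoImplicit false
open Cfsg

namespace Cfsg.Agent.S0708

section
variable {G : Type*} [Group G] {Ω : Type*} [MulAction G Ω]

private def D4 (a b c d : Ω) : Prop := a ≠ b ∧ a ≠ c ∧ a ≠ d ∧ b ≠ c ∧ b ≠ d ∧ c ≠ d

private def emb {a b c d : Ω} (h : D4 a b c d) : Fin 4 ↪ Ω :=
  ⟨![a, b, c, d], by
    obtain ⟨h1, h2, h3, h4, h5, h6⟩ := h
    intro i j hij
    fin_cases i <;> fin_cases j <;> simp_all [eq_comm]⟩

private lemma ex4 (h4 : MulAction.IsMultiplyPretransitive G Ω 4) {a b c d a' b' c' d' : Ω}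
    (h : D4 a b c d) (h' : D4 a' b' c' d') :
    ∃ g : G, g • a = a' ∧ g • b = b' ∧ g • c = c' ∧ g • d = d' := by
  obtain ⟨g, hg⟩ := h4.exists_smul_eq (emb h) (emb h')
  refine ⟨g, ?_, ?_, ?_, ?_⟩
  · simpa [emb] using DFunLike.congr_fun hg (0 : Fin 4)
  · simpa [emb] using DFunLike.congr_fun hg (1 : Fin 4)
  · simpa [emb] using DFunLike.congr_fun hg (2 : Fin 4)
  · simpa [emb] using DFunLike.congr_fun hg (3 : Fin 4)

private lemma eq_one4 (hsharp : ∀ x : Fin 4 ↪ Ω, MulAction.stabilizer G x = ⊥) {a b c d : Ω}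
    (h : D4 a b c d) {g : G} (ha : g • a = a) (hb : g • b = b) (hc : g • c = c) (hd : g • d = d) :
    g = 1 := by
  have : g ∈ MulAction.stabilizer G (emb h) := by
    rw [MulAction.mem_stabilizer_iff]
    ext i
    fin_cases i <;> simp [emb, ha, hb, hc, hd]
  rw [hsharp] at this
  simpa using this

private lemma uniq4 (hsharp : ∀ x : Fin 4 ↪ Ω, MulAction.stabilizer G x = ⊥) {a b c d : Ω}
    (h : D4 a b c d) {g g' : G} (ha : g • a = g' • a) (hb : g • b = g' • b) (hc : g • c = g' • c)
    (hd : g • d = g' • d) : g = g' := by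
  have := eq_one4 hsharp h (g := g'⁻¹ * g) (by rw [mul_smul, ha, inv_smul_smul])
    (by rw [mul_smul, hb, inv_smul_smul]) (by rw [mul_smul, hc, inv_smul_smul])
    (by rw [mul_smul, hd, inv_smul_smul])
  exact (inv_mul_eq_one.mp this).symm

/-- A non-identity element fixes at most three points. -/
private lemma fix_le (hsharp : ∀ x : Fin 4 ↪ Ω, MulAction.stabilizer G x = ⊥) {g : G} (hg : g ≠ 1)
    (S : Set Ω) (hS : ∀ x ∈ S, g • x = x) : S.Finite ∧ S.ncard ≤ 3 := by
  by_contra hcon
  have h4 : (4 : ℕ∞) ≤ S.encard := by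
    by_contra hlt
    push Not at hlt
    have hle : S.encard ≤ (3 : ℕ∞) := by
      have h34 : ((3 : ℕ∞) + 1) = 4 := by norm_num
      rw [← h34] at hlt
      exact Order.le_of_lt_add_one hlt
    apply hcon
    have hfin : S.Finite := Set.finite_of_encard_le_coe (k := 3) hle
    refine ⟨hfin, ?_⟩
    rw [← hfin.cast_ncard_eq] at hle
    exact_mod_cast hle
  obtain ⟨t, hts, ht⟩ := Set.exists_subset_encard_eq h4
  obtain ⟨a, b, c, d, hab, hac, had, hbc, hbd, hcd, rfl⟩ := Set.encard_eq_four.mp ht
  exact hg (eq_one4 hsharp (a := a) (b := b) (c := c) (d := d) ⟨hab, hac, had, hbc, hbd, hcd⟩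
    (hS _ (hts (by simp))) (hS _ (hts (by simp))) (hS _ (hts (by simp))) (hS _ (hts (by simp))))

/-- Parity of the number of fixed points of an involution. -/
private lemma parity [Finite Ω] {τ : G} (hτ : τ * τ = 1) (F : Set Ω) (hF : ∀ x, x ∈ F ↔ τ • x = x) :
    Nat.card Ω % 2 = F.ncard % 2 := by
  classical
  haveI := Fintype.ofFinite Ω
  let f : Function.End Ω := fun x => τ • x
  have hf : f ^ 2 ^ 1 = 1 := by
    funext x
    change τ • τ • x = x
    rw [← mul_smul, hτ, one_smul]
  haveI : Fact (Nat.Prime 2) := ⟨Nat.prime_two⟩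
  have := Equiv.Perm.card_fixedPoints_modEq (p := 2) (n := 1) (f := f) hf
  have h2 : Fintype.card (Function.fixedPoints f) = F.ncard := by
    rw [← Nat.card_eq_fintype_card, Set.ncard_eq_toFinset_card', Set.toFinset_card,
      ← Nat.card_eq_fintype_card]
    apply Nat.card_congr
    apply Equiv.subtypeEquivRight
    intro x
    rw [hF]
    rfl
  rw [h2] at this
  rw [Nat.card_eq_fintype_card]
  exact this

/-- The commuting involution. -/
private lemma exists_J (h4 : MulAction.IsMultiplyPretransitive G Ω 4)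
    (hsharp : ∀ x : Fin 4 ↪ Ω, MulAction.stabilizer G x = ⊥) {a b : Ω} (hab : a ≠ b) {τ : G}
    (hτa : τ • a = b) (hτb : τ • b = a) (hτ : τ * τ = 1) {x : Ω} (hxa : x ≠ a) (hxb : x ≠ b)
    (hx : τ • x ≠ x) :
    ∃ J : G, J • a = a ∧ J • b = b ∧ J • x = τ • x ∧ J • (τ • x) = x ∧ J * τ = τ * J ∧ J * J = 1 := by
  have hττ : ∀ y : Ω, τ • τ • y = y := fun y => by rw [← mul_smul, hτ, one_smul]
  have hxa' : τ • x ≠ a := fun h => hxb (by rw [← hττ x, h, hτa])
  have hxb' : τ • x ≠ b := fun h => hxa (by rw [← hττ x, h, hτb])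
  have hD : D4 a b x (τ • x) := ⟨hab, hxa.symm, hxa'.symm, hxb.symm, hxb'.symm, hx.symm⟩
  have hD' : D4 a b (τ • x) x := ⟨hab, hxa'.symm, hxa.symm, hxb'.symm, hxb.symm, hx⟩
  obtain ⟨J, h1, h2, h3, h4⟩ := ex4 h4 hD hD'
  refine ⟨J, h1, h2, h3, h4, ?_, ?_⟩
  · apply uniq4 hsharp hD
    · simp only [mul_smul, hτa, h2, h1]
    · simp only [mul_smul, hτb, h2, h1]
    · rw [mul_smul, mul_smul, h3, h4, hττ]
    · rw [mul_smul, mul_smul, hττ, h3, h4]
  · apply uniq4 hsharp hD
    · simp only [mul_smul, h1, one_smul]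
    · simp only [mul_smul, h2, one_smul]
    · simp only [mul_smul, h3, h4, one_smul]
    · simp only [mul_smul, h3, h4, one_smul]

end

/-- Tits' argument: a sharply 4-transitive group (no finiteness assumed) has finite degree at most 11, and at most 6 when the degree is even. -/
theorem result {G : Type*} [Group G] {Ω : Type*} [MulAction G Ω] (h4 : MulAction.IsMultiplyPretransitive G Ω 4) (hsharp : ∀ x : Fin 4 ↪ Ω, MulAction.stabilizer G x = ⊥) (hne : Nonempty (Fin 4 ↪ Ω)) : Finite Ω ∧ Nat.card Ω ≤ 11 ∧ (Even (Nat.card Ω) → Nat.card Ω ≤ 6) := by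
  classical
  obtain ⟨y⟩ := hne
  obtain ⟨a, b, c, d, hD⟩ : ∃ a b c d : Ω, D4 a b c d := by
    refine ⟨y 0, y 1, y 2, y 3, ?_⟩
    refine ⟨?_, ?_, ?_, ?_, ?_, ?_⟩ <;> (intro h; have := y.injective h; revert this; decide)
  obtain ⟨hab, hac, had, hbc, hbd, hcd⟩ := id hD
  -- the involution `(a b)` fixing `c, d`
  obtain ⟨τ, hτa, hτb, hτc, hτd⟩ := ex4 h4 hD (⟨hab.symm, hbc, hbd, hac, had, hcd⟩ : D4 b a c d)
  have hτ : τ * τ = 1 := by
    apply eq_one4 hsharp hD <;> simp [mul_smul, *]
  have hττ : ∀ z : Ω, τ • τ • z = z := fun z => by rw [← mul_smul, hτ, one_smul]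
  have hτne : τ ≠ 1 := by
    rintro rfl
    rw [one_smul] at hτa
    exact hab hτa
  by_cases hthird : ∃ e : Ω, τ • e = e ∧ e ≠ c ∧ e ≠ d
  · -- three fixed points
    obtain ⟨e, hτe, hec, hed⟩ := hthird
    have hea : e ≠ a := by
      rintro rfl
      exact hab (hτe.symm.trans hτa)
    have heb : e ≠ b := by
      rintro rfl
      exact hab (hτb.symm.trans hτe)
    have hFix : ∀ z, τ • z = z ↔ z = c ∨ z = d ∨ z = e := by
      intro z
      constructor
      · intro hz
        by_contra hcon
        push Not at hcon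
        exact hτne (eq_one4 hsharp (a := c) (b := d) (c := e) (d := z)
          ⟨hcd, hec.symm, hcon.1.symm, hed.symm, hcon.2.1.symm, hcon.2.2.symm⟩ hτc hτd hτe hz)
      · rintro (rfl | rfl | rfl) <;> assumption
    -- three candidate involutions
    obtain ⟨Je, Je1, Je2, Je3, Je4⟩ := ex4 h4 hD (⟨hab, had, hac, hbd, hbc, hcd.symm⟩ : D4 a b d c)
    have hDe : D4 a b c e := ⟨hab, hac, hea.symm, hbc, heb.symm, hec.symm⟩
    obtain ⟨Jd, Jd1, Jd2, Jd3, Jd4⟩ := ex4 h4 hDe (⟨hab, hea.symm, hac, heb.symm, hbc, hec⟩ : D4 a b e c)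
    have hDc : D4 a b d e := ⟨hab, had, hea.symm, hbd, heb.symm, hed.symm⟩
    obtain ⟨Jc, Jc1, Jc2, Jc3, Jc4⟩ := ex4 h4 hDc (⟨hab, hea.symm, had, heb.symm, hbd, hed⟩ : D4 a b e d)
    -- the sets
    let Se : Set Ω := {x | x ≠ a ∧ x ≠ b ∧ x ≠ c ∧ x ≠ d ∧ x ≠ e ∧ Je • x = τ • x ∧ Je • e = e}
    let Sd : Set Ω := {x | x ≠ a ∧ x ≠ b ∧ x ≠ c ∧ x ≠ d ∧ x ≠ e ∧ Jd • x = τ • x ∧ Jd • d = d}
    let Sc : Set Ω := {x | x ≠ a ∧ x ≠ b ∧ x ≠ c ∧ x ≠ d ∧ x ≠ e ∧ Jc • x = τ • x ∧ Jc • c = c}
    have hbound : ∀ (J : G) (u : Ω) (S : Set Ω), J • a = a → (∀ x ∈ S, J • x = τ • x) →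
        (S.Nonempty → J • u = u) → τ • u = u → u ∉ S → S.Finite ∧ S.ncard ≤ 2 := by
      intro J u S hJa hJS hJu hτu huS
      have hg : τ⁻¹ * J ≠ 1 := by
        intro h
        have : (τ⁻¹ * J) • a = a := by rw [h, one_smul]
        rw [mul_smul, hJa, inv_smul_eq_iff, hτa] at this
        exact hab this
      rcases S.eq_empty_or_nonempty with rfl | hne
      · simp
      have hfix := fix_le hsharp hg (insert u S) (by
        intro x hx
        rw [mul_smul, inv_smul_eq_iff]
        rcases hx with rfl | hx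
        · rw [hJu hne, hτu]
        · exact hJS x hx)
      have hSfin : S.Finite := hfix.1.subset (Set.subset_insert _ _)
      refine ⟨hSfin, ?_⟩
      have := hfix.2
      rw [Set.ncard_insert_of_notMem huS hSfin] at this
      omega
    have hSe := hbound Je e Se Je1 (fun x hx => hx.2.2.2.2.2.1) (fun ⟨x, hx⟩ => hx.2.2.2.2.2.2) hτe
      (fun h => h.2.2.2.2.1 rfl)
    have hSd := hbound Jd d Sd Jd1 (fun x hx => hx.2.2.2.2.2.1) (fun ⟨x, hx⟩ => hx.2.2.2.2.2.2) hτd
      (fun h => h.2.2.2.1 rfl)
    have hSc := hbound Jc c Sc Jc1 (fun x hx => hx.2.2.2.2.2.1) (fun ⟨x, hx⟩ => hx.2.2.2.2.2.2) hτc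
      (fun h => h.2.2.1 rfl)
    have hcover : ∀ x : Ω, x ≠ a → x ≠ b → x ≠ c → x ≠ d → x ≠ e → x ∈ Se ∪ Sd ∪ Sc := by
      intro x hxa hxb hxc hxd hxe
      have hx : τ • x ≠ x := fun h => by
        rcases (hFix x).mp h with h | h | h
        · exact hxc h
        · exact hxd h
        · exact hxe h
      obtain ⟨J, J1, J2, J3, J4, J5, J6⟩ := exists_J h4 hsharp hab hτa hτb hτ hxa hxb hx
      have hJJ : ∀ z : Ω, J • (J • z) = z := fun z => by rw [← mul_smul, J6, one_smul]
      have hJF : ∀ z : Ω, τ • z = z → τ • (J • z) = J • z := by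
        intro z hz
        rw [← mul_smul, ← J5, mul_smul, hz]
      have hne1 : J ≠ 1 := by
        rintro rfl
        rw [one_smul] at J3
        exact hx J3.symm
      -- `J` does not fix two of the three points
      have h2 : ∀ u v : Ω, u ≠ a → u ≠ b → v ≠ a → v ≠ b → u ≠ v → J • u = u → J • v = v → False :=
        fun u v h1 h2 h3 h4 h5 h6 h7 => hne1 (eq_one4 hsharp
          (⟨hab, h1.symm, h3.symm, h2.symm, h4.symm, h5⟩ : D4 a b u v) J1 J2 h6 h7)
      have hJc := (hFix _).mp (hJF c hτc)
      have hJd := (hFix _).mp (hJF d hτd)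
      have hJe := (hFix _).mp (hJF e hτe)
      rcases hJc with hc | hc | hc
      · -- `J c = c`
        have hd : J • d = e := by
          rcases hJd with h | h | h
          · exact absurd (MulAction.injective J (h.trans hc.symm)) hcd.symm
          · exact absurd h (fun h => h2 c d hac.symm hbc.symm had.symm hbd.symm hcd hc h)
          · exact h
        have he' : J • e = d := by rw [← hd, hJJ]
        have : J = Jc := uniq4 hsharp hDc (J1.trans Jc1.symm) (J2.trans Jc2.symm)
          (hd.trans Jc3.symm) (he'.trans Jc4.symm)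
        subst this
        exact Or.inr ⟨hxa, hxb, hxc, hxd, hxe, J3, hc⟩
      · -- `J c = d`
        have hd' : J • d = c := by rw [← hc, hJJ]
        have : J = Je := uniq4 hsharp hD (J1.trans Je1.symm) (J2.trans Je2.symm)
          (hc.trans Je3.symm) (hd'.trans Je4.symm)
        subst this
        have hee : J • e = e := by
          rcases hJe with h | h | h
          · exact absurd (MulAction.injective J (h.trans hd'.symm)) hed
          · exact absurd (MulAction.injective J (h.trans hc.symm)) hec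
          · exact h
        exact Or.inl (Or.inl ⟨hxa, hxb, hxc, hxd, hxe, J3, hee⟩)
      · -- `J c = e`
        have he' : J • e = c := by rw [← hc, hJJ]
        have : J = Jd := uniq4 hsharp hDe (J1.trans Jd1.symm) (J2.trans Jd2.symm)
          (hc.trans Jd3.symm) (he'.trans Jd4.symm)
        subst this
        have hdd : J • d = d := by
          rcases hJd with h | h | h
          · exact absurd (MulAction.injective J (h.trans he'.symm)) hed.symm
          · exact h
          · exact absurd (MulAction.injective J (h.trans hc.symm)) hcd.symm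
        exact Or.inl (Or.inr ⟨hxa, hxb, hxc, hxd, hxe, J3, hdd⟩)
    have huniv : (Set.univ : Set Ω) ⊆ {a, b, c, d, e} ∪ (Se ∪ Sd ∪ Sc) := by
      intro x _
      by_cases h1 : x = a
      · simp [h1]
      by_cases h2 : x = b
      · simp [h2]
      by_cases h3 : x = c
      · simp [h3]
      by_cases h4 : x = d
      · simp [h4]
      by_cases h5 : x = e
      · simp [h5]
      exact Or.inr (hcover x h1 h2 h3 h4 h5)
    have hfinU : (Set.univ : Set Ω).Finite := by
      refine Set.Finite.subset ?_ huniv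
      exact (by simp : ({a, b, c, d, e} : Set Ω).Finite).union ((hSe.1.union hSd.1).union hSc.1)
    have hfin : Finite Ω := Set.finite_univ_iff.mp hfinU
    have hcard : Nat.card Ω ≤ 11 := by
      rw [← Set.ncard_univ]
      refine (Set.ncard_le_ncard huniv (Set.toFinite _)).trans ?_
      refine (Set.ncard_union_le _ _).trans ?_
      have h5 : ({a, b, c, d, e} : Set Ω).ncard ≤ 5 := by
        refine (Set.ncard_insert_le _ _).trans ?_
        have := (Set.ncard_insert_le b ({c, d, e} : Set Ω))
        have h3 := (Set.ncard_insert_le c ({d, e} : Set Ω))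
        have h2 : ({d, e} : Set Ω).ncard ≤ 2 := by
          refine (Set.ncard_insert_le _ _).trans ?_
          simp
        omega
      have h6 : (Se ∪ Sd ∪ Sc).ncard ≤ 6 := by
        refine (Set.ncard_union_le _ _).trans ?_
        have := Set.ncard_union_le Se Sd
        have := hSe.2
        have := hSd.2
        have := hSc.2
        omega
      omega
    refine ⟨hfin, hcard, ?_⟩
    intro heven
    exfalso
    have hF3 : ({c, d, e} : Set Ω).ncard = 3 := by
      rw [Set.ncard_eq_toFinset_card']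
      simp [Finset.card_insert_of_notMem, hcd, hec.symm, hed.symm]
    have := parity hτ ({c, d, e} : Set Ω) (by
      intro x
      simp only [Set.mem_insert_iff, Set.mem_singleton_iff]
      exact (hFix x).symm)
    rw [hF3] at this
    rw [Nat.even_iff] at heven
    omega
  · -- two fixed points
    push Not at hthird
    have hFix : ∀ z, τ • z = z ↔ z = c ∨ z = d := by
      intro z
      constructor
      · intro hz
        by_contra hcon
        push Not at hcon
        exact hcon.2 (hthird z hz hcon.1)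
      · rintro (rfl | rfl) <;> assumption
    obtain ⟨J0, J01, J02, J03, J04⟩ := ex4 h4 hD (⟨hab, had, hac, hbd, hbc, hcd.symm⟩ : D4 a b d c)
    have hg : τ⁻¹ * J0 ≠ 1 := by
      intro h
      have : (τ⁻¹ * J0) • a = a := by rw [h, one_smul]
      rw [mul_smul, J01, inv_smul_eq_iff, hτa] at this
      exact hab this
    let W : Set Ω := {x | x ≠ a ∧ x ≠ b ∧ x ≠ c ∧ x ≠ d}
    have hW : ∀ x ∈ W, J0 • x = τ • x := by
      rintro x ⟨hxa, hxb, hxc, hxd⟩
      have hx : τ • x ≠ x := fun h => by
        rcases (hFix x).mp h with h | h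
        · exact hxc h
        · exact hxd h
      obtain ⟨J, J1, J2, J3, J4, J5, J6⟩ := exists_J h4 hsharp hab hτa hτb hτ hxa hxb hx
      have hJJ : ∀ z : Ω, J • (J • z) = z := fun z => by rw [← mul_smul, J6, one_smul]
      have hJF : ∀ z : Ω, τ • z = z → τ • (J • z) = J • z := by
        intro z hz
        rw [← mul_smul, ← J5, mul_smul, hz]
      have hne1 : J ≠ 1 := by
        rintro rfl
        rw [one_smul] at J3
        exact hx J3.symm
      have hJc := (hFix _).mp (hJF c hτc)
      have hJd := (hFix _).mp (hJF d hτd)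
      have hc : J • c = d := by
        rcases hJc with h | h
        · exfalso
          have hd : J • d = d := by
            rcases hJd with h' | h'
            · exact absurd (MulAction.injective J (h'.trans h.symm)) hcd.symm
            · exact h'
          exact hne1 (eq_one4 hsharp hD J1 J2 h hd)
        · exact h
      have hd : J • d = c := by rw [← hc, hJJ]
      have : J = J0 := uniq4 hsharp hD (J1.trans J01.symm) (J2.trans J02.symm)
        (hc.trans J03.symm) (hd.trans J04.symm)
      subst this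
      exact J3
    have hfix := fix_le hsharp hg W (fun x hx => by
      rw [mul_smul, inv_smul_eq_iff]
      exact hW x hx)
    have huniv : (Set.univ : Set Ω) ⊆ {a, b, c, d} ∪ W := by
      intro x _
      by_cases h1 : x = a
      · simp [h1]
      by_cases h2 : x = b
      · simp [h2]
      by_cases h3 : x = c
      · simp [h3]
      by_cases h4 : x = d
      · simp [h4]
      exact Or.inr ⟨h1, h2, h3, h4⟩
    have hfinU : (Set.univ : Set Ω).Finite :=
      Set.Finite.subset ((by simp : ({a, b, c, d} : Set Ω).Finite).union hfix.1) huniv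
    have hfin : Finite Ω := Set.finite_univ_iff.mp hfinU
    have hcard : Nat.card Ω ≤ 7 := by
      rw [← Set.ncard_univ]
      refine (Set.ncard_le_ncard huniv (Set.toFinite _)).trans ?_
      refine (Set.ncard_union_le _ _).trans ?_
      have h5 : ({a, b, c, d} : Set Ω).ncard ≤ 4 := by
        refine (Set.ncard_insert_le _ _).trans ?_
        have h3 := (Set.ncard_insert_le b ({c, d} : Set Ω))
        have h2 : ({c, d} : Set Ω).ncard ≤ 2 := by
          refine (Set.ncard_insert_le _ _).trans ?_
          simp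
        omega
      have := hfix.2
      omega
    have hF2 : ({c, d} : Set Ω).ncard = 2 := Set.ncard_pair hcd
    have hpar := parity hτ ({c, d} : Set Ω) (by
      intro x
      simp only [Set.mem_insert_iff, Set.mem_singleton_iff]
      exact (hFix x).symm)
    rw [hF2] at hpar
    refine ⟨hfin, by omega, fun _ => by omega⟩

end Cfsg.Agent.S0708
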