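import Cfsg.Statements.S0709
import Cfsg.Agent.Lib.H9.WittExt
import Mathlib

set_option autoImplicit false
open Cfsg

namespace Cfsg.Agent.S0709

open CfsgLib.H9.WittExt

/-- Witt's Lemma for constructing transitive extensions. Points `q 1, …, q t` (`t ≥ 2`) of a finite set are given; `G` fixes `q i` for `i ≥ 3` and is doubly transitive on the remaining points; `s 1 ∈ G` swaps `q 1, q 2`; for `2 ≤ i ≤ t-1`, `s i` swaps `q i, q (i+1)` and fixes the other `q j`; with `H` the stabiliser of `q 1, q 2` in `G`: `s i ^ 2 ∈ H`, `(s i * s (i+1)) ^ 3 ∈ H`, `(s i * s j) ^ 2 ∈ H` for `j ≥ i + 2`, and `s i` (`i ≥ 2`) normalises the stabiliser of `q 2` in `G`. Then `G` and the `s i` generate a `t`-transitive group whose pointwise stabiliser of the `q`'s is `H`. -/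
theorem result {α : Type*} [Fintype α] [DecidableEq α] (t : ℕ) (ht : 2 ≤ t) (q : ℕ → α) (hq : ∀ i j : ℕ, 1 ≤ i → i ≤ t → 1 ≤ j → j ≤ t → q i = q j → i = j) (G : Subgroup (Equiv.Perm α)) (hfix : ∀ g ∈ G, ∀ i : ℕ, 3 ≤ i → i ≤ t → g (q i) = q i) (h2 : ∀ a b c d : α, (∀ i, 3 ≤ i → i ≤ t → a ≠ q i ∧ b ≠ q i ∧ c ≠ q i ∧ d ≠ q i) → a ≠ b → c ≠ d → ∃ g ∈ G, g a = c ∧ g b = d) (s : ℕ → Equiv.Perm α) (hs1 : s 1 ∈ G) (hs1q : s 1 (q 1) = q 2 ∧ s 1 (q 2) = q 1) (hsq : ∀ i : ℕ, 2 ≤ i → i + 1 ≤ t → s i (q i) = q (i + 1) ∧ s i (q (i + 1)) = q i ∧ ∀ j : ℕ, 1 ≤ j → j ≤ t → j ≠ i → j ≠ i + 1 → s i (q j) = q j) (H : Subgroup (Equiv.Perm α)) (hH : H = G ⊓ MulAction.stabilizer (Equiv.Perm α) (q 1) ⊓ MulAction.stabilizer (Equiv.Perm α) (q 2)) (hsq2 : ∀ i : ℕ, 1 ≤ i → i + 1 ≤ t → s i ^ 2 ∈ H) (hbraid : ∀ i : ℕ, 1 ≤ i → i + 2 ≤ t → (s i * s (i + 1)) ^ 3 ∈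 H) (hcomm : ∀ i j : ℕ, 1 ≤ i → i + 2 ≤ j → j + 1 ≤ t → (s i * s j) ^ 2 ∈ H ∧ (s j * s i) ^ 2 ∈ H) (hnorm : ∀ i : ℕ, 2 ≤ i → i + 1 ≤ t → ∀ g ∈ G ⊓ MulAction.stabilizer (Equiv.Perm α) (q 2), s i * g * (s i)⁻¹ ∈ G ⊓ MulAction.stabilizer (Equiv.Perm α) (q 2)) : MulAction.IsMultiplyPretransitive ↥(Subgroup.closure ((G : Set (Equiv.Perm α)) ∪ {x | ∃ i : ℕ, 2 ≤ i ∧ i + 1 ≤ t ∧ x = s i})) α t ∧ Subgroup.closure ((G : Set (Equiv.Perm α)) ∪ {x | ∃ i : ℕ, 2 ≤ i ∧ i + 1 ≤ t ∧ x = s i}) ⊓ fixingSubgroup (Equiv.Perm α) {x | ∃ i : ℕ, 1 ≤ i ∧ i ≤ t ∧ x = q i} = H := by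
  have hHm : ∀ g, g ∈ H ↔ g ∈ G ∧ g (q 1) = q 1 ∧ g (q 2) = q 2 := by
    intro g
    rw [hH]
    constructor
    · rintro ⟨⟨h1, h2⟩, h3⟩
      exact ⟨h1, h2, h3⟩
    · rintro ⟨h1, h2, h3⟩
      exact ⟨⟨h1, h2⟩, h3⟩
  have d : D t q G s H := {
    ht := ht
    hq := hq
    hfix := hfix
    h2 := h2
    hs1 := hs1
    hs1q := hs1q
    hsq := hsq
    hH := hHm
    hsq2 := hsq2
    hbraid := hbraid
    hcomm := hcomm
    hnorm := fun i h1 h3 g hg hg2 => by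
      obtain ⟨h4, h5⟩ := hnorm i h1 h3 g ⟨hg, hg2⟩
      exact ⟨h4, h5⟩ }
  obtain ⟨m, rfl⟩ : ∃ m, t = m + 2 := ⟨t - 2, by omega⟩
  have hT : Subgroup.closure ((G : Set (Equiv.Perm α)) ∪ {x | ∃ i : ℕ, 2 ≤ i ∧ i + 1 ≤ m + 2 ∧ x = s i}) =
      TT q G s (m + 1) := by
    change _ = Subgroup.closure _
    congr 2
    ext x
    simp only [Set.mem_setOf_eq]
    constructor
    · rintro ⟨i, h1, h3, rfl⟩
      exact ⟨i, h1, by omega, rfl⟩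
    · rintro ⟨i, h1, h3, rfl⟩
      exact ⟨i, h1, by omega, rfl⟩
  rw [hT]
  have hS := d.stage m le_rfl
  constructor
  · refine ⟨fun x y => ?_⟩
    obtain ⟨g, hg, hgk⟩ := hS.tr x y x.injective y.injective (fun k i h1 h3 => by omega)
      (fun k i h1 h3 => by omega)
    exact ⟨⟨g, hg⟩, Function.Embedding.ext hgk⟩
  · apply le_antisymm
    · rintro g ⟨hg, hgf⟩
      have hgf := mem_fixingSubgroup_iff (Equiv.Perm α) |>.mp hgf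
      exact d.descend m le_rfl g hg (fun i h1 h3 => hgf _ ⟨i, h1, h3, rfl⟩)
    · intro g hg
      refine ⟨G_le_TT m ((hHm g).mp hg).1, ?_⟩
      apply mem_fixingSubgroup_iff (Equiv.Perm α) |>.mpr
      rintro _ ⟨i, h1, h3, rfl⟩
      obtain ⟨hG, hq1, hq2⟩ := (hHm g).mp hg
      rcases (by omega : i = 1 ∨ i = 2 ∨ 3 ≤ i) with rfl | rfl | h4
      · exact hq1
      · exact hq2
      · exact hfix g hG i h4 h3

end Cfsg.Agent.S0709
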