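import Cfsg.Statements.S0710
import Cfsg.Agent.Lib.H9.SimpleTools
import Mathlib.Tactic

set_option autoImplicit false
open Cfsg MulAction

namespace Cfsg.Agent.S0710

/-- No transitive permutation group on 13 points has order `13 * 12 * 11 * 10 * 9 * 8`. -/
theorem result {α : Type*} [Fintype α] [DecidableEq α] (hα : Fintype.card α = 13) (G : Subgroup (Equiv.Perm α)) [MulAction.IsPretransitive G α] : Nat.card G ≠ 13 * 12 * 11 * 10 * 9 * 8 := by
  classical
  intro h
  haveI : Fact (Nat.Prime 13) := ⟨by norm_num⟩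
  have hG : Nat.card G = 13 ^ 1 * 95040 := by rw [h]; norm_num
  have hnd : ¬ 13 ∣ 95040 := by norm_num
  let P : Sylow 13 G := default
  have hP := CfsgLib.H9.card_sylow_of_factor hG hnd P
  have hn := CfsgLib.H9.card_sylow_dvd_cofactor hG hnd
  rw [pow_one] at hP
  have hN1 := CfsgLib.H9.card_normalizer_dvd_of_prime (by norm_num) (P : Subgroup G) hP
  -- `P` is transitive
  have hne : (P : Subgroup G) ≠ ⊥ := by
    intro hb
    rw [hb] at hP
    simp at hP
  obtain ⟨⟨x, hxP⟩, hx⟩ := (Subgroup.ne_bot_iff_exists_ne_one).mp hne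
  have hx1 : (x : Equiv.Perm α) ≠ 1 := fun h' => hx (Subtype.ext (Subtype.ext h'))
  obtain ⟨a, ha⟩ : ∃ a, (x : Equiv.Perm α) a ≠ a := by
    by_contra hcon
    push Not at hcon
    exact hx1 (Equiv.ext hcon)
  haveI htr : MulAction.IsPretransitive (P : Subgroup G) α :=
    CfsgLib.H9.isPretransitive_of_prime (p := 13) (by norm_num) hP
      (by rw [Nat.card_eq_fintype_card, hα]) (h := ⟨x, hxP⟩) (a := a) ha
  have hC : Nat.card (Subgroup.centralizer ((P : Subgroup G) : Set G)) ≤ 13 := by
    have := CfsgLib.H9.card_centralizer_le (P : Subgroup G) a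
    rwa [Nat.card_eq_fintype_card (α := α), hα] at this
  have hdvd : 13 ∣ Nat.card (Subgroup.normalizer ((P : Subgroup G) : Set G)) := by
    have := Subgroup.card_dvd_of_le (Subgroup.le_normalizer (H := (P : Subgroup G)))
    rwa [hP] at this
  have hCpos : 0 < Nat.card (Subgroup.centralizer ((P : Subgroup G) : Set G)) := Nat.card_pos
  have hidx : Nat.card (Sylow 13 G) = (Subgroup.normalizer ((P : Subgroup G) : Set G)).index :=
    Sylow.card_eq_index_normalizer P
  have hmul := Subgroup.card_mul_index (Subgroup.normalizer ((P : Subgroup G) : Set G))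
  have hcomm : IsMulCommutative (P : Subgroup G) := by
    haveI : IsCyclic (P : Subgroup G) := isCyclic_of_prime_card hP
    exact IsCyclic.isMulCommutative
  have hPC : 13 ∣ Nat.card (Subgroup.centralizer ((P : Subgroup G) : Set G)) := by
    have := Subgroup.card_dvd_of_le (Subgroup.le_centralizer (P : Subgroup G))
    rwa [hP] at this
  have hC13 : Nat.card (Subgroup.centralizer ((P : Subgroup G) : Set G)) = 13 :=
    le_antisymm hC (Nat.le_of_dvd hCpos hPC)
  rw [hC13] at hN1
  rw [← hidx, hG] at hmul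
  obtain ⟨d, hd⟩ := hdvd
  rw [hd] at hmul hN1
  have hd12 : d ∣ 12 := by
    have : 13 * d ∣ 13 * 12 := hN1
    exact Nat.dvd_of_mul_dvd_mul_left (by norm_num) this
  have hle : d ≤ 12 := Nat.le_of_dvd (by norm_num) hd12
  have h2 : d * Nat.card (Sylow 13 G) = 95040 := by
    have : 13 * (d * Nat.card (Sylow 13 G)) = 13 * 95040 := by
      rw [← mul_assoc]; simpa using hmul
    exact Nat.eq_of_mul_eq_mul_left (by norm_num) this
  have h3 := hn.2
  generalize Nat.card (Sylow 13 G) = n at h2 h3
  interval_cases d <;> first | omega | (exfalso; revert hd12; norm_num)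

end Cfsg.Agent.S0710
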