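import Cfsg.Statements.S0711
import Mathlib

set_option autoImplicit false
open Cfsg

namespace Cfsg.Agent.S0711

section
variable {α : Type*} [Fintype α] [DecidableEq α]

open Equiv Equiv.Perm

private lemma core (g x : Perm α) (A B : Finset α) (y z : α) (hAB : A ⊆ B) (hyA : y ∈ A)
    (hgyB : g y ∉ B) (hxB : ∀ u ∈ B, x u = u) (hxy : x (g y) = z) (hz : z ≠ g y)
    (hexit : ∀ u ∈ A, u ≠ y → g u ∈ A) :
    (g⁻¹ * (x * g * x⁻¹)) y ≠ y ∧ (g⁻¹ * (x * g * x⁻¹)).support ⊆
      (g.support \ (A.erase y)) ∪ (g.support \ (insert (g y) B)).image x ∪ ({z} \ g.support) := by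
  have hxinv : ∀ u ∈ B, x⁻¹ u = u := fun u hu => by
    rw [Perm.inv_eq_iff_eq, hxB u hu]
  have hxx : ∀ u, x (x⁻¹ u) = u := fun u => by simp
  have hgg : ∀ u, g⁻¹ (g u) = u := fun u => by simp
  constructor
  · simp only [Perm.mul_apply]
    rw [hxinv y (hAB hyA), hxy]
    intro h
    rw [Perm.inv_eq_iff_eq] at h
    exact hz h
  · intro v hv
    rw [Perm.mem_support] at hv
    simp only [Perm.mul_apply] at hv
    simp only [Finset.mem_union, Finset.mem_sdiff, Finset.mem_image, Finset.mem_erase,
      Finset.mem_singleton, Finset.mem_insert, Perm.mem_support, not_and, not_not, ne_eq]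
    by_cases hvA : v ∈ A ∧ v ≠ y
    · exfalso
      apply hv
      have h1 := hexit v hvA.1 hvA.2
      rw [hxinv v (hAB hvA.1), hxB _ (hAB h1), hgg]
    by_cases hvT : g v = v
    · -- `v` outside the support of `g`
      have hgi : g⁻¹ v = v := by rw [Perm.inv_eq_iff_eq, hvT]
      have hu : g (x⁻¹ v) ≠ x⁻¹ v := by
        intro h
        apply hv
        rw [h, hxx, hgi]
      by_cases hB : x⁻¹ v ∈ B
      · exfalso
        have h1 := hxB _ hB
        rw [hxx] at h1
        rw [← h1] at hu
        exact hu hvT
      by_cases hgy : x⁻¹ v = g y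
      · right
        have : v = z := by
          rw [← hxy, ← hgy, hxx]
        exact ⟨this, hvT⟩
      · left; right
        refine ⟨x⁻¹ v, ⟨hu, ?_⟩, hxx v⟩
        intro h
        rcases h with h | h
        · exact absurd h hgy
        · exact absurd h hB
    · left; left
      refine ⟨hvT, ?_⟩
      intro h1 h2
      exact hvA ⟨h2, h1⟩

/-- Sets with at most one exit. -/
private lemma exists_A (g : Perm α) (a : ℕ) (ha : a ≤ g.support.card) :
    ∃ A : Finset α, A ⊆ g.support ∧ A.card = a ∧ ∀ u ∈ A, ∀ v ∈ A, g u ∉ A → g v ∉ A → u = v := by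
  induction a with
  | zero => exact ⟨∅, by simp, by simp, by simp⟩
  | succ a ih =>
    obtain ⟨A, hA, hAc, hAe⟩ := ih (by omega)
    by_cases hex : ∃ y ∈ A, g y ∉ A
    · obtain ⟨y, hy, hgy⟩ := hex
      refine ⟨insert (g y) A, ?_, ?_, ?_⟩
      · apply Finset.insert_subset _ hA
        exact Perm.apply_mem_support.mpr (hA hy)
      · rw [Finset.card_insert_of_notMem hgy, hAc]
      · have key : ∀ u ∈ insert (g y) A, g u ∉ insert (g y) A → u = g y := by
          intro u hu hgu
          rcases Finset.mem_insert.mp hu with h | h
          · exact h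
          · exfalso
            have h1 : g u ∉ A := fun h' => hgu (Finset.mem_insert_of_mem h')
            have h2 := hAe u h y hy h1 hgy
            subst h2
            exact hgu (Finset.mem_insert_self _ _)
        intro u hu v hv h1 h2
        rw [key u hu h1, key v hv h2]
    · push Not at hex
      obtain ⟨t, ht, htA⟩ : ∃ t ∈ g.support, t ∉ A := by
        by_contra hcon
        push Not at hcon
        have : g.support.card ≤ A.card := Finset.card_le_card hcon
        omega
      refine ⟨insert t A, Finset.insert_subset ht hA, ?_, ?_⟩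
      · rw [Finset.card_insert_of_notMem htA, hAc]
      · have key : ∀ u ∈ insert t A, g u ∉ insert t A → u = t := by
          intro u hu hgu
          rcases Finset.mem_insert.mp hu with h | h
          · exact h
          · exact absurd (Finset.mem_insert_of_mem (hex u h)) hgu
        intro u hu v hv h1 h2
        rw [key u hu h1, key v hv h2]

/-- An invariant subset of the support of an element of prime order has size divisible by `p`. -/
private lemma dvd_card_of_inv (g : Perm α) {p : ℕ} (hp : p.Prime) (hg : g ^ p = 1) (A : Finset α)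
    (hA : A ⊆ g.support) (hinv : ∀ u ∈ A, g u ∈ A) : p ∣ A.card := by
  haveI : Fact p.Prime := ⟨hp⟩
  let f : Function.End ↥A := fun u => ⟨g u, hinv u u.2⟩
  have hf : f ^ p ^ 1 = 1 := by
    have hpow : ∀ n (u : ↥A), ((f ^ n) u : α) = (g ^ n) u := by
      intro n u
      induction n with
      | zero => rfl
      | succ n ih =>
        rw [pow_succ', pow_succ']
        change g ((f ^ n) u : α) = _
        rw [ih]
        rfl
    funext u
    apply Subtype.ext
    rw [pow_one, hpow, hg]
    rfl
  have := Equiv.Perm.card_fixedPoints_modEq (p := p) (n := 1) (f := f) hf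
  have hempty : Fintype.card (Function.fixedPoints f) = 0 := by
    rw [Fintype.card_eq_zero_iff]
    constructor
    rintro ⟨u, hu⟩
    have h1 : g u = u := congrArg Subtype.val hu
    exact (Perm.mem_support.mp (hA u.2)) h1
  rw [hempty, Fintype.card_coe] at this
  exact (Nat.modEq_zero_iff_dvd.mp this)

/-- Elements with prescribed values. -/
private lemma exists_extend (G : Subgroup (Perm α)) {k : ℕ} (hkn : k ≤ Fintype.card α)
    (hG : MulAction.IsMultiplyPretransitive G α k) (Q : Finset α) (hQ : Q.card ≤ k) (φ : α → α)
    (hφ : Set.InjOn φ Q) : ∃ x ∈ G, ∀ q ∈ Q, x q = φ q := by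
  haveI := hG
  have hT : MulAction.IsMultiplyPretransitive G α Q.card :=
    MulAction.isMultiplyPretransitive_of_le (n := k) hQ (by rwa [Nat.card_eq_fintype_card])
  let e : Fin Q.card ≃ ↥Q := Q.equivFin.symm
  let e₁ : Fin Q.card ↪ α := e.toEmbedding.trans (Function.Embedding.subtype _)
  let e₂ : Fin Q.card ↪ α := ⟨fun i => φ (e i), by
    intro i j hij
    have := hφ (e i).2 (e j).2 hij
    exact e.injective (Subtype.ext this)⟩
  obtain ⟨⟨x, hx⟩, hxe⟩ := hT.exists_smul_eq e₁ e₂
  refine ⟨x, hx, fun q hq => ?_⟩
  have := DFunLike.congr_fun hxe (e.symm ⟨q, hq⟩)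
  change x ((e (e.symm ⟨q, hq⟩) : ↥Q) : α) = φ (e (e.symm ⟨q, hq⟩)) at this
  simpa using this

end

/-- A `k`-transitive permutation group (`k ≥ 3`) with a non-identity element of support smaller than `2k - 2` contains a non-identity element of support at most 3, and therefore contains the alternating group. -/
theorem result {α : Type*} [Fintype α] [DecidableEq α] (G : Subgroup (Equiv.Perm α)) {k : ℕ} (hk : 3 ≤ k) (hkn : k ≤ Fintype.card α) (hG : MulAction.IsMultiplyPretransitive G α k) (g : Equiv.Perm α) (hg : g ∈ G) (hg1 : g ≠ 1) (hsupp : g.support.card < 2 * k - 2) : (∃ h : Equiv.Perm α, h ∈ G ∧ h ≠ 1 ∧ h.support.card ≤ 3) ∧ alternatingGroup α ≤ G := by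
  classical
  -- an element of minimal support
  have hex : ∃ n, ∃ h ∈ G, h ≠ 1 ∧ h.support.card = n := ⟨_, g, hg, hg1, rfl⟩
  obtain ⟨g₀, hg₀G, hg₀1, hg₀⟩ := Nat.find_spec hex
  have hmin₀ : ∀ h ∈ G, h ≠ 1 → g₀.support.card ≤ h.support.card := by
    intro h hhG hh1
    rw [hg₀]
    exact Nat.find_min' hex ⟨h, hhG, hh1, rfl⟩
  have hle : g₀.support.card < 2 * k - 2 := (hmin₀ g hg hg1).trans_lt hsupp
  have hsmall : g₀.support.card ≤ 3 := by
    by_contra hcon
    push Not at hcon
    -- a power of prime order
    have hord1 : orderOf g₀ ≠ 1 := by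
      rw [Ne, orderOf_eq_one_iff]; exact hg₀1
    set p := (orderOf g₀).minFac with hpdef
    have hp : p.Prime := Nat.minFac_prime hord1
    have hpd : p ∣ orderOf g₀ := Nat.minFac_dvd _
    let g₁ := g₀ ^ (orderOf g₀ / p)
    have hordg₁ : orderOf g₁ = p := orderOf_pow_orderOf_div (orderOf_pos g₀).ne' hpd
    have hg₁G : g₁ ∈ G := G.pow_mem hg₀G _
    have hg₁1 : g₁ ≠ 1 := by
      rw [Ne, ← orderOf_eq_one_iff, hordg₁]
      exact hp.ne_one
    have hg₁p : g₁ ^ p = 1 := by rw [← hordg₁]; exact pow_orderOf_eq_one _
    have hg₁supp : g₁.support ⊆ g₀.support := Equiv.Perm.support_pow_le _ _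
    have hm : g₁.support.card = g₀.support.card :=
      le_antisymm (Finset.card_le_card hg₁supp) (hmin₀ g₁ hg₁G hg₁1)
    set T := g₁.support with hT
    set m := T.card with hmdef
    have hmin : ∀ h ∈ G, h ≠ 1 → m ≤ h.support.card := by
      intro h hhG hh1
      rw [hm]
      exact hmin₀ h hhG hh1
    have hm4 : 4 ≤ m := by omega
    have hm2k : m < 2 * k - 2 := by omega
    have hTinv : ∀ u ∈ T, g₁ u ∈ T := fun u hu => Equiv.Perm.apply_mem_support.mpr hu
    have hpm : p ∣ m := dvd_card_of_inv g₁ hp hg₁p T subset_rfl hTinv
    -- a reformulation of the final step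
    have hfinal : ∀ (A B : Finset α) (y z : α) (x : Equiv.Perm α), x ∈ G → A ⊆ B → y ∈ A →
        g₁ y ∉ B → (∀ u ∈ B, x u = u) → x (g₁ y) = z → z ≠ g₁ y →
        (∀ u ∈ A, u ≠ y → g₁ u ∈ A) →
        m ≤ ((T \ (A.erase y)) ∪ (T \ (insert (g₁ y) B)).image x ∪ ({z} \ T)).card := by
      intro A B y z x hxG hAB hyA hgyB hxB hxy hz hexit
      obtain ⟨h1, h2⟩ := core g₁ x A B y z hAB hyA hgyB hxB hxy hz hexit
      have hw1 : g₁⁻¹ * (x * g₁ * x⁻¹) ≠ 1 := by
        intro h
        rw [h] at h1
        exact h1 rfl
      have hwG : g₁⁻¹ * (x * g₁ * x⁻¹) ∈ G :=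
        G.mul_mem (G.inv_mem hg₁G) (G.mul_mem (G.mul_mem hxG hg₁G) (G.inv_mem hxG))
      exact (hmin _ hwG hw1).trans (Finset.card_le_card h2)
    by_cases hmk : m ≤ k
    · -- small support
      obtain ⟨t, ht⟩ : T.Nonempty := Finset.card_pos.mp (by omega)
      by_cases huniv : ∃ z, z ∉ T
      · obtain ⟨z, hz⟩ := huniv
        let y := g₁⁻¹ t
        have hgy : g₁ y = t := by simp [y]
        have hyT : y ∈ T := by
          have : g₁ y ∈ T := by rw [hgy]; exact ht
          exact Equiv.Perm.apply_mem_support.mp this
        have hyt : y ≠ t := by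
          intro h
          have h2 : g₁ t = t := by
            have := hgy
            rwa [h] at this
          exact (Equiv.Perm.mem_support.mp ht) h2
        let A := T.erase t
        obtain ⟨x, hxG, hx⟩ := exists_extend G hkn hG T hmk (fun u => if u = t then z else u) (by
          intro u hu v hv huv
          simp only at huv
          split_ifs at huv with h1 h2 h2
          · rw [h1, h2]
          · exact absurd (huv ▸ hv) hz
          · exact absurd (huv ▸ hu) hz
          · exact huv)
        have hxA : ∀ u ∈ A, x u = u := by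
          intro u hu
          rw [hx u (Finset.mem_of_mem_erase hu)]
          simp [(Finset.mem_erase.mp hu).1]
        have hxy : x (g₁ y) = z := by
          rw [hgy, hx t ht]; simp
        have hzne : z ≠ g₁ y := by
          rw [hgy]
          rintro rfl
          exact hz ht
        have hgyA : g₁ y ∉ A := by
          rw [hgy]; simp [A]
        have := hfinal A A y z x hxG subset_rfl (Finset.mem_erase.mpr ⟨hyt, hyT⟩) hgyA hxA hxy hzne
          (by
            intro u hu huy
            refine Finset.mem_erase.mpr ⟨?_, hTinv u (Finset.mem_of_mem_erase hu)⟩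
            intro h
            rw [← hgy] at h
            exact huy (g₁.injective h))
        have hc : ((T \ (A.erase y)) ∪ (T \ (insert (g₁ y) A)).image x ∪ ({z} \ T)).card ≤ 3 := by
          have e1 : T \ (A.erase y) ⊆ {y, t} := by
            intro u hu
            simp only [Finset.mem_sdiff, Finset.mem_erase, not_and, A] at hu
            simp only [Finset.mem_insert, Finset.mem_singleton]
            by_contra hh
            push Not at hh
            exact (hu.2 hh.1 hh.2) hu.1
          have e2 : (T \ (insert (g₁ y) A)).image x = ∅ := by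
            rw [Finset.image_eq_empty, Finset.sdiff_eq_empty_iff_subset]
            intro u hu
            rw [hgy]
            simp only [Finset.mem_insert, A, Finset.mem_erase]
            by_cases h : u = t
            · exact Or.inl h
            · exact Or.inr ⟨h, hu⟩
          have e3 : ({z} \ T : Finset α).card ≤ 1 := by
            refine (Finset.card_le_card Finset.sdiff_subset).trans ?_
            simp
          rw [e2, Finset.union_empty]
          refine (Finset.card_union_le _ _).trans ?_
          have := Finset.card_le_card e1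
          have h2 : ({y, t} : Finset α).card ≤ 2 := Finset.card_le_two
          omega
        omega
      · -- the support is everything: the group contains a transposition
        push Not at huniv
        obtain ⟨a, b, hab⟩ : ∃ a b : α, a ≠ b := by
          have h1 : 1 < T.card := by omega
          obtain ⟨a, _, b, _, hab⟩ := Finset.one_lt_card.mp h1
          exact ⟨a, b, hab⟩
        have hTu : T = Finset.univ := Finset.eq_univ_iff_forall.mpr huniv
        obtain ⟨x, hxG, hx⟩ := exists_extend G hkn hG T hmk (Equiv.swap a b)
          (Equiv.injective _ |>.injOn)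
        have hxs : x = Equiv.swap a b := by
          ext u
          exact hx u (huniv u)
        have h1 : x ≠ 1 := by
          rw [hxs]
          intro h
          have := congrArg (fun f : Equiv.Perm α => f a) h
          simp at this
          exact hab this.symm
        have h2 := hmin x hxG h1
        rw [hxs, Equiv.Perm.card_support_swap hab] at h2
        omega
    · -- the main case
      push Not at hmk
      have hext2 : ∀ (B : Finset α) (w z : α), w ∉ B → z ∉ B → (insert w B).card ≤ k →
          ∃ x ∈ G, (∀ u ∈ B, x u = u) ∧ x w = z := by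
        intro B w z hw hz hc
        obtain ⟨x, hxG, hx⟩ := exists_extend G hkn hG (insert w B) hc
          (fun u => if u = w then z else u) (by
            intro u hu v hv huv
            simp only at huv
            have hu' : u = w ∨ u ∈ B := by simpa using hu
            have hv' : v = w ∨ v ∈ B := by simpa using hv
            split_ifs at huv with h1 h2 h2
            · rw [h1, h2]
            · rcases hv' with h | h
              · exact absurd h h2
              · exact absurd (huv ▸ h) hz
            · rcases hu' with h | h
              · exact absurd h h1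
              · exact absurd (huv ▸ h) hz
            · exact huv)
        refine ⟨x, hxG, fun u hu => ?_, ?_⟩
        · rw [hx u (Finset.mem_insert_of_mem hu)]
          have : u ≠ w := fun h => hw (h ▸ hu)
          simp [this]
        · rw [hx w (Finset.mem_insert_self _ _)]
          simp
      by_cases hpk : p ∣ k - 1
      · -- `p ∣ k - 1`
        have hnd : ¬ p ∣ k - 2 := by
          intro h
          have h1 : k - 1 = (k - 2) + 1 := by omega
          rw [h1] at hpk
          exact hp.one_lt.ne' (Nat.dvd_one.mp ((Nat.dvd_add_right h).mp hpk))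
        obtain ⟨A, hAT, hAc, hAe⟩ := exists_A g₁ (k - 2) (by change k - 2 ≤ m; omega)
        obtain ⟨y, hyA, hgy⟩ : ∃ y ∈ A, g₁ y ∉ A := by
          by_contra hcon
          push Not at hcon
          exact hnd (hAc ▸ dvd_card_of_inv g₁ hp hg₁p A hAT hcon)
        have hexit : ∀ u ∈ A, u ≠ y → g₁ u ∈ A := by
          intro u hu huy
          by_contra h
          exact huy (hAe u hu y hyA h hgy)
        have hgyT : g₁ y ∈ T := hTinv y (hAT hyA)
        have hc1 : (T \ insert (g₁ y) A).card = m - (k - 1) := by
          rw [Finset.card_sdiff_of_subset (Finset.insert_subset hgyT hAT),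
            Finset.card_insert_of_notMem hgy, hAc]
          omega
        obtain ⟨z, hz, q, hq, hzq⟩ := Finset.one_lt_card.mp (by omega : 1 < (T \ insert (g₁ y) A).card)
        simp only [Finset.mem_sdiff, Finset.mem_insert, not_or] at hz hq
        have hqA : q ∉ A := hq.2.2
        let B := insert q A
        have hgyB : g₁ y ∉ B := by
          simp only [B, Finset.mem_insert, not_or]
          exact ⟨fun h => hq.2.1 h.symm, hgy⟩
        have hzB : z ∉ B := by
          simp only [B, Finset.mem_insert, not_or]
          exact ⟨hzq, hz.2.2⟩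
        have hBc : B.card = k - 1 := by
          rw [Finset.card_insert_of_notMem hqA, hAc]; omega
        have hQc : (insert (g₁ y) B).card = k := by
          rw [Finset.card_insert_of_notMem hgyB, hBc]; omega
        obtain ⟨x, hxG, hxB, hxw⟩ := hext2 B (g₁ y) z hgyB hzB hQc.le
        have hQT : insert (g₁ y) B ⊆ T := by
          apply Finset.insert_subset hgyT
          exact Finset.insert_subset hq.1 hAT
        have h := hfinal A B y z x hxG (Finset.subset_insert _ _) hyA hgyB hxB hxw hz.2.1 hexit
        have e1 : (T \ (A.erase y)).card = m - (k - 3) := by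
          rw [Finset.card_sdiff_of_subset ((Finset.erase_subset _ _).trans hAT),
            Finset.card_erase_of_mem hyA, hAc]
          have : k - 2 - 1 = k - 3 := by omega
          rw [this]
        have e2 : ((T \ (insert (g₁ y) B)).image x).card ≤ m - k := by
          refine Finset.card_image_le.trans ?_
          rw [Finset.card_sdiff_of_subset hQT, hQc]
        have e3 : ({z} \ T : Finset α) = ∅ := by
          rw [Finset.sdiff_eq_empty_iff_subset]
          simpa using hz.1
        rw [e3, Finset.union_empty] at h
        have h2 := h.trans (Finset.card_union_le _ _)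
        have h3 : m = 2 * k - 3 := by omega
        obtain ⟨c, hc⟩ := hpk
        obtain ⟨d, hd⟩ := hpm
        have h4 : p * (2 * c) = p * d + 1 := by
          have : 2 * (k - 1) = m + 1 := by omega
          rw [hc] at this
          rw [← hd]
          linarith
        have h5 : p ∣ 1 := by
          have h6 : p ∣ p * d + 1 := ⟨2 * c, h4.symm⟩
          exact (Nat.dvd_add_right (Dvd.intro d rfl)).mp h6
        exact hp.one_lt.ne' (Nat.dvd_one.mp h5)
      · -- `p ∤ k - 1`
        obtain ⟨A, hAT, hAc, hAe⟩ := exists_A g₁ (k - 1) (by change k - 1 ≤ m; omega)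
        obtain ⟨y, hyA, hgy⟩ : ∃ y ∈ A, g₁ y ∉ A := by
          by_contra hcon
          push Not at hcon
          exact hpk (hAc ▸ dvd_card_of_inv g₁ hp hg₁p A hAT hcon)
        have hexit : ∀ u ∈ A, u ≠ y → g₁ u ∈ A := by
          intro u hu huy
          by_contra h
          exact huy (hAe u hu y hyA h hgy)
        have hgyT : g₁ y ∈ T := hTinv y (hAT hyA)
        have hc1 : (T \ insert (g₁ y) A).card = m - k := by
          rw [Finset.card_sdiff_of_subset (Finset.insert_subset hgyT hAT),
            Finset.card_insert_of_notMem hgy, hAc]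
          omega
        obtain ⟨z, hz⟩ := Finset.card_pos.mp (by omega : 0 < (T \ insert (g₁ y) A).card)
        simp only [Finset.mem_sdiff, Finset.mem_insert, not_or] at hz
        have hQc : (insert (g₁ y) A).card = k := by
          rw [Finset.card_insert_of_notMem hgy, hAc]; omega
        obtain ⟨x, hxG, hxB, hxw⟩ := hext2 A (g₁ y) z hgy hz.2.2 hQc.le
        have hQT : insert (g₁ y) A ⊆ T := Finset.insert_subset hgyT hAT
        have h := hfinal A A y z x hxG subset_rfl hyA hgy hxB hxw hz.2.1 hexit
        have e1 : (T \ (A.erase y)).card = m - (k - 2) := by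
          rw [Finset.card_sdiff_of_subset ((Finset.erase_subset _ _).trans hAT),
            Finset.card_erase_of_mem hyA, hAc]
          have : k - 1 - 1 = k - 2 := by omega
          rw [this]
        have e2 : ((T \ (insert (g₁ y) A)).image x).card ≤ m - k := by
          refine Finset.card_image_le.trans ?_
          rw [Finset.card_sdiff_of_subset hQT, hQc]
        have e3 : ({z} \ T : Finset α) = ∅ := by
          rw [Finset.sdiff_eq_empty_iff_subset]
          simpa using hz.1
        rw [e3, Finset.union_empty] at h
        have h2 := h.trans (Finset.card_union_le _ _)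
        omega
  refine ⟨⟨g₀, hg₀G, hg₀1, hsmall⟩, ?_⟩
  -- the alternating group
  haveI := hG
  have h2t : MulAction.IsMultiplyPretransitive G α 2 :=
    MulAction.isMultiplyPretransitive_of_le (n := k) (by omega) (by rwa [Nat.card_eq_fintype_card])
  have hprim : MulAction.IsPreprimitive G α := MulAction.isPreprimitive_of_is_two_pretransitive h2t
  have hc2 : 2 ≤ g₀.support.card := Equiv.Perm.two_le_card_support_of_ne_one hg₀1
  have hc3 : g₀.support.card = 2 ∨ g₀.support.card = 3 := by omega
  rcases hc3 with h | h
  · have hsw := Equiv.Perm.card_support_eq_two.mp h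
    rw [Equiv.Perm.subgroup_eq_top_of_isPreprimitive_of_isSwap_mem hprim g₀ hsw hg₀G]
    exact le_top
  · have h3 := card_support_eq_three_iff.mp h
    exact Equiv.Perm.alternatingGroup_le_of_isPreprimitive_of_isThreeCycle_mem hprim h3 hg₀G

end Cfsg.Agent.S0711
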