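import Cfsg.Statements.S0712
import Cfsg.Agent.Lib.H9.FixTrans
import Mathlib.Tactic

set_option autoImplicit false
open Cfsg

namespace Cfsg.Agent.S0712

/-- Jordan: a primitive group in which the pointwise stabiliser of a set `s` is doubly transitive on the complement of `s` (which has at least 2 points) is `(|s| + 2)`-transitive. -/
theorem result {α : Type*} [Fintype α] [DecidableEq α] (G : Subgroup (Equiv.Perm α)) (hG : MulAction.IsPreprimitive G α) (s : Set α) {m : ℕ} (hsm : s.ncard = m) (hm : m + 2 ≤ Fintype.card α) (h2 : MulAction.IsMultiplyPretransitive (fixingSubgroup G s) (SubMulAction.ofFixingSubgroup G s) 2) : MulAction.IsMultiplyPretransitive G α (m + 2) := by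
  apply CfsgLib.H9.isMultiplyPretransitive_add_of_fixing s (Set.toFinite s) hsm ?_ h2
  rcases Nat.eq_zero_or_pos m with rfl | hpos
  · exact MulAction.is_zero_pretransitive'
  obtain ⟨n, rfl⟩ : ∃ n, m = n + 1 := ⟨m - 1, by omega⟩
  have hprim : MulAction.IsPreprimitive (fixingSubgroup G s) (SubMulAction.ofFixingSubgroup G s) :=
    MulAction.isPreprimitive_of_is_two_pretransitive h2
  have := hG.isMultiplyPreprimitive hsm (by rw [Nat.card_eq_fintype_card]; omega) hprim
  haveI : MulAction.IsMultiplyPretransitive G α (n + 2) := this.isMultiplyPretransitive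
  exact MulAction.isMultiplyPretransitive_of_le (n := n + 2) (by omega) (by rw [Nat.card_eq_fintype_card]; omega)

end Cfsg.Agent.S0712
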