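import Cfsg.Statements.S0713
import Cfsg.Agent.Lib.H9.SylowConj
import Mathlib

set_option autoImplicit false
open Cfsg

namespace Cfsg.Agent.S0713

private lemma conj_of_card_prime {L : Type*} [Group L] [Finite L] {p : ℕ} [hp : Fact p.Prime]
    (h : ¬ p ^ 2 ∣ Nat.card L) (A B : Subgroup L) (hA : Nat.card A = p) (hB : Nat.card B = p) :
    ∃ x : L, ∀ a ∈ A, x * a * x⁻¹ ∈ B := by
  have hd : p ∣ Nat.card L := hA ▸ Subgroup.card_subgroup_dvd_card A
  have hne : Nat.card L ≠ 0 := Nat.card_pos.ne'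
  have hf : (Nat.card L).factorization p = 1 := by
    have h1 : 1 ≤ (Nat.card L).factorization p :=
      (hp.out.dvd_iff_one_le_factorization hne).mp hd
    have h2 : ¬ 2 ≤ (Nat.card L).factorization p := by
      intro h2
      exact h ((hp.out.pow_dvd_iff_le_factorization hne).mpr h2)
    omega
  let SA : Sylow p L := Sylow.ofCard A (by rw [hA, hf, pow_one])
  let SB : Sylow p L := Sylow.ofCard B (by rw [hB, hf, pow_one])
  obtain ⟨x, hx⟩ := MulAction.exists_smul_eq L SA SB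
  refine ⟨x, fun a ha => ?_⟩
  have h1 : x * a * x⁻¹ ∈ ((x • SA : Sylow p L) : Subgroup L) := by
    rw [CfsgLib.H9.mem_smul_sylow]
    have : x⁻¹ * (x * a * x⁻¹) * x = a := by group
    rw [this]
    exact ha
  rw [hx] at h1
  exact h1

/-- Jordan's Theorem: a primitive permutation group of degree `n ≥ 5` containing a `p`-cycle for a prime `p ≤ n - 3` contains the alternating group. -/
theorem result {α : Type*} [Fintype α] [DecidableEq α] (G : Subgroup (Equiv.Perm α)) (hG : MulAction.IsPreprimitive G α) {p : ℕ} (hp : p.Prime) (hn : 5 ≤ Fintype.card α) (hpn : p + 3 ≤ Fintype.card α) {g : Equiv.Perm α} (hgc : g.IsCycle) (hgp : g.support.card = p) (hg : g ∈ G) : alternatingGroup α ≤ G := by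
  classical
  haveI : Fact p.Prime := ⟨hp⟩
  set s : Finset α := g.supportᶜ with hs
  have hscard : s.card + p = Fintype.card α := by
    rw [hs, Finset.card_compl, hgp]
    have := Finset.card_le_univ g.support
    omega
  obtain ⟨m, hm⟩ : ∃ m, s.card = m + 1 := ⟨s.card - 1, by have := hp.two_le; omega⟩
  have hncard : ((↑g.support : Set α)ᶜ).ncard = m + 1 := by
    rw [← hm, hs, Set.ncard_eq_toFinset_card']
    congr 1
    ext x
    simp
  have hprim : MulAction.IsPreprimitive (fixingSubgroup G ((↑g.support : Set α)ᶜ))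
      (SubMulAction.ofFixingSubgroup G ((↑g.support : Set α)ᶜ)) := by
    have := Equiv.Perm.isPretransitive_of_isCycle_mem hgc hg
    apply MulAction.IsPreprimitive.of_prime_card
    convert hp
    rw [Nat.card_eq_fintype_card, Fintype.card_subtype, ← hgp]
    apply congr_arg
    ext x
    simp [SubMulAction.mem_ofFixingSubgroup_iff]
  have hT := hG.isMultiplyPreprimitive hncard (by
    rw [Nat.card_eq_fintype_card]; have := hp.two_le; omega) hprim
  haveI hT2 : MulAction.IsMultiplyPretransitive G α (m + 2) := hT.isMultiplyPretransitive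
  have hT1 : MulAction.IsMultiplyPretransitive G α (m + 1) :=
    MulAction.isMultiplyPretransitive_of_le (n := m + 2) (by omega) (by
      rw [Nat.card_eq_fintype_card]; have := hp.two_le; omega)
  -- every permutation of `s` is induced
  have hind : ∀ σ : Equiv.Perm ↥s, ∃ x ∈ G, ∀ u : ↥s, x (u : α) = σ u := by
    intro σ
    let e : Fin (m + 1) ≃ ↥s := (Fintype.equivFinOfCardEq (by simpa using hm)).symm
    let e₁ : Fin (m + 1) ↪ α := e.toEmbedding.trans (Function.Embedding.subtype _)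
    let e₂ : Fin (m + 1) ↪ α := (e.trans σ).toEmbedding.trans (Function.Embedding.subtype _)
    obtain ⟨⟨x, hx⟩, hxe⟩ := hT1.exists_smul_eq e₁ e₂
    refine ⟨x, hx, fun u => ?_⟩
    have := DFunLike.congr_fun hxe (e.symm u)
    simpa [e₁, e₂] using this
  -- the group fixing `s`
  let L : Subgroup (Equiv.Perm α) :=
    { carrier := {h | h ∈ G ∧ ∀ u ∈ s, h u = u}
      mul_mem' := by
        rintro a b ⟨ha, ha'⟩ ⟨hb, hb'⟩
        refine ⟨G.mul_mem ha hb, fun u hu => ?_⟩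
        rw [Equiv.Perm.mul_apply, hb' u hu, ha' u hu]
      one_mem' := ⟨G.one_mem, fun _ _ => rfl⟩
      inv_mem' := by
        rintro a ⟨ha, ha'⟩
        refine ⟨G.inv_mem ha, fun u hu => ?_⟩
        rw [Equiv.Perm.inv_eq_iff_eq, ha' u hu] }
  have hLmem : ∀ h : Equiv.Perm α, h ∈ L ↔ h ∈ G ∧ ∀ u ∈ s, h u = u := fun _ => Iff.rfl
  have hgs : ∀ u ∈ s, g u = u := by
    intro u hu
    simpa [hs] using hu
  have hgL : g ∈ L := ⟨hg, hgs⟩
  -- `p ^ 2` does not divide `|L|`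
  have hLcard : ¬ p ^ 2 ∣ Nat.card L := by
    let q : α → Prop := fun x => x ∈ g.support
    have hle : L ≤ (Equiv.Perm.ofSubtype (p := q)).range := by
      intro h hh
      rw [Equiv.Perm.mem_range_ofSubtype_iff]
      intro x hx
      by_contra hq
      have hxs : x ∈ s := by
        simp only [hs, Finset.mem_compl]
        exact hq
      have h3 := hh.2 x hxs
      simp only [Finset.mem_coe, Equiv.Perm.mem_support] at hx
      exact hx h3
    have h1 : Nat.card L ∣ Nat.card (Equiv.Perm.ofSubtype (p := q)).range :=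
      Subgroup.card_dvd_of_le hle
    have h2 : Nat.card (Equiv.Perm.ofSubtype (p := q)).range = p.factorial := by
      rw [Nat.card_congr (MonoidHom.ofInjective (f := Equiv.Perm.ofSubtype (p := q))
        Equiv.Perm.ofSubtype_injective).toEquiv.symm, Nat.card_perm]
      rw [Nat.card_eq_fintype_card, Fintype.card_subtype]
      simp only [q, Finset.filter_mem_eq_inter, Finset.univ_inter, hgp]
    rw [h2] at h1
    intro h3
    have h4 := h3.trans h1
    obtain ⟨k, hk⟩ : ∃ k, p = k + 1 := ⟨p - 1, by have := hp.two_le; omega⟩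
    have h5 : p.factorial = p * (p - 1).factorial := (Nat.mul_factorial_pred hp.ne_zero).symm
    rw [h5, pow_two] at h4
    have h6 := Nat.dvd_of_mul_dvd_mul_left hp.pos h4
    rw [hp.dvd_factorial] at h6
    have := hp.two_le
    omega
  -- normalising elements
  have hnorm : ∀ σ : Equiv.Perm ↥s, ∃ y ∈ G, (∀ u : ↥s, y (u : α) = σ u) ∧
      ∃ r : ℤ, y * g * y⁻¹ = g ^ r := by
    intro σ
    obtain ⟨x, hxG, hx⟩ := hind σ
    have hxinv : ∀ u : ↥s, x⁻¹ (u : α) = σ⁻¹ u := by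
      intro u
      rw [Equiv.Perm.inv_eq_iff_eq, hx]
      simp
    have hgx : x * g * x⁻¹ ∈ L := by
      refine ⟨G.mul_mem (G.mul_mem hxG hg) (G.inv_mem hxG), fun u hu => ?_⟩
      have h1 : x⁻¹ u = σ⁻¹ ⟨u, hu⟩ := hxinv ⟨u, hu⟩
      rw [Equiv.Perm.mul_apply, Equiv.Perm.mul_apply, h1, hgs _ (σ⁻¹ ⟨u, hu⟩).2,
        hx]
      simp
    have hordg : orderOf g = p := by rw [hgc.orderOf, hgp]
    have hcardA : Nat.card (Subgroup.zpowers (⟨g, hgL⟩ : L)) = p := by
      rw [Nat.card_zpowers, Subgroup.orderOf_mk, hordg]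
    have hcardB : Nat.card (Subgroup.zpowers (⟨x * g * x⁻¹, hgx⟩ : L)) = p := by
      rw [Nat.card_zpowers, Subgroup.orderOf_mk, ← MulAut.conj_apply, MulEquiv.orderOf_eq, hordg]
    obtain ⟨w, hw⟩ := conj_of_card_prime hLcard _ _ hcardB hcardA
    have h1 := hw _ (Subgroup.mem_zpowers (⟨x * g * x⁻¹, hgx⟩ : L))
    rw [Subgroup.mem_zpowers_iff] at h1
    obtain ⟨r, hr⟩ := h1
    refine ⟨(w : Equiv.Perm α) * x, G.mul_mem w.2.1 hxG, ?_, r, ?_⟩
    · intro u
      rw [Equiv.Perm.mul_apply, hx]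
      exact w.2.2 _ (σ u).2
    · have h2 := congrArg Subtype.val hr
      simp only [Subgroup.coe_mul, Subgroup.coe_inv, Subgroup.coe_zpow] at h2
      calc (w : Equiv.Perm α) * x * g * ((w : Equiv.Perm α) * x)⁻¹
          = (w : Equiv.Perm α) * (x * g * x⁻¹) * (w : Equiv.Perm α)⁻¹ := by group
        _ = g ^ r := h2.symm
  -- three points of `s`
  have hs3 : 2 < s.card := by have := hp.two_le; omega
  obtain ⟨a, b, c, ha, hb, hc, hab, hac, hbc⟩ := Finset.two_lt_card_iff.mp hs3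
  obtain ⟨y₁, hy₁G, hy₁, r₁, hr₁⟩ := hnorm (Equiv.swap ⟨a, ha⟩ ⟨b, hb⟩)
  obtain ⟨y₂, hy₂G, hy₂, r₂, hr₂⟩ := hnorm (Equiv.swap ⟨a, ha⟩ ⟨c, hc⟩)
  have hne : ∀ {u v : α} (hu : u ∈ s) (hv : v ∈ s), u ≠ v →
      (⟨u, hu⟩ : ↥s) ≠ ⟨v, hv⟩ := fun _ _ h h' => h (congrArg Subtype.val h')
  have y₁a : y₁ a = b := by simpa using hy₁ ⟨a, ha⟩
  have y₁b : y₁ b = a := by simpa using hy₁ ⟨b, hb⟩
  have y₁c : y₁ c = c := by
    have := hy₁ ⟨c, hc⟩
    rw [Equiv.swap_apply_of_ne_of_ne (hne hc ha hac.symm) (hne hc hb hbc.symm)] at this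
    exact this
  have y₂a : y₂ a = c := by simpa using hy₂ ⟨a, ha⟩
  have y₂c : y₂ c = a := by simpa using hy₂ ⟨c, hc⟩
  have y₂b : y₂ b = b := by
    have := hy₂ ⟨b, hb⟩
    rw [Equiv.swap_apply_of_ne_of_ne (hne hb ha hab.symm) (hne hb hc hbc)] at this
    exact this
  have y₁x : ∀ u ∈ s, u ≠ a → u ≠ b → y₁ u = u := by
    intro u hu h1 h2
    have := hy₁ ⟨u, hu⟩
    rw [Equiv.swap_apply_of_ne_of_ne (hne hu ha h1) (hne hu hb h2)] at this
    exact this
  have y₂x : ∀ u ∈ s, u ≠ a → u ≠ c → y₂ u = u := by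
    intro u hu h1 h2
    have := hy₂ ⟨u, hu⟩
    rw [Equiv.swap_apply_of_ne_of_ne (hne hu ha h1) (hne hu hc h2)] at this
    exact this
  -- the commutator
  let t : Equiv.Perm α := y₁⁻¹ * y₂⁻¹ * y₁ * y₂
  have htG : t ∈ G := G.mul_mem (G.mul_mem (G.mul_mem (G.inv_mem hy₁G) (G.inv_mem hy₂G)) hy₁G) hy₂G
  have hcomm : t * g = g * t := by
    have h1 : (y₁ * y₂) * g * (y₁ * y₂)⁻¹ = g ^ (r₁ * r₂) := by
      calc (y₁ * y₂) * g * (y₁ * y₂)⁻¹ = y₁ * (y₂ * g * y₂⁻¹) * y₁⁻¹ := by group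
        _ = y₁ * g ^ r₂ * y₁⁻¹ := by rw [hr₂]
        _ = (y₁ * g * y₁⁻¹) ^ r₂ := (conj_zpow).symm
        _ = g ^ (r₁ * r₂) := by rw [hr₁, zpow_mul]
    have h2 : (y₂ * y₁) * g * (y₂ * y₁)⁻¹ = g ^ (r₁ * r₂) := by
      calc (y₂ * y₁) * g * (y₂ * y₁)⁻¹ = y₂ * (y₁ * g * y₁⁻¹) * y₂⁻¹ := by group
        _ = y₂ * g ^ r₁ * y₂⁻¹ := by rw [hr₁]
        _ = (y₂ * g * y₂⁻¹) ^ r₁ := (conj_zpow).symm
        _ = g ^ (r₁ * r₂) := by rw [hr₂, ← zpow_mul, mul_comm]
    have h3 := h1.trans h2.symm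
    calc t * g = (y₂ * y₁)⁻¹ * ((y₁ * y₂) * g * (y₁ * y₂)⁻¹) * (y₁ * y₂) := by
            simp only [t]; group
      _ = (y₂ * y₁)⁻¹ * ((y₂ * y₁) * g * (y₂ * y₁)⁻¹) * (y₁ * y₂) := by rw [h3]
      _ = g * t := by simp only [t]; group
  have hta : t a = b := by
    change y₁⁻¹ (y₂⁻¹ (y₁ (y₂ a))) = b
    rw [y₂a, y₁c, Equiv.Perm.inv_eq_iff_eq.mpr y₂a.symm, Equiv.Perm.inv_eq_iff_eq.mpr y₁b.symm]
  have htb : t b = c := by
    change y₁⁻¹ (y₂⁻¹ (y₁ (y₂ b))) = c
    rw [y₂b, y₁b, Equiv.Perm.inv_eq_iff_eq.mpr y₂c.symm, Equiv.Perm.inv_eq_iff_eq.mpr y₁c.symm]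
  have htc : t c = a := by
    change y₁⁻¹ (y₂⁻¹ (y₁ (y₂ c))) = a
    rw [y₂c, y₁a, Equiv.Perm.inv_eq_iff_eq.mpr y₂b.symm, Equiv.Perm.inv_eq_iff_eq.mpr y₁a.symm]
  have htx : ∀ u ∈ s, u ≠ a → u ≠ b → u ≠ c → t u = u := by
    intro u hu h1 h2 h3
    change y₁⁻¹ (y₂⁻¹ (y₁ (y₂ u))) = u
    rw [y₂x u hu h1 h3, y₁x u hu h1 h2, Equiv.Perm.inv_eq_iff_eq.mpr (y₂x u hu h1 h3).symm,
      Equiv.Perm.inv_eq_iff_eq.mpr (y₁x u hu h1 h2).symm]
  -- correct `t` by a power of `g`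
  obtain ⟨x₀, hx₀⟩ : g.support.Nonempty := by
    rw [← Finset.card_pos, hgp]; exact hp.pos
  have htsupp : t x₀ ∈ g.support := by
    rw [Equiv.Perm.mem_support] at hx₀ ⊢
    intro h
    apply hx₀
    apply t.injective
    rw [← Equiv.Perm.mul_apply, hcomm, Equiv.Perm.mul_apply, h]
  obtain ⟨j, hj⟩ := hgc.sameCycle (Equiv.Perm.mem_support.mp hx₀) (Equiv.Perm.mem_support.mp htsupp)
  let w : Equiv.Perm α := (g ^ j)⁻¹ * t
  have hwG : w ∈ G := G.mul_mem (G.inv_mem (G.zpow_mem hg j)) htG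
  have hwcomm : Commute w g := by
    have h1 : Commute t g := hcomm
    have h2 : Commute ((g ^ j)⁻¹) g := ((Commute.refl g).zpow_left j).inv_left
    exact h2.mul_left h1
  have hwx₀ : w x₀ = x₀ := by
    change (g ^ j)⁻¹ (t x₀) = x₀
    rw [Equiv.Perm.inv_eq_iff_eq, hj]
  have hwsupp : ∀ v ∈ g.support, w v = v := by
    intro v hv
    obtain ⟨i, hi⟩ := hgc.sameCycle (Equiv.Perm.mem_support.mp hx₀) (Equiv.Perm.mem_support.mp hv)
    rw [← hi, ← Equiv.Perm.mul_apply, (hwcomm.zpow_right i).eq, Equiv.Perm.mul_apply, hwx₀]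
  have hginvs : ∀ u ∈ s, (g ^ j)⁻¹ u = u := by
    intro u hu
    rw [Equiv.Perm.inv_eq_iff_eq]
    have h1 : g ^ j ∈ L := L.zpow_mem hgL j
    exact (h1.2 u hu).symm
  have hua : w a = b := by
    change (g ^ j)⁻¹ (t a) = b
    rw [hta, hginvs b hb]
  have hub : w b = c := by
    change (g ^ j)⁻¹ (t b) = c
    rw [htb, hginvs c hc]
  have huc : w c = a := by
    change (g ^ j)⁻¹ (t c) = a
    rw [htc, hginvs a ha]
  have hw3 : w = Equiv.swap a c * Equiv.swap a b := by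
    ext v
    change w v = Equiv.swap a c (Equiv.swap a b v)
    by_cases h1 : v = a
    · subst h1; rw [hua, Equiv.swap_apply_left, Equiv.swap_apply_of_ne_of_ne hab.symm hbc]
    by_cases h2 : v = b
    · subst h2; rw [hub, Equiv.swap_apply_right, Equiv.swap_apply_left]
    by_cases h3 : v = c
    · subst h3; rw [huc, Equiv.swap_apply_of_ne_of_ne h1 h2, Equiv.swap_apply_right]
    rw [Equiv.swap_apply_of_ne_of_ne h1 h2, Equiv.swap_apply_of_ne_of_ne h1 h3]
    by_cases hv : v ∈ g.support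
    · exact hwsupp v hv
    · have hvs : v ∈ s := by simpa [hs] using hv
      change (g ^ j)⁻¹ (t v) = v
      rw [htx v hvs h1 h2 h3, hginvs v hvs]
  have h3 : w.IsThreeCycle := by
    rw [hw3]
    exact Equiv.Perm.isThreeCycle_swap_mul_swap_same hac hab hbc.symm
  exact Equiv.Perm.alternatingGroup_le_of_isPreprimitive_of_isThreeCycle_mem hG h3 hwG

end Cfsg.Agent.S0713
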