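import Cfsg.Statements.S0714
import Mathlib.Tactic
import Mathlib.GroupTheory.SpecificGroups.Alternating.MaximalSubgroups

set_option autoImplicit false
open Cfsg

namespace Cfsg.Agent.S0714

section
variable {α : Type*} [Fintype α] [DecidableEq α] {K : Type*} [Field K]

private lemma comp_mem (W : Subrepresentation (Cfsg.permRep K (alternatingGroup α) α))
    {v : α → K} (hv : v ∈ W.toSubmodule) (h : Equiv.Perm α) (hs : Equiv.Perm.sign h = 1) :
    (fun x => v (h x)) ∈ W.toSubmodule := by
  have hmem : h⁻¹ ∈ alternatingGroup α := by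
    rw [Equiv.Perm.mem_alternatingGroup, Equiv.Perm.sign_inv, hs]
  have := W.apply_mem_toSubmodule ⟨h⁻¹, hmem⟩ hv
  convert this using 1
  funext x
  change v (h x) = v ((⟨h⁻¹, hmem⟩ : alternatingGroup α)⁻¹ • x)
  congr 1

private def E (a b : α) : α → K := fun x => (if x = a then 1 else 0) - (if x = b then 1 else 0)

private lemma exists_even (hα : 5 ≤ Fintype.card α) {a b c d : α} (hab : a ≠ b) (hcd : c ≠ d) :
    ∃ g : Equiv.Perm α, Equiv.Perm.sign g = 1 ∧ g a = c ∧ g b = d := by
  -- first an arbitrary permutation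
  obtain ⟨g, ha, hb⟩ : ∃ g : Equiv.Perm α, g a = c ∧ g b = d := by
    refine ⟨Equiv.swap (Equiv.swap a c b) d * Equiv.swap a c, ?_, ?_⟩
    · have h1 : Equiv.swap a c b ≠ c := by
        intro h
        have : b = a := by
          have := congrArg (Equiv.swap a c) h
          simpa using this
        exact hab this.symm
      simp only [Equiv.Perm.mul_apply, Equiv.swap_apply_left]
      exact Equiv.swap_apply_of_ne_of_ne h1.symm hcd
    · simp
  rcases Int.units_eq_one_or (Equiv.Perm.sign g) with hs | hs
  · exact ⟨g, hs, ha, hb⟩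
  · -- two further points
    obtain ⟨u, v, huv, hua, hub, hva, hvb⟩ : ∃ u v : α, u ≠ v ∧ u ≠ a ∧ u ≠ b ∧ v ≠ a ∧ v ≠ b := by
      have hc : 2 < (Finset.univ.erase a |>.erase b).card := by
        rw [Finset.card_erase_of_mem, Finset.card_erase_of_mem (Finset.mem_univ _), Finset.card_univ]
        · omega
        · simp [hab.symm]
      obtain ⟨u, v, _, hu, hv, _, huv, _, _⟩ := Finset.two_lt_card_iff.mp hc
      simp only [Finset.mem_erase, Finset.mem_univ, and_true] at hu hv
      exact ⟨u, v, huv, hu.2, hu.1, hv.2, hv.1⟩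
    refine ⟨g * Equiv.swap u v, ?_, ?_, ?_⟩
    · rw [Equiv.Perm.sign_mul, hs, Equiv.Perm.sign_swap huv]; rfl
    · rw [Equiv.Perm.mul_apply, Equiv.swap_apply_of_ne_of_ne hua.symm hva.symm, ha]
    · rw [Equiv.Perm.mul_apply, Equiv.swap_apply_of_ne_of_ne hub.symm hvb.symm, hb]

private lemma E_all (hα : 5 ≤ Fintype.card α)
    (W : Subrepresentation (Cfsg.permRep K (alternatingGroup α) α)) {a b : α} (hab : a ≠ b)
    (h : (E a b : α → K) ∈ W.toSubmodule) (c d : α) : (E c d : α → K) ∈ W.toSubmodule := by
  by_cases hcd : c = d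
  · subst hcd
    have : (E c c : α → K) = 0 := by funext x; simp [E]
    rw [this]; exact W.toSubmodule.zero_mem
  obtain ⟨g, hs, hc, hd⟩ := exists_even hα hcd hab
  have := comp_mem W h g hs
  convert this using 1
  funext x
  simp only [E]
  have h1 : (g x = a) ↔ (x = c) := by
    rw [← hc]; exact g.injective.eq_iff
  have h2 : (g x = b) ↔ (x = d) := by
    rw [← hd]; exact g.injective.eq_iff
  simp [h1, h2]

private lemma tw (W : Subrepresentation (Cfsg.permRep K (alternatingGroup α) α)) {u : α → K}
    (hu : u ∈ W.toSubmodule) {a b c d : α} (hab : a ≠ b) (hac : a ≠ c) (had : a ≠ d) (hbc : b ≠ c)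
    (hbd : b ≠ d) (hcd : c ≠ d) (hc : u c = 0) (hd : u d = 0) :
    (E a b : α → K) ∈ W.toSubmodule ∨ u a = u b := by
  by_cases h : u a = u b
  · exact Or.inr h
  left
  have hs : Equiv.Perm.sign (Equiv.swap a b * Equiv.swap c d) = 1 := by
    rw [Equiv.Perm.sign_mul, Equiv.Perm.sign_swap hab, Equiv.Perm.sign_swap hcd]; rfl
  have h1 := W.toSubmodule.sub_mem hu (comp_mem W hu _ hs)
  have h2 : (E a b : α → K) = (u a - u b)⁻¹ • (u - fun x => u ((Equiv.swap a b * Equiv.swap c d) x)) := by
    funext x
    simp only [Pi.smul_apply, Pi.sub_apply, smul_eq_mul, E, Equiv.Perm.mul_apply]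
    have hne : u a - u b ≠ 0 := sub_ne_zero.mpr h
    by_cases hxa : x = a
    · subst hxa
      rw [Equiv.swap_apply_of_ne_of_ne hac had, Equiv.swap_apply_left, inv_mul_cancel₀ hne]
      simp [hab]
    by_cases hxb : x = b
    · subst hxb
      rw [Equiv.swap_apply_of_ne_of_ne hbc hbd, Equiv.swap_apply_right]
      simp only [hab.symm, if_false, if_true]
      field_simp
      ring
    by_cases hxc : x = c
    · subst hxc
      rw [Equiv.swap_apply_left, Equiv.swap_apply_of_ne_of_ne had.symm hbd.symm, hc, hd]
      simp [hxa, hxb]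
    by_cases hxd : x = d
    · subst hxd
      rw [Equiv.swap_apply_right, Equiv.swap_apply_of_ne_of_ne hac.symm hbc.symm, hc, hd]
      simp [hxa, hxb]
    · rw [Equiv.swap_apply_of_ne_of_ne hxc hxd, Equiv.swap_apply_of_ne_of_ne hxa hxb]
      simp [hxa, hxb]
  rw [h2]
  exact W.toSubmodule.smul_mem _ h1

private lemma sum_zero_le (hne : Nonempty α)
    (W : Subrepresentation (Cfsg.permRep K (alternatingGroup α) α))
    (hall : ∀ c d : α, (E c d : α → K) ∈ W.toSubmodule) (f : α → K) (hf : ∑ x, f x = 0) :
    f ∈ W.toSubmodule := by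
  obtain ⟨a⟩ := hne
  have : f = ∑ x, f x • (E x a : α → K) := by
    funext y
    simp only [Finset.sum_apply, Pi.smul_apply, smul_eq_mul, E, mul_sub, Finset.sum_sub_distrib]
    simp [hf]
  rw [this]
  exact W.toSubmodule.sum_mem fun x _ => W.toSubmodule.smul_mem _ (hall x a)

end

/-- Over any field, the permutation module of the alternating group of degree at least 5 has exactly four invariant subspaces: zero, the constant functions, the functions with coordinate sum zero, and everything. -/
theorem result {α : Type*} [Fintype α] [DecidableEq α] (hα : 5 ≤ Fintype.card α) {K : Type*} [Field K] (W : Subrepresentation (Cfsg.permRep K (alternatingGroup α) α)) : W.toSubmodule = ⊥ ∨ W = Cfsg.permConstants K (alternatingGroup α) α ∨ W = Cfsg.permSumZero K (alternatingGroup α) α ∨ W.toSubmodule = ⊤ := by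
  classical
  have hne : Nonempty α := by
    rw [← Fintype.card_pos_iff]; omega
  by_cases hconst : ∀ v ∈ W.toSubmodule, ∀ i j, v i = v j
  · -- contained in the constants
    by_cases hbot : W.toSubmodule = ⊥
    · exact Or.inl hbot
    right; left
    apply Subrepresentation.toSubmodule_injective
    obtain ⟨a⟩ := hne
    obtain ⟨v, hv, hv0⟩ := Submodule.exists_mem_ne_zero_of_ne_bot hbot
    have hva : v a ≠ 0 := by
      intro h
      apply hv0
      funext x
      rw [hconst v hv x a, h]; rfl
    have h1 : (fun _ => 1 : α → K) ∈ W.toSubmodule := by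
      have : (fun _ => 1 : α → K) = (v a)⁻¹ • v := by
        funext x
        simp only [Pi.smul_apply, smul_eq_mul]
        rw [hconst v hv x a, inv_mul_cancel₀ hva]
      rw [this]
      exact W.toSubmodule.smul_mem _ hv
    apply le_antisymm
    · intro f hf
      change f ∈ Submodule.span K {fun _ => (1 : K)}
      rw [Submodule.mem_span_singleton]
      refine ⟨f a, ?_⟩
      funext x
      simp only [Pi.smul_apply, smul_eq_mul, mul_one]
      exact hconst f hf a x
    · change Submodule.span K {fun _ => (1 : K)} ≤ _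
      rw [Submodule.span_le]
      simpa using h1
  · push Not at hconst
    obtain ⟨v, hv, i, j, hij⟩ := hconst
    right; right
    have hij' : i ≠ j := fun h => hij (by rw [h])
    -- five distinct points
    obtain ⟨k, l, m, hki, hkj, hli, hlj, hmi, hmj, hkl, hkm, hlm⟩ :
        ∃ k l m : α, k ≠ i ∧ k ≠ j ∧ l ≠ i ∧ l ≠ j ∧ m ≠ i ∧ m ≠ j ∧ k ≠ l ∧ k ≠ m ∧ l ≠ m := by
      have hc : 2 < (Finset.univ.erase i |>.erase j).card := by
        rw [Finset.card_erase_of_mem, Finset.card_erase_of_mem (Finset.mem_univ _), Finset.card_univ]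
        · omega
        · simp [hij'.symm]
      obtain ⟨k, l, m, hk, hl, hm, hkl, hkm, hlm⟩ := Finset.two_lt_card_iff.mp hc
      simp only [Finset.mem_erase, Finset.mem_univ, and_true] at hk hl hm
      exact ⟨k, l, m, hk.2, hk.1, hl.2, hl.1, hm.2, hm.1, hkl, hkm, hlm⟩
    -- the three-cycle
    let h : Equiv.Perm α := Equiv.swap i j * Equiv.swap j k
    have hs : Equiv.Perm.sign h = 1 := by
      change Equiv.Perm.sign (Equiv.swap i j * Equiv.swap j k) = 1
      rw [Equiv.Perm.sign_mul, Equiv.Perm.sign_swap hij', Equiv.Perm.sign_swap hkj.symm]; rfl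
    have hhi : h i = j := by
      change Equiv.swap i j (Equiv.swap j k i) = j
      rw [Equiv.swap_apply_of_ne_of_ne hij' hki.symm, Equiv.swap_apply_left]
    have hhj : h j = k := by
      change Equiv.swap i j (Equiv.swap j k j) = k
      rw [Equiv.swap_apply_left, Equiv.swap_apply_of_ne_of_ne hki hkj]
    have hhk : h k = i := by
      change Equiv.swap i j (Equiv.swap j k k) = i
      rw [Equiv.swap_apply_right, Equiv.swap_apply_right]
    have hhx : ∀ x, x ≠ i → x ≠ j → x ≠ k → h x = x := by
      intro x h1 h2 h3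
      change Equiv.swap i j (Equiv.swap j k x) = x
      rw [Equiv.swap_apply_of_ne_of_ne h2 h3, Equiv.swap_apply_of_ne_of_ne h1 h2]
    let u : α → K := v - fun x => v (h x)
    have hu : u ∈ W.toSubmodule := W.toSubmodule.sub_mem hv (comp_mem W hv h hs)
    have hui : u i = v i - v j := by simp [u, hhi]
    have huj : u j = v j - v k := by simp [u, hhj]
    have huk : u k = v k - v i := by simp [u, hhk]
    have hux : ∀ x, x ≠ i → x ≠ j → x ≠ k → u x = 0 := by
      intro x h1 h2 h3
      simp [u, hhx x h1 h2 h3]
    have hul : u l = 0 := hux l hli hlj hkl.symm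
    have hum : u m = 0 := hux m hmi hmj hkm.symm
    have hp : u i ≠ 0 := by
      rw [hui]; exact sub_ne_zero.mpr hij
    -- an `E a b` in `W`
    obtain ⟨a, b, hab, hE⟩ : ∃ a b : α, a ≠ b ∧ (E a b : α → K) ∈ W.toSubmodule := by
      rcases tw W hu hij' hli.symm hmi.symm hlj.symm hmj.symm hlm hul hum with h1 | h1
      · exact ⟨i, j, hij', h1⟩
      rcases tw W hu hkj.symm hlj.symm hmj.symm hkl hkm hlm hul hum with h2 | h2
      · exact ⟨j, k, hkj.symm, h2⟩
      · -- `u i = u j = u k ≠ 0`
        refine ⟨k, m, hkm, ?_⟩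
        let τ : Equiv.Perm α := Equiv.swap k l * Equiv.swap l m
        have hτs : Equiv.Perm.sign τ = 1 := by
          change Equiv.Perm.sign (Equiv.swap k l * Equiv.swap l m) = 1
          rw [Equiv.Perm.sign_mul, Equiv.Perm.sign_swap hkl, Equiv.Perm.sign_swap hlm]; rfl
        have hτk : τ k = l := by
          change Equiv.swap k l (Equiv.swap l m k) = l
          rw [Equiv.swap_apply_of_ne_of_ne hkl hkm, Equiv.swap_apply_left]
        have hτl : τ l = m := by
          change Equiv.swap k l (Equiv.swap l m l) = m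
          rw [Equiv.swap_apply_left, Equiv.swap_apply_of_ne_of_ne hkm.symm hlm.symm]
        have hτm : τ m = k := by
          change Equiv.swap k l (Equiv.swap l m m) = k
          rw [Equiv.swap_apply_right, Equiv.swap_apply_right]
        have hτx : ∀ x, x ≠ k → x ≠ l → x ≠ m → τ x = x := by
          intro x h1 h2 h3
          change Equiv.swap k l (Equiv.swap l m x) = x
          rw [Equiv.swap_apply_of_ne_of_ne h2 h3, Equiv.swap_apply_of_ne_of_ne h1 h2]
        have h3 := W.toSubmodule.sub_mem hu (comp_mem W hu τ hτs)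
        have huk' : u k ≠ 0 := by
          rw [← h2, ← h1]; exact hp
        have h4 : (E k m : α → K) = (u k)⁻¹ • (u - fun x => u (τ x)) := by
          funext x
          simp only [Pi.smul_apply, Pi.sub_apply, smul_eq_mul, E]
          by_cases hxk : x = k
          · subst hxk
            rw [hτk, hul, sub_zero, inv_mul_cancel₀ huk']
            simp [hkm]
          by_cases hxl : x = l
          · subst hxl
            rw [hτl, hum, hul]
            simp [hkl.symm, hlm]
          by_cases hxm : x = m
          · subst hxm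
            rw [hτm, hum]
            simp only [hkm.symm, if_false, if_true]
            field_simp
            ring
          · rw [hτx x hxk hxl hxm]
            simp [hxk, hxm]
        rw [h4]
        exact W.toSubmodule.smul_mem _ h3
    have hall := E_all hα W hab hE
    have hsz : ∀ f : α → K, ∑ x, f x = 0 → f ∈ W.toSubmodule := sum_zero_le hne W hall
    by_cases htop : ∀ f ∈ W.toSubmodule, ∑ x, f x = 0
    · left
      apply Subrepresentation.toSubmodule_injective
      apply le_antisymm
      · intro f hf
        exact htop f hf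
      · intro f hf
        exact hsz f hf
    · right
      push Not at htop
      obtain ⟨f₀, hf₀, hne₀⟩ := htop
      rw [eq_top_iff]
      intro g _
      have h1 : g - (∑ x, g x) • (∑ x, f₀ x)⁻¹ • f₀ ∈ W.toSubmodule := by
        apply hsz
        simp only [Pi.sub_apply, Pi.smul_apply, smul_eq_mul, Finset.sum_sub_distrib]
        rw [← Finset.mul_sum, ← Finset.mul_sum, inv_mul_cancel₀ hne₀, mul_one, sub_self]
      have h2 := W.toSubmodule.add_mem h1
        (W.toSubmodule.smul_mem (∑ x, g x) (W.toSubmodule.smul_mem (∑ x, f₀ x)⁻¹ hf₀))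
      simpa using h2

end Cfsg.Agent.S0714
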