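import Cfsg.Statements.S0722
import Mathlib.Tactic

set_option autoImplicit false
open Cfsg

namespace Cfsg.Agent.S0722

/-- In a primitive group `H`, with `N` a minimal normal subgroup and `K` a point stabiliser, `K ⊓ N` is maximal among proper `K`-invariant subgroups of `N`. -/
theorem result {α : Type*} [Finite α] (H : Subgroup (Equiv.Perm α)) [MulAction.IsPreprimitive H α] (N : Subgroup H) [N.Normal] (hN : N ≠ ⊥) (hmin : ∀ M : Subgroup H, M.Normal → M ≤ N → M = ⊥ ∨ M = N) (a : α) (X : Subgroup H) (hX : X ≤ N) (hKX : MulAction.stabilizer H a ⊓ N ≤ X) (hinv : MulAction.stabilizer H a ≤ Subgroup.normalizer (X : Set H)) : X = MulAction.stabilizer H a ⊓ N ∨ X = N := by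
  classical
  set K := MulAction.stabilizer H a with hK
  by_cases hXK : X ≤ K
  · left
    exact le_antisymm (le_inf hXK hX) hKX
  right
  by_cases hα : Nontrivial α
  · have hco : IsCoatom K := MulAction.IsPreprimitive.isCoatom_stabilizer_of_isPreprimitive H a
    have htop : K ⊔ X = ⊤ := by
      apply hco.2
      exact lt_of_le_of_ne le_sup_left (fun h => hXK (h ▸ le_sup_right))
    have hnorm : X.Normal := by
      rw [← Subgroup.normalizer_eq_top_iff]
      rw [eq_top_iff, ← htop]
      exact sup_le hinv Subgroup.le_normalizer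
    rcases hmin X hnorm hX with h | h
    · exact absurd (by rw [h]; exact bot_le) hXK
    · exact h
  · exfalso
    apply hXK
    rw [not_nontrivial_iff_subsingleton] at hα
    intro x _
    rw [hK, MulAction.mem_stabilizer_iff]
    exact Subsingleton.elim _ _

end Cfsg.Agent.S0722
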