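import Cfsg.Statements.S0724
import Mathlib.Tactic
import Mathlib.GroupTheory.GroupAction.Quotient
import Mathlib.Algebra.Polynomial.Eval.Degree
import Mathlib.Algebra.Polynomial.BigOperators

set_option autoImplicit false
open Cfsg

namespace Cfsg.Agent.S0724

/-- Blichfeldt's Theorem: if a finite set `L` of natural numbers contains the number of fixed points of every non-identity element of a permutation group `G` of degree `n`, then the order of `G` divides `∏ (n - l)` over `l ∈ L`. -/
theorem result {α : Type*} [Fintype α] [DecidableEq α] (G : Subgroup (Equiv.Perm α)) (L : Finset ℕ) (hL : ∀ g ∈ G, g ≠ 1 → Nat.card (MulAction.fixedBy α g) ∈ L) : Nat.card G ∣ ∏ l ∈ L, (Fintype.card α - l) := by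
  classical
  by_cases hbig : ∃ l ∈ L, Fintype.card α < l
  · obtain ⟨l, hl, hlt⟩ := hbig
    have : ∏ l ∈ L, (Fintype.card α - l) = 0 :=
      Finset.prod_eq_zero hl (Nat.sub_eq_zero_of_le hlt.le)
    rw [this]
    exact dvd_zero _
  push Not at hbig
  haveI : Fintype G := Fintype.ofFinite _
  let π : G → ℕ := fun g => Nat.card (MulAction.fixedBy α (g : Equiv.Perm α))
  -- `|G|` divides `∑ π(g)^k`
  have hpow : ∀ k : ℕ, (Nat.card G : ℤ) ∣ ∑ g : G, ((π g : ℤ)) ^ k := by
    intro k
    have hB := MulAction.sum_card_fixedBy_eq_card_orbits_mul_card_group G (Fin k → α)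
    have hfix : ∀ g : G, Fintype.card (MulAction.fixedBy (Fin k → α) g) = π g ^ k := by
      intro g
      have e : MulAction.fixedBy (Fin k → α) g ≃ (Fin k → MulAction.fixedBy α (g : Equiv.Perm α)) :=
        { toFun := fun f i => ⟨f.1 i, by
            have := congrFun f.2 i
            exact this⟩
          invFun := fun f => ⟨fun i => (f i).1, by
            funext i
            exact (f i).2⟩
          left_inv := fun f => rfl
          right_inv := fun f => rfl }
      rw [Fintype.card_congr e]
      simp [π, Nat.card_eq_fintype_card]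
    simp only [hfix] at hB
    have h2 : ((∑ g : G, π g ^ k : ℕ) : ℤ) = ((Fintype.card (MulAction.orbitRel.Quotient G (Fin k → α)) * Fintype.card G : ℕ) : ℤ) := by
      rw [hB]
    push_cast at h2
    rw [h2, Nat.card_eq_fintype_card]
    exact Dvd.intro_left _ rfl
  let P : Polynomial ℤ := ∏ l ∈ L, (Polynomial.X - Polynomial.C (l : ℤ))
  have heval : ∀ x : ℤ, P.eval x = ∏ l ∈ L, (x - (l : ℤ)) := by
    intro x
    simp [P, Polynomial.eval_prod]
  have hP : (Nat.card G : ℤ) ∣ ∑ g : G, P.eval (π g : ℤ) := by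
    have h1 : ∑ g : G, P.eval (π g : ℤ) = ∑ k ∈ Finset.range (P.natDegree + 1), P.coeff k * ∑ g : G, ((π g : ℤ)) ^ k := by
      simp_rw [Polynomial.eval_eq_sum_range, Finset.mul_sum]
      rw [Finset.sum_comm]
    rw [h1]
    exact Finset.dvd_sum (fun k _ => Dvd.dvd.mul_left (hpow k) _)
  have hsum : ∑ g : G, P.eval (π g : ℤ) = ∏ l ∈ L, ((Fintype.card α : ℤ) - (l : ℤ)) := by
    rw [← Finset.add_sum_erase _ _ (Finset.mem_univ (1 : G))]
    have h1 : π 1 = Fintype.card α := by
      show Nat.card (MulAction.fixedBy α ((1 : G) : Equiv.Perm α)) = _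
      rw [Nat.card_eq_fintype_card]
      have : MulAction.fixedBy α ((1 : G) : Equiv.Perm α) = Set.univ := by
        ext x; simp [MulAction.mem_fixedBy]
      simp [this]
    have h2 : ∑ g ∈ Finset.univ.erase (1 : G), P.eval (π g : ℤ) = 0 := by
      refine Finset.sum_eq_zero ?_
      intro g hg
      have hg1 : g ≠ 1 := (Finset.mem_erase.1 hg).1
      have hg2 : (g : Equiv.Perm α) ≠ 1 := by
        intro h
        exact hg1 (Subtype.ext h)
      have := hL g.1 g.2 hg2
      rw [heval]
      exact Finset.prod_eq_zero this (sub_self _)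
    rw [h2, add_zero, h1, heval]
  rw [hsum] at hP
  have hcast : ((∏ l ∈ L, (Fintype.card α - l) : ℕ) : ℤ) = ∏ l ∈ L, ((Fintype.card α : ℤ) - (l : ℤ)) := by
    rw [Nat.cast_prod]
    refine Finset.prod_congr rfl ?_
    intro l hl
    rw [Nat.cast_sub (hbig l hl)]
  rw [← hcast] at hP
  exact Int.natCast_dvd_natCast.1 hP

end Cfsg.Agent.S0724
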