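import Cfsg.Statements.S0726
import Mathlib.Tactic

set_option autoImplicit false
open Cfsg

namespace Cfsg.Agent.S0726

/-- The left and right regular permutation representations of a group are each other's centralisers in the symmetric group: the centraliser of the left regular image is the right regular image, and a transitive subgroup centralising the left regular image is the whole right regular image. -/
theorem result {G : Type*} [Group G] : Subgroup.centralizer ((MulAction.toPermHom G G).range : Set (Equiv.Perm G)) = (MulAction.toPermHom Gᵐᵒᵖ G).range ∧ ∀ H : Subgroup (Equiv.Perm G), H ≤ Subgroup.centralizer ((MulAction.toPermHom G G).range : Set (Equiv.Perm G)) → MulAction.IsPretransitive H G → H = (MulAction.toPermHom Gᵐᵒᵖ G).range := by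
  classical
  have hcent : Subgroup.centralizer ((MulAction.toPermHom G G).range : Set (Equiv.Perm G)) = (MulAction.toPermHom Gᵐᵒᵖ G).range := by
    ext c
    constructor
    · intro hc
      rw [Subgroup.mem_centralizer_iff] at hc
      refine ⟨MulOpposite.op (c 1), ?_⟩
      ext x
      have h := hc (MulAction.toPermHom G G x) ⟨x, rfl⟩
      have h2 := congrArg (fun σ : Equiv.Perm G => σ 1) h
      simp only [Equiv.Perm.mul_apply, MulAction.toPermHom_apply, MulAction.toPerm_apply, smul_eq_mul, mul_one] at h2
      simpa using h2
    · rintro ⟨y, rfl⟩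
      rw [Subgroup.mem_centralizer_iff]
      rintro _ ⟨x, rfl⟩
      ext z
      simp [mul_assoc]
  refine ⟨hcent, ?_⟩
  intro H hH htr
  rw [← hcent] at *
  apply le_antisymm hH
  -- if `c` centralises, pick `h ∈ H` with `h 1 = c 1`
  intro c hc
  obtain ⟨h, hh⟩ := htr.exists_smul_eq 1 (c 1)
  have hh' : h.1 1 = c 1 := hh
  have hce := hH h.2
  have : c = h.1 := by
    have hc' := Subgroup.mem_centralizer_iff.1 hc
    have hce' := Subgroup.mem_centralizer_iff.1 hce
    ext x
    have h1 := hc' (MulAction.toPermHom G G x) ⟨x, rfl⟩
    have h2 := hce' (MulAction.toPermHom G G x) ⟨x, rfl⟩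
    have h3 := congrArg (fun σ : Equiv.Perm G => σ 1) h1
    have h4 := congrArg (fun σ : Equiv.Perm G => σ 1) h2
    simp only [Equiv.Perm.mul_apply, MulAction.toPermHom_apply, MulAction.toPerm_apply, smul_eq_mul, mul_one] at h3 h4
    rw [← h3, ← h4, hh']
  rw [this]
  exact h.2

end Cfsg.Agent.S0726
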