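import Cfsg.Statements.S0728
import Cfsg.Agent.Lib.H9.Sharp3
import Cfsg.Agent.Lib.H9.SylowTools
import Mathlib.Tactic

set_option autoImplicit false
open Cfsg MulAction
open CfsgLib.H9.Sharp2 CfsgLib.H9.Sharp3

namespace Cfsg.Agent.S0728

/-- In a sharply triply transitive group of even degree at least 6 (degree `q + 1`, `q` odd), a two-point stabiliser has at most one subgroup of order 3. -/
theorem result {α : Type*} [Fintype α] [DecidableEq α] (heven : Even (Fintype.card α)) (h6 : 6 ≤ Fintype.card α) (G : Subgroup (Equiv.Perm α)) (h3 : MulAction.IsMultiplyPretransitive G α 3) (hsharp : ∀ x : Fin 3 ↪ α, MulAction.stabilizer G x = ⊥) {a b : α} (hab : a ≠ b) (A B : Subgroup G) (hA : A ≤ MulAction.stabilizer G a ⊓ MulAction.stabilizer G b) (hB : B ≤ MulAction.stabilizer G a ⊓ MulAction.stabilizer G b) (hA3 : Nat.card A = 3) (hB3 : Nat.card B = 3) : A = B := by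
  classical
  have hS3 := isSharp3_of_subgroup G h3 hsharp
  have hS2 := hS3.stabilizer a
  by_contra hne
  -- elements of order 3
  have hexA : ∃ x ∈ A, x ≠ 1 := by
    haveI : Nontrivial A := by
      rw [← Finite.one_lt_card_iff_nontrivial, hA3]; norm_num
    obtain ⟨⟨x, hx⟩, hx1⟩ := exists_ne (1 : A)
    exact ⟨x, hx, fun h => hx1 (Subtype.ext h)⟩
  have hexB : ∃ x ∈ B, x ≠ 1 := by
    haveI : Nontrivial B := by
      rw [← Finite.one_lt_card_iff_nontrivial, hB3]; norm_num
    obtain ⟨⟨x, hx⟩, hx1⟩ := exists_ne (1 : B)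
    exact ⟨x, hx, fun h => hx1 (Subtype.ext h)⟩
  obtain ⟨x, hxA, hx1⟩ := hexA
  obtain ⟨y, hyB, hy1⟩ := hexB
  have hx3 : x ^ 3 = 1 := by
    have := Subgroup.orderOf_dvd_natCard A hxA
    rw [hA3] at this
    exact orderOf_dvd_iff_pow_eq_one.mp this
  have hy3 : y ^ 3 = 1 := by
    have := Subgroup.orderOf_dvd_natCard B hyB
    rw [hB3] at this
    exact orderOf_dvd_iff_pow_eq_one.mp this
  -- a common nonidentity element forces `A = B`
  have hcommon : ∀ z : G, z ∈ A → z ∈ B → z ≠ 1 → False := by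
    intro z hzA hzB hz1
    have hz3 : z ^ 3 = 1 := by
      have := Subgroup.orderOf_dvd_natCard A hzA
      rw [hA3] at this
      exact orderOf_dvd_iff_pow_eq_one.mp this
    have hord : orderOf z = 3 := orderOf_eq_prime hz3 hz1
    apply hne
    rw [CfsgLib.H9.eq_zpowers_of_card A hA3 z hord hzA,
      CfsgLib.H9.eq_zpowers_of_card B hB3 z hord hzB]
  have hxa : x • a = a := (hA hxA).1
  have hxb : x • b = b := (hA hxA).2
  have hya : y • a = a := (hB hyB).1
  have hyb : y • b = b := (hB hyB).2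
  -- a third point
  obtain ⟨c, hc⟩ : ∃ c : α, c ∉ ({a, b} : Finset α) := by
    by_contra hcon
    push Not at hcon
    have : Fintype.card α ≤ ({a, b} : Finset α).card := by
      rw [← Finset.card_univ]
      exact Finset.card_le_card (fun u _ => hcon u)
    have h2' := Finset.card_le_two (a := a) (b := b)
    omega
  simp only [Finset.mem_insert, Finset.mem_singleton, not_or] at hc
  have hcomm := hS3.commute_of_order_three hab hc.1 hc.2 hx1 hx3 hxa hxb hy1 hy3 hya hyb
  -- pass to the point stabiliser of `a`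
  let b' : SubMulAction.ofStabilizer G a := ⟨b, hab.symm⟩
  let c' : SubMulAction.ofStabilizer G a := ⟨c, hc.1⟩
  haveI : Nontrivial (SubMulAction.ofStabilizer G a) :=
    ⟨⟨b', c', fun h => hc.2 (congrArg Subtype.val h).symm⟩⟩
  let x' : stabilizer G a := ⟨x, hxa⟩
  let y' : stabilizer G a := ⟨y, hya⟩
  have hval : ∀ u : stabilizer G a, u = 1 → (u : G) = 1 := fun u hu => by rw [hu]; rfl
  apply false_of_three_three hS2 (b := b') (x := x') (y := y')
  · exact Subtype.ext hxb
  · exact Subtype.ext hyb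
  · exact Subtype.ext hx3
  · exact Subtype.ext hy3
  · exact Subtype.ext hcomm.eq.symm
  · exact fun h => hx1 (hval _ h)
  · exact fun h => hy1 (hval _ h)
  · intro h
    have h1 : x * y = 1 := hval _ h
    have h2 : y = x⁻¹ := eq_inv_of_mul_eq_one_right h1
    exact hcommon y (h2 ▸ A.inv_mem hxA) hyB hy1
  · intro h
    have h1 : x * (y * y) = 1 := hval _ h
    have h2 : y * y = x⁻¹ := eq_inv_of_mul_eq_one_right h1
    have hyy : y * y ≠ 1 := by
      intro h5
      apply hy1
      have e : y ^ 3 = y * (y * y) := by simp [pow_succ, mul_assoc]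
      rw [hy3, h5, mul_one] at e
      exact e.symm
    exact hcommon (y * y) (h2 ▸ A.inv_mem hxA) (B.mul_mem hyB hyB) hyy

end Cfsg.Agent.S0728
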