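import Cfsg.Statements.S0730
import Cfsg.Agent.Lib.H9.Sharp3Odd

set_option autoImplicit false
open Cfsg

namespace Cfsg.Agent.S0730

/-- A sharply triply transitive group of degree `p^f + 1`, `p` an odd prime and `f` odd, is isomorphic to the projective general linear group of degree 2 over the field with `p^f` elements (for even `f` there is a second, twisted, group). -/
theorem result {α : Type*} [Fintype α] [DecidableEq α] {p f : ℕ} (hp : p.Prime) (hp2 : p ≠ 2) (hfo : Odd f) (hα : Fintype.card α = p ^ f + 1) (G : Subgroup (Equiv.Perm α)) (h3 : MulAction.IsMultiplyPretransitive G α 3) (hsharp : ∀ x : Fin 3 ↪ α, MulAction.stabilizer G x = ⊥) : ∃ (F : Type) (_ : Field F) (_ : Fintype F), Fintype.card F = p ^ f ∧ Nonempty (G ≃* Matrix.ProjGenLinGroup (Fin 2) F) := by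
  classical
  have hS := CfsgLib.H9.Sharp3.isSharp3_of_subgroup G h3 hsharp
  haveI : Nonempty α := by
    apply Fintype.card_pos_iff.1
    rw [hα]
    exact Nat.succ_pos _
  exact CfsgLib.H9.Sharp3Odd.main_odd hS hp hp2 hfo hα

end Cfsg.Agent.S0730
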