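import Cfsg.Statements.S0733
import Mathlib.Tactic
import Mathlib.GroupTheory.GroupAction.Primitive
import Mathlib.Data.ZMod.Basic

set_option autoImplicit false
open Cfsg
open scoped Pointwise

namespace Cfsg.Agent.S0733

/-- A permutation group of affine type — generated by the translations of a finite vector space `V` over `ZMod p` together with a group `G₀` of linear automorphisms — is primitive on `V` if and only if `G₀` is irreducible on `V`. -/
theorem result {p : ℕ} [Fact p.Prime] {V : Type*} [AddCommGroup V] [Module (ZMod p) V] [Finite V] [Nontrivial V] (G₀ : Subgroup (V ≃ₗ[ZMod p] V)) (G : Subgroup (Equiv.Perm V)) (hG : ∀ σ : Equiv.Perm V, σ ∈ G ↔ ∃ g ∈ G₀, ∃ b : V, ∀ x : V, σ x = (g : V ≃ₗ[ZMod p] V) x + b) : MulAction.IsPreprimitive G V ↔ ∀ W : Submodule (ZMod p) V, (∀ g ∈ G₀, ∀ v ∈ W, (g : V ≃ₗ[ZMod p] V) v ∈ W) → W = ⊥ ∨ W = ⊤ := by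
  classical
  -- translations lie in `G`
  have htr : ∀ v : V, Equiv.addRight v ∈ G := by
    intro v
    rw [hG]
    exact ⟨1, G₀.one_mem, v, fun x => by simp⟩
  have hsmul : ∀ (σ : G) (x : V), σ • x = (σ : Equiv.Perm V) x := fun σ x => rfl
  constructor
  · intro hprim W hW
    have hB : MulAction.IsBlock G (W : Set V) := by
      rw [MulAction.isBlock_iff_smul_eq_of_nonempty]
      rintro ⟨σ, hσ⟩ ⟨y, ⟨w₁, hw₁, rfl⟩, hw₂⟩
      obtain ⟨g, hg, b, hb⟩ := (hG σ).mp hσ
      have hw₂' : (σ w₁) ∈ W := hw₂
      rw [hb] at hw₂'
      have hbW : b ∈ W := by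
        have h1 := hW g hg w₁ hw₁
        have := W.sub_mem hw₂' h1
        simpa using this
      ext y
      constructor
      · rintro ⟨x, hx, rfl⟩
        change σ x ∈ W
        rw [hb]
        exact W.add_mem (hW g hg x hx) hbW
      · intro hy
        refine ⟨(g : V ≃ₗ[ZMod p] V)⁻¹ (y - b), ?_, ?_⟩
        · exact hW g⁻¹ (G₀.inv_mem hg) _ (W.sub_mem hy hbW)
        · change σ _ = y
          rw [hb]
          have : (g : V ≃ₗ[ZMod p] V) ((g : V ≃ₗ[ZMod p] V)⁻¹ (y - b)) = y - b := by
            exact LinearEquiv.apply_symm_apply g (y - b)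
          rw [this]
          simp
    rcases hB.subsingleton_or_eq_univ with h | h
    · left
      rw [eq_bot_iff]
      intro v hv
      have := h hv W.zero_mem
      simpa using this
    · right
      rw [eq_top_iff]
      intro v _
      have : v ∈ (W : Set V) := by rw [h]; trivial
      exact this
  · intro hirr
    haveI htrans : MulAction.IsPretransitive G V := by
      constructor
      intro a b
      exact ⟨⟨Equiv.addRight (b - a), htr _⟩, by simp [hsmul]⟩
    apply MulAction.IsPreprimitive.mk
    intro B hB
    by_cases hs : B.Subsingleton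
    · exact Or.inl hs
    right
    rw [Set.not_subsingleton_iff] at hs
    obtain ⟨a, ha, b, hb, hab⟩ := hs
    have hbl := MulAction.isBlock_iff_smul_eq_of_mem.mp hB
    -- elements of `G` mapping a point of `B` into `B` stabilise `B`
    have hstab : ∀ σ : G, ∀ x ∈ B, (σ : Equiv.Perm V) x ∈ B → ∀ y ∈ B, (σ : Equiv.Perm V) y ∈ B := by
      intro σ x hx hσx y hy
      have h1 : σ • B = B := hB.smul_eq_of_nonempty ⟨σ • x, ⟨x, hx, rfl⟩, hσx⟩
      rw [← h1]
      exact ⟨y, hy, rfl⟩
    have htrB : ∀ v : V, v + a ∈ B → ∀ y ∈ B, y + v ∈ B := by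
      intro v hv y hy
      refine hstab ⟨Equiv.addRight v, htr v⟩ a ha ?_ y hy
      change a + v ∈ B
      rwa [add_comm]
    let W : Submodule (ZMod p) V :=
      { carrier := {v | v + a ∈ B}
        add_mem' := by
          intro u v hu hv
          have := htrB v hv _ hu
          change u + v + a ∈ B
          convert this using 1
          abel
        zero_mem' := by simpa using ha
        smul_mem' := by
          intro c v hv
          have hn : ∀ n : ℕ, n • v + a ∈ B := by
            intro n
            induction n with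
            | zero => simpa using ha
            | succ n ih =>
              have := htrB v hv _ ih
              convert this using 1
              rw [succ_nsmul]
              abel
          have : c • v = c.val • v := by
            rw [← Nat.cast_smul_eq_nsmul (ZMod p), ZMod.natCast_zmod_val]
          change c • v + a ∈ B
          rw [this]
          exact hn _ }
    have hW : ∀ g ∈ G₀, ∀ v ∈ W, (g : V ≃ₗ[ZMod p] V) v ∈ W := by
      intro g hg v hv
      let σ : Equiv.Perm V := (g : V ≃ₗ[ZMod p] V).toEquiv.trans (Equiv.addRight (a - (g : V ≃ₗ[ZMod p] V) a))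
      have hσ : σ ∈ G := by
        rw [hG]
        exact ⟨g, hg, a - (g : V ≃ₗ[ZMod p] V) a, fun x => rfl⟩
      have hσa : σ a ∈ B := by
        have : σ a = a := by
          change (g : V ≃ₗ[ZMod p] V) a + (a - (g : V ≃ₗ[ZMod p] V) a) = a
          abel
        rwa [this]
      have hv' : v + a ∈ B := hv
      have := hstab ⟨σ, hσ⟩ a ha hσa (v + a) hv'
      change (g : V ≃ₗ[ZMod p] V) v + a ∈ B
      convert this using 1
      change _ = (g : V ≃ₗ[ZMod p] V) (v + a) + (a - (g : V ≃ₗ[ZMod p] V) a)
      rw [map_add]
      abel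
    rcases hirr W hW with h | h
    · exfalso
      have hmem : b - a ∈ W := by
        change b - a + a ∈ B
        simpa using hb
      rw [h, Submodule.mem_bot] at hmem
      exact hab (sub_eq_zero.mp hmem).symm
    · ext x
      simp only [Set.mem_univ, iff_true]
      have hmem : x - a ∈ W := by rw [h]; trivial
      have : x - a + a ∈ B := hmem
      simpa using this

end Cfsg.Agent.S0733
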