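import Cfsg.Statements.S0734
import Mathlib.Tactic
import Mathlib.GroupTheory.GroupAction.Primitive
import Mathlib.Combinatorics.SimpleGraph.Connectivity.Connected

set_option autoImplicit false
open Cfsg
open scoped Pointwise

namespace Cfsg.Agent.S0734

/-- Higman's criterion for primitivity: a transitive action on a finite set is primitive if and only if every non-trivial orbital graph (edges = images of a fixed pair of distinct points) is connected. -/
theorem result {G : Type*} [Group G] {Ω : Type*} [Finite Ω] [MulAction G Ω] [MulAction.IsPretransitive G Ω] [Nontrivial Ω] : MulAction.IsPreprimitive G Ω ↔ ∀ a b : Ω, a ≠ b → (SimpleGraph.fromRel fun x y : Ω => ∃ g : G, g • a = x ∧ g • b = y).Connected := by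
  classical
  constructor
  · intro hprim a b hab
    set Γ := SimpleGraph.fromRel fun x y : Ω => ∃ g : G, g • a = x ∧ g • b = y with hΓ
    -- group elements act as graph homomorphisms
    have hadj : ∀ (g : G) (x y : Ω), Γ.Adj x y → Γ.Adj (g • x) (g • y) := by
      intro g x y hxy
      rw [hΓ, SimpleGraph.fromRel_adj] at hxy ⊢
      obtain ⟨hne, h⟩ := hxy
      refine ⟨fun h' => hne (MulAction.injective g h'), ?_⟩
      rcases h with ⟨k, rfl, rfl⟩ | ⟨k, rfl, rfl⟩
      · left; exact ⟨g * k, by rw [mul_smul], by rw [mul_smul]⟩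
      · right; exact ⟨g * k, by rw [mul_smul], by rw [mul_smul]⟩
    let hom : G → (Γ →g Γ) := fun g => ⟨fun x => g • x, fun {x y} h => hadj g x y h⟩
    have hreach : ∀ (g : G) (x y : Ω), Γ.Reachable x y → Γ.Reachable (g • x) (g • y) :=
      fun g x y h => h.map (hom g)
    let C : Set Ω := {x | Γ.Reachable a x}
    have hC : MulAction.IsBlock G C := by
      rw [MulAction.isBlock_iff_smul_eq_of_nonempty]
      rintro g ⟨z, ⟨x, hx, rfl⟩, hz⟩
      have hga : Γ.Reachable (g • a) a := (hreach g a x hx).trans (SimpleGraph.Reachable.symm hz)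
      have hga' : Γ.Reachable (g⁻¹ • a) a := by
        have := hreach g⁻¹ _ _ hga
        rw [inv_smul_smul] at this
        exact this.symm
      ext w
      constructor
      · rintro ⟨v, hv, rfl⟩
        exact (SimpleGraph.Reachable.symm hga).trans (hreach g a v hv)
      · intro hw
        refine ⟨g⁻¹ • w, ?_, by simp⟩
        exact (SimpleGraph.Reachable.symm hga').trans (hreach g⁻¹ a w hw)
    have hab' : Γ.Adj a b := by
      rw [hΓ, SimpleGraph.fromRel_adj]
      exact ⟨hab, Or.inl ⟨1, by simp, by simp⟩⟩
    have hnot : ¬ C.Subsingleton := by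
      intro h
      have h1 : a ∈ C := SimpleGraph.Reachable.refl a
      have h2 : b ∈ C := hab'.reachable
      exact hab (h h1 h2)
    have huniv : C = Set.univ := hC.subsingleton_or_eq_univ.resolve_left hnot
    rw [SimpleGraph.connected_iff]
    refine ⟨fun u v => ?_, ⟨a⟩⟩
    have hu : u ∈ C := by rw [huniv]; trivial
    have hv : v ∈ C := by rw [huniv]; trivial
    exact (SimpleGraph.Reachable.symm hu).trans hv
  · intro h
    apply MulAction.IsPreprimitive.mk
    intro B hB
    by_cases hs : B.Subsingleton
    · exact Or.inl hs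
    right
    rw [Set.not_subsingleton_iff] at hs
    obtain ⟨a, ha, b, hb, hab⟩ := hs
    have hconn := h a b hab
    set Γ := SimpleGraph.fromRel fun x y : Ω => ∃ g : G, g • a = x ∧ g • b = y with hΓ
    have hstep : ∀ x y : Ω, Γ.Adj x y → x ∈ B → y ∈ B := by
      intro x y hxy hx
      rw [hΓ, SimpleGraph.fromRel_adj] at hxy
      obtain ⟨-, ⟨g, rfl, rfl⟩ | ⟨g, rfl, rfl⟩⟩ := hxy
      · have hgB : g • B = B := (MulAction.isBlock_iff_smul_eq_of_nonempty.mp hB)
          ⟨g • a, ⟨a, ha, rfl⟩, hx⟩
        rw [← hgB]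
        exact ⟨b, hb, rfl⟩
      · have hgB : g • B = B := (MulAction.isBlock_iff_smul_eq_of_nonempty.mp hB)
          ⟨g • b, ⟨b, hb, rfl⟩, hx⟩
        rw [← hgB]
        exact ⟨a, ha, rfl⟩
    have hwalk : ∀ (u v : Ω) (w : Γ.Walk u v), u ∈ B → v ∈ B := by
      intro u v w
      induction w with
      | nil => exact id
      | cons hadj _ ih => exact fun hu => ih (hstep _ _ hadj hu)
    ext x
    simp only [Set.mem_univ, iff_true]
    obtain ⟨w⟩ := hconn.preconnected a x
    exact hwalk _ _ w ha

end Cfsg.Agent.S0734
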