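import Cfsg.Statements.S0735
import Mathlib.Tactic
import Mathlib.GroupTheory.GroupAction.SubMulAction.Combination
import Mathlib.GroupTheory.GroupAction.MultipleTransitivity

set_option autoImplicit false
open Cfsg
open scoped Pointwise

namespace Cfsg.Agent.S0735

/-- A 2-homogeneous permutation group (transitive on 2-subsets) of even order is doubly transitive; a non-trivial 2-homogeneous group is primitive. -/
theorem result {α : Type*} [Fintype α] [DecidableEq α] (G : Subgroup (Equiv.Perm α)) (h2 : MulAction.IsPretransitive G (Set.powersetCard α 2)) (hα : 3 ≤ Fintype.card α) : (Even (Nat.card G) → MulAction.IsMultiplyPretransitive G α 2) ∧ (G ≠ ⊥ → MulAction.IsPreprimitive G α) := by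
  classical
  -- unordered pairs
  have hpair : ∀ {a b c d : α}, a ≠ b → c ≠ d →
      ∃ g : G, (g • a = c ∧ g • b = d) ∨ (g • a = d ∧ g • b = c) := by
    intro a b c d hab hcd
    let P : Set.powersetCard α 2 := ⟨{a, b}, by simp [Set.powersetCard.mem_iff, Finset.card_pair hab]⟩
    let Q : Set.powersetCard α 2 := ⟨{c, d}, by simp [Set.powersetCard.mem_iff, Finset.card_pair hcd]⟩
    obtain ⟨g, hg⟩ := h2.exists_smul_eq P Q
    have hg' : g • ({a, b} : Finset α) = {c, d} := congrArg Subtype.val hg
    have ha : g • a ∈ ({c, d} : Finset α) := by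
      rw [← hg']; exact Finset.smul_mem_smul_finset (by simp)
    have hb : g • b ∈ ({c, d} : Finset α) := by
      rw [← hg']; exact Finset.smul_mem_smul_finset (by simp)
    have hne : g • a ≠ g • b := fun h => hab (MulAction.injective g h)
    simp only [Finset.mem_insert, Finset.mem_singleton] at ha hb
    refine ⟨g, ?_⟩
    rcases ha with ha | ha <;> rcases hb with hb | hb
    · exact absurd (ha.trans hb.symm) hne
    · exact Or.inl ⟨ha, hb⟩
    · exact Or.inr ⟨ha, hb⟩
    · exact absurd (ha.trans hb.symm) hne
  constructor
  · intro heven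
    haveI : Fact (Nat.Prime 2) := ⟨Nat.prime_two⟩
    haveI : Finite G := inferInstance
    obtain ⟨t, ht⟩ := exists_prime_orderOf_dvd_card' 2 (even_iff_two_dvd.mp heven)
    have ht1 : t ≠ 1 := by
      rintro rfl
      simp at ht
    have ht2 : t * t = 1 := by
      rw [← pow_two, ← ht, pow_orderOf_eq_one]
    obtain ⟨a, ha⟩ : ∃ a : α, (t : Equiv.Perm α) a ≠ a := by
      by_contra hcon
      push Not at hcon
      apply ht1
      apply Subtype.ext
      ext x
      simpa using hcon x
    set b := t • a with hb
    have hab : a ≠ b := fun h => ha h.symm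
    have htb : t • b = a := by rw [hb, ← mul_smul, ht2, one_smul]
    have key : ∀ {c d : α}, c ≠ d → ∃ g : G, g • a = c ∧ g • b = d := by
      intro c d hcd
      obtain ⟨g, h | h⟩ := hpair hab hcd
      · exact ⟨g, h⟩
      · refine ⟨g * t, ?_, ?_⟩
        · rw [mul_smul, ← hb]; exact h.2
        · rw [mul_smul, htb]; exact h.1
    rw [MulAction.is_two_pretransitive_iff]
    intro c d c' d' hcd hcd'
    obtain ⟨g, hg1, hg2⟩ := key hcd
    obtain ⟨g', hg1', hg2'⟩ := key hcd'
    refine ⟨g' * g⁻¹, ?_, ?_⟩
    · rw [mul_smul, ← hg1, inv_smul_smul, hg1']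
    · rw [mul_smul, ← hg2, inv_smul_smul, hg2']
  · intro hG
    -- transitivity
    have htrans : MulAction.IsPretransitive G α := by
      constructor
      intro a b
      by_contra hcon
      push Not at hcon
      -- orbits: `a`, `b` in different orbits; every pair has one point in each of the two orbits
      have hne : a ≠ b := by
        rintro rfl
        exact hcon 1 (one_smul _ _)
      have hall : ∀ c d : α, c ≠ d →
          ((∃ g : G, g • a = c) ∧ (∃ g : G, g • b = d)) ∨ ((∃ g : G, g • a = d) ∧ (∃ g : G, g • b = c)) := by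
        intro c d hcd
        obtain ⟨g, h | h⟩ := hpair hne hcd
        · exact Or.inl ⟨⟨g, h.1⟩, ⟨g, h.2⟩⟩
        · exact Or.inr ⟨⟨g, h.1⟩, ⟨g, h.2⟩⟩
      have hor : ∀ c : α, (∃ g : G, g • a = c) ∨ (∃ g : G, g • b = c) := by
        intro c
        by_cases hc : c = a
        · exact Or.inl ⟨1, by rw [one_smul, hc]⟩
        · rcases hall c a hc with h | h
          · exact Or.inl h.1
          · exact Or.inr h.2
      have hdisj : ∀ c : α, (∃ g : G, g • a = c) → (∃ g : G, g • b = c) → False := by
        rintro c ⟨g, hg⟩ ⟨g', hg'⟩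
        apply hcon (g'⁻¹ * g)
        rw [mul_smul, hg, ← hg', inv_smul_smul]
      -- same-orbit points cannot be distinct
      have hsame1 : ∀ c d : α, (∃ g : G, g • a = c) → (∃ g : G, g • a = d) → c = d := by
        intro c d hc hd
        by_contra hcd
        rcases hall c d hcd with h | h
        · exact hdisj d hd h.2
        · exact hdisj c hc h.2
      have hsame2 : ∀ c d : α, (∃ g : G, g • b = c) → (∃ g : G, g • b = d) → c = d := by
        intro c d hc hd
        by_contra hcd
        rcases hall c d hcd with h | h
        · exact hdisj c h.1 hc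
        · exact hdisj d h.1 hd
      -- so there are at most two points
      have hle : ∀ c : α, c = a ∨ c = b := by
        intro c
        rcases hor c with h | h
        · exact Or.inl (hsame1 c a h ⟨1, one_smul _ _⟩)
        · exact Or.inr (hsame2 c b h ⟨1, one_smul _ _⟩)
      have : Fintype.card α ≤ ({a, b} : Finset α).card := by
        rw [← Finset.card_univ]
        exact Finset.card_le_card (fun x _ => by simpa using hle x)
      have h2' := Finset.card_le_two (a := a) (b := b)
      omega
    apply MulAction.IsPreprimitive.mk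
    intro B hB
    by_cases hs : B.Subsingleton
    · exact Or.inl hs
    right
    rw [Set.not_subsingleton_iff] at hs
    obtain ⟨a, ha, b, hb, hab⟩ := hs
    ext c
    simp only [Set.mem_univ, iff_true]
    by_contra hc
    have hac : a ≠ c := by rintro rfl; exact hc ha
    obtain ⟨g, h⟩ := hpair hab hac
    have hgB : g • B = B := by
      apply MulAction.isBlock_iff_smul_eq_of_nonempty.mp hB
      rcases h with h | h
      · exact ⟨a, ⟨a, ha, h.1⟩, ha⟩
      · exact ⟨a, ⟨b, hb, h.2⟩, ha⟩
    apply hc
    rw [← hgB]
    rcases h with h | h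
    · exact ⟨b, hb, h.2⟩
    · exact ⟨a, ha, h.1⟩

end Cfsg.Agent.S0735
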