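import Cfsg.Statements.S0736
import Mathlib

set_option autoImplicit false
open Cfsg
open scoped Pointwise

namespace Cfsg.Agent.S0736

private lemma not_dvd_choose {p : ℕ} (hp : p.Prime) (a t : ℕ) :
    ¬ p ∣ Nat.choose (p ^ a * t + p ^ a - 1) (p ^ a - 1) := by
  haveI : Fact p.Prime := ⟨hp⟩
  induction a generalizing t with
  | zero => simpa using hp.ne_one
  | succ a ih =>
    have hpa : 0 < p ^ a := pow_pos hp.pos a
    have h1 : p ^ (a + 1) * t + p ^ (a + 1) - 1 = p * (p ^ a * t + p ^ a - 1) + (p - 1) := by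
      have : p ^ (a + 1) = p * p ^ a := by ring
      rw [this]
      have h2 : p * (p ^ a * t + p ^ a - 1) = p * (p ^ a * t + p ^ a) - p := by
        rw [Nat.mul_sub, mul_one]
      rw [h2]
      have h3 : p ≤ p * (p ^ a * t + p ^ a) := by
        apply Nat.le_mul_of_pos_right
        omega
      have h4 := hp.pos
      have h5 : p * p ^ a * t + p * p ^ a = p * (p ^ a * t + p ^ a) := by ring
      rw [h5]
      omega
    have h2 : p ^ (a + 1) - 1 = p * (p ^ a - 1) + (p - 1) := by
      have : p ^ (a + 1) = p * p ^ a := by ring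
      rw [this, Nat.mul_sub, mul_one]
      have h4 := hp.pos
      have h3 : p ≤ p * p ^ a := Nat.le_mul_of_pos_right _ hpa
      omega
    rw [h1, h2]
    have hlt : p - 1 < p := by have := hp.pos; omega
    have hL := Choose.choose_modEq_choose_mod_mul_choose_div_nat (p := p)
      (n := p * (p ^ a * t + p ^ a - 1) + (p - 1)) (k := p * (p ^ a - 1) + (p - 1))
    have e1 : (p * (p ^ a * t + p ^ a - 1) + (p - 1)) % p = p - 1 := by
      rw [Nat.mul_add_mod, Nat.mod_eq_of_lt hlt]
    have e2 : (p * (p ^ a - 1) + (p - 1)) % p = p - 1 := by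
      rw [Nat.mul_add_mod, Nat.mod_eq_of_lt hlt]
    have e3 : (p * (p ^ a * t + p ^ a - 1) + (p - 1)) / p = p ^ a * t + p ^ a - 1 := by
      rw [Nat.mul_add_div hp.pos, Nat.div_eq_of_lt hlt, add_zero]
    have e4 : (p * (p ^ a - 1) + (p - 1)) / p = p ^ a - 1 := by
      rw [Nat.mul_add_div hp.pos, Nat.div_eq_of_lt hlt, add_zero]
    rw [e1, e2, e3, e4, Nat.choose_self, one_mul] at hL
    intro hd
    exact ih t ((Nat.modEq_zero_iff_dvd.mp (hL.symm.trans (Nat.modEq_zero_iff_dvd.mpr hd))))

/-- The double count. -/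
private lemma count {α : Type*} [DecidableEq α] (O : Finset α → Prop) [DecidablePred O] (A : Finset α)
    {k q l : ℕ} (hk : 1 ≤ k) (hA : A.card = k + q - 1) (hq : 1 ≤ q)
    (hl : ∀ K : Finset α, K ⊆ A → K.card = k → (K.filter fun x => O (K.erase x)).card = l) :
    ∃ m, Nat.choose (k + q - 1) k * l = m * q := by
  let 𝒦 := A.powersetCard k
  let 𝒮 := (A.powersetCard (k - 1)).filter O
  have e : (𝒦.sigma fun K => K.filter fun x => O (K.erase x)).card =
      (𝒮.sigma fun S => A \ S).card := by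
    refine Finset.card_bij' (fun p _ => ⟨p.1.erase p.2, p.2⟩) (fun p _ => ⟨insert p.2 p.1, p.2⟩) ?_ ?_ ?_ ?_
    · rintro ⟨K, x⟩ h
      simp only [𝒦, Finset.mem_sigma, Finset.mem_powersetCard, Finset.mem_filter] at h
      obtain ⟨⟨h1, h2⟩, h3, h4⟩ := h
      simp only [𝒮, Finset.mem_sigma, Finset.mem_filter, Finset.mem_powersetCard, Finset.mem_sdiff,
        Finset.mem_erase, not_and, not_true_eq_false, ne_eq]
      refine ⟨⟨⟨(Finset.erase_subset _ _).trans h1, ?_⟩, h4⟩, h1 h3, ?_⟩
      · rw [Finset.card_erase_of_mem h3, h2]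
      · simp
    · rintro ⟨S, y⟩ h
      simp only [𝒮, Finset.mem_sigma, Finset.mem_filter, Finset.mem_powersetCard,
        Finset.mem_sdiff] at h
      obtain ⟨⟨⟨h1, h2⟩, h3⟩, h4, h5⟩ := h
      simp only [𝒦, Finset.mem_sigma, Finset.mem_powersetCard, Finset.mem_filter,
        Finset.mem_insert, true_or, true_and]
      refine ⟨⟨Finset.insert_subset h4 h1, ?_⟩, ?_⟩
      · rw [Finset.card_insert_of_notMem h5, h2]; omega
      · rw [Finset.erase_insert h5]; exact h3
    · rintro ⟨K, x⟩ h
      simp only [𝒦, Finset.mem_sigma, Finset.mem_powersetCard, Finset.mem_filter] at h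
      simp only [Finset.insert_erase h.2.1]
    · rintro ⟨S, y⟩ h
      simp only [𝒮, Finset.mem_sigma, Finset.mem_filter, Finset.mem_powersetCard,
        Finset.mem_sdiff] at h
      simp only [Finset.erase_insert h.2.2]
  rw [Finset.card_sigma, Finset.card_sigma] at e
  refine ⟨𝒮.card, ?_⟩
  have e1 : ∑ K ∈ 𝒦, (K.filter fun x => O (K.erase x)).card = 𝒦.card * l := by
    rw [Finset.sum_const_nat]
    intro K hK
    rw [Finset.mem_powersetCard] at hK
    exact hl K hK.1 hK.2
  have e2 : ∑ S ∈ 𝒮, (A \ S).card = 𝒮.card * q := by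
    rw [Finset.sum_const_nat]
    intro S hS
    simp only [𝒮, Finset.mem_filter, Finset.mem_powersetCard] at hS
    rw [Finset.card_sdiff_of_subset hS.1.1, hS.1.2, hA]
    omega
  rw [e1, e2] at e
  rw [← e, Finset.card_powersetCard, hA]

/-- A `k`-homogeneous permutation group of degree `n`, `k ≥ 2`, with `k + q - 1 ≤ n` for every prime power `q` dividing `k`, is `(k-1)`-homogeneous. -/
theorem result {α : Type*} [Fintype α] [DecidableEq α] (G : Subgroup (Equiv.Perm α)) {k : ℕ} (hk : 2 ≤ k) (hG : MulAction.IsPretransitive G (Set.powersetCard α k)) (hq : ∀ q : ℕ, IsPrimePow q → q ∣ k → k + q - 1 ≤ Fintype.card α) : MulAction.IsPretransitive G (Set.powersetCard α (k - 1)) := by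
  classical
  have hH : ∀ A B : Finset α, A.card = k → B.card = k → ∃ g : G, g • A = B := by
    intro A B hA hB
    obtain ⟨g, hg⟩ := hG.exists_smul_eq (⟨A, hA⟩ : Set.powersetCard α k) ⟨B, hB⟩
    refine ⟨g, ?_⟩
    exact congrArg Subtype.val hg
  have hn : k + 1 ≤ Fintype.card α := by
    obtain ⟨p, hp, hpk⟩ := Nat.exists_prime_and_dvd (by omega : k ≠ 1)
    have := hq p hp.isPrimePow hpk
    have := hp.two_le
    omega
  have hext : ∀ S : Finset α, S.card = k - 1 → ∃ y, y ∉ S := by
    intro S hS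
    by_contra hcon
    push Not at hcon
    have : S = Finset.univ := Finset.eq_univ_iff_forall.mpr hcon
    rw [this, Finset.card_univ] at hS
    omega
  constructor
  intro S₀ S₁
  let O : Finset α → Prop := fun S => ∃ g : G, g • (S₀ : Finset α) = S
  have hOsmul : ∀ (g : G) (S : Finset α), O (g • S) ↔ O S := by
    intro g S
    constructor
    · rintro ⟨h, hh⟩
      refine ⟨g⁻¹ * h, ?_⟩
      rw [mul_smul, hh, inv_smul_smul]
    · rintro ⟨h, hh⟩
      refine ⟨g * h, ?_⟩
      rw [mul_smul, hh]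
  have herase : ∀ (g : G) (K : Finset α) (x : α), (g • K).erase (g • x) = g • (K.erase x) := by
    intro g K x
    ext y
    simp only [Finset.mem_erase, Finset.mem_smul_finset, ne_eq]
    constructor
    · rintro ⟨h1, z, hz, rfl⟩
      exact ⟨z, ⟨fun h => h1 (by rw [h]), hz⟩, rfl⟩
    · rintro ⟨z, ⟨h1, h2⟩, rfl⟩
      exact ⟨fun h => h1 (MulAction.injective g h), z, h2, rfl⟩
  let lam : Finset α → ℕ := fun K => (K.filter fun x => O (K.erase x)).card
  have hlam : ∀ (g : G) (K : Finset α), lam (g • K) = lam K := by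
    intro g K
    refine Finset.card_bij' (fun x _ => g⁻¹ • x) (fun x _ => g • x) ?_ ?_ ?_ ?_
    · intro x hx
      simp only [Finset.mem_filter, Finset.mem_smul_finset] at hx ⊢
      obtain ⟨⟨z, hz, rfl⟩, h2⟩ := hx
      rw [inv_smul_smul]
      refine ⟨hz, ?_⟩
      rwa [herase, hOsmul] at h2
    · intro x hx
      simp only [Finset.mem_filter] at hx ⊢
      refine ⟨Finset.smul_mem_smul_finset hx.1, ?_⟩
      rw [herase, hOsmul]
      exact hx.2
    · intro x _
      simp
    · intro x _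
      simp
  -- the base `k`-set
  obtain ⟨y₀, hy₀⟩ := hext S₀ S₀.2
  let K₀ : Finset α := insert y₀ (S₀ : Finset α)
  have hK₀ : K₀.card = k := by
    rw [Finset.card_insert_of_notMem hy₀]
    have : (S₀ : Finset α).card = k - 1 := S₀.2
    omega
  set l := lam K₀ with hldef
  have hconst : ∀ K : Finset α, K.card = k → lam K = l := by
    intro K hK
    obtain ⟨g, rfl⟩ := hH K₀ K hK₀ hK
    exact hlam g K₀
  have hlpos : 0 < l := by
    apply Finset.card_pos.mpr
    refine ⟨y₀, ?_⟩
    simp only [Finset.mem_filter]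
    refine ⟨Finset.mem_insert_self _ _, ?_⟩
    rw [Finset.erase_insert hy₀]
    exact ⟨1, one_smul _ _⟩
  have hlle : l ≤ k := by
    rw [← hK₀]
    exact Finset.card_filter_le _ _
  -- prime powers dividing `k` divide `l`
  have hdvd : ∀ (p a : ℕ), p.Prime → p ^ a ∣ k → p ^ a ∣ l := by
    intro p a hp hpa
    rcases Nat.eq_zero_or_pos a with rfl | ha
    · simp
    have hipp : IsPrimePow (p ^ a) := hp.isPrimePow.pow ha.ne'
    have hcardle := hq _ hipp hpa
    have hqpos : 1 ≤ p ^ a := Nat.one_le_pow _ _ hp.pos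
    obtain ⟨A, -, hA⟩ := Finset.exists_subset_card_eq (s := (Finset.univ : Finset α)) (n := k + p ^ a - 1)
      (by rw [Finset.card_univ]; exact hcardle)
    obtain ⟨m, hm⟩ := count O A (k := k) (q := p ^ a) (l := l) (by omega) hA hqpos
      (fun K _ hK => hconst K hK)
    obtain ⟨t, ht⟩ := hpa
    have hch : Nat.choose (k + p ^ a - 1) k = Nat.choose (p ^ a * t + p ^ a - 1) (p ^ a - 1) := by
      rw [← ht]
      have h1 : k + p ^ a - 1 - k = p ^ a - 1 := by omega
      rw [← h1]
      exact (Nat.choose_symm (by omega)).symm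
    have hcop : Nat.Coprime (p ^ a) (Nat.choose (k + p ^ a - 1) k) := by
      apply Nat.Coprime.pow_left
      rw [hch]
      exact (Nat.Prime.coprime_iff_not_dvd hp).mpr (not_dvd_choose hp a t)
    exact hcop.dvd_of_dvd_mul_left ⟨m, by rw [hm]; ring⟩
  have hkl : k ∣ l := by
    rw [Nat.dvd_iff_prime_pow_dvd_dvd]
    intro p a hp hpa
    exact hdvd p a hp hpa
  have hlk : l = k := le_antisymm hlle (Nat.le_of_dvd hlpos hkl)
  -- finish
  obtain ⟨y₁, hy₁⟩ := hext S₁ S₁.2
  let K₁ : Finset α := insert y₁ (S₁ : Finset α)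
  have hK₁ : K₁.card = k := by
    rw [Finset.card_insert_of_notMem hy₁]
    have : (S₁ : Finset α).card = k - 1 := S₁.2
    omega
  have h1 : (K₁.filter fun x => O (K₁.erase x)).card = K₁.card := by
    rw [hK₁]
    exact (hconst K₁ hK₁).trans hlk
  have h2 := Finset.filter_card_eq h1 y₁ (Finset.mem_insert_self _ _)
  rw [Finset.erase_insert hy₁] at h2
  obtain ⟨g, hg⟩ := h2
  refine ⟨g, ?_⟩
  exact Subtype.ext hg

end Cfsg.Agent.S0736
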