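import Cfsg.Statements.S0740
import Mathlib.Tactic

set_option autoImplicit false
open Cfsg MulAction

namespace Cfsg.Agent.S0740

/-- In a finite Zassenhaus group any two points `a ≠ b` are swapped by an involution; every such involution has exactly one fixed point when the degree is odd and 0 or 2 fixed points when the degree is even; and if the two-point stabiliser has even order, some such involution has exactly 2 fixed points. -/
theorem result {G Ω : Type*} [Group G] [Finite G] [MulAction G Ω] [Fintype Ω] (hZ : Cfsg.IsZassenhausGroup G Ω) {a b : Ω} (hab : a ≠ b) : (∃ s : G, orderOf s = 2 ∧ s • a = b ∧ s • b = a) ∧ (∀ s : G, orderOf s = 2 → s • a = b → s • b = a → (Odd (Fintype.card Ω) → Nat.card (MulAction.fixedBy Ω s) = 1) ∧ (Even (Fintype.card Ω) → Nat.card (MulAction.fixedBy Ω s) = 0 ∨ Nat.card (MulAction.fixedBy Ω s) = 2)) ∧ (Even (Fintype.card Ω) → Even (Nat.card ↥(MulAction.stabilizer G a ⊓ MulAction.stabilizer G b)) → ∃ s : G, orderOf s = 2 ∧ s • a = b ∧ s • b = a ∧ Nat.card (MulAction.fixedBy Ω s) = 2)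 := by
  classical
  obtain ⟨hfaith, h2, h3, -, -⟩ := hZ
  rw [MulAction.is_two_pretransitive_iff] at h2
  -- involutions move a point
  have hmove : ∀ t : G, t ≠ 1 → ∃ c : Ω, t • c ≠ c := by
    intro t ht
    by_contra hcon
    push Not at hcon
    apply ht
    apply hfaith.eq_of_smul_eq_smul
    intro x
    rw [hcon x, one_smul]
  have hswap : ∀ t : G, orderOf t = 2 → ∀ c : Ω, t • (t • c) = c := by
    intro t ht c
    have : t * t = 1 := by rw [← pow_two, ← ht, pow_orderOf_eq_one]
    rw [← mul_smul, this, one_smul]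
  have hconj : ∀ t : G, orderOf t = 2 → ∀ c d : Ω, c ≠ d → t • c = d → ∀ u v : Ω, u ≠ v →
      ∃ g : G, orderOf (g * t * g⁻¹) = 2 ∧ (g * t * g⁻¹) • u = v ∧ (g * t * g⁻¹) • v = u ∧ g • c = u ∧ g • d = v := by
    intro t ht c d hcd htc u v huv
    obtain ⟨g, hg1, hg2⟩ := h2 hcd huv
    refine ⟨g, ?_, ?_, ?_, hg1, hg2⟩
    · have : g * t * g⁻¹ = MulAut.conj g t := rfl
      rw [this, MulEquiv.orderOf_eq]
      exact ht
    · rw [mul_smul, mul_smul, ← hg1, inv_smul_smul, htc, hg2]
    · rw [mul_smul, mul_smul, ← hg2, inv_smul_smul, ← htc, hswap t ht, hg1]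
  have hfixle : ∀ s : G, s ≠ 1 → Nat.card (fixedBy Ω s) ≤ 2 := by
    intro s hs
    by_contra hcon
    push Not at hcon
    rw [Nat.card_coe_set_eq] at hcon
    obtain ⟨x, y, z, hx, hy, hz, hxy, hxz, hyz⟩ := (Set.two_lt_ncard_iff (Set.toFinite _)).mp hcon
    exact hs (h3 s x y z hxy hyz hxz hx hy hz)
  have hparity : ∀ s : G, orderOf s = 2 →
      Even (Fintype.card Ω + Nat.card (fixedBy Ω s)) := by
    intro s hs
    let σ : Equiv.Perm Ω := MulAction.toPerm s
    have hσ : σ ^ 2 = 1 := by
      ext x
      simp only [Equiv.Perm.coe_one, id, pow_two, Equiv.Perm.coe_mul, Function.comp]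
      exact hswap s hs x
    have h1 := Equiv.Perm.two_dvd_card_support hσ
    have h4 : Nat.card (fixedBy Ω s) + σ.support.card = Fintype.card Ω := by
      rw [Nat.card_eq_fintype_card]
      have e1 : Fintype.card (fixedBy Ω s) = (Finset.univ.filter (fun x => σ x = x)).card := by
        rw [Fintype.card_subtype]
        rfl
      have e2 : σ.support = Finset.univ.filter (fun x => ¬ σ x = x) := by
        ext x; simp
      rw [e1, e2, ← Finset.card_univ]
      exact Finset.card_filter_add_card_filter_not _
    rw [← h4]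
    rw [even_iff_two_dvd] at *
    omega
  refine ⟨?_, ?_, ?_⟩
  · -- there is an involution swapping `a`, `b`
    obtain ⟨g, hg1, hg2⟩ := h2 hab hab.symm
    have hfixb : ∀ m : ℕ, (g ^ 2) ^ m • b = b := by
      intro m
      induction m with
      | zero => simp
      | succ m ih =>
        rw [pow_succ, mul_smul]
        have e : (g ^ 2) • b = b := by rw [pow_two, mul_smul, hg2, hg1]
        rw [e, ih]
    have hge : Even (orderOf g) := by
      by_contra hodd
      rw [Nat.not_even_iff_odd] at hodd
      obtain ⟨m, hm⟩ := hodd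
      have h1 : g ^ (2 * m + 1) = 1 := by rw [← hm, pow_orderOf_eq_one]
      have h4 : (g ^ (2 * m + 1)) • a = b := by
        rw [pow_succ, mul_smul, hg1, pow_mul]
        exact hfixb m
      rw [h1, one_smul] at h4
      exact hab h4
    have ho0 : orderOf g ≠ 0 := (orderOf_pos g).ne'
    have ht : orderOf (g ^ (orderOf g / 2)) = 2 :=
      orderOf_pow_orderOf_div ho0 (even_iff_two_dvd.mp hge)
    have ht1 : g ^ (orderOf g / 2) ≠ 1 := by
      intro h
      rw [h] at ht
      simp at ht
    obtain ⟨c, hc⟩ := hmove _ ht1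
    obtain ⟨g', h1, h4, h5, -, -⟩ := hconj _ ht c _ hc.symm rfl a b hab
    exact ⟨_, h1, h4, h5⟩
  · intro s hs _ _
    have hs1 : s ≠ 1 := by
      rintro rfl
      simp at hs
    have hle := hfixle s hs1
    have hpar := hparity s hs
    constructor
    · intro hodd
      rw [Nat.even_add] at hpar
      have hn : ¬ Even (Fintype.card Ω) := Nat.not_even_iff_odd.mpr hodd
      have hf : ¬ Even (Nat.card (fixedBy Ω s)) := fun h => hn (hpar.mpr h)
      rw [Nat.even_iff] at hf
      omega
    · intro heven
      rw [Nat.even_add] at hpar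
      have hf : Even (Nat.card (fixedBy Ω s)) := hpar.mp heven
      rw [Nat.even_iff] at hf
      omega
  · intro _ heven
    haveI : Fact (Nat.Prime 2) := ⟨Nat.prime_two⟩
    obtain ⟨t, ht⟩ := exists_prime_orderOf_dvd_card' (G := ↥(stabilizer G a ⊓ stabilizer G b)) 2 (even_iff_two_dvd.mp heven)
    have ht' : orderOf (t : G) = 2 := by
      rw [Subgroup.orderOf_coe]; exact ht
    have ht1 : (t : G) ≠ 1 := by
      intro h
      rw [h] at ht'
      simp at ht'
    have hta : (t : G) • a = a := t.2.1
    have htb : (t : G) • b = b := t.2.2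
    obtain ⟨c, hc⟩ := hmove t ht1
    obtain ⟨g, h1, h2', h3', h4, h5⟩ := hconj t ht' c ((t : G) • c) hc.symm rfl a b hab
    refine ⟨_, h1, h2', h3', ?_⟩
    -- fixed points of the conjugate of `t`
    have hfix : fixedBy Ω ((g * t * g⁻¹ : G)) = {g • a, g • b} := by
      ext x
      simp only [mem_fixedBy, Set.mem_insert_iff, Set.mem_singleton_iff]
      constructor
      · intro hx
        have hgx : (t : G) • (g⁻¹ • x) = g⁻¹ • x := by
          have : (g⁻¹ * (g * t * g⁻¹)) • x = g⁻¹ • x := by rw [mul_smul, hx]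
          have e : g⁻¹ * (g * t * g⁻¹) = t * g⁻¹ := by group
          rw [e, mul_smul] at this
          exact this
        by_cases h6 : g⁻¹ • x = a
        · left; rw [← h6, smul_inv_smul]
        · by_cases h7 : g⁻¹ • x = b
          · right; rw [← h7, smul_inv_smul]
          · exact absurd (h3 t a b (g⁻¹ • x) hab (Ne.symm h7) (Ne.symm h6) hta htb hgx) ht1
      · rintro (rfl | rfl)
        · rw [mul_smul, mul_smul, inv_smul_smul, hta]
        · rw [mul_smul, mul_smul, inv_smul_smul, htb]
    rw [hfix, Nat.card_coe_set_eq, Set.ncard_pair]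
    exact fun h => hab (MulAction.injective g h)

end Cfsg.Agent.S0740
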