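import Cfsg.Statements.S0743
import Cfsg.Agent.Lib.H9.FixTrans
import Mathlib.Tactic
import Mathlib.GroupTheory.PGroup

set_option autoImplicit false
open Cfsg

namespace Cfsg.Agent.S0743

/-- Gleason's Lemma: let `p` be a prime and `1 ≤ k < n`; if every `k`-subset of the `n` points is exactly the fixed-point set of some `p`-subgroup of `G`, then `G` is `k`-transitive. -/
theorem result {α : Type*} [Fintype α] [DecidableEq α] (G : Subgroup (Equiv.Perm α)) {p k : ℕ} (hp : p.Prime) (hk : 1 ≤ k) (hkn : k < Fintype.card α) (h : ∀ s : Finset α, s.card = k → ∃ P : Subgroup G, IsPGroup p P ∧ MulAction.fixedPoints P α = (s : Set α)) : MulAction.IsMultiplyPretransitive G α k := by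
  classical
  haveI : Fact p.Prime := ⟨hp⟩
  apply CfsgLib.H9.isMultiplyPretransitive_of_fixing_transitive hkn
  intro Γ hΓ a b ha hb
  by_contra hcon
  push Not at hcon
  -- the orbit of the stabiliser of `Γ`
  let Orb : α → Set α := fun c => {y | ∃ g : G, (∀ x ∈ Γ, g • x = x) ∧ g • c = y}
  have hself : ∀ c, c ∈ Orb c := fun c => ⟨1, fun x _ => one_smul _ _, one_smul _ _⟩
  have havoid : ∀ c, c ∉ Γ → ∀ y ∈ Orb c, y ∉ Γ := by
    rintro c hc y ⟨g, hg, rfl⟩ hy
    have := hg _ hy
    exact hc (MulAction.injective g this ▸ hy)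
  -- counting modulo `p`
  have hcount : ∀ (c d : α), c ∉ Γ → d ∉ Γ →
      (Nat.card (Orb d) ≡ (if c ∈ Orb d then 1 else 0) [MOD p]) := by
    intro c d hc hd
    obtain ⟨P, hP, hfix⟩ := h (insert c Γ) (by rw [Finset.card_insert_of_notMem hc, hΓ])
    have hPfix : ∀ q : P, ∀ x ∈ Γ, (q : G) • x = x := by
      intro q x hx
      have : x ∈ MulAction.fixedPoints P α := by
        rw [hfix]; simp [hx]
      exact this q
    let T : SubMulAction P α := ⟨Orb d, by
      rintro q y ⟨g, hg, rfl⟩
      refine ⟨q * g, ?_, ?_⟩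
      · intro x hx
        rw [mul_smul, hg x hx]
        exact hPfix q x hx
      · rw [mul_smul]
        rfl⟩
    have h1 := IsPGroup.card_modEq_card_fixedPoints hP T
    have h2 : Nat.card T = Nat.card (Orb d) := rfl
    rw [h2] at h1
    refine h1.trans ?_
    by_cases hcd : c ∈ Orb d
    · rw [if_pos hcd]
      have : Nat.card (MulAction.fixedPoints P T) = 1 := by
        rw [Nat.card_eq_one_iff_unique]
        refine ⟨⟨?_⟩, ⟨⟨⟨c, hcd⟩, ?_⟩⟩⟩
        · rintro ⟨⟨x, hx⟩, hx'⟩ ⟨⟨y, hy⟩, hy'⟩
          have hxfix : x ∈ MulAction.fixedPoints P α := fun q =>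
            congrArg Subtype.val (hx' q)
          have hyfix : y ∈ MulAction.fixedPoints P α := fun q =>
            congrArg Subtype.val (hy' q)
          rw [hfix] at hxfix hyfix
          have hx2 : x = c := by
            simp only [Finset.coe_insert, Set.mem_insert_iff, Finset.mem_coe] at hxfix
            exact hxfix.resolve_right (havoid d hd x hx)
          have hy2 : y = c := by
            simp only [Finset.coe_insert, Set.mem_insert_iff, Finset.mem_coe] at hyfix
            exact hyfix.resolve_right (havoid d hd y hy)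
          apply Subtype.ext
          apply Subtype.ext
          exact hx2.trans hy2.symm
        · intro q
          apply Subtype.ext
          have : c ∈ MulAction.fixedPoints P α := by
            rw [hfix]; simp
          exact this q
      rw [this]
    · rw [if_neg hcd]
      have : IsEmpty (MulAction.fixedPoints P T) := by
        constructor
        rintro ⟨⟨x, hx⟩, hx'⟩
        have hxfix : x ∈ MulAction.fixedPoints P α := fun q =>
          congrArg Subtype.val (hx' q)
        rw [hfix] at hxfix
        simp only [Finset.coe_insert, Set.mem_insert_iff, Finset.mem_coe] at hxfix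
        rcases hxfix with rfl | hxΓ
        · exact hcd hx
        · exact havoid d hd x hx hxΓ
      rw [Nat.card_of_isEmpty]
  have hba : b ∉ Orb a := by
    rintro ⟨g, hg, hgb⟩
    exact hcon g hg hgb
  have hab : a ∉ Orb b := by
    rintro ⟨g, hg, hgb⟩
    apply hcon g⁻¹
    · intro x hx
      rw [inv_smul_eq_iff, hg x hx]
    · rw [inv_smul_eq_iff, hgb]
  have h1 := hcount a a ha ha
  have h2 := hcount b a hb ha
  rw [if_pos (hself a)] at h1
  rw [if_neg hba] at h2
  have h3 : 1 ≡ 0 [MOD p] := h1.symm.trans h2
  have h4 : p ∣ 1 := (Nat.modEq_zero_iff_dvd).mp h3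
  exact hp.one_lt.ne' (Nat.dvd_one.mp h4)

end Cfsg.Agent.S0743
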