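import Cfsg.Statements.S0744
import Cfsg.Agent.Lib.H9.FixTrans
import Mathlib.Tactic

set_option autoImplicit false
open Cfsg MulAction

namespace Cfsg.Agent.S0744

/-- If for some `k > 1` the pointwise stabilisers of all `(k-1)`-subsets have the same order `> 1` and those of all `k`-subsets have the same order, then the group is `(k-1)`-transitive. -/
theorem result {α : Type*} [Fintype α] [DecidableEq α] (G : Subgroup (Equiv.Perm α)) {k : ℕ} (hk : 1 < k) (hkn : k ≤ Fintype.card α) (l m : ℕ) (hl : 1 < l) (hkm1 : ∀ s : Finset α, s.card = k - 1 → Nat.card (fixingSubgroup G (s : Set α)) = l) (hkm : ∀ s : Finset α, s.card = k → Nat.card (fixingSubgroup G (s : Set α)) = m) : MulAction.IsMultiplyPretransitive G α (k - 1) := by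
  classical
  apply CfsgLib.H9.isMultiplyPretransitive_of_fixing_transitive (by omega)
  intro Γ hΓ a b ha hb
  by_contra hcon
  push Not at hcon
  have orbstab : ∀ {H Y : Type _} [Group H] [MulAction H Y] (y : Y),
      Nat.card (orbit H y) * Nat.card (stabilizer H y) = Nat.card H := by
    intro H Y _ _ y
    rw [← Subgroup.card_mul_index (stabilizer H y), MulAction.index_stabilizer,
      Nat.card_coe_set_eq, mul_comm]
  set H₀ := fixingSubgroup G (Γ : Set α) with hH₀
  let Δ : Finset α := insert a Γ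
  have hΔcard : Δ.card = k - 1 := by
    rw [Finset.card_insert_of_notMem ha]; omega
  set H := fixingSubgroup G (Δ : Set α) with hH
  have hHl : Nat.card H = l := hkm1 Δ hΔcard
  have hH₀fix : ∀ g ∈ H₀, ∀ x ∈ Γ, g • x = x := fun g hg x hx =>
    (mem_fixingSubgroup_iff G).mp hg x (by simpa using hx)
  have hHfix : ∀ g ∈ H, ∀ x ∈ Δ, g • x = x := fun g hg x hx =>
    (mem_fixingSubgroup_iff G).mp hg x (by simpa using hx)
  have hHH₀ : ∀ g ∈ H, g ∈ H₀ := by
    intro g hg
    rw [hH₀, mem_fixingSubgroup_iff]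
    intro y hy
    exact hHfix g hg y (Finset.mem_insert_of_mem (by simpa using hy))
  -- stabilisers in `H₀`
  have hstab0 : ∀ c, c ∉ Γ → Nat.card (stabilizer H₀ c) = l := by
    intro c hc
    rw [hH₀, CfsgLib.H9.card_stabilizer_fixingSubgroup, ← Finset.coe_insert]
    exact hkm1 _ (by rw [Finset.card_insert_of_notMem hc]; omega)
  have hstab1 : ∀ c, c ∉ Δ → Nat.card (stabilizer H c) = m := by
    intro c hc
    rw [hH, CfsgLib.H9.card_stabilizer_fixingSubgroup, ← Finset.coe_insert]
    exact hkm _ (by rw [Finset.card_insert_of_notMem hc, hΔcard]; omega)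
  have hlpos : 0 < l := by omega
  -- `H₀`-orbits of `a`, `b` have the same size
  have hsame : Nat.card (orbit H₀ a) = Nat.card (orbit H₀ b) := by
    have h1 := orbstab (H := H₀) a
    have h2 := orbstab (H := H₀) b
    rw [hstab0 a ha] at h1
    rw [hstab0 b hb] at h2
    exact Nat.eq_of_mul_eq_mul_right hlpos (h1.trans h2.symm)
  -- the orbits avoid `Γ`
  have havoid : ∀ c, c ∉ Γ → ∀ y ∈ orbit H₀ c, y ∉ Γ := by
    rintro c hc y ⟨g, rfl⟩ hy
    have := hH₀fix g g.2 _ hy
    have h5 : ((g : G)) • c = g • c := rfl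
    exact hc ((MulAction.injective (g : G) this) ▸ hy)
  have hab : a ∉ orbit H₀ b := by
    rintro ⟨g, hg⟩
    apply hcon ((g : G)⁻¹)
    · intro x hx
      rw [inv_smul_eq_iff, hH₀fix g g.2 x hx]
    · rw [inv_smul_eq_iff]
      exact hg.symm
  have hbΔ : b ∉ Δ := by
    intro h
    rcases Finset.mem_insert.mp h with h | h
    · exact hab (h ▸ mem_orbit_self b)
    · exact hb h
  set d := Nat.card (orbit H b) with hd
  have hdm : d * m = Nat.card H := by
    rw [hd, ← hstab1 b hbΔ]; exact orbstab b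
  -- invariant sets
  have hdvd1 : d ∣ Nat.card ((orbit H₀ a \ {a} : Set α)) := by
    apply CfsgLib.H9.dvd_card_of_invariant (H := H) _ _ d m _ hdm
    · rintro ⟨h, hh⟩ x ⟨⟨g, rfl⟩, hx2⟩
      refine ⟨⟨⟨h, hHH₀ h hh⟩ * g, ?_⟩, ?_⟩
      · exact mul_smul _ _ _
      · intro h3
        apply hx2
        have h4 : h • a = a := hHfix h hh a (Finset.mem_insert_self _ _)
        have h5 : h • ((fun m : H₀ => m • a) g) = h • a := by
          rw [h4]; exact h3
        exact MulAction.injective h h5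
    · rintro x ⟨hx1, hx2⟩
      apply hstab1
      intro h
      rcases Finset.mem_insert.mp h with h | h
      · exact hx2 h
      · exact havoid a ha x hx1 h
  have hdvd2 : d ∣ Nat.card (orbit H₀ b) := by
    apply CfsgLib.H9.dvd_card_of_invariant (H := H) _ _ d m _ hdm
    · rintro ⟨h, hh⟩ x ⟨g, rfl⟩
      refine ⟨⟨h, hHH₀ h hh⟩ * g, ?_⟩
      exact mul_smul _ _ _
    · intro x hx
      apply hstab1
      intro h
      rcases Finset.mem_insert.mp h with h | h
      · exact hab (h ▸ hx)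
      · exact havoid b hb x hx h
  have hsub : Nat.card ((orbit H₀ a \ {a} : Set α)) = Nat.card (orbit H₀ a) - 1 := by
    rw [Nat.card_coe_set_eq, Nat.card_coe_set_eq, Set.ncard_sdiff_singleton_of_mem (mem_orbit_self a)]
  have hpos : 0 < Nat.card (orbit H₀ a) := by
    rw [Nat.card_pos_iff]
    exact ⟨⟨⟨a, mem_orbit_self a⟩⟩, inferInstance⟩
  rw [hsub] at hdvd1
  rw [← hsame] at hdvd2
  have hd1 : d ∣ 1 := by
    have := Nat.dvd_sub hdvd2 hdvd1
    have h9 : Nat.card (orbit H₀ a) - (Nat.card (orbit H₀ a) - 1) = 1 := by omega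
    rwa [h9] at this
  have hd2 : d = 1 := Nat.dvd_one.mp hd1
  have hml : m = l := by
    rw [hd2, one_mul, hHl] at hdm
    exact hdm
  -- `H` fixes everything
  have hHnontriv : Nontrivial H := by
    rw [← Finite.one_lt_card_iff_nontrivial, hHl]
    exact hl
  obtain ⟨⟨h, hh⟩, hne⟩ := exists_ne (1 : H)
  have hne' : h ≠ 1 := fun h' => hne (Subtype.ext h')
  have hne'' : (h : Equiv.Perm α) ≠ 1 := fun h' => hne' (Subtype.ext h')
  obtain ⟨x, hx⟩ : ∃ x, (h : Equiv.Perm α) x ≠ x := by
    by_contra hcon'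
    push Not at hcon'
    exact hne'' (Equiv.ext hcon')
  have hxΔ : x ∉ Δ := fun hxΔ => hx (hHfix h hh x hxΔ)
  have h1 := orbstab (H := H) x
  rw [hstab1 x hxΔ, hHl, hml] at h1
  have h2 : Nat.card (orbit H x) = 1 := by
    have : Nat.card (orbit H x) * l = 1 * l := by rw [h1, one_mul]
    exact Nat.eq_of_mul_eq_mul_right hlpos this
  rw [Nat.card_eq_one_iff_unique] at h2
  have h3 := h2.1.elim ⟨x, mem_orbit_self x⟩ ⟨(⟨h, hh⟩ : H) • x, ⟨⟨h, hh⟩, rfl⟩⟩
  exact hx (congrArg Subtype.val h3).symm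

end Cfsg.Agent.S0744
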