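import Mathlib
import Cfsg.Agent.Lib.ClassGeo.Witt
import Cfsg.Statements.S0749
-- import your own Cfsg.Agent.* helpers here

set_option autoImplicit false
open Cfsg

namespace Cfsg.Agent.S0749

/-- Witt's Lemma for alternating forms. If B is a non-degenerate alternating bilinear form on a finite-dimensional vector space V (over any field) and φ is a linear equivalence between subspaces X and Y of V preserving B, then φ extends to a B-preserving linear automorphism of V. -/
theorem result {F V : Type*} [Field F] [AddCommGroup V] [Module F V] [FiniteDimensional F V] (B : LinearMap.BilinForm F V) (hB : B.Nondegenerate) (hA : B.IsAlt) (X Y : Submodule F V) (φ : X ≃ₗ[F] Y) (hφ : ∀ x x' : X, B (φ x : V) (φ x' : V) = B (x : V) (x' : V)) : ∃ g : V ≃ₗ[F] V, (∀ u v : V, B (g u) (g v) = B u v) ∧ ∀ x : X, g (x : V) = (φ x : V) := by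
  have h : CfsgLib.ClassGeo.EpsForm (RingHom.id F) (-1 : F) B :=
    { σσ := fun a => rfl
      εε := by simp
      symm := fun x y => by
        simp only [RingHom.id_apply]
        rw [← hA.neg_eq x y]
        ring
      trace := fun v => ⟨0, by rw [hA.self_eq_zero]; simp⟩
      sep := fun u hu => hB.1 u hu
      rep := fun f => ⟨(B.toDual hB).symm f, fun v => LinearMap.BilinForm.apply_toDual_symm_apply f v⟩ }
  obtain ⟨g, hg, hgφ⟩ := h.witt X (Y.subtype ∘ₗ φ.toLinearMap) (Y.injective_subtype.comp φ.injective) (fun u v => hφ u v)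
  exact ⟨g, hg, hgφ⟩

end Cfsg.Agent.S0749
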