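import Mathlib
import Cfsg.Agent.Lib.ClassGeo.Witt
import Cfsg.Statements.S0751
-- import your own Cfsg.Agent.* helpers here

set_option autoImplicit false
open Cfsg

namespace Cfsg.Agent.S0751

theorem epsform_herm {F V : Type*} [Field F] [Finite F] [AddCommGroup V] [Module F V] [FiniteDimensional F V] (σ : F →+* F) (hσ : σ ≠ RingHom.id F) (hσ2 : ∀ a : F, σ (σ a) = a) (B : V →ₛₗ[σ] V →ₗ[F] F) (hS : B.IsSymm) (hB : B.Nondegenerate) : CfsgLib.ClassGeo.EpsForm σ (1 : F) B := by
  have : Finite V := Module.finite_of_finite F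
  have : Finite (Module.Dual F V) := Module.finite_of_finite F
  refine { σσ := hσ2, εε := by simp, symm := fun x y => ?_, trace := fun v => ?_, sep := fun u hu => hB.1 u hu, rep := fun f => ?_ }
  · rw [one_mul]; exact (hS.eq x y).symm
  · obtain ⟨e, he⟩ : ∃ e, σ e ≠ e := by
      by_contra hcon
      push Not at hcon
      exact hσ (RingHom.ext hcon)
    have hne : e - σ e ≠ 0 := sub_ne_zero.mpr (Ne.symm he)
    have hne' : σ e - e ≠ 0 := sub_ne_zero.mpr he
    refine ⟨B v v * (e / (e - σ e)), ?_⟩
    have h1 : σ (B v v) = B v v := hS.eq v v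
    simp only [one_mul, map_mul, map_div₀, map_sub, hσ2, h1]
    field_simp
    have h3 : e - σ e = - (σ e - e) := by ring
    rw [h3]
    field_simp
    ring
  · let Φ : V → Module.Dual F V := fun w => B w
    have hinj : Function.Injective Φ := by
      intro a b hab
      have h0 : a - b = 0 := by
        apply hB.1
        intro v
        have := congrArg (fun g : Module.Dual F V => g v) hab
        simp only [Φ] at this
        simp [this]
      exact sub_eq_zero.mp h0
    have hcard : Nat.card (Module.Dual F V) ≤ Nat.card V := by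
      rw [Module.natCard_eq_pow_finrank (K := F) (V := Module.Dual F V), Module.natCard_eq_pow_finrank (K := F) (V := V), Subspace.dual_finrank_eq]
    obtain ⟨w, hw⟩ := (hinj.bijective_of_nat_card_le hcard).2 f
    exact ⟨w, fun v => by rw [← hw]⟩

/-- Witt's Lemma for Hermitian forms. Let σ be a non-identity involutive automorphism of a finite field F and B a non-degenerate σ-sesquilinear form on a finite-dimensional F-space V which is conjugate-symmetric (σ (B x y) = B y x). Then every linear equivalence between subspaces X, Y of V preserving B extends to a B-preserving linear automorphism of V. -/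
theorem result {F V : Type*} [Field F] [Finite F] [AddCommGroup V] [Module F V] [FiniteDimensional F V] (σ : F →+* F) (hσ : σ ≠ RingHom.id F) (hσ2 : ∀ a : F, σ (σ a) = a) (B : V →ₛₗ[σ] V →ₗ[F] F) (hS : B.IsSymm) (hB : B.Nondegenerate) (X Y : Submodule F V) (φ : X ≃ₗ[F] Y) (hφ : ∀ x x' : X, B (φ x : V) (φ x' : V) = B (x : V) (x' : V)) : ∃ g : V ≃ₗ[F] V, (∀ u v : V, B (g u) (g v) = B u v) ∧ ∀ x : X, g (x : V) = (φ x : V) := by
  have h := epsform_herm σ hσ hσ2 B hS hB
  obtain ⟨g, hg, hgφ⟩ := h.witt X (Y.subtype ∘ₗ φ.toLinearMap) (Y.injective_subtype.comp φ.injective) (fun u v => hφ u v)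
  exact ⟨g, hg, hgφ⟩

end Cfsg.Agent.S0751
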