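import Mathlib
import Cfsg.Statements.S0753
-- import your own Cfsg.Agent.* helpers here

set_option autoImplicit false
open Cfsg

namespace Cfsg.Agent.S0753

/-- If σ is a ring endomorphism of the field F other than the identity and B is a σ-sesquilinear conjugate-symmetric form with B v v = 0 for every v, then B = 0. -/
theorem result {F V : Type*} [Field F] [AddCommGroup V] [Module F V] (σ : F →+* F) (hσ : σ ≠ RingHom.id F) (B : V →ₛₗ[σ] V →ₗ[F] F) (hS : B.IsSymm) (h0 : ∀ v : V, B v v = 0) : B = 0 := by
  by_contra hne
  have hadd : ∀ x y : V, B x y + B y x = 0 := by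
    intro x y
    have h := h0 (x + y)
    simp only [map_add, LinearMap.add_apply, h0, zero_add, add_zero] at h
    rw [add_comm]; exact h
  have hsymm : ∀ x y : V, σ (B x y) = - B x y := by
    intro x y
    have := hS.eq x y
    rw [this]; exact eq_neg_of_add_eq_zero_left (hadd y x)
  obtain ⟨x, y, hxy⟩ : ∃ x y, B x y ≠ 0 := by
    by_contra hcon
    push Not at hcon
    apply hne
    ext x y
    simp [hcon x y]
  apply hσ
  ext a
  have h1 := hsymm (a • x) y
  rw [LinearMap.map_smulₛₗ₂, smul_eq_mul, map_mul, hsymm x y] at h1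
  have h2 : σ (σ a) = σ a := by
    have hne' : - B x y ≠ 0 := neg_ne_zero.mpr hxy
    have : σ (σ a) * (- B x y) = σ a * (- B x y) := by
      rw [h1]; ring
    exact mul_right_cancel₀ hne' this
  exact σ.injective h2

end Cfsg.Agent.S0753
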