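import Mathlib
import Cfsg.Agent.Lib.ClassGeo.Forms
import Cfsg.Statements.S0755
-- import your own Cfsg.Agent.* helpers here

set_option autoImplicit false
open Cfsg

namespace Cfsg.Agent.S0755

/-- Classification of Hermitian forms over finite fields: if σ is a non-identity involutive automorphism of the finite field F and B is a non-degenerate conjugate-symmetric σ-sesquilinear form on the finite-dimensional space V, then V has a B-orthonormal basis. -/
theorem result {F V : Type*} [Field F] [Finite F] [AddCommGroup V] [Module F V] [FiniteDimensional F V] (σ : F →+* F) (hσ : σ ≠ RingHom.id F) (hσ2 : ∀ a : F, σ (σ a) = a) (B : V →ₛₗ[σ] V →ₗ[F] F) (hS : B.IsSymm) (hB : B.Nondegenerate) : ∃ b : Module.Basis (Fin (Module.finrank F V)) F V, ∀ i j, B (b i) (b j) = if i = j then 1 else 0 := by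
  classical
  have hS' : ∀ x y, σ (B x y) = B y x := fun x y => hS.eq x y
  have hN : CfsgLib.ClassGeo.NondegOn B ⊤ := fun u _ hu => hB.1 u (fun v => hu v trivial)
  obtain ⟨b, _, hb⟩ := CfsgLib.ClassGeo.exists_orthonormal hσ hσ2 hS' (Module.finrank F V) ⊤ (finrank_top F V) hN
  have hli : LinearIndependent F b := CfsgLib.ClassGeo.orth_family_li b
    (fun i j hij => by rw [hb, if_neg hij]) (fun i => by rw [hb, if_pos rfl]; exact one_ne_zero)
  have hsp := hli.span_eq_top_of_card_eq_finrank' (by simp)
  refine ⟨Module.Basis.mk hli hsp.ge, fun i j => ?_⟩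
  simp only [Module.Basis.mk_apply]
  exact hb i j

end Cfsg.Agent.S0755
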