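import Mathlib
import Cfsg.Agent.Lib.ClassGeo.Forms
import Cfsg.Statements.S0756
-- import your own Cfsg.Agent.* helpers here

set_option autoImplicit false
open Cfsg

namespace Cfsg.Agent.S0756

/-- Classification of symmetric bilinear forms over finite fields of odd characteristic: if B is non-degenerate symmetric on V of dimension n + 1 and α is a fixed non-square of F, there is an orthogonal basis b_0, ..., b_n with B(b_i, b_i) = 1 for i < n and B(b_n, b_n) ∈ {1, α}. -/
theorem result {F V : Type*} [Field F] [Finite F] [AddCommGroup V] [Module F V] [FiniteDimensional F V] (h2 : (2 : F) ≠ 0) (B : LinearMap.BilinForm F V) (hS : B.IsSymm) (hB : B.Nondegenerate) {n : ℕ} (hn : Module.finrank F V = n + 1) (α : F) (hα : ¬ IsSquare α) : ∃ b : Module.Basis (Fin (n + 1)) F V, (∀ i j, i ≠ j → B (b i) (b j) = 0) ∧ (∀ i, i ≠ Fin.last n → B (b i) (b i) = 1) ∧ (B (b (Fin.last n)) (b (Fin.last n)) = 1 ∨ B (b (Fin.last n)) (b (Fin.last n)) = α) := by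
  classical
  have hfin : Fintype F := Fintype.ofFinite F
  have hS' : ∀ x y, B x y = B y x := fun x y => hS.eq x y
  have hN : CfsgLib.ClassGeo.NondegOn B ⊤ := fun u _ hu => hB.1 u (fun v => hu v trivial)
  obtain ⟨b, _, hb0, hb1, hbl⟩ := CfsgLib.ClassGeo.exists_orth_symm h2 hS' α hα n ⊤ (by rw [finrank_top, hn]) hN
  have hα0 : α ≠ 0 := by
    rintro rfl
    exact hα (IsSquare.zero)
  have hli : LinearIndependent F b := CfsgLib.ClassGeo.orth_family_li b hb0 (fun i => by
    by_cases hi : i = Fin.last n
    · subst hi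
      rcases hbl with h | h <;> rw [h]
      · exact one_ne_zero
      · exact hα0
    · rw [hb1 i hi]; exact one_ne_zero)
  have hsp := hli.span_eq_top_of_card_eq_finrank' (by simp [hn])
  refine ⟨Module.Basis.mk hli hsp.ge, ?_, ?_, ?_⟩
  · intro i j hij
    simp only [Module.Basis.mk_apply]
    exact hb0 i j hij
  · intro i hi
    simp only [Module.Basis.mk_apply]
    exact hb1 i hi
  · simp only [Module.Basis.mk_apply]
    exact hbl

end Cfsg.Agent.S0756
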