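import Mathlib
import Cfsg.Agent.Lib.ClassGeo.Symp
import Cfsg.Statements.S0757
-- import your own Cfsg.Agent.* helpers here

set_option autoImplicit false
open Cfsg Matrix

namespace Cfsg.Agent.S0757

/-- The two diagonal forms Σ x_i^2 and Σ_(i<n) x_i^2 + α x_n^2 on F^(n+1), with α a non-square and 2 ≠ 0 in F, are inequivalent quadratic forms (so over a finite field of odd order there are exactly two classes of non-singular symmetric bilinear forms in each dimension). -/
theorem result {F : Type*} [Field F] (h2 : (2 : F) ≠ 0) (n : ℕ) (α : F) (hα : ¬ IsSquare α) : ¬ (QuadraticMap.weightedSumSquares F (fun _ : Fin (n + 1) => (1 : F))).Equivalent (QuadraticMap.weightedSumSquares F (fun i : Fin (n + 1) => if i = Fin.last n then α else (1 : F))) := by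
  classical
  rintro ⟨e⟩
  set d : Fin (n+1) → F := fun i => if i = Fin.last n then α else 1 with hd
  let M := LinearMap.toMatrix' e.toLinearEquiv.toLinearMap
  have hM : ∀ x, M *ᵥ x = e x := fun x => by
    simp only [M, LinearMap.toMatrix'_mulVec]; rfl
  have hQ : ∀ (w x : Fin (n+1) → F), QuadraticMap.weightedSumSquares F w x = ∑ i, w i * (x i * x i) := by
    intro w x
    simp [QuadraticMap.weightedSumSquares_apply]
  have hpol : ∀ (w x y : Fin (n+1) → F), QuadraticMap.weightedSumSquares F w (x+y)
      - QuadraticMap.weightedSumSquares F w x - QuadraticMap.weightedSumSquares F w y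
       = 2 * (x ⬝ᵥ (Matrix.diagonal w *ᵥ y)) := by
    intro w x y
    simp only [hQ, dotProduct, Matrix.mulVec_diagonal, Pi.add_apply, Finset.mul_sum, ← Finset.sum_sub_distrib]
    exact Finset.sum_congr rfl fun i _ => by ring
  have hiso : ∀ x, QuadraticMap.weightedSumSquares F d (e x) = QuadraticMap.weightedSumSquares F (fun _ => (1:F)) x :=
    fun x => e.map_app x
  have key : ∀ u v, (M *ᵥ u) ⬝ᵥ (Matrix.diagonal d *ᵥ (M *ᵥ v)) = u ⬝ᵥ v := by
    intro u v
    have h1 := hpol d (M *ᵥ u) (M *ᵥ v)
    rw [← Matrix.mulVec_add, hM, hM, hM, hiso, hiso, hiso, hpol] at h1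
    have h3 : u ⬝ᵥ (Matrix.diagonal (fun _ : Fin (n+1) => (1:F)) *ᵥ v) = u ⬝ᵥ v := by
      simp [Matrix.mulVec_diagonal, dotProduct]
    rw [h3] at h1
    rw [hM, hM]
    exact (mul_left_cancel₀ h2 h1).symm
  have hmat : M.transpose * Matrix.diagonal d * M = 1 := by
    apply CfsgLib.ClassGeo.matrix_eq_of_dot
    intro u v
    rw [← Matrix.mulVec_mulVec, ← Matrix.mulVec_mulVec, ← CfsgLib.ClassGeo.dot_mulVec_left, key, Matrix.one_mulVec]
  have hdet := congrArg Matrix.det hmat
  rw [Matrix.det_mul, Matrix.det_mul, Matrix.det_transpose, Matrix.det_diagonal, Matrix.det_one] at hdet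
  have hprod : ∏ i, d i = α := by
    rw [Fin.prod_univ_castSucc]
    have h1 : ∀ i : Fin n, d i.castSucc = 1 := by
      intro i; simp [hd, Fin.castSucc_lt_last i |>.ne]
    have h2 : d (Fin.last n) = α := by simp [hd]
    simp [h1, h2]
  rw [hprod] at hdet
  have hne : M.det ≠ 0 := by
    intro h0; rw [h0] at hdet; simp at hdet
  apply hα
  refine ⟨M.det⁻¹, ?_⟩
  field_simp
  linear_combination hdet

end Cfsg.Agent.S0757
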