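import Mathlib
import Cfsg.Statements.S0758
-- import your own Cfsg.Agent.* helpers here

set_option autoImplicit false
open Cfsg

namespace Cfsg.Agent.S0758

/-- For a finite field F of odd order q and a non-square α: the form x² + y² is isotropic iff q ≡ 1 mod 4, and the form x² + α y² is isotropic iff q ≡ 3 mod 4. -/
theorem result {F : Type*} [Field F] [Fintype F] (h2 : (2 : F) ≠ 0) (α : F) (hα : ¬ IsSquare α) : ((∃ x y : F, (x ≠ 0 ∨ y ≠ 0) ∧ x ^ 2 + y ^ 2 = 0) ↔ Fintype.card F % 4 = 1) ∧ ((∃ x y : F, (x ≠ 0 ∨ y ≠ 0) ∧ x ^ 2 + α * y ^ 2 = 0) ↔ Fintype.card F % 4 = 3) := by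
  classical
  have hchar : ringChar F ≠ 2 := by
    intro h
    apply h2
    have : CharP F 2 := by rw [← h]; exact ringChar.charP F
    exact CharTwo.two_eq_zero
  have hodd : Fintype.card F % 2 = 1 := FiniteField.odd_card_of_char_ne_two hchar
  have hmod : Fintype.card F % 4 = 1 ∨ Fintype.card F % 4 = 3 := by omega
  have hneg1 := FiniteField.isSquare_neg_one_iff (F := F)
  constructor
  · constructor
    · rintro ⟨x, y, hxy, h⟩
      have hy : y ≠ 0 := by
        rintro rfl
        have : x = 0 := by simpa using h
        simp [this] at hxy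
      have : IsSquare (-1 : F) := by
        refine ⟨x / y, ?_⟩
        field_simp
        linear_combination -h
      have := hneg1.mp this
      omega
    · intro h
      have : IsSquare (-1 : F) := hneg1.mpr (by omega)
      obtain ⟨r, hr⟩ := this
      refine ⟨r, 1, Or.inr one_ne_zero, ?_⟩
      linear_combination -hr
  · have hχ : ∀ a : F, a ≠ 0 → (IsSquare a ↔ quadraticChar F a = 1) := fun a ha =>
      (quadraticChar_one_iff_isSquare ha).symm
    have hα0 : α ≠ 0 := by
      rintro rfl
      exact hα ⟨0, by simp⟩
    have hχα : quadraticChar F α = -1 := quadraticChar_neg_one_iff_not_isSquare.mpr hα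
    have hnegα : IsSquare (-α) ↔ ¬ IsSquare (-1 : F) := by
      rw [hχ _ (neg_ne_zero.mpr hα0)]
      have hm : quadraticChar F (-α) = quadraticChar F (-1) * quadraticChar F α := by
        rw [← map_mul]; simp
      rw [hm, hχα, ← quadraticChar_neg_one_iff_not_isSquare]
      constructor
      · intro h; linarith
      · intro h; rw [h]; norm_num
    constructor
    · rintro ⟨x, y, hxy, h⟩
      have hy : y ≠ 0 := by
        rintro rfl
        have : x = 0 := by simpa using h
        simp [this] at hxy
      have : IsSquare (-α) := by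
        refine ⟨x / y, ?_⟩
        field_simp
        linear_combination -h
      have := hnegα.mp this
      rw [hneg1] at this
      omega
    · intro h
      have : IsSquare (-α) := hnegα.mpr (by rw [hneg1]; omega)
      obtain ⟨r, hr⟩ := this
      refine ⟨r, 1, Or.inr one_ne_zero, ?_⟩
      linear_combination -hr

end Cfsg.Agent.S0758
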