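import Mathlib
import Cfsg.Agent.Lib.ClassGeo.DiscType
import Cfsg.Statements.S0759
-- import your own Cfsg.Agent.* helpers here

set_option autoImplicit false
open Cfsg

namespace Cfsg.Agent.S0759

/-- Type of the orthonormal form: over a finite field of odd order q and for m ≥ 1, the quadratic form Σ_(i<2m) x_i² on F^(2m) admits an m-dimensional subspace on which it vanishes identically if and only if it is not the case that q ≡ 3 (mod 4) and m is odd. -/
theorem result {F : Type*} [Field F] [Fintype F] (h2 : (2 : F) ≠ 0) (m : ℕ) (hm : 1 ≤ m) : (∃ W : Submodule F (Fin (2 * m) → F), Module.finrank F W = m ∧ ∀ w ∈ W, ∑ i, w i ^ 2 = 0) ↔ ¬ (Fintype.card F % 4 = 3 ∧ Odd m) := by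
  classical
  have hV : Module.finrank F (Fin (2 * m) → F) = 2 * m := by simp
  let B : LinearMap.BilinForm F (Fin (2 * m) → F) := Matrix.toBilin' 1
  have hB : ∀ x y, B x y = ∑ i, x i * y i := by
    intro x y
    simp [B, Matrix.toBilin'_apply', dotProduct]
  have hS : B.IsSymm := by
    constructor
    intro x y
    simp only [RingHom.id_apply, hB]
    exact Finset.sum_congr rfl fun i _ => mul_comm _ _
  have hN : B.Nondegenerate := by
    refine LinearMap.BilinForm.nondegenerate_toBilin'_iff_det_ne_zero.2 ?_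
    simp
  have hgd : CfsgLib.ClassGeo.DiscType.gd B (Pi.basisFun F (Fin (2 * m))) = 1 := by
    unfold CfsgLib.ClassGeo.DiscType.gd
    have : LinearMap.BilinForm.toMatrix (Pi.basisFun F (Fin (2 * m))) B = 1 := by
      ext i j
      rw [LinearMap.BilinForm.toMatrix_apply, hB]
      simp [Matrix.one_apply, Pi.single_apply, eq_comm]
    rw [this]
    simp
  have key := CfsgLib.ClassGeo.DiscType.ti_iff h2 B hS hN hm hV (Pi.basisFun F (Fin (2 * m)))
  rw [hgd, mul_one] at key
  have hchar : ringChar F ≠ 2 := by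
    intro h
    apply h2
    have : CharP F 2 := h ▸ ringChar.charP F
    exact CharP.cast_eq_zero F 2
  have hsq : IsSquare ((-1 : F) ^ m) ↔ ¬ (Fintype.card F % 4 = 3 ∧ Odd m) := by
    rcases Nat.even_or_odd m with he | ho
    · rw [he.neg_one_pow]
      simp only [IsSquare.one, true_iff, not_and]
      intro _ h
      exact (Nat.not_even_iff_odd.2 h) he
    · rw [ho.neg_one_pow, FiniteField.isSquare_neg_one_iff]
      simp [ho]
  rw [← hsq, ← key]
  constructor
  · rintro ⟨W, hW, h0⟩
    refine ⟨W, hW, fun x hx y hy => ?_⟩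
    rw [hB]
    have h1 := h0 (x + y) (W.add_mem hx hy)
    have h3 := h0 x hx
    have h4 := h0 y hy
    have h5 : ∑ i, (x + y) i ^ 2 = ∑ i, x i ^ 2 + ∑ i, y i ^ 2 + 2 * ∑ i, x i * y i := by
      rw [Finset.mul_sum, ← Finset.sum_add_distrib, ← Finset.sum_add_distrib]
      exact Finset.sum_congr rfl fun i _ => by simp only [Pi.add_apply]; ring
    rw [h1, h3, h4] at h5
    have h6 : 2 * ∑ i, x i * y i = 0 := by linear_combination -h5
    exact (mul_eq_zero.1 h6).resolve_left h2
  · rintro ⟨W, hW, h0⟩
    refine ⟨W, hW, fun w hw => ?_⟩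
    have := h0 w hw w hw
    rw [hB] at this
    rw [← this]
    exact Finset.sum_congr rfl fun i _ => by ring

end Cfsg.Agent.S0759
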