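import Mathlib
import Cfsg.Agent.Lib.ClassGeo.Witt
import Cfsg.Statements.S0760
-- import your own Cfsg.Agent.* helpers here

set_option autoImplicit false
open Cfsg

namespace Cfsg.Agent.S0760

theorem le_aux {F V : Type*} [Field F] [AddCommGroup V] [Module F V] [FiniteDimensional F V] (Q : QuadraticForm F V) (hQ : (QuadraticMap.polarBilin Q).Nondegenerate) (W₁ W₂ : Submodule F V) (h₁ : ∀ w ∈ W₁, Q w = 0) (h₂ : ∀ w ∈ W₂, Q w = 0) (hmax₁ : ∀ W : Submodule F V, W₁ ≤ W → (∀ w ∈ W, Q w = 0) → W = W₁) (hle : Module.finrank F W₁ ≤ Module.finrank F W₂) : Module.finrank F W₁ = Module.finrank F W₂ := by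
  obtain ⟨f, hf⟩ := finrank_le_iff_exists_linearMap.mp hle
  obtain ⟨g, hg, hgφ⟩ := CfsgLib.ClassGeo.quad_witt Q hQ W₁ (W₂.subtype ∘ₗ f) (W₂.injective_subtype.comp hf)
    (fun u => by rw [h₁ u u.2]; exact h₂ _ (f u).2)
  have hW : W₂.map (g.symm : V →ₗ[F] V) = W₁ := by
    apply hmax₁
    · intro x hx
      refine ⟨g x, ?_, by simp⟩
      have := hgφ ⟨x, hx⟩
      simp only at this
      rw [SetLike.mem_coe, this]
      exact (f _).2
    · rintro _ ⟨y, hy, rfl⟩
      have := hg ((g.symm : V →ₗ[F] V) y)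
      simp only [LinearEquiv.coe_coe, LinearEquiv.apply_symm_apply] at this ⊢
      rw [← this]
      exact h₂ y hy
  rw [← hW]
  exact LinearEquiv.finrank_map_eq g.symm W₂

/-- Witt index is well defined: if Q is a quadratic form on a finite-dimensional space V over a finite field with non-degenerate polar form, and W₁, W₂ are subspaces on which Q vanishes that are maximal with this property, then W₁ and W₂ have the same dimension, and twice this dimension is at most dim V. -/
theorem result {F V : Type*} [Field F] [Finite F] [AddCommGroup V] [Module F V] [FiniteDimensional F V] (Q : QuadraticForm F V) (hQ : (QuadraticMap.polarBilin Q).Nondegenerate) (W₁ W₂ : Submodule F V) (h₁ : ∀ w ∈ W₁, Q w = 0) (h₂ : ∀ w ∈ W₂, Q w = 0) (hmax₁ : ∀ W : Submodule F V, W₁ ≤ W → (∀ w ∈ W, Q w = 0) → W = W₁) (hmax₂ : ∀ W : Submodule F V, W₂ ≤ W → (∀ w ∈ W, Q w = 0) → W = W₂) : Module.finrank F W₁ = Module.finrank F W₂ ∧ 2 * Module.finrank F W₁ ≤ Module.finrank F V := by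
  constructor
  · rcases le_total (Module.finrank F W₁) (Module.finrank F W₂) with h | h
    · exact le_aux Q hQ W₁ W₂ h₁ h₂ hmax₁ h
    · exact (le_aux Q hQ W₂ W₁ h₂ h₁ hmax₂ h).symm
  · have hsub : W₁ ≤ LinearMap.BilinForm.orthogonal (QuadraticMap.polarBilin Q) W₁ := by
      intro x hx y hy
      simp only [LinearMap.BilinForm.IsOrtho, QuadraticMap.polarBilin_apply_apply, QuadraticMap.polar]
      rw [← W₁.add_mem hy hx |> h₁ _, h₁ y hy, h₁ x hx]
      simp
    have h1 := Submodule.finrank_mono hsub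
    rw [LinearMap.BilinForm.finrank_orthogonal hQ] at h1
    have h2 := Submodule.finrank_le W₁
    omega

end Cfsg.Agent.S0760
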