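import Mathlib
import Cfsg.Statements.S0761
-- import your own Cfsg.Agent.* helpers here

set_option autoImplicit false
open Cfsg

namespace Cfsg.Agent.S0761

/-- Hyperbolic partners: let B be a non-degenerate bilinear form on a finite-dimensional space, either alternating, or symmetric with 2 ≠ 0. If Z is a subspace on which B vanishes, x ∉ Z is isotropic and orthogonal to Z, then there is an isotropic y with B x y = 1 which is orthogonal to Z. -/
theorem result {F V : Type*} [Field F] [AddCommGroup V] [Module F V] [FiniteDimensional F V] (B : LinearMap.BilinForm F V) (hB : B.Nondegenerate) (hform : B.IsAlt ∨ (B.IsSymm ∧ (2 : F) ≠ 0)) (x : V) (Z : Submodule F V) (hxZ : x ∉ Z) (hx : B x x = 0) (hxz : ∀ z ∈ Z, B x z = 0) (hZ : ∀ z ∈ Z, ∀ z' ∈ Z, B z z' = 0) : ∃ y : V, B y y = 0 ∧ B x y = 1 ∧ ∀ z ∈ Z, B z y = 0 := by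
  classical
  obtain ⟨f, hfx, hfZ⟩ := Submodule.exists_dual_map_eq_bot_of_notMem hxZ inferInstance
  have hfZ' : ∀ z ∈ Z, f z = 0 := by
    intro z hz
    have : f z ∈ Z.map f := Submodule.mem_map_of_mem hz
    rw [hfZ] at this
    exact (Submodule.mem_bot F).mp this
  let φ : Module.Dual F V := (f x)⁻¹ • f
  have hφx : φ x = 1 := by simp [φ, hfx]
  have hφZ : ∀ z ∈ Z, φ z = 0 := by
    intro z hz; simp [φ, hfZ' z hz]
  let y' := (B.toDual hB).symm φ
  have hy' : ∀ v, B y' v = φ v := fun v => LinearMap.BilinForm.apply_toDual_symm_apply φ v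
  rcases hform with halt | ⟨hsymm, h2⟩
  · have hskew : ∀ a b, B a b = - B b a := fun a b => (halt.neg_eq b a).symm
    refine ⟨-y', ?_, ?_, ?_⟩
    · exact halt _
    · rw [map_neg, hskew x y', hy', hφx]
      simp
    · intro z hz
      rw [map_neg, hskew z y', hy', hφZ z hz]
      simp
  · have hsy : ∀ a b, B a b = B b a := fun a b => (hsymm.eq a b)
    have h1 : B x y' = 1 := by rw [hsy, hy', hφx]
    have h1' : B y' x = 1 := by rw [hy', hφx]
    refine ⟨y' - (B y' y' / 2) • x, ?_, ?_, ?_⟩
    · simp only [map_sub, LinearMap.sub_apply, map_smul, LinearMap.smul_apply, smul_eq_mul, h1, h1', hx]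
      field_simp
      ring
    · simp only [map_sub, map_smul, smul_eq_mul, h1, hx]
      ring
    · intro z hz
      have hzx : B z x = 0 := by rw [hsy]; exact hxz z hz
      have hzy : B z y' = 0 := by rw [hsy, hy']; exact hφZ z hz
      simp only [map_sub, map_smul, smul_eq_mul, hzx, hzy]
      ring

end Cfsg.Agent.S0761
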