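import Mathlib
import Cfsg.Statements.S0762
-- import your own Cfsg.Agent.* helpers here

set_option autoImplicit false
open Cfsg

namespace Cfsg.Agent.S0762

/-- In characteristic two over a finite field, a quadratic form on a space of dimension at least 3 vanishes on some non-zero vector. -/
theorem result {F V : Type*} [Field F] [Finite F] [CharP F 2] [AddCommGroup V] [Module F V] [FiniteDimensional F V] (Q : QuadraticForm F V) (h3 : 3 ≤ Module.finrank F V) : ∃ v : V, v ≠ 0 ∧ Q v = 0 := by
  classical
  have hV : Nontrivial V := by
    apply Module.nontrivial_of_finrank_pos (R := F); omega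
  obtain ⟨r, hr⟩ := exists_ne (0 : V)
  by_cases hQr : Q r = 0
  · exact ⟨r, hr, hQr⟩
  -- the functional B(·, r)
  let f : V →ₗ[F] F := (QuadraticMap.polarBilin Q).flip r
  have hker : 2 ≤ Module.finrank F (LinearMap.ker f) := by
    have h := LinearMap.finrank_range_add_finrank_ker f
    have h2 : Module.finrank F (LinearMap.range f) ≤ 1 := by
      calc _ ≤ Module.finrank F F := Submodule.finrank_le _
        _ = 1 := Module.finrank_self F
    omega
  obtain ⟨u, huk, hur⟩ : ∃ u ∈ LinearMap.ker f, u ∉ Submodule.span F {r} := by
    by_contra hcon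
    push Not at hcon
    have hle : LinearMap.ker f ≤ Submodule.span F {r} := hcon
    have := Submodule.finrank_mono hle
    rw [finrank_span_singleton hr] at this
    omega
  have hpol : QuadraticMap.polar Q u r = 0 := by
    simpa [f] using huk
  -- choose λ with λ² = Q u / Q r
  cases nonempty_fintype F
  obtain ⟨l, hl⟩ : ∃ l : F, Q u / Q r = l * l :=
    FiniteField.isSquare_of_char_two (ringChar.eq F 2) _
  have hu : Q u = l * l * Q r := by
    rw [← hl]; field_simp
  refine ⟨u + l • r, ?_, ?_⟩
  · intro h
    apply hur
    have : u = (-l) • r := by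
      rw [neg_smul]; exact eq_neg_of_add_eq_zero_left h
    rw [this]
    exact Submodule.smul_mem _ _ (Submodule.mem_span_singleton_self r)
  · rw [QuadraticMap.map_add (⇑Q) u (l • r), QuadraticMap.map_smul, QuadraticMap.polar_smul_right, hpol, hu]
    simp only [smul_eq_mul, mul_zero, add_zero]
    have h2 : (2 : F) = 0 := CharTwo.two_eq_zero
    linear_combination (l * l * Q r) * h2

end Cfsg.Agent.S0762
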