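import Mathlib
import Cfsg.Agent.Lib.ClassGeo.Witt
import Cfsg.Statements.S0763
-- import your own Cfsg.Agent.* helpers here

set_option autoImplicit false
open Cfsg

namespace Cfsg.Agent.S0763

/-- Binary quadratic forms in characteristic two over a finite field: if Q is a quadratic form on a 2-dimensional space whose polar form is non-degenerate, then either there are vectors v, w with Q v = Q w = 0 and polar value 1 (Q is xy in these coordinates), or there are v, w and μ with Q v = 1, Q w = μ, polar value 1 and x² + x + μ without roots in F (Q is x² + xy + μy²). -/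
theorem result {F V : Type*} [Field F] [Finite F] [CharP F 2] [AddCommGroup V] [Module F V] (Q : QuadraticForm F V) (h2 : Module.finrank F V = 2) (hQ : (QuadraticMap.polarBilin Q).Nondegenerate) : (∃ v w : V, LinearIndependent F ![v, w] ∧ Q v = 0 ∧ Q w = 0 ∧ QuadraticMap.polar Q v w = 1) ∨ (∃ (v w : V) (μ : F), LinearIndependent F ![v, w] ∧ (∀ x : F, x ^ 2 + x + μ ≠ 0) ∧ Q v = 1 ∧ Q w = μ ∧ QuadraticMap.polar Q v w = 1) := by
  classical
  have hfd : FiniteDimensional F V := Module.finite_of_finrank_pos (by omega)
  have h20 : (2 : F) = 0 := CharP.cast_eq_zero F 2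
  have hself : ∀ v : V, QuadraticMap.polar Q v v = 0 := by
    intro v
    rw [QuadraticMap.polar_self, nsmul_eq_mul]
    simp [h20]
  have hli : ∀ v w : V, v ≠ 0 → QuadraticMap.polar Q v w = 1 → LinearIndependent F ![v, w] := by
    intro v w hv hvw
    rw [LinearIndependent.pair_iff]
    intro s t hst
    have h1 := congrArg (fun u => QuadraticMap.polar Q v u) hst
    simp only [QuadraticMap.polar_add_right, QuadraticMap.polar_smul_right, hself, hvw, QuadraticMap.polar_zero_right, smul_eq_mul, mul_zero, zero_add, mul_one] at h1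
    subst h1
    simp only [zero_smul, add_zero] at hst
    exact ⟨(smul_eq_zero.mp hst).resolve_right hv, rfl⟩
  have hrep : ∀ v : V, v ≠ 0 → ∃ w, QuadraticMap.polar Q v w = 1 := by
    intro v hv
    obtain ⟨w, hw, _⟩ := CfsgLib.ClassGeo.quad_exists_sep Q hQ ⊥ v (by simpa using hv)
    exact ⟨w, by rw [QuadraticMap.polar_comm]; exact hw⟩
  by_cases hsing : ∃ v : V, v ≠ 0 ∧ Q v = 0
  · obtain ⟨v, hv, hQv⟩ := hsing
    obtain ⟨w₀, hw₀⟩ := hrep v hv
    left
    refine ⟨v, w₀ + Q w₀ • v, ?_, hQv, ?_, ?_⟩
    · apply hli v _ hv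
      simp [QuadraticMap.polar_add_right, QuadraticMap.polar_smul_right, hself, hw₀]
    · rw [QuadraticMap.map_add (⇑Q), QuadraticMap.map_smul, QuadraticMap.polar_smul_right, QuadraticMap.polar_comm, hw₀, hQv]
      simp only [smul_eq_mul, mul_zero, zero_add, mul_one, add_zero]
      linear_combination (Q w₀) * h20
    · simp [QuadraticMap.polar_add_right, QuadraticMap.polar_smul_right, hself, hw₀]
  · push Not at hsing
    right
    obtain ⟨v₀, hv₀⟩ : ∃ v₀ : V, v₀ ≠ 0 := by
      have : Nontrivial V := Module.nontrivial_of_finrank_pos (R := F) (by omega)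
      exact exists_ne 0
    have hQv₀ := hsing v₀ hv₀
    have hfin : Fintype F := Fintype.ofFinite F
    have hchar : ringChar F = 2 := ringChar.eq F 2
    obtain ⟨c, hc⟩ := FiniteField.isSquare_of_char_two hchar (Q v₀)⁻¹
    have hc0 : c ≠ 0 := by
      rintro rfl
      simp at hc
      exact hQv₀ hc
    let v := c • v₀
    have hv : v ≠ 0 := smul_ne_zero hc0 hv₀
    have hQv : Q v = 1 := by
      simp only [v, QuadraticMap.map_smul, smul_eq_mul]
      rw [← hc]
      exact inv_mul_cancel₀ hQv₀
    obtain ⟨w, hw⟩ := hrep v hv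
    refine ⟨v, w, Q w, hli v w hv hw, ?_, hQv, rfl, hw⟩
    intro x hx
    have h1 : Q (x • v + w) = 0 := by
      rw [QuadraticMap.map_add (⇑Q), QuadraticMap.map_smul, QuadraticMap.polar_smul_left, hw, hQv]
      simp only [smul_eq_mul, mul_one]
      linear_combination hx
    have h2' : x • v + w = 0 := by
      by_contra hne
      exact hsing _ hne h1
    have h3 := congrArg (fun u => QuadraticMap.polar Q v u) h2'
    simp only [QuadraticMap.polar_add_right, QuadraticMap.polar_smul_right, hself, hw, QuadraticMap.polar_zero_right, smul_eq_mul, mul_zero, zero_add] at h3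
    exact one_ne_zero h3

end Cfsg.Agent.S0763
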