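import Mathlib
import Cfsg.Agent.Lib.ClassGeo.Symp
import Cfsg.Statements.S0767
-- import your own Cfsg.Agent.* helpers here

set_option autoImplicit false
open Cfsg

namespace Cfsg.Agent.S0767

/-- The root group of a point: T_v(c) T_v(d) = T_v(c + d), and for A in the symplectic group with A v = a v, the conjugate A T_v(c) A⁻¹ is again some T_v(d). -/
theorem result {F : Type*} [Field F] (m : ℕ) (v : Fin m ⊕ Fin m → F) : (∀ c d : F, Cfsg.sympTransvection m v c * Cfsg.sympTransvection m v d = Cfsg.sympTransvection m v (c + d)) ∧ ∀ (A : Matrix (Fin m ⊕ Fin m) (Fin m ⊕ Fin m) F) (a : F), A ∈ Matrix.symplecticGroup (Fin m) F → A.mulVec v = a • v → ∀ c : F, ∃ d : F, A * Cfsg.sympTransvection m v c * A⁻¹ = Cfsg.sympTransvection m v d := by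
  refine ⟨CfsgLib.ClassGeo.sympTransvection_mul v, ?_⟩
  intro A a hA hv c
  refine ⟨a ^ 2 * c, ?_⟩
  have hdet : IsUnit A.det := SymplecticGroup.symplectic_det hA
  have hinv : A * A⁻¹ = 1 := Matrix.mul_nonsing_inv A hdet
  apply CfsgLib.ClassGeo.matrix_eq_of_mulVec
  intro x
  rw [← Matrix.mulVec_mulVec, ← Matrix.mulVec_mulVec, CfsgLib.ClassGeo.sympTransvection_mulVec,
    CfsgLib.ClassGeo.sympTransvection_mulVec, Matrix.mulVec_add, Matrix.mulVec_smul, hv,
    Matrix.mulVec_mulVec, hinv, Matrix.one_mulVec]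
  have h2 : Cfsg.sympForm m F (A⁻¹.mulVec x) v = a * Cfsg.sympForm m F x v := by
    have := (CfsgLib.ClassGeo.mem_sp_iff A).mp hA (A⁻¹.mulVec x) v
    rw [Matrix.mulVec_mulVec, hinv, Matrix.one_mulVec, hv, CfsgLib.ClassGeo.symp_smul_right] at this
    exact this.symm
  rw [h2]
  ext i
  simp only [Pi.add_apply, Pi.smul_apply, smul_eq_mul]
  ring

end Cfsg.Agent.S0767
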