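import Mathlib
import Cfsg.Statements.S0769
-- import your own Cfsg.Agent.* helpers here

set_option autoImplicit false
open Cfsg

namespace Cfsg.Agent.S0769

theorem card_pairs (n : ℕ) : Nat.card {p : Fin n × Fin n // p.2 < p.1} = n * (n - 1) / 2 := by
  classical
  let e : {p : Fin n × Fin n // p.2 < p.1} ≃ Σ i : Fin n, Fin (i : ℕ) :=
    { toFun := fun p => ⟨p.1.1, ⟨p.1.2, p.2⟩⟩
      invFun := fun x => ⟨(x.1, ⟨x.2, x.2.2.trans x.1.2⟩), x.2.2⟩
      left_inv := by
        rintro ⟨⟨i, j⟩, h⟩
        rfl
      right_inv := by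
        rintro ⟨i, j⟩
        rfl }
  rw [Nat.card_congr e, Nat.card_eq_fintype_card, Fintype.card_sigma]
  simp only [Fintype.card_fin]
  rw [Fin.sum_univ_eq_sum_range (fun i => i) n, Finset.sum_range_id]

open Matrix in
/-- The lower-triangular matrix with given data. -/
def ltMat {F : Type*} [Field F] {n : ℕ} (d : Fin n → Fˣ) (l : {p : Fin n × Fin n // p.2 < p.1} → F) :
    Matrix (Fin n) (Fin n) F := fun i j =>
  if h : j < i then l ⟨(i, j), h⟩ else if i = j then (d i : F) else 0

open Matrix in
theorem ltMat_det {F : Type*} [Field F] {n : ℕ} (d : Fin n → Fˣ) (l : {p : Fin n × Fin n // p.2 < p.1} → F) :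
    (ltMat d l).det ≠ 0 := by
  rw [Matrix.det_of_isLowerTriangular]
  · rw [Finset.prod_ne_zero_iff]
    intro i _
    simp [ltMat]
  · intro i j hij
    have hij' : i < j := hij
    simp [ltMat, not_lt.mpr hij'.le, hij'.ne]

/-- Order of the Borel subgroup of GL_n(q): the invertible lower-triangular n × n matrices over a field with q elements number q^(n(n-1)/2) (q-1)^n (unitriangular part times the diagonal torus). -/
theorem result {F : Type*} [Field F] [Fintype F] {q : ℕ} (hF : Fintype.card F = q) (n : ℕ) : Nat.card {g : Matrix.GeneralLinearGroup (Fin n) F // ∀ i j : Fin n, i < j → (g : Matrix (Fin n) (Fin n) F) i j = 0} = q ^ (n * (n - 1) / 2) * (q - 1) ^ n := by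
  classical
  subst hF
  let f : (Fin n → Fˣ) × ({p : Fin n × Fin n // p.2 < p.1} → F) → {g : Matrix.GeneralLinearGroup (Fin n) F // ∀ i j : Fin n, i < j → (g : Matrix (Fin n) (Fin n) F) i j = 0} :=
    fun x => ⟨Matrix.GeneralLinearGroup.mkOfDetNeZero (ltMat x.1 x.2) (ltMat_det x.1 x.2), by
      intro i j hij
      change ltMat x.1 x.2 i j = 0
      simp [ltMat, not_lt.mpr hij.le, hij.ne]⟩
  have hf : Function.Bijective f := by
    constructor
    · rintro ⟨d, l⟩ ⟨d', l'⟩ h
      have h1 : ltMat d l = ltMat d' l' := congrArg (fun g => ((g.1 : Matrix.GeneralLinearGroup (Fin n) F) : Matrix (Fin n) (Fin n) F)) h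
      have hd : d = d' := by
        ext i
        have := congrFun (congrFun h1 i) i
        simpa [ltMat] using this
      have hl : l = l' := by
        ext ⟨⟨i, j⟩, hij⟩
        have := congrFun (congrFun h1 i) j
        have hij' : j < i := hij
        simpa [ltMat, hij'] using this
      rw [hd, hl]
    · rintro ⟨g, hg⟩
      have hdet : (g : Matrix (Fin n) (Fin n) F).det ≠ 0 := by simpa using (Matrix.GeneralLinearGroup.det g).ne_zero
      rw [Matrix.det_of_isLowerTriangular _ (fun i j hij => hg i j hij), Finset.prod_ne_zero_iff] at hdet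
      refine ⟨(fun i => Units.mk0 _ (hdet i (Finset.mem_univ i)), fun p => (g : Matrix (Fin n) (Fin n) F) p.1.1 p.1.2), ?_⟩
      apply Subtype.ext
      apply Units.ext
      ext i j
      change ltMat _ _ i j = _
      by_cases hji : j < i
      · simp [ltMat, hji]
      · by_cases hij : i = j
        · subst hij
          simp [ltMat]
        · have hlt : i < j := lt_of_le_of_ne (not_lt.mp hji) hij
          simp [ltMat, hji, hij, hg i j hlt]
  rw [← Nat.card_congr (Equiv.ofBijective f hf), Nat.card_prod, Nat.card_fun, Nat.card_fun, card_pairs]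
  have h1 : Nat.card Fˣ = Fintype.card F - 1 := by
    rw [Nat.card_eq_fintype_card, Fintype.card_units]
  rw [h1, Nat.card_eq_fintype_card (α := F), Nat.card_eq_fintype_card (α := Fin n), Fintype.card_fin, mul_comm]

end Cfsg.Agent.S0769
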