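import Mathlib
import Cfsg.Statements.S0770
-- import your own Cfsg.Agent.* helpers here

set_option autoImplicit false
open Cfsg

namespace Cfsg.Agent.S0770

/-- For a field with at least 3 elements, an invertible matrix normalises the subgroup of invertible diagonal matrices of GL_n if and only if it is monomial (exactly one non-zero entry in each row). -/
theorem result {F : Type*} [Field F] (hF : ∃ a : F, a ≠ 0 ∧ a ≠ 1) (n : ℕ) (g : Matrix.GeneralLinearGroup (Fin n) F) : g ∈ Subgroup.normalizer ((Units.map (Matrix.diagonalRingHom (Fin n) F).toMonoidHom).range : Subgroup (Matrix.GeneralLinearGroup (Fin n) F)) ↔ ∀ i : Fin n, ∃! j : Fin n, (g : Matrix (Fin n) (Fin n) F) i j ≠ 0 := by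
  classical
  have hdmem : ∀ d : (Fin n → F)ˣ, ∃ x : Matrix.GeneralLinearGroup (Fin n) F, x ∈ (Units.map (Matrix.diagonalRingHom (Fin n) F).toMonoidHom).range ∧ (x : Matrix (Fin n) (Fin n) F) = Matrix.diagonal (d : Fin n → F) := by
    intro d
    exact ⟨Units.map (Matrix.diagonalRingHom (Fin n) F).toMonoidHom d, ⟨d, rfl⟩, rfl⟩
  have hdcoe : ∀ x : Matrix.GeneralLinearGroup (Fin n) F, x ∈ (Units.map (Matrix.diagonalRingHom (Fin n) F).toMonoidHom).range → ∃ d : Fin n → F, (∀ i, d i ≠ 0) ∧ (x : Matrix (Fin n) (Fin n) F) = Matrix.diagonal d := by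
    rintro x ⟨d, rfl⟩
    refine ⟨(d : Fin n → F), fun i => ?_, rfl⟩
    intro h0
    have : ((d : Fin n → F) * ((d⁻¹ : (Fin n → F)ˣ) : Fin n → F)) i = 1 := by
      rw [Units.mul_inv]
      rfl
    simp [h0] at this
  have hdback : ∀ (d : Fin n → F), (∀ i, d i ≠ 0) → ∀ x : Matrix.GeneralLinearGroup (Fin n) F, (x : Matrix (Fin n) (Fin n) F) = Matrix.diagonal d → x ∈ (Units.map (Matrix.diagonalRingHom (Fin n) F).toMonoidHom).range := by
    intro d hd x hx
    let u : (Fin n → F)ˣ := ⟨d, fun i => (d i)⁻¹, by ext i; simp [hd i], by ext i; simp [hd i]⟩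
    refine ⟨u, ?_⟩
    apply Units.ext
    rw [hx]
    rfl
  constructor
  · intro hg i
    obtain ⟨a, ha0, ha1⟩ := hF
    -- the row is non-zero
    have hrow : ∃ j, (g : Matrix (Fin n) (Fin n) F) i j ≠ 0 := by
      by_contra hcon
      push_neg at hcon
      have h1 : ((g⁻¹ : Matrix.GeneralLinearGroup (Fin n) F) : Matrix (Fin n) (Fin n) F) * (g : Matrix (Fin n) (Fin n) F) = 1 := by
        rw [← Units.val_mul]
        simp
      have h2 : (g : Matrix (Fin n) (Fin n) F) * ((g⁻¹ : Matrix.GeneralLinearGroup (Fin n) F) : Matrix (Fin n) (Fin n) F) = 1 := by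
        rw [← Units.val_mul]
        simp
      have h3 := congrFun (congrFun h2 i) i
      simp only [Matrix.mul_apply, hcon, zero_mul, Finset.sum_const_zero, Matrix.one_apply_eq] at h3
      exact zero_ne_one h3
    obtain ⟨j, hj⟩ := hrow
    refine ⟨j, hj, fun k hk => ?_⟩
    by_contra hkj
    let dv : Fin n → F := Function.update 1 j a
    have hdv : ∀ i, dv i ≠ 0 := by
      intro l
      by_cases hl : l = j
      · subst hl; simpa [dv] using ha0
      · simp [dv, Function.update_of_ne hl]
    let du : (Fin n → F)ˣ := ⟨dv, fun i => (dv i)⁻¹, by ext i; simp [hdv i], by ext i; simp [hdv i]⟩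
    obtain ⟨x, hx, hxc⟩ := hdmem du
    have h4 := (Subgroup.mem_normalizer_iff.1 hg x).1 hx
    obtain ⟨e, he, he'⟩ := hdcoe _ h4
    have h5 : (g : Matrix (Fin n) (Fin n) F) * Matrix.diagonal dv = Matrix.diagonal e * (g : Matrix (Fin n) (Fin n) F) := by
      rw [← he']
      have hxc' : Matrix.diagonal dv = (x : Matrix (Fin n) (Fin n) F) := hxc.symm
      rw [hxc', ← Units.val_mul, ← Units.val_mul]
      congr 1
      group
    have h6 : ∀ l, (g : Matrix (Fin n) (Fin n) F) i l * dv l = e i * (g : Matrix (Fin n) (Fin n) F) i l := by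
      intro l
      have := congrFun (congrFun h5 i) l
      simpa [Matrix.mul_diagonal, Matrix.diagonal_mul] using this
    have h7 := h6 j
    have h8 := h6 k
    simp only [dv, Function.update_self, Function.update_of_ne hkj, Pi.one_apply, mul_one] at h7 h8
    have h9 : e i = a := by
      have : ((g : Matrix (Fin n) (Fin n) F) i j) * (a - e i) = 0 := by linear_combination h7
      have := (mul_eq_zero.1 this).resolve_left hj
      exact (sub_eq_zero.1 this).symm
    rw [h9] at h8
    have h10 : (g : Matrix (Fin n) (Fin n) F) i k * (1 - a) = 0 := by linear_combination h8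
    rcases mul_eq_zero.1 h10 with h | h
    · exact hk h
    · exact ha1 (sub_eq_zero.1 h).symm
  · intro hmono
    choose σ hσ hσu using hmono
    have hG1 : (g : Matrix (Fin n) (Fin n) F) * ((g⁻¹ : Matrix.GeneralLinearGroup (Fin n) F) : Matrix (Fin n) (Fin n) F) = 1 := by
      rw [← Units.val_mul]
      simp
    have hG2 : ((g⁻¹ : Matrix.GeneralLinearGroup (Fin n) F) : Matrix (Fin n) (Fin n) F) * (g : Matrix (Fin n) (Fin n) F) = 1 := by
      rw [← Units.val_mul]
      simp
    have hsurj : Function.Surjective σ := by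
      intro j
      by_contra hcon
      push_neg at hcon
      have h0 : ∀ i, (g : Matrix (Fin n) (Fin n) F) i j = 0 := by
        intro i
        by_contra h
        exact hcon i (hσu i j h).symm
      have h3 := congrFun (congrFun hG2 j) j
      simp only [Matrix.mul_apply, h0, mul_zero, Finset.sum_const_zero, Matrix.one_apply_eq] at h3
      exact zero_ne_one h3
    have hbij : Function.Bijective σ := ⟨Finite.injective_iff_surjective.2 hsurj, hsurj⟩
    let τ : Equiv.Perm (Fin n) := Equiv.ofBijective σ hbij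
    have hτ : ∀ i, τ i = σ i := fun i => rfl
    have hcomm : ∀ d : Fin n → F, (g : Matrix (Fin n) (Fin n) F) * Matrix.diagonal d = Matrix.diagonal (d ∘ τ) * (g : Matrix (Fin n) (Fin n) F) := by
      intro d
      ext i j
      rw [Matrix.mul_diagonal, Matrix.diagonal_mul]
      by_cases h : (g : Matrix (Fin n) (Fin n) F) i j = 0
      · simp [h]
      · have := hσu i j h
        subst this
        simp [hτ, mul_comm]
    rw [Subgroup.mem_normalizer_iff]
    intro x
    constructor
    · intro hx
      obtain ⟨d, hd, hd'⟩ := hdcoe x hx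
      refine hdback (d ∘ τ) (fun i => hd _) _ ?_
      simp only [Units.val_mul, hd']
      rw [hcomm, Matrix.mul_assoc, hG1, Matrix.mul_one]
    · intro hx
      obtain ⟨e, he, he'⟩ := hdcoe _ hx
      refine hdback (e ∘ τ.symm) (fun i => he _) _ ?_
      have h1 : (g : Matrix (Fin n) (Fin n) F) * Matrix.diagonal (e ∘ τ.symm) = Matrix.diagonal e * (g : Matrix (Fin n) (Fin n) F) := by
        rw [hcomm]
        congr 2
        ext i
        simp
      simp only [Units.val_mul] at he'
      have h2 : (x : Matrix (Fin n) (Fin n) F) = ((g⁻¹ : Matrix.GeneralLinearGroup (Fin n) F) : Matrix (Fin n) (Fin n) F) * (Matrix.diagonal e * (g : Matrix (Fin n) (Fin n) F)) := by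
        rw [← he']
        simp only [Matrix.mul_assoc, hG2, Matrix.mul_one]
        rw [← Matrix.mul_assoc, hG2, Matrix.one_mul]
      rw [h2, ← h1, ← Matrix.mul_assoc, hG2, Matrix.one_mul]

end Cfsg.Agent.S0770
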