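import Mathlib
import Cfsg.Agent.Lib.ClassGeo.ParabIso
import Cfsg.Statements.S0773
-- import your own Cfsg.Agent.* helpers here

set_option autoImplicit false
open Cfsg

namespace Cfsg.Agent.S0773

/-- The stabilisers in GL_n(F), F finite, of the coordinate subspaces of dimensions k and n − k are isomorphic groups, but when 2k ≠ n (and 0 < k < n) no element of GL_n conjugates one onto the other. -/
theorem result {F : Type*} [Field F] [Finite F] (n k : ℕ) (hk0 : 0 < k) (hkn : k < n) (h2 : 2 * k ≠ n) : Nonempty (↥(Cfsg.stabilizing (Cfsg.glToMat (Fin n) F) {v : Fin n → F | ∀ i : Fin n, k ≤ (i : ℕ) → v i = 0}) ≃* ↥(Cfsg.stabilizing (Cfsg.glToMat (Fin n) F) {v : Fin n → F | ∀ i : Fin n, n - k ≤ (i : ℕ) → v i = 0})) ∧ ∀ g : Matrix.GeneralLinearGroup (Fin n) F, (Cfsg.stabilizing (Cfsg.glToMat (Fin n) F) {v : Fin n → F | ∀ i : Fin n, k ≤ (i : ℕ) → v i = 0}).map (MulAut.conj g).toMonoidHom ≠ Cfsg.stabilizing (Cfsg.glToMat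 (Fin n) F) {v : Fin n → F | ∀ i : Fin n, n - k ≤ (i : ℕ) → v i = 0} := by
  refine ⟨⟨CfsgLib.ClassGeo.parabIso n k (n - k) (by omega)⟩, ?_⟩
  intro g hg
  have hk' : 0 < n - k := by omega
  have hW := CfsgLib.ClassGeo.stabGL_conj (CfsgLib.ClassGeo.coordW n k F) g
  have h1 : CfsgLib.ClassGeo.stabGL ((CfsgLib.ClassGeo.coordW n k F).map (CfsgLib.ClassGeo.glLin g : (Fin n → F) →ₗ[F] (Fin n → F))) = CfsgLib.ClassGeo.stabGL (CfsgLib.ClassGeo.coordW n (n - k) F) := by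
    rw [← hW]
    exact hg
  have hne : (CfsgLib.ClassGeo.coordW n k F).map (CfsgLib.ClassGeo.glLin g : (Fin n → F) →ₗ[F] (Fin n → F)) ≠ ⊥ := by
    intro h0
    have h0' := Submodule.map_eq_bot_iff.mp h0
    exact CfsgLib.ClassGeo.coordW_ne_bot n k hk0 hkn h0'
  have h2 := CfsgLib.ClassGeo.stabGL_inj _ _ hne (CfsgLib.ClassGeo.coordW_ne_bot n (n - k) hk' (by omega)) h1
  have h3 := LinearEquiv.finrank_map_eq (CfsgLib.ClassGeo.glLin g) (CfsgLib.ClassGeo.coordW n k F)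
  rw [h2, CfsgLib.ClassGeo.finrank_coordW n k hkn.le, CfsgLib.ClassGeo.finrank_coordW n (n - k) (by omega)] at h3
  omega

end Cfsg.Agent.S0773
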