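import Mathlib
import Cfsg.Statements.S0778
-- import your own Cfsg.Agent.* helpers here

set_option autoImplicit false
open Cfsg

namespace Cfsg.Agent.S0778

open Matrix in
/-- Block diagonal symplectic matrices. -/
noncomputable def blockHom (m : ℕ) (F : Type*) [Field F] : GL (Fin m) F →* Matrix.symplecticGroup (Fin m) F where
  toFun X := ⟨fromBlocks (X : Matrix (Fin m) (Fin m) F) 0 0 ((X⁻¹ : GL (Fin m) F) : Matrix (Fin m) (Fin m) F)ᵀ, by
    rw [SymplecticGroup.mem_iff, Matrix.J, fromBlocks_transpose]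
    simp only [transpose_zero, transpose_transpose, fromBlocks_multiply]
    have h1 : (X : Matrix (Fin m) (Fin m) F) * ((X⁻¹ : GL (Fin m) F) : Matrix (Fin m) (Fin m) F) = 1 := by
      rw [← Units.val_mul, mul_inv_cancel]; rfl
    have h2 : ((X⁻¹ : GL (Fin m) F) : Matrix (Fin m) (Fin m) F)ᵀ * (X : Matrix (Fin m) (Fin m) F)ᵀ = 1 := by
      rw [← transpose_mul, h1, transpose_one]
    simp only [mul_zero, zero_mul, add_zero, zero_add, mul_one, mul_neg, neg_mul, neg_zero, h1, h2]⟩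
  map_one' := by
    apply Subtype.ext
    simp
  map_mul' X Y := by
    apply Subtype.ext
    simp [fromBlocks_multiply, Matrix.transpose_mul]

open Matrix in
theorem blockHom_coe (m : ℕ) (F : Type*) [Field F] (X : GL (Fin m) F) :
    ((blockHom m F X : Matrix.symplecticGroup (Fin m) F) : Matrix (Fin m ⊕ Fin m) (Fin m ⊕ Fin m) F) =
      fromBlocks (X : Matrix (Fin m) (Fin m) F) 0 0 ((X⁻¹ : GL (Fin m) F) : Matrix (Fin m) (Fin m) F)ᵀ := rfl

open Matrix in
theorem inj_aux {m : ℕ} {F : Type*} [Field F] (A : Matrix (Fin m) (Fin m) F) (B : Matrix (Fin m) (Fin m) F) (h : A * B = 1) (y : Fin m → F) :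
    B *ᵥ y = 0 ↔ y = 0 := by
  constructor
  · intro hy
    have := congrArg (fun z => A *ᵥ z) hy
    simpa [mulVec_mulVec, h] using this
  · rintro rfl
    simp

/-- The elements of Sp_2m(F) stabilising both W = ⟨e_1..e_m⟩ and U = ⟨f_1..f_m⟩ form a subgroup isomorphic to GL_m(F) (block-diagonal matrices diag(X, X^(−ᵀ)) up to the sign convention of J), for m ≥ 1 or m = 0 alike. -/
theorem result {F : Type*} [Field F] (m : ℕ) : Nonempty (↥(Cfsg.stabilizing (Cfsg.spToMat m F) {v : Fin m ⊕ Fin m → F | ∀ i : Fin m, v (Sum.inr i) = 0} ⊓ Cfsg.stabilizing (Cfsg.spToMat m F) {v : Fin m ⊕ Fin m → F | ∀ i : Fin m, v (Sum.inl i) = 0}) ≃* Matrix.GeneralLinearGroup (Fin m) F) := by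
  classical
  let S1 : Subgroup (Matrix.symplecticGroup (Fin m) F) := Cfsg.stabilizing (Cfsg.spToMat m F) {v : Fin m ⊕ Fin m → F | ∀ i : Fin m, v (Sum.inr i) = 0}
  let S2 : Subgroup (Matrix.symplecticGroup (Fin m) F) := Cfsg.stabilizing (Cfsg.spToMat m F) {v : Fin m ⊕ Fin m → F | ∀ i : Fin m, v (Sum.inl i) = 0}
  have hmem : ∀ X : GL (Fin m) F, blockHom m F X ∈ S1 ⊓ S2 := by
    intro X
    have h1 : (X : Matrix (Fin m) (Fin m) F) * ((X⁻¹ : GL (Fin m) F) : Matrix (Fin m) (Fin m) F) = 1 := by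
      rw [← Units.val_mul, mul_inv_cancel]; rfl
    have h2 : (X : Matrix (Fin m) (Fin m) F).transpose * ((X⁻¹ : GL (Fin m) F) : Matrix (Fin m) (Fin m) F).transpose = 1 := by
      have h0 : ((X⁻¹ : GL (Fin m) F) : Matrix (Fin m) (Fin m) F) * (X : Matrix (Fin m) (Fin m) F) = 1 := by
        rw [← Units.val_mul, inv_mul_cancel]; rfl
      rw [← Matrix.transpose_mul, h0, Matrix.transpose_one]
    have h3 : ((X⁻¹ : GL (Fin m) F) : Matrix (Fin m) (Fin m) F) * (X : Matrix (Fin m) (Fin m) F) = 1 := by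
      rw [← Units.val_mul, inv_mul_cancel]; rfl
    have key : ∀ v : Fin m ⊕ Fin m → F, ((Cfsg.spToMat m F) ((blockHom m F) X)).mulVec v = Sum.elim ((X : Matrix (Fin m) (Fin m) F).mulVec (v ∘ Sum.inl)) (((X⁻¹ : GL (Fin m) F) : Matrix (Fin m) (Fin m) F).transpose.mulVec (v ∘ Sum.inr)) := by
      intro v
      change ((blockHom m F X : Matrix.symplecticGroup (Fin m) F) : Matrix (Fin m ⊕ Fin m) (Fin m ⊕ Fin m) F).mulVec v = _
      rw [blockHom_coe, Matrix.fromBlocks_mulVec]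
      simp
    have hW : ∀ w : Fin m ⊕ Fin m → F, (∀ i, w (Sum.inr i) = 0) ↔ w ∘ Sum.inr = 0 := by
      intro w
      rw [funext_iff]
      rfl
    have hU : ∀ w : Fin m ⊕ Fin m → F, (∀ i, w (Sum.inl i) = 0) ↔ w ∘ Sum.inl = 0 := by
      intro w
      rw [funext_iff]
      rfl
    constructor
    · intro v
      change (∀ i, v (Sum.inr i) = 0) ↔ (∀ i, ((Cfsg.spToMat m F) ((blockHom m F) X)).mulVec v (Sum.inr i) = 0)
      rw [key, hW, hW]
      have : (Sum.elim ((X : Matrix (Fin m) (Fin m) F).mulVec (v ∘ Sum.inl)) (((X⁻¹ : GL (Fin m) F) : Matrix (Fin m) (Fin m) F).transpose.mulVec (v ∘ Sum.inr))) ∘ Sum.inr = ((X⁻¹ : GL (Fin m) F) : Matrix (Fin m) (Fin m) F).transpose.mulVec (v ∘ Sum.inr) := rfl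
      rw [this, inj_aux _ _ h2]
    · intro v
      change (∀ i, v (Sum.inl i) = 0) ↔ (∀ i, ((Cfsg.spToMat m F) ((blockHom m F) X)).mulVec v (Sum.inl i) = 0)
      rw [key, hU, hU]
      have : (Sum.elim ((X : Matrix (Fin m) (Fin m) F).mulVec (v ∘ Sum.inl)) (((X⁻¹ : GL (Fin m) F) : Matrix (Fin m) (Fin m) F).transpose.mulVec (v ∘ Sum.inr))) ∘ Sum.inl = (X : Matrix (Fin m) (Fin m) F).mulVec (v ∘ Sum.inl) := rfl
      rw [this, inj_aux _ _ h3]
  let ψ : GL (Fin m) F →* ↥(S1 ⊓ S2) := (blockHom m F).codRestrict _ hmem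
  have hbij : Function.Bijective ψ := by
    constructor
    · intro X Y h
      have h1 : Matrix.fromBlocks (X : Matrix (Fin m) (Fin m) F) 0 0 ((X⁻¹ : GL (Fin m) F) : Matrix (Fin m) (Fin m) F).transpose = Matrix.fromBlocks (Y : Matrix (Fin m) (Fin m) F) 0 0 ((Y⁻¹ : GL (Fin m) F) : Matrix (Fin m) (Fin m) F).transpose :=
        congrArg (fun A : ↥(S1 ⊓ S2) => (A.1.1 : Matrix (Fin m ⊕ Fin m) (Fin m ⊕ Fin m) F)) h
      apply Units.ext
      exact (Matrix.fromBlocks_inj.mp h1).1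
    · rintro ⟨A, hA1, hA2⟩
      set M : Matrix (Fin m ⊕ Fin m) (Fin m ⊕ Fin m) F := (A : Matrix (Fin m ⊕ Fin m) (Fin m ⊕ Fin m) F) with hM
      have h21 : M.toBlocks₂₁ = 0 := by
        ext i j
        have h := (hA1 (Sum.elim (Pi.single j 1) 0)).mp (by
          intro k
          simp)
        have h2 := h i
        change (A : Matrix (Fin m ⊕ Fin m) (Fin m ⊕ Fin m) F) (Sum.inr i) (Sum.inl j) = 0
        simpa [Matrix.mulVec, dotProduct, Fintype.sum_sum_type, Pi.single_apply] using h2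
      have h12 : M.toBlocks₁₂ = 0 := by
        ext i j
        have h := (hA2 (Sum.elim 0 (Pi.single j 1))).mp (by
          intro k
          simp)
        have h2 := h i
        change (A : Matrix (Fin m ⊕ Fin m) (Fin m ⊕ Fin m) F) (Sum.inl i) (Sum.inr j) = 0
        simpa [Matrix.mulVec, dotProduct, Fintype.sum_sum_type, Pi.single_apply] using h2
      have hM2 : M = Matrix.fromBlocks M.toBlocks₁₁ 0 0 M.toBlocks₂₂ := by
        have := Matrix.fromBlocks_toBlocks M
        rw [h12, h21] at this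
        exact this.symm
      have hsp := (SymplecticGroup.mem_iff (A := M)).mp A.2
      rw [hM2, Matrix.J, Matrix.fromBlocks_transpose] at hsp
      simp only [Matrix.transpose_zero, Matrix.fromBlocks_multiply, Matrix.mul_zero, Matrix.zero_mul, add_zero, zero_add, Matrix.mul_neg, Matrix.mul_one] at hsp
      have h5 := (Matrix.fromBlocks_inj.mp hsp).2.1
      have h6 : M.toBlocks₁₁ * M.toBlocks₂₂.transpose = 1 := by
        simpa using h5
      have h7 : M.toBlocks₂₂.transpose * M.toBlocks₁₁ = 1 := mul_eq_one_comm.mp h6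
      let X : GL (Fin m) F := ⟨M.toBlocks₁₁, M.toBlocks₂₂.transpose, h6, h7⟩
      refine ⟨X, ?_⟩
      apply Subtype.ext
      apply Subtype.ext
      change Matrix.fromBlocks M.toBlocks₁₁ 0 0 (M.toBlocks₂₂.transpose).transpose = M
      rw [Matrix.transpose_transpose]
      exact hM2.symm
  exact ⟨(MulEquiv.ofBijective ψ hbij).symm⟩

end Cfsg.Agent.S0778
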