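import Mathlib
import Cfsg.Agent.Lib.ClassGeo.UBasic
import Cfsg.Statements.S0779
-- import your own Cfsg.Agent.* helpers here

set_option autoImplicit false
open Cfsg

namespace Cfsg.Agent.S0779

/-- Unitary transvections: let |F| = q², h the standard Hermitian form Σ x_i y_i^q and v ≠ 0 with h(v, v) = 0. The linear map x ↦ x + c h(x, v) v is an isometry of h if and only if c = 0 or c^(q−1) = −1. -/
theorem result {F : Type*} [Field F] [Fintype F] {q : ℕ} (hF : Fintype.card F = q ^ 2) (n : ℕ) (v : Fin n → F) (hv : v ≠ 0) (hv0 : Cfsg.hermForm n F q v v = 0) (c : F) : (∀ x y : Fin n → F, Cfsg.hermForm n F q ((Cfsg.unitaryTransvection n q v c).mulVec x) ((Cfsg.unitaryTransvection n q v c).mulVec y) = Cfsg.hermForm n F q x y) ↔ (c = 0 ∨ c ^ (q - 1) = -1) := by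
  rw [CfsgLib.ClassGeo.unitaryTransvection_isom_iff n hF v hv hv0 c, CfsgLib.ClassGeo.qFrob_apply]
  have hq2 := CfsgLib.ClassGeo.qfrob_two_le hF
  have e : c ^ q = c ^ (q - 1) * c := by
    rw [← pow_succ, Nat.sub_add_cancel (by omega)]
  rw [e]
  constructor
  · intro h
    by_cases hc : c = 0
    · exact Or.inl hc
    · right
      have : (1 + c ^ (q - 1)) * c = 0 := by linear_combination h
      rcases mul_eq_zero.mp this with h1 | h1
      · linear_combination h1
      · exact absurd h1 hc
  · rintro (rfl | h)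
    · simp
    · rw [h]
      ring

end Cfsg.Agent.S0779
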