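import Mathlib
import Cfsg.Agent.Lib.ClassGeo.UBasic
import Cfsg.Statements.S0781
-- import your own Cfsg.Agent.* helpers here

set_option autoImplicit false
open Cfsg

namespace Cfsg.Agent.S0781

/-- In SU_n(q) with n ≥ 4, or n = 3 and q > 2, every element whose matrix is a unitary transvection x ↦ x + c h(x, v) v (v isotropic) is a commutator ⁅B, C⁆ of two elements of SU_n(q). -/
theorem result {F : Type*} [Field F] [Fintype F] {q : ℕ} (hF : Fintype.card F = q ^ 2) (n : ℕ) (hn : 4 ≤ n ∨ (n = 3 ∧ 3 ≤ q)) (A : ↥(Cfsg.SU n F q)) (v : Fin n → F) (c : F) (hv0 : Cfsg.hermForm n F q v v = 0) (hA : ((A : Matrix.SpecialLinearGroup (Fin n) F) : Matrix (Fin n) (Fin n) F) = Cfsg.unitaryTransvection n q v c) : A ∈ commutatorSet ↥(Cfsg.SU n F q) := by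
  by_cases hone : v = 0 ∨ c = 0
  · have hA1 : A = 1 := by
      apply Subtype.ext
      apply Matrix.SpecialLinearGroup.ext
      intro i j
      change ((A : Matrix.SpecialLinearGroup (Fin n) F) : Matrix (Fin n) (Fin n) F) i j = (1 : Matrix (Fin n) (Fin n) F) i j
      rw [hA, Cfsg.unitaryTransvection]
      rcases hone with rfl | rfl <;> simp [Matrix.vecMulVec]
    rw [hA1]
    exact ⟨1, 1, by simp⟩
  push Not at hone
  have hm : ∀ x y, Cfsg.hermForm n F q ((Cfsg.unitaryTransvection n q v c).mulVec x) ((Cfsg.unitaryTransvection n q v c).mulVec y) = Cfsg.hermForm n F q x y := by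
    intro x y
    rw [← hA]
    exact A.2 x y
  have hc := (CfsgLib.ClassGeo.unitaryTransvection_isom_iff n hF v hone.1 hv0 c).mp hm
  have h := CfsgLib.ClassGeo.stdH_hform n hF
  have hv' : CfsgLib.ClassGeo.stdH n hF v v = 0 := hv0
  have hfr : Module.finrank F (Fin n → F) = n := by simp
  obtain ⟨E, E', h1, h2, h3, h4, h5⟩ := CfsgLib.ClassGeo.exists_comm_uT h (by omega) v hv' hone.1 c hc
  obtain ⟨A₁, hA₁⟩ := CfsgLib.ClassGeo.exists_sl_of_det n E h3
  obtain ⟨A₂, hA₂⟩ := CfsgLib.ClassGeo.exists_sl_of_det n E' h4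
  have hm₁ : A₁ ∈ Cfsg.SU n F q := by
    rw [CfsgLib.ClassGeo.mem_SU_iff n hF, hA₁]
    exact h1
  have hm₂ : A₂ ∈ Cfsg.SU n F q := by
    rw [CfsgLib.ClassGeo.mem_SU_iff n hF, hA₂]
    exact h2
  refine ⟨⟨A₁, hm₁⟩, ⟨A₂, hm₂⟩, ?_⟩
  apply Subtype.ext
  apply CfsgLib.ClassGeo.slLin_injective n
  change CfsgLib.ClassGeo.slLin n (A₁ * A₂ * A₁⁻¹ * A₂⁻¹) = _
  simp only [CfsgLib.ClassGeo.slLin_mul, CfsgLib.ClassGeo.slLin_inv, hA₁, hA₂]
  rw [h5]
  ext x
  rw [CfsgLib.ClassGeo.uT_apply h.toF, CfsgLib.ClassGeo.slLin_apply, hA, CfsgLib.ClassGeo.unitaryTransvection_mulVec n hF]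

end Cfsg.Agent.S0781
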