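import Mathlib
import Cfsg.Agent.Lib.ClassGeo.Quad
import Cfsg.Statements.S0785
-- import your own Cfsg.Agent.* helpers here

set_option autoImplicit false
open Cfsg

namespace Cfsg.Agent.S0785

/-- det(I) = {±1}: for a quadratic form on F^n whose polar form is non-degenerate, every element of the isometry group has determinant 1 or −1, and as soon as Q takes a non-zero value some isometry has determinant −1. -/
theorem result {F : Type*} [Field F] {n : ℕ} (Q : QuadraticForm F (Fin n → F)) (hQ : (QuadraticMap.polarBilin Q).Nondegenerate) : (∀ g : ↥(Cfsg.isometryGroup F ⇑Q), ((g : Matrix.GeneralLinearGroup (Fin n) F) : Matrix (Fin n) (Fin n) F).det = 1 ∨ ((g : Matrix.GeneralLinearGroup (Fin n) F) : Matrix (Fin n) (Fin n) F).det = -1) ∧ ((∃ v, Q v ≠ 0) → ∃ g : ↥(Cfsg.isometryGroup F ⇑Q), ((g : Matrix.GeneralLinearGroup (Fin n) F) : Matrix (Fin n) (Fin n) F).det = -1) := by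
  constructor
  · intro g
    have hg : ∀ x, Q (((g : Matrix.GeneralLinearGroup (Fin n) F) : Matrix (Fin n) (Fin n) F).mulVec x) = Q x := by
      intro x
      have := g.2 x x
      exact this
    have := CfsgLib.ClassGeo.det_sq_of_preserves Q hQ _ hg
    exact sq_eq_one_iff.mp this
  · rintro ⟨v, hv⟩
    have hdet : (Cfsg.reflectionMatrix ⇑Q v).det ≠ 0 := by
      rw [CfsgLib.ClassGeo.reflection_det Q v hv]; simp
    refine ⟨⟨Matrix.GeneralLinearGroup.mkOfDetNeZero _ hdet, ?_⟩, ?_⟩
    · intro x y
      exact CfsgLib.ClassGeo.reflection_preserves Q v hv x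
    · exact CfsgLib.ClassGeo.reflection_det Q v hv

end Cfsg.Agent.S0785
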