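import Mathlib
import Cfsg.Agent.Lib.ClassGeo.OMat
import Cfsg.Statements.S0786
-- import your own Cfsg.Agent.* helpers here

set_option autoImplicit false
open Cfsg

namespace Cfsg.Agent.S0786

/-- Generation by reflections: if F is finite, Q is a quadratic form on F^n with non-degenerate polar form, and (|F|, n) ≠ (2, 4), then the isometry group of Q is generated by the reflections r_v, Q(v) ≠ 0. -/
theorem result {F : Type*} [Field F] [Fintype F] {n : ℕ} (Q : QuadraticForm F (Fin n → F)) (hQ : (QuadraticMap.polarBilin Q).Nondegenerate) (h : Fintype.card F ≠ 2 ∨ n ≠ 4) : Subgroup.closure {g : ↥(Cfsg.isometryGroup F ⇑Q) | ∃ v : Fin n → F, Q v ≠ 0 ∧ ((g : Matrix.GeneralLinearGroup (Fin n) F) : Matrix (Fin n) (Fin n) F) = Cfsg.reflectionMatrix ⇑Q v} = ⊤ := by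
  classical
  apply CfsgLib.ClassGeo.Orth.eq_top_of_map
  refine CfsgLib.ClassGeo.Orth.isom_le_of_refl hQ ?_ _ ?_
  · rcases h with h | h
    · left
      have h1 : 2 ≤ Fintype.card F := Fintype.one_lt_card
      rw [Nat.card_eq_fintype_card]
      omega
    · right
      simpa using h
  · intro t ht
    obtain ⟨g, hg⟩ := CfsgLib.ClassGeo.Orth.exists_of_isom (CfsgLib.ClassGeo.Orth.rT_mem (Q := Q) t)
    refine ⟨g, Subgroup.subset_closure ⟨t, ht, ?_⟩, hg⟩
    rw [CfsgLib.ClassGeo.Orth.mat_eq_iff]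
    intro v
    rw [hg, CfsgLib.ClassGeo.Orth.rT_eq_reflection ht]

end Cfsg.Agent.S0786
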