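import Mathlib
import Cfsg.Agent.Lib.ClassGeo.OMat
import Cfsg.Statements.S0792
-- import your own Cfsg.Agent.* helpers here

set_option autoImplicit false
open Cfsg

namespace Cfsg.Agent.S0792

/-- For q odd and Q with non-degenerate polar form on F^n, the determinant-one isometries form the subgroup generated by all products r_u r_v of two reflections (Q(u), Q(v) ≠ 0). -/
theorem result {F : Type*} [Field F] [Fintype F] (h2 : (2 : F) ≠ 0) {n : ℕ} (Q : QuadraticForm F (Fin n → F)) (hQ : (QuadraticMap.polarBilin Q).Nondegenerate) : Cfsg.specialIsometryGroup F ⇑Q = Subgroup.closure {g : ↥(Cfsg.isometryGroup F ⇑Q) | ∃ u v : Fin n → F, Q u ≠ 0 ∧ Q v ≠ 0 ∧ ((g : Matrix.GeneralLinearGroup (Fin n) F) : Matrix (Fin n) (Fin n) F) = Cfsg.reflectionMatrix ⇑Q u * Cfsg.reflectionMatrix ⇑Q v} := by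
  classical
  open CfsgLib.ClassGeo.Orth in
  let S : Set ↥(Cfsg.isometryGroup F ⇑Q) := {g | ∃ u v : Fin n → F, Q u ≠ 0 ∧ Q v ≠ 0 ∧ ((g : Matrix.GeneralLinearGroup (Fin n) F) : Matrix (Fin n) (Fin n) F) = Cfsg.reflectionMatrix ⇑Q u * Cfsg.reflectionMatrix ⇑Q v}
  have hSdet : ∀ g ∈ S, ((g : Matrix.GeneralLinearGroup (Fin n) F) : Matrix (Fin n) (Fin n) F).det = 1 := by
    rintro g ⟨u, v, hu, hv, h⟩
    rw [h, Matrix.det_mul, CfsgLib.ClassGeo.reflection_det Q u hu, CfsgLib.ClassGeo.reflection_det Q v hv]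
    ring
  have hdet : ∀ g : ↥(Cfsg.isometryGroup F ⇑Q), g ∈ Cfsg.specialIsometryGroup F ⇑Q ↔ ((g : Matrix.GeneralLinearGroup (Fin n) F) : Matrix (Fin n) (Fin n) F).det = 1 := by
    intro g
    rw [Cfsg.specialIsometryGroup, MonoidHom.mem_ker]
    constructor
    · intro h
      have := congrArg Units.val h
      exact this
    · intro h
      apply Units.ext
      exact h
  have hle : Subgroup.closure S ≤ Cfsg.specialIsometryGroup F ⇑Q := by
    rw [Subgroup.closure_le]
    intro g hg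
    exact (hdet g).mpr (hSdet g hg)
  refine le_antisymm ?_ hle
  intro g hg
  -- reflections as elements
  have hrefl : ∀ t, Q t ≠ 0 → ∃ r : ↥(Cfsg.isometryGroup F ⇑Q), phi Q r = rT Q t ∧ ((r : Matrix.GeneralLinearGroup (Fin n) F) : Matrix (Fin n) (Fin n) F) = Cfsg.reflectionMatrix ⇑Q t := by
    intro t ht
    obtain ⟨r, hr⟩ := exists_of_isom (rT_mem (Q := Q) t)
    refine ⟨r, hr, ?_⟩
    rw [phi_mat_eq]
    intro v
    change (isoEquiv Q r : (Fin n → F) ≃ₗ[F] (Fin n → F)) v = _
    rw [hr, rT_eq_reflection ht]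
  let L := (Subgroup.closure S).map (phi Q)
  have hpair : ∀ s t, Q s ≠ 0 → Q t ≠ 0 → rT Q s * rT Q t ∈ L := by
    intro s t hs ht
    obtain ⟨r₁, h1, h1'⟩ := hrefl s hs
    obtain ⟨r₂, h2', h2''⟩ := hrefl t ht
    refine ⟨r₁ * r₂, Subgroup.subset_closure ⟨s, t, hs, ht, ?_⟩, ?_⟩
    · change ((r₁ : Matrix.GeneralLinearGroup (Fin n) F) : Matrix (Fin n) (Fin n) F) * ((r₂ : Matrix.GeneralLinearGroup (Fin n) F) : Matrix (Fin n) (Fin n) F) = _
      rw [h1', h2'']
    · rw [map_mul, h1, h2']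
  have hq3 : 3 ≤ Nat.card F := by
    by_contra hc
    have h1 : 2 ≤ Fintype.card F := Fintype.one_lt_card
    rw [Nat.card_eq_fintype_card] at hc
    have h3 : Fintype.card F = 2 := by omega
    have hc2 : ringChar F = 2 := by
      have := FiniteField.even_card_iff_char_two (F := F)
      rw [h3] at this
      exact this.mpr rfl
    apply h2
    have := CharP.cast_eq_zero F (ringChar F)
    rw [hc2] at this
    exact_mod_cast this
  have hO := isom_le_of_refl hQ (Or.inl hq3) (Subgroup.closure {p | ∃ t, Q t ≠ 0 ∧ p = rT Q t}) (fun t ht => Subgroup.subset_closure ⟨t, ht, rfl⟩)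
  have hmain : ∀ p ∈ Subgroup.closure {p | ∃ t, Q t ≠ 0 ∧ p = rT Q t}, p ∈ L ∨ ∃ t, Q t ≠ 0 ∧ rT Q t * p ∈ L := by
    intro p hp
    induction hp using Subgroup.closure_induction_left with
    | one => exact Or.inl L.one_mem
    | mul_left x hx y _ hy =>
      obtain ⟨s, hs, rfl⟩ := hx
      rcases hy with hy | ⟨t, ht, hy⟩
      · right
        refine ⟨s, hs, ?_⟩
        rw [← mul_assoc, rT_mul_self hs, one_mul]
        exact hy
      · left
        have e : rT Q s * y = (rT Q s * rT Q t) * (rT Q t * y) := by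
          rw [mul_assoc, ← mul_assoc (rT Q t), rT_mul_self ht, one_mul]
        rw [e]
        exact L.mul_mem (hpair s t hs ht) hy
    | inv_mul_cancel x hx y _ hy =>
      obtain ⟨s, hs, rfl⟩ := hx
      rw [rT_inv hs]
      rcases hy with hy | ⟨t, ht, hy⟩
      · right
        refine ⟨s, hs, ?_⟩
        rw [← mul_assoc, rT_mul_self hs, one_mul]
        exact hy
      · left
        have e : rT Q s * y = (rT Q s * rT Q t) * (rT Q t * y) := by
          rw [mul_assoc, ← mul_assoc (rT Q t), rT_mul_self ht, one_mul]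
        rw [e]
        exact L.mul_mem (hpair s t hs ht) hy
  have hphi : phi Q g ∈ CfsgLib.ClassGeo.quadIsomGroup Q := (isoEquiv Q g).2
  have hgdet := (hdet g).mp hg
  rcases hmain _ (hO hphi) with h1 | ⟨t, ht, h1⟩
  · obtain ⟨k, hk, hkg⟩ := h1
    have : k = g := phi_injective (Q := Q) hkg
    rw [← this]
    exact hk
  · exfalso
    obtain ⟨k, hk, hkg⟩ := h1
    obtain ⟨r, hr, hr'⟩ := hrefl t ht
    have e : k = r * g := by
      apply phi_injective (Q := Q)
      rw [hkg, map_mul, hr]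
    have hkdet := (hdet k).mp (hle hk)
    rw [e] at hkdet
    change (((r : Matrix.GeneralLinearGroup (Fin n) F) : Matrix (Fin n) (Fin n) F) * ((g : Matrix.GeneralLinearGroup (Fin n) F) : Matrix (Fin n) (Fin n) F)).det = 1 at hkdet
    rw [Matrix.det_mul, hgdet, hr', CfsgLib.ClassGeo.reflection_det Q t ht, mul_one] at hkdet
    apply h2
    linear_combination -hkdet

end Cfsg.Agent.S0792
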