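import Mathlib
import Cfsg.Agent.Lib.ClassGeo.OMat
import Cfsg.Statements.S0795
-- import your own Cfsg.Agent.* helpers here

set_option autoImplicit false
open Cfsg

namespace Cfsg.Agent.S0795

/-- Generation of Ω by root elements: for q odd, n ≥ 5 and Q with non-degenerate polar form on F^n, the commutator subgroup of the isometry group equals the subgroup generated by the isometries whose matrices are Siegel transformations T_(u,v)(c) with u, v singular and orthogonal. -/
theorem result {F : Type*} [Field F] [Fintype F] (h2 : (2 : F) ≠ 0) {n : ℕ} (hn : 5 ≤ n) (Q : QuadraticForm F (Fin n → F)) (hQ : (QuadraticMap.polarBilin Q).Nondegenerate) : Cfsg.Omega F ⇑Q = Subgroup.closure {g : ↥(Cfsg.isometryGroup F ⇑Q) | ∃ (u v : Fin n → F) (c : F), Q u = 0 ∧ Q v = 0 ∧ QuadraticMap.polar ⇑Q u v = 0 ∧ ((g : Matrix.GeneralLinearGroup (Fin n) F) : Matrix (Fin n) (Fin n) F) = Cfsg.siegelMatrix ⇑Q u v c} := by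
  classical
  open CfsgLib.ClassGeo.Orth in
  apply Subgroup.map_injective (phi_injective (Q := Q))
  have hfr : 5 ≤ Module.finrank F (Fin n → F) := by simpa using hn
  rw [Cfsg.Omega, map_phi_commutator, comm_eq_rootG hQ hfr, MonoidHom.map_closure]
  apply le_antisymm
  · rw [rootG, Subgroup.closure_le]
    rintro _ ⟨u, z, hu, hz, huz, rfl⟩
    have hp := sE_mem (Q := Q) u z
    obtain ⟨g, hg⟩ := exists_of_isom hp
    refine Subgroup.subset_closure ⟨g, ⟨u, z, -1, hu, hz, huz, ?_⟩, hg⟩
    rw [phi_mat_eq]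
    intro v
    rw [← sE_eq_siegel hu hz huz (-1) v]
    simp only [neg_neg, one_smul]
    rw [← hg]
    rfl
  · rw [Subgroup.closure_le]
    rintro _ ⟨g, ⟨u, v, c, hu, hv, huv, hg⟩, rfl⟩
    have e1 : phi Q g = sE Q u ((-c) • v) := by
      ext x
      have := (phi_mat_eq g _).mp hg x
      rw [this, sE_eq_siegel hu hv huv c x]
    rw [e1]
    refine Subgroup.subset_closure ⟨u, (-c) • v, hu, ?_, ?_, rfl⟩
    · rw [q_smul, hv, mul_zero]
    · rw [QuadraticMap.polar_smul_right, huv]; simp

end Cfsg.Agent.S0795
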