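import Mathlib
import Cfsg.Statements.S0796
-- import your own Cfsg.Agent.* helpers here

set_option autoImplicit false
open Cfsg

namespace Cfsg.Agent.S0796

/-- If G is finite and acts faithfully and primitively on X, H is the stabiliser of a point, A is a normal subgroup of H whose normal closure in G is G, then for every non-trivial normal subgroup K of G the quotient G ⧸ K is isomorphic to A ⧸ B for some normal subgroup B of A. -/
theorem result {G X : Type*} [Group G] [Finite G] [MulAction G X] [FaithfulSMul G X] (hprim : MulAction.IsPreprimitive G X) (x : X) (A : Subgroup G) (hA : A ≤ MulAction.stabilizer G x) (hAn : (A.subgroupOf (MulAction.stabilizer G x)).Normal) (hgen : Subgroup.normalClosure (A : Set G) = ⊤) (K : Subgroup G) [K.Normal] (hK : K ≠ ⊥) : ∃ (B : Subgroup A) (_ : B.Normal), Nonempty (G ⧸ K ≃* A ⧸ B) := by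
  classical
  have hfix : MulAction.fixedPoints K X ≠ Set.univ := by
    intro h
    apply hK
    rw [eq_bot_iff]
    intro k hk
    rw [Subgroup.mem_bot]
    apply FaithfulSMul.eq_of_smul_eq_smul (α := X)
    intro y
    rw [one_smul]
    exact Set.eq_univ_iff_forall.mp h y ⟨k, hk⟩
  have hq : MulAction.IsQuasiPreprimitive G X := inferInstance
  have htr : MulAction.IsPretransitive K X := hq.isPretransitive_of_normal hfix
  have hdecomp : ∀ g : G, ∃ k ∈ K, ∃ h ∈ MulAction.stabilizer G x, g = k * h := by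
    intro g
    obtain ⟨k, hk⟩ := MulAction.exists_smul_eq K x (g • x)
    refine ⟨k, k.2, (k : G)⁻¹ * g, ?_, by group⟩
    rw [MulAction.mem_stabilizer_iff, mul_smul, ← hk, Subgroup.smul_def, inv_smul_smul]
  have hAconj : ∀ h ∈ MulAction.stabilizer G x, ∀ a ∈ A, h * a * h⁻¹ ∈ A := by
    intro h hh a ha
    have h1 := hAn.conj_mem ⟨a, hA ha⟩ (by
      rw [Subgroup.mem_subgroupOf]; exact ha) ⟨h, hh⟩
    rw [Subgroup.mem_subgroupOf] at h1
    simpa using h1
  have hMn : (A ⊔ K).Normal := by
    constructor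
    intro n hn g
    obtain ⟨k, hk, h, hh, rfl⟩ := hdecomp g
    obtain ⟨a, ha, k', hk', rfl⟩ := Subgroup.mem_sup_of_normal_right.mp hn
    have e : k * h * (a * k') * (k * h)⁻¹ = k * (h * a * h⁻¹) * (h * k' * h⁻¹) * k⁻¹ := by group
    rw [e]
    have hkM : k ∈ A ⊔ K := Subgroup.mem_sup_right hk
    refine mul_mem (mul_mem (mul_mem hkM (Subgroup.mem_sup_left (hAconj h hh a ha))) ?_) (inv_mem hkM)
    exact Subgroup.mem_sup_right (‹K.Normal›.conj_mem k' hk' h)
  have hM : A ⊔ K = ⊤ := by
    rw [eq_top_iff, ← hgen]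
    exact Subgroup.normalClosure_le_normal (fun a ha => Subgroup.mem_sup_left ha)
  let f : A →* G ⧸ K := (QuotientGroup.mk' K).comp A.subtype
  have hf : Function.Surjective f := by
    intro y
    obtain ⟨g, rfl⟩ := QuotientGroup.mk'_surjective K y
    have hg : g ∈ A ⊔ K := by rw [hM]; trivial
    obtain ⟨a, ha, k', hk', rfl⟩ := Subgroup.mem_sup_of_normal_right.mp hg
    refine ⟨⟨a, ha⟩, ?_⟩
    change (QuotientGroup.mk a : G ⧸ K) = QuotientGroup.mk (a * k')
    rw [QuotientGroup.eq]
    simpa using hk'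
  exact ⟨f.ker, inferInstance, ⟨(QuotientGroup.quotientKerEquivOfSurjective f hf).symm⟩⟩

end Cfsg.Agent.S0796
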