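import Mathlib
import Cfsg.Agent.Lib.Dickson.Main
import Cfsg.Statements.S0799
-- import your own Cfsg.Agent.* helpers here

set_option autoImplicit false
open Cfsg

namespace Cfsg.Agent.S0799

/-- Dickson's classification of the subgroups of PSL_2(q), q a power of the prime p, d = gcd(2, q − 1): every subgroup H is (a) cyclic or dihedral with k dividing (q+1)/d or (q−1)/d (cyclic of order k, or dihedral of order 2k), (b) isomorphic to a subgroup of the normaliser of a Sylow p-subgroup, (c) isomorphic to A_4, S_4 or A_5, or (d) isomorphic to PSL_2(K) or PGL_2(K) for a finite field K with |K|^m = q. -/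
theorem result {F : Type*} [Field F] [Fintype F] {q : ℕ} (hF : Fintype.card F = q) (p : ℕ) [Fact p.Prime] [CharP F p] (H : Subgroup (Matrix.ProjectiveSpecialLinearGroup (Fin 2) F)) : (∃ k : ℕ, (k ∣ (q + 1) / Nat.gcd 2 (q - 1) ∨ k ∣ (q - 1) / Nat.gcd 2 (q - 1)) ∧ ((IsCyclic H ∧ Nat.card H = k) ∨ Nonempty (H ≃* DihedralGroup k))) ∨ (∃ (P : Sylow p (Matrix.ProjectiveSpecialLinearGroup (Fin 2) F)) (K : Subgroup (Matrix.ProjectiveSpecialLinearGroup (Fin 2) F)), K ≤ Subgroup.normalizer ((P : Subgroup (Matrix.ProjectiveSpecialLinearGroup (Fin 2) F)) : Set (Matrix.ProjectiveSpecialLinearGroup (Fin 2) F)) ∧ Nonempty (H ≃* K)) ∨ Nonempty (H ≃* alternatingGroup (Fin 4)) ∨ Nonempty (H ≃* Equiv.Perm (Fin 4)) ∨ Nonempty (H ≃* alternatingGroup (Fin 5)) ∨ (∃ (K : Type) (_ : Field K) (_ : Fintype K) (m : ℕ), Fintype.card K ^ m = q ∧ (Nonempty (H ≃* Matrix.ProjectiveSpecialLinearGroup (Fin 2) K) ∨ Nonempty (H ≃*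 Matrix.ProjGenLinGroup (Fin 2) K))) := by
  classical
  haveI : Finite (CfsgLib.Dickson.PSL2 F) := inferInstance
  have hdvd : ∀ ρ : CfsgLib.Dickson.PSL2 F, (ρ = 1 ∨ ρ ^ p ≠ 1) → (orderOf ρ ∣ (q + 1) / Nat.gcd 2 (q - 1) ∨ orderOf ρ ∣ (q - 1) / Nat.gcd 2 (q - 1)) := by
    intro ρ h
    by_cases h1 : ρ = 1
    · left
      rw [h1, orderOf_one]
      exact one_dvd _
    · have h2 := h.resolve_left h1
      exact (CfsgLib.Dickson.order_dvd hF p ρ h1 h2).symm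
  rcases CfsgLib.Dickson.dickson p H with ⟨ρ, hρ, h1, h2⟩ | ⟨ρ, hρ, h1, h2, -, -, -, ⟨e⟩⟩ | ⟨x, ⟨g, hg, hg1, hg2⟩, hfix⟩ | ⟨-, e⟩ | ⟨-, e⟩ | ⟨-, e⟩ | ⟨K, τ, hτ, t, hK3, hmem, hK⟩
  · left
    refine ⟨orderOf ρ, hdvd ρ h1, Or.inl ⟨?_, ?_⟩⟩
    · rw [h2]
      infer_instance
    · rw [h2, Nat.card_zpowers]
  · left
    exact ⟨orderOf ρ, hdvd ρ (Or.inr h2), Or.inr ⟨e.symm⟩⟩
  · right; left
    have h₀ := CfsgLib.Dickson.isD_F (F := F) p
    have hQ : CfsgLib.Dickson.Qs h₀ x ≠ ⊥ := by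
      intro e
      have : g ∈ CfsgLib.Dickson.Qs h₀ x := ⟨hfix g hg, hg2⟩
      rw [e, Subgroup.mem_bot] at this
      exact hg1 this
    refine ⟨h₀.sylowQ x hQ, H, ?_, ⟨MulEquiv.refl _⟩⟩
    intro a ha
    rw [Subgroup.mem_normalizer_iff]
    intro n
    have h3 := h₀.mem_Qs_smul a n x
    rw [hfix a ha] at h3
    exact h3.symm
  · exact Or.inr (Or.inr (Or.inl e))
  · exact Or.inr (Or.inr (Or.inr (Or.inl e)))
  · exact Or.inr (Or.inr (Or.inr (Or.inr (Or.inl e))))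
  · right; right; right; right; right
    obtain ⟨m, hm⟩ := CfsgLib.Dickson.exists_degree K
    obtain ⟨K₀, i1, i2, hcard, ⟨eK⟩⟩ := CfsgLib.Dickson.exists_type0 K
    refine ⟨K₀, i1, i2, m, ?_, ?_⟩
    · rw [hcard, hm, hF]
    · rcases hK with e | e
      · left
        obtain ⟨e2⟩ := CfsgLib.Dickson.psl_equiv eK
        exact ⟨e.some.trans e2⟩
      · right
        obtain ⟨e2⟩ := CfsgLib.Dickson.pgl_equiv eK
        exact ⟨e.some.trans e2⟩

end Cfsg.Agent.S0799
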