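import Mathlib
import Cfsg.Agent.Lib.ClassGeo.SL2Poly
import Cfsg.Statements.S0800
-- import your own Cfsg.Agent.* helpers here

set_option autoImplicit false
open Cfsg

namespace Cfsg.Agent.S0800

/-- Tori of SL_2(q): if g ∈ SL_2(q) has order coprime to the characteristic p, then the order of g divides q − 1 or q + 1. -/
theorem result {F : Type*} [Field F] [Fintype F] {q : ℕ} (hF : Fintype.card F = q) (p : ℕ) [Fact p.Prime] [CharP F p] (g : Matrix.SpecialLinearGroup (Fin 2) F) (hg : Nat.Coprime (orderOf g) p) : orderOf g ∣ q - 1 ∨ orderOf g ∣ q + 1 := by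
  classical
  subst hF
  rcases CfsgLib.ClassGeo.sl2_cases p g with h | h | h
  · left; exact orderOf_dvd_of_pow_eq_one h
  · right; exact orderOf_dvd_of_pow_eq_one h
  · left
    have h1 : orderOf g ∣ 2 * p := orderOf_dvd_of_pow_eq_one h
    have h2 : orderOf g ∣ 2 := hg.dvd_of_dvd_mul_right h1
    by_cases hp : p = 2
    · subst hp
      have h3 : orderOf g ∣ 1 := by
        have := Nat.Coprime.eq_one_of_dvd hg h2
        rw [this]
      exact h3.trans (one_dvd _)
    · refine h2.trans ?_
      have hodd : Odd (Fintype.card F) := by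
        apply Nat.odd_iff.mpr
        apply FiniteField.odd_card_of_char_ne_two
        rw [ringChar.eq F p]
        exact hp
      obtain ⟨k, hk⟩ := hodd
      rw [hk]
      simp

end Cfsg.Agent.S0800
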