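import Mathlib
import Cfsg.Agent.Lib.Dickson.Triple
import Cfsg.Statements.S0802
-- import your own Cfsg.Agent.* helpers here

set_option autoImplicit false
open Cfsg

namespace Cfsg.Agent.S0802

/-- PSL_2(p^n) has a subgroup isomorphic to A_4 if and only if it is not the case that p = 2 and n is odd. -/
theorem result {F : Type*} [Field F] [Fintype F] (p n : ℕ) [Fact p.Prime] [CharP F p] (hF : Fintype.card F = p ^ n) : (∃ H : Subgroup (Matrix.ProjectiveSpecialLinearGroup (Fin 2) F), Nonempty (H ≃* alternatingGroup (Fin 4))) ↔ ¬ (p = 2 ∧ Odd n) := by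
  classical
  have hq2 := CfsgLib.Dickson.two_le_q hF
  have hG := CfsgLib.Dickson.card_PSL2 hF
  have hpp : p.Prime := Fact.out
  haveI : Finite (CfsgLib.Dickson.PSL2 F) := inferInstance
  have hn0 : n ≠ 0 := by
    rintro rfl
    simp at hF
    have := Fintype.one_lt_card (α := F)
    omega
  constructor
  · rintro ⟨H, ⟨e⟩⟩ ⟨rfl, hn⟩
    obtain ⟨k, rfl⟩ := hn
    have hq3 : Fintype.card F % 3 = 2 := by
      rw [hF, pow_succ, pow_mul, Nat.mul_mod, Nat.pow_mod]
      simp
    have hq2' : Fintype.card F % 2 = 0 := by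
      rw [hF, pow_succ]
      omega
    set q := Fintype.card F with hq
    have hgcd : Nat.gcd 2 (q - 1) = 1 := by
      have : Nat.Coprime 2 (q - 1) := by
        rw [Nat.coprime_two_left, Nat.odd_iff]
        omega
      exact this
    have hc : Nat.card H = 12 := by
      rw [Nat.card_congr e.toEquiv]
      exact CfsgLib.Dickson.card_A4'
    rcases CfsgLib.Dickson.dickson 2 H with ⟨ρ, hρ, h1, h2⟩ | ⟨ρ, hρ, h1, h2, -, -, hc2, -⟩ | ⟨x, ⟨g, hg, hg1, hg2⟩, hfix⟩ | ⟨h0, -⟩ | ⟨-, e'⟩ | ⟨h0, e'⟩ | ⟨K, τ, hτ, t, hK3, hmem, hK⟩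
    · exact CfsgLib.Dickson.not_zpowers_of_equiv H e CfsgLib.Present.xA4 CfsgLib.Present.yA4 (by decide +kernel) ρ h2
    · have h6 : orderOf ρ = 6 := by
        rw [hc] at hc2
        omega
      have := CfsgLib.Dickson.order_dvd rfl 2 ρ h1 h2
      rw [h6, ← hq, hgcd, Nat.div_one, Nat.div_one] at this
      omega
    · have hrat : CfsgLib.Dickson.IsRat x := CfsgLib.Dickson.rat_fix 2 g hg1 hg2 x (hfix g hg)
      have h3 := CfsgLib.Dickson.card_stab_rat (F := F) rfl hrat
      rw [← hq, hgcd, mul_one] at h3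
      have h4 : H ≤ MulAction.stabilizer (CfsgLib.Dickson.PSL2 F) x := fun a ha => hfix a ha
      have h5 := Subgroup.card_dvd_of_le h4
      rw [hc, h3] at h5
      have h6 : 3 ∣ q * (q - 1) := Dvd.dvd.trans (by norm_num) h5
      rcases (Nat.Prime.dvd_mul (by norm_num)).1 h6 with h7 | h7 <;> omega
    · have hx : CfsgLib.Present.xA4 ^ 2 = 1 := by decide +kernel
      have hx1 : CfsgLib.Present.xA4 ≠ 1 := by decide +kernel
      apply h0 ((e.symm CfsgLib.Present.xA4 : H) : CfsgLib.Dickson.PSL2 F) (e.symm _).2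
      · intro h
        apply hx1
        have : e.symm CfsgLib.Present.xA4 = 1 := Subtype.ext h
        simpa using this
      · have : (e.symm CfsgLib.Present.xA4) ^ 2 = 1 := by
          rw [← map_pow, hx, map_one]
        simpa using congrArg Subtype.val this
    · rw [Nat.card_congr e'.some.toEquiv, CfsgLib.Dickson.card_S4'] at hc
      omega
    · rw [Nat.card_congr e'.some.toEquiv, CfsgLib.Dickson.card_A5'] at hc
      omega
    · obtain ⟨m, hm⟩ := CfsgLib.Dickson.exists_degree K
      set a := Nat.card K with ha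
      have hae : a % 2 = 0 := by
        by_contra hodd
        have h7 : Odd a := Nat.odd_iff.2 (by omega)
        have h8 : Odd (a ^ m) := h7.pow
        rw [hm, ← hq] at h8
        have := Nat.odd_iff.1 h8
        omega
      have hg1 : Nat.gcd 2 (a - 1) = 1 := by
        have : Nat.Coprime 2 (a - 1) := by
          rw [Nat.coprime_two_left, Nat.odd_iff]
          omega
        exact this
      have h9 : 12 = (a + 1) * (a * (a - 1)) := by
        rcases CfsgLib.Dickson.card_subfield_cases H K hK with h | h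
        · rw [hc, ← ha, hg1, mul_one] at h
          exact h
        · rw [hc] at h
          exact h
      have h10 : 4 ≤ a := by omega
      have h11 : 5 * (4 * 3) ≤ (a + 1) * (a * (a - 1)) := Nat.mul_le_mul (by omega) (Nat.mul_le_mul h10 (by omega))
      omega
  · intro hnot
    suffices hφ : ∃ φ : alternatingGroup (Fin 4) →* CfsgLib.Dickson.PSL2 F, Function.Injective φ by
      obtain ⟨φ, hφ⟩ := hφ
      exact ⟨φ.range, ⟨(MonoidHom.ofInjective hφ).symm⟩⟩
    by_cases hp2 : p = 2
    · subst hp2
      have hev : Even n := by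
        by_contra h
        exact hnot ⟨rfl, Nat.not_even_iff_odd.1 h⟩
      obtain ⟨k, rfl⟩ := hev
      have h2 : (2 : F) = 0 := by
        have := CharP.cast_eq_zero F 2
        exact_mod_cast this
      have h3 : 3 ∣ Fintype.card F - 1 := by
        rw [hF]
        have h4 : 2 ^ (k + k) = 4 ^ k := by
          rw [← two_mul, pow_mul]
          norm_num
        rw [h4]
        have h5 : 4 ^ k % 3 = 1 := by
          rw [Nat.pow_mod]
          simp
        omega
      obtain ⟨ω, hω⟩ := CfsgLib.Dickson.exists_omega (F := F) h3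
      exact CfsgLib.Dickson.exists_A4_even h2 ω hω
    · have hodd : Odd p := hpp.odd_of_ne_two hp2
      have hq : Fintype.card F % 2 = 1 := by
        rw [hF]
        exact Nat.odd_iff.1 (hodd.pow)
      have h2 : (2 : F) ≠ 0 := by
        intro e
        have h3 : p ∣ 2 := (CharP.cast_eq_zero_iff F p 2).1 (by exact_mod_cast e)
        exact hp2 ((Nat.prime_dvd_prime_iff_eq hpp (by norm_num)).1 h3)
      exact CfsgLib.Dickson.exists_A4_odd hq h2

end Cfsg.Agent.S0802
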