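import Mathlib
import Cfsg.Agent.Lib.Dickson.Triple
import Cfsg.Statements.S0803
-- import your own Cfsg.Agent.* helpers here

set_option autoImplicit false
open Cfsg

namespace Cfsg.Agent.S0803

/-- PSL_2(q) has a subgroup isomorphic to S_4 iff q² ≡ 1 (mod 16). -/
theorem result {F : Type*} [Field F] [Fintype F] {q : ℕ} (hF : Fintype.card F = q) : (∃ H : Subgroup (Matrix.ProjectiveSpecialLinearGroup (Fin 2) F), Nonempty (H ≃* Equiv.Perm (Fin 4))) ↔ q ^ 2 % 16 = 1 := by
  classical
  have hq2 := CfsgLib.Dickson.two_le_q hF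
  have hG := CfsgLib.Dickson.card_PSL2 hF
  obtain ⟨p, hp⟩ := CharP.exists F
  obtain ⟨n, hpp, hn⟩ := FiniteField.card F p
  rw [hF] at hn
  haveI : Fact p.Prime := ⟨hpp⟩
  have hodd2 : q % 2 = 1 → (2 : F) ≠ 0 := by
    intro hodd e
    have h3 : p ∣ 2 := by
      have := (CharP.cast_eq_zero_iff F p 2).1 (by exact_mod_cast e)
      exact this
    have h4 : p = 2 := (Nat.prime_dvd_prime_iff_eq hpp (by norm_num)).1 h3
    subst h4
    have h5 : 2 ∣ q := by
      rw [hn]
      exact dvd_pow_self _ n.ne_zero
    omega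
  constructor
  · rintro ⟨H, ⟨e⟩⟩
    by_cases hodd : q % 2 = 1
    · have h1 : Nat.card H = 24 := by
        rw [Nat.card_congr e.toEquiv]
        exact CfsgLib.Dickson.card_S4'
      have h2 : 24 ∣ Nat.card (CfsgLib.Dickson.PSL2 F) := by
        rw [← h1]
        exact Subgroup.card_subgroup_dvd_card H
      have hgcd : Nat.gcd 2 (q - 1) = 2 := Nat.gcd_eq_left (by omega)
      rw [hgcd] at hG
      have h3 : 16 ∣ (q + 1) * (q * (q - 1)) := by
        rw [← hG]
        have : 8 ∣ Nat.card (CfsgLib.Dickson.PSL2 F) := Dvd.dvd.trans (by norm_num) h2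
        obtain ⟨c, hc⟩ := this
        exact ⟨c, by rw [hc]; ring⟩
      have h4 : (q + 1) * (q * (q - 1)) = q * ((q + 1) * (q - 1)) := by ring
      rw [h4] at h3
      have hco : Nat.Coprime 16 q := by
        have : Nat.Coprime (2 ^ 4) q := Nat.Coprime.pow_left 4 (by rw [Nat.coprime_two_left, Nat.odd_iff]; exact hodd)
        simpa using this
      have h5 := hco.dvd_of_dvd_mul_left h3
      obtain ⟨r, hr⟩ : ∃ r, q = r + 1 := ⟨q - 1, by omega⟩
      subst hr
      simp only [Nat.add_sub_cancel] at h5
      have h6 : (r + 1) ^ 2 = (r + 1 + 1) * r + 1 := by ring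
      rw [h6]
      omega
    · exfalso
      have hp2 : p = 2 := by
        have h3 : 2 ∣ p ^ (n : ℕ) := by
          rw [← hn]
          omega
        have h4 := hpp.eq_one_or_self_of_dvd 2 ((Nat.prime_two).dvd_of_dvd_pow h3)
        omega
      subst hp2
      let a : Equiv.Perm (Fin 4) := CfsgLib.Present.xS4 * CfsgLib.Present.yS4
      have ha2 : a ^ 2 ≠ 1 := by decide +kernel
      have ha4 : a ^ 4 = 1 := by decide +kernel
      let g : H := e.symm a
      have hg4 : g ^ 4 = 1 := by
        show (e.symm a) ^ 4 = 1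
        rw [← map_pow, ha4, map_one]
      have hg2 : g ^ 2 ≠ 1 := by
        intro h
        apply ha2
        have : e (g ^ 2) = 1 := by rw [h, map_one]
        rw [map_pow] at this
        simpa [g] using this
      have hgo : orderOf (g : CfsgLib.Dickson.PSL2 F) = 4 := by
        rw [Subgroup.orderOf_coe]
        exact orderOf_eq_prime_pow (p := 2) (n := 1) (by simpa using hg2) (by simpa using hg4)
      have h3 : (g : CfsgLib.Dickson.PSL2 F) ≠ 1 := by
        intro h
        apply hg2
        have : g = 1 := Subtype.ext h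
        rw [this, one_pow]
      have h4 : (g : CfsgLib.Dickson.PSL2 F) ^ 2 ≠ 1 := by
        intro h
        apply hg2
        apply Subtype.ext
        simpa using h
      have hgcd : Nat.gcd 2 (q - 1) = 1 := by
        have : Nat.Coprime 2 (q - 1) := by
          rw [Nat.coprime_two_left, Nat.odd_iff]
          omega
        exact this
      have := CfsgLib.Dickson.order_dvd hF 2 (g : CfsgLib.Dickson.PSL2 F) h3 h4
      rw [hgo, hgcd, Nat.div_one, Nat.div_one] at this
      omega
  · intro h16
    have hodd : q % 2 = 1 := by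
      by_contra hh
      have h1 : q % 2 = 0 := by omega
      obtain ⟨r, rfl⟩ := Nat.dvd_of_mod_eq_zero h1
      have : (2 * r) ^ 2 = 4 * r ^ 2 := by ring
      rw [this] at h16
      omega
    have h8 : q % 8 = 1 ∨ q % 8 = 7 := by
      have h9 : q % 16 < 16 := Nat.mod_lt _ (by norm_num)
      have h10 : (q % 16) ^ 2 % 16 = 1 := by
        rw [← Nat.pow_mod]
        exact h16
      have h11 : q % 8 = q % 16 % 8 := by omega
      have h12 : (q % 16) % 2 = 1 := by omega
      rw [h11]
      generalize q % 16 = r at h9 h10 h12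
      interval_cases r <;> simp_all
    have h2 := hodd2 hodd
    have hsq : IsSquare (2 : F) := by
      rw [FiniteField.isSquare_two_iff, hF]
      omega
    obtain ⟨s, hs⟩ := hsq
    obtain ⟨φ, hφ⟩ := CfsgLib.Dickson.exists_S4_odd (F := F) (by rw [hF]; exact hodd) h2 s (by rw [hs]; ring)
    exact ⟨φ.range, ⟨(MonoidHom.ofInjective hφ).symm⟩⟩

end Cfsg.Agent.S0803
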