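import Mathlib
import Cfsg.Agent.Lib.Dickson.Triple
import Cfsg.Statements.S0804
-- import your own Cfsg.Agent.* helpers here

set_option autoImplicit false
open Cfsg

namespace Cfsg.Agent.S0804

theorem two_pow_mod15 (n : ℕ) : 2 ^ n % 15 = 1 ∨ 2 ^ n % 15 = 2 ∨ 2 ^ n % 15 = 4 ∨ 2 ^ n % 15 = 8 := by
  induction n with
  | zero => simp
  | succ n ih =>
    rw [pow_succ]
    omega

/-- PSL_2(q) has a subgroup isomorphic to A_5 iff 5 ∣ q(q² − 1). -/
theorem result {F : Type*} [Field F] [Fintype F] {q : ℕ} (hF : Fintype.card F = q) : (∃ H : Subgroup (Matrix.ProjectiveSpecialLinearGroup (Fin 2) F), Nonempty (H ≃* alternatingGroup (Fin 5))) ↔ 5 ∣ q * (q ^ 2 - 1) := by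
  classical
  have hq2 := CfsgLib.Dickson.two_le_q hF
  have hG := CfsgLib.Dickson.card_PSL2 hF
  constructor
  · rintro ⟨H, ⟨e⟩⟩
    have h1 : Nat.card H = 60 := by
      rw [Nat.card_congr e.toEquiv]
      exact CfsgLib.Dickson.card_A5'
    have h2 : 60 ∣ Nat.card (CfsgLib.Dickson.PSL2 F) := by
      rw [← h1]
      exact Subgroup.card_subgroup_dvd_card H
    have h3 : 5 ∣ (q + 1) * (q * (q - 1)) := by
      rw [← hG]
      exact Dvd.dvd.mul_right (Dvd.dvd.trans (by norm_num) h2) _
    have h4 : q * (q ^ 2 - 1) = (q + 1) * (q * (q - 1)) := by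
      obtain ⟨r, rfl⟩ : ∃ r, q = r + 1 := ⟨q - 1, by omega⟩
      have : (r + 1) ^ 2 - 1 = r * (r + 2) := by
        have : (r + 1) ^ 2 = r * (r + 2) + 1 := by ring
        omega
      simp only [Nat.add_sub_cancel, this]
      ring
    rw [h4]
    exact h3
  · intro h5
    obtain ⟨p, hp⟩ := CharP.exists F
    obtain ⟨n, hpp, hn⟩ := FiniteField.card F p
    rw [hF] at hn
    haveI : Fact p.Prime := ⟨hpp⟩
    suffices hφ : ∃ φ : alternatingGroup (Fin 5) →* CfsgLib.Dickson.PSL2 F, Function.Injective φ by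
      obtain ⟨φ, hφ⟩ := hφ
      exact ⟨φ.range, ⟨(MonoidHom.ofInjective hφ).symm⟩⟩
    by_cases hodd : q % 2 = 1
    · have h2 : (2 : F) ≠ 0 := by
        intro e
        have h3 : p ∣ 2 := by
          have := (CharP.cast_eq_zero_iff F p 2).1 (by exact_mod_cast e)
          exact this
        have h4 : p = 2 := (Nat.prime_dvd_prime_iff_eq hpp (by norm_num)).1 h3
        subst h4
        have h5 : 2 ∣ q := by
          rw [hn]
          exact dvd_pow_self _ n.ne_zero
        omega
      obtain ⟨τ, hτ⟩ := CfsgLib.Dickson.exists_golden_odd (F := F) (by rwa [hF]) h2 (by rwa [hF])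
      exact CfsgLib.Dickson.exists_A5_odd (by rwa [hF]) h2 τ hτ
    · have hp2 : p = 2 := by
        have h3 : 2 ∣ p ^ (n : ℕ) := by
          rw [← hn]
          omega
        have h4 := hpp.eq_one_or_self_of_dvd 2 ((Nat.prime_two).dvd_of_dvd_pow h3)
        omega
      subst hp2
      have h2 : (2 : F) = 0 := by
        have := CharP.cast_eq_zero F 2
        exact_mod_cast this
      have h15 := two_pow_mod15 n
      rw [← hn] at h15
      have h6 : 3 ∣ Fintype.card F - 1 := by
        rw [hF]
        have h7 : 5 ∣ q ^ 2 - 1 := by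
          have h8 : 5 ∣ q ∨ 5 ∣ q ^ 2 - 1 := (Nat.Prime.dvd_mul (by norm_num)).1 h5
          rcases h8 with h8 | h8
          · omega
          · exact h8
        rcases h15 with h | h | h | h
        · omega
        · exfalso
          have : q ^ 2 % 5 = 4 := by
            rw [Nat.pow_mod, (show q % 5 = 2 by omega)]
          have h1 : 1 ≤ q ^ 2 := Nat.one_le_pow _ _ (by omega)
          omega
        · omega
        · exfalso
          have : q ^ 2 % 5 = 4 := by
            rw [Nat.pow_mod, (show q % 5 = 3 by omega)]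
          have h1 : 1 ≤ q ^ 2 := Nat.one_le_pow _ _ (by omega)
          omega
      obtain ⟨ω, hω⟩ := CfsgLib.Dickson.exists_omega (F := F) h6
      exact CfsgLib.Dickson.exists_A5_even h2 ω hω

end Cfsg.Agent.S0804
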