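import Mathlib
import Cfsg.Agent.Lib.Dickson.SubMax
import Cfsg.Statements.S0805
-- import your own Cfsg.Agent.* helpers here

set_option autoImplicit false
open Cfsg

namespace Cfsg.Agent.S0805

/-- Subfield subgroups: let F be a finite field of odd order q and K a finite field with |K|^m = q, m ≥ 1. Then PSL_2(F) has a subgroup isomorphic to PSL_2(K), and has a subgroup isomorphic to PGL_2(K) if and only if m is even. -/
theorem result {F K : Type*} [Field F] [Fintype F] [Field K] [Fintype K] {q : ℕ} (hF : Fintype.card F = q) (hodd : Odd q) (m : ℕ) (hm : 1 ≤ m) (hK : Fintype.card K ^ m = q) : (∃ H : Subgroup (Matrix.ProjectiveSpecialLinearGroup (Fin 2) F), Nonempty (H ≃* Matrix.ProjectiveSpecialLinearGroup (Fin 2) K)) ∧ ((∃ H : Subgroup (Matrix.ProjectiveSpecialLinearGroup (Fin 2) F), Nonempty (H ≃* Matrix.ProjGenLinGroup (Fin 2) K)) ↔ Even m) := by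
  classical
  obtain ⟨p, hp⟩ := CharP.exists F
  obtain ⟨n, hpp, hn⟩ := FiniteField.card F p
  haveI : Fact p.Prime := ⟨hpp⟩
  have hq1 := Nat.odd_iff.1 hodd
  have hG := CfsgLib.Dickson.card_PSL2 hF
  obtain ⟨K₀, hK₀, ⟨eK⟩⟩ := CfsgLib.Dickson.exists_subfield_iso (F := F) K m (by
    rw [Nat.card_eq_fintype_card, Nat.card_eq_fintype_card, hK, hF])
  replace hK₀ : Nat.card K₀ = Fintype.card K := by rw [hK₀, Nat.card_eq_fintype_card]
  set a := Fintype.card K with ha
  have ha2 : 2 ≤ a := Fintype.one_lt_card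
  have haodd : a % 2 = 1 := by
    rcases Nat.mod_two_eq_zero_or_one a with h | h
    · exfalso
      have h1 : 2 ∣ a ^ m := Dvd.dvd.trans (Nat.dvd_of_mod_eq_zero h) (dvd_pow_self _ (by omega))
      rw [hK] at h1
      omega
    · exact h
  have ha3 : 3 ≤ a := by omega
  have h2 : (2 : F) ≠ 0 := by
    intro e
    have h3 : p ∣ 2 := (CharP.cast_eq_zero_iff F p 2).1 (by exact_mod_cast e)
    have h4 : p = 2 := (Nat.prime_dvd_prime_iff_eq hpp (by norm_num)).1 h3
    subst h4
    have h5 : 2 ∣ Fintype.card F := by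
      rw [hn]
      exact dvd_pow_self _ n.ne_zero
    rw [hF] at h5
    omega
  refine ⟨?_, ?_, ?_⟩
  · obtain ⟨e2⟩ := CfsgLib.Dickson.psl_equiv eK.symm
    exact ⟨_, ⟨(MonoidHom.ofInjective (CfsgLib.Dickson.thetaP_inj K₀ 1 one_ne_zero)).symm.trans e2⟩⟩
  · rintro ⟨H, ⟨e⟩⟩
    by_contra hne
    have hmodd : m % 2 = 1 := by
      rcases Nat.mod_two_eq_zero_or_one m with h | h
      · exact absurd (Nat.even_iff.2 h) hne
      · exact h
    have hnum := CfsgLib.Dickson.card_dvd_num hF H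
    have hc : Nat.card H = (a + 1) * (a * (a - 1)) := by
      rw [Nat.card_congr e.toEquiv, CfsgLib.Dickson.card_PGL2_nat, Nat.card_eq_fintype_card]
    rw [hc, CfsgLib.Dickson.gcd_two_of_odd q hq1, ← hK] at hnum
    exact CfsgLib.Dickson.pgl_parity a m haodd ha3 hmodd hnum
  · intro hev
    obtain ⟨k, rfl⟩ := hev
    have hF' : Fintype.card F = a ^ (2 * k) := by
      rw [hF, ← hK, two_mul]
    obtain ⟨J, hJe, -⟩ := CfsgLib.Dickson.exists_pgl_sub K₀ (CfsgLib.Dickson.squares_of_even K₀ a k hK₀ haodd hF' h2)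
    obtain ⟨e2⟩ := CfsgLib.Dickson.pgl_equiv eK.symm
    exact ⟨J, ⟨hJe.some.trans e2⟩⟩

end Cfsg.Agent.S0805
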