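import Mathlib
import Cfsg.Agent.Lib.ClassGeo.SL2Inv
import Cfsg.Statements.S0809
-- import your own Cfsg.Agent.* helpers here

set_option autoImplicit false
open Cfsg

namespace Cfsg.Agent.S0809

/-- In SL_2(q), q odd: any two subgroups of order 4 are conjugate, and the normaliser of a subgroup of order 4 has order 2(q − 1) if q ≡ 1 (mod 4) and 2(q + 1) if q ≡ 3 (mod 4); consequently all involutions of PSL_2(q) are conjugate. -/
theorem result {F : Type*} [Field F] [Fintype F] {q : ℕ} (hF : Fintype.card F = q) (hodd : Odd q) (A : Subgroup (Matrix.SpecialLinearGroup (Fin 2) F)) (hA : Nat.card A = 4) : (∀ B : Subgroup (Matrix.SpecialLinearGroup (Fin 2) F), Nat.card B = 4 → ∃ g : Matrix.SpecialLinearGroup (Fin 2) F, B = A.map (MulAut.conj g).toMonoidHom) ∧ (q % 4 = 1 → Nat.card ↥(Subgroup.normalizer (A : Set (Matrix.SpecialLinearGroup (Fin 2) F))) = 2 * (q - 1)) ∧ (q % 4 = 3 → Nat.card ↥(Subgroup.normalizer (A : Set (Matrix.SpecialLinearGroup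 (Fin 2) F))) = 2 * (q + 1)) ∧ (∀ x y : Matrix.ProjectiveSpecialLinearGroup (Fin 2) F, orderOf x = 2 → orderOf y = 2 → IsConj x y) := by
  classical
  subst hF
  open CfsgLib.ClassGeo.SL2Inv CfsgLib.H9.SL2Cl CfsgLib.H9.Torus CfsgLib.H9.PSL2 in
  have h2 : (2 : F) ≠ 0 := two_ne hodd
  open CfsgLib.ClassGeo.SL2Inv CfsgLib.H9.SL2Cl CfsgLib.H9.Torus CfsgLib.H9.PSL2 in
  obtain ⟨x, hx, rfl⟩ := exists_gen h2 A hA
  open CfsgLib.ClassGeo.SL2Inv CfsgLib.H9.SL2Cl CfsgLib.H9.Torus CfsgLib.H9.PSL2 in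
  refine ⟨?_, ?_, ?_, ?_⟩
  · intro B hB
    obtain ⟨y, hy, rfl⟩ := exists_gen h2 B hB
    obtain ⟨g, hg⟩ := isConj_iff.1 (conj_tr0 h2 hx hy)
    refine ⟨g, ?_⟩
    rw [MonoidHom.map_zpowers]
    simp only [MulEquiv.coe_toMonoidHom, MulAut.conj_apply, hg]
  · intro h
    rw [normalizer_zp h2 hx, card_hat hodd hx, (card_cent_tr0 hodd hx).1 h]
  · intro h
    rw [normalizer_zp h2 hx, card_hat hodd hx, (card_cent_tr0 hodd hx).2 h]
  · intro s t hs ht
    have key : ∀ u : Matrix.ProjectiveSpecialLinearGroup (Fin 2) F, orderOf u = 2 → u * u = 1 ∧ u ≠ 1 := by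
      intro u hu
      constructor
      · rw [← pow_two]
        have := pow_orderOf_eq_one u
        rwa [hu] at this
      · rintro rfl
        simp at hu
    exact isConj_invol h2 (key s hs).1 (key s hs).2 (key t ht).1 (key t ht).2

end Cfsg.Agent.S0809
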