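import Mathlib
import Cfsg.Agent.Lib.Dickson.MinSimple
import Cfsg.Agent.S0804
import Cfsg.Statements.S0810
-- import your own Cfsg.Agent.* helpers here

set_option autoImplicit false
open Cfsg

namespace Cfsg.Agent.S0810

theorem two_pow_mod5 (r : ℕ) (hr : r % 2 = 1) : 2 ^ r % 5 = 2 ∨ 2 ^ r % 5 = 3 := by
  have key : ∀ k, 2 ^ (2 * k + 1) % 5 = 2 ∨ 2 ^ (2 * k + 1) % 5 = 3 := by
    intro k
    induction k with
    | zero => simp
    | succ k ih =>
      have : 2 ^ (2 * (k + 1) + 1) = 2 ^ (2 * k + 1) * 4 := by ring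
      rw [this]
      omega
  have h1 := key (r / 2)
  rwa [show 2 * (r / 2) + 1 = r by omega] at h1

/-- A number not divisible by `5` in `q (q² - 1)`. -/
theorem not_five (q : ℕ) (hq1 : 1 ≤ q) (h : q % 5 = 2 ∨ q % 5 = 3) : ¬ 5 ∣ q * (q ^ 2 - 1) := by
  intro h5
  rcases (Nat.Prime.dvd_mul (by norm_num)).1 h5 with h6 | h6
  · omega
  · have h7 : 1 ≤ q ^ 2 := Nat.one_le_pow _ _ hq1
    have h8 : q ^ 2 % 5 = 4 := by
      rw [Nat.pow_mod]
      rcases h with h | h <;> rw [h]
    omega

/-- Divisors of a prime power, degree version. -/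
theorem pow_eq_prime_pow {a m r s : ℕ} (hr : r.Prime) (hs : s.Prime) (ha3 : 3 ≤ a) (h : a ^ m = r ^ s) : a = r ^ s ∨ a = r := by
  have hm0 : m ≠ 0 := by
    rintro rfl
    have : 1 < r ^ s := Nat.one_lt_pow hs.ne_zero hr.one_lt
    simp at h
    omega
  have hdv : a ∣ r ^ s := by
    rw [← h]
    exact dvd_pow_self _ hm0
  obtain ⟨j, hj, rfl⟩ := (Nat.dvd_prime_pow hr).1 hdv
  rw [← pow_mul] at h
  have h1 : j * m = s := Nat.pow_right_injective hr.two_le h
  rcases (Nat.dvd_prime hs).1 (Dvd.intro _ h1) with h2 | h2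
  · right
    rw [h2, pow_one]
  · left
    rw [h2]

/-- PSL_2(q) is minimal simple iff q is 2^r (r prime), 3^r (r an odd prime), a prime greater than 5 congruent to 2 or 3 mod 5, or 5. -/
theorem result {F : Type*} [Field F] [Fintype F] {q : ℕ} (hF : Fintype.card F = q) : Cfsg.IsMinimalSimple (Matrix.ProjectiveSpecialLinearGroup (Fin 2) F) ↔ ((∃ r : ℕ, r.Prime ∧ q = 2 ^ r) ∨ (∃ r : ℕ, r.Prime ∧ r ≠ 2 ∧ q = 3 ^ r) ∨ (q.Prime ∧ 5 < q ∧ (q % 5 = 2 ∨ q % 5 = 3)) ∨ q = 5) := by
  classical
  obtain ⟨p, hc⟩ := CharP.exists F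
  obtain ⟨n, hpp, hn⟩ := FiniteField.card F p
  haveI : Fact p.Prime := ⟨hpp⟩
  rw [hF] at hn
  have hq2 := CfsgLib.Dickson.two_le_q hF
  have hG := CfsgLib.Dickson.card_PSL2 hF
  constructor
  · rintro ⟨hsimple, hncomm, hsol⟩
    -- small fields
    have hq4 : 4 ≤ q := by
      by_contra hlt
      have hq23 : q = 2 ∨ q = 3 := by omega
      apply hncomm
      have hs : Group.IsSolvable (CfsgLib.Dickson.PSL2 F) := by
        rcases hq23 with rfl | rfl
        · rw [CfsgLib.Dickson.gcd_two_of_even 2 (by norm_num) (by norm_num)] at hG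
          exact CfsgLib.Char.solvable_of_card_eq Nat.prime_two Nat.prime_three 6 _ (by omega) ⟨1, 1, by norm_num⟩
        · rw [CfsgLib.Dickson.gcd_two_of_odd 3 (by norm_num)] at hG
          exact CfsgLib.Dickson.solvable_12 (by omega)
      exact ⟨⟨IsSimpleGroup.comm_iff_isSolvable.2 hs⟩⟩
    -- no large proper subfields
    have hsub : ∀ j m : ℕ, j ≠ 0 → 4 ≤ p ^ j → m ≠ 1 → (p ^ j) ^ m = q → False := by
      intro j m hj h2 hm1 hpow
      haveI : Fintype (GaloisField p j) := Fintype.ofFinite _
      have hcard : Nat.card (GaloisField p j) = p ^ j := GaloisField.card p j hj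
      obtain ⟨K₀, hK₀, ⟨eK⟩⟩ := CfsgLib.Dickson.exists_subfield_iso (F := F) (GaloisField p j) m (by
        rw [hcard, hpow, Nat.card_eq_fintype_card, hF])
      rw [hcard] at hK₀
      have hm2 : 2 ≤ m := by
        rcases m with _ | _ | m
        · simp at hpow
          omega
        · omega
        · omega
      refine CfsgLib.Dickson.subfield_obstruction hF hsol K₀ (p ^ j) m hK₀ h2 hpow ?_
      rw [← hpow]
      calc p ^ j = (p ^ j) ^ 1 := (pow_one _).symm
        _ < (p ^ j) ^ m := Nat.pow_lt_pow_right (by omega) (by omega)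
    -- the group `A₅`
    have hA5 : 5 ∣ q * (q ^ 2 - 1) → q = 4 ∨ q = 5 := by
      intro h5
      obtain ⟨H, ⟨e⟩⟩ := (Cfsg.Agent.S0804.result hF).2 h5
      have hH : H = ⊤ := by
        by_contra hne
        have := hsol H hne
        exact CfsgLib.Dickson.A5_not_solvable (solvable_of_solvable_injective (f := e.symm.toMonoidHom) e.symm.injective)
      have hc60 : Nat.card H = 60 := by
        rw [Nat.card_congr e.toEquiv]
        exact CfsgLib.Dickson.card_A5'
      rw [hH, Subgroup.card_top] at hc60
      rw [hc60] at hG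
      by_contra hne
      push Not at hne
      have hq6 : 6 ≤ q := by omega
      have h7 : 7 * (6 * 5) ≤ (q + 1) * (q * (q - 1)) := Nat.mul_le_mul (by omega) (Nat.mul_le_mul hq6 (by omega))
      have h8 := CfsgLib.Dickson.gcd_two_le (q - 1)
      omega
    have hprimeN : (p = 2 ∨ p = 3) → (n : ℕ).Prime := by
      intro hp23
      by_contra hnp
      have hn1 : (n : ℕ) ≠ 1 := by
        intro h1
        rw [h1, pow_one] at hn
        rcases hp23 with rfl | rfl <;> omega
      obtain ⟨b, ⟨c, hc'⟩, hb1, hb2⟩ := Nat.exists_dvd_of_not_prime (by have := n.pos; omega) hnp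
      have hb0 : b ≠ 0 := by
        rintro rfl
        have := n.pos
        simp at hc'
      have hc0 : c ≠ 0 := by
        rintro rfl
        have := n.pos
        simp at hc'
      have hc1 : c ≠ 1 := by
        rintro rfl
        omega
      refine hsub b c hb0 ?_ hc1 (by rw [← pow_mul, ← hc', hn])
      have hb2' : 2 ≤ b := by omega
      calc 4 = 2 ^ 2 := by norm_num
        _ ≤ p ^ 2 := Nat.pow_le_pow_left hpp.two_le 2
        _ ≤ p ^ b := Nat.pow_le_pow_right hpp.pos hb2'
    by_cases hp2 : p = 2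
    · subst hp2
      exact Or.inl ⟨n, hprimeN (Or.inl rfl), hn⟩
    by_cases hp3 : p = 3
    · subst hp3
      have hnp := hprimeN (Or.inr rfl)
      refine Or.inr (Or.inl ⟨n, hnp, ?_, hn⟩)
      intro h2
      rw [h2] at hn
      subst hn
      have := hA5 (by norm_num)
      omega
    · have hp5 : 5 ≤ p := by
        have := hpp.two_le
        have h4 : p ≠ 4 := by
          rintro rfl
          revert hpp
          decide
        omega
      have hn1 : (n : ℕ) = 1 := by
        by_contra hne
        exact hsub 1 n one_ne_zero (by rw [pow_one]; omega) hne (by rw [pow_one]; exact hn.symm)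
      rw [hn1, pow_one] at hn
      subst hn
      by_cases h5 : q = 5
      · exact Or.inr (Or.inr (Or.inr h5))
      · refine Or.inr (Or.inr (Or.inl ⟨hpp, ?_, ?_⟩))
        · omega
        · by_contra hmod
          have h6 : q % 5 = 0 ∨ q % 5 = 1 ∨ q % 5 = 4 := by omega
          rcases h6 with h6 | h6
          · have := (Nat.prime_dvd_prime_iff_eq (by norm_num) hpp).1 (Nat.dvd_of_mod_eq_zero h6)
            omega
          · have h7 : 5 ∣ q * (q ^ 2 - 1) := by
              apply Dvd.dvd.mul_left
              have h8 : 1 ≤ q ^ 2 := Nat.one_le_pow _ _ hpp.pos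
              have h9 : q ^ 2 % 5 = 1 := by
                rw [Nat.pow_mod]
                rcases h6 with h6 | h6 <;> rw [h6]
              omega
            have := hA5 h7
            omega
  · intro hcases
    rcases hcases with ⟨r, hr, rfl⟩ | ⟨r, hr, hr2, rfl⟩ | ⟨hqp, h5, h25⟩ | rfl
    · refine CfsgLib.Dickson.minimal_of p hF ?_ ?_ ?_
      · calc 4 = 2 ^ 2 := by norm_num
          _ ≤ 2 ^ r := Nat.pow_le_pow_right (by norm_num) hr.two_le
      · intro h5
        by_cases hr2 : r = 2
        · left
          rw [hr2]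
          norm_num
        · exfalso
          have hodd : r % 2 = 1 := by
            rcases Nat.mod_two_eq_zero_or_one r with h | h
            · have := hr.eq_one_or_self_of_dvd 2 (Nat.dvd_of_mod_eq_zero h)
              omega
            · exact h
          exact not_five _ (Nat.one_le_pow _ _ (by norm_num)) (two_pow_mod5 r hodd) h5
      · intro a m ha3 h
        rcases pow_eq_prime_pow Nat.prime_two hr ha3 h with h1 | h1
        · exact Or.inl h1
        · omega
    · refine CfsgLib.Dickson.minimal_of p hF ?_ ?_ ?_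
      · calc 4 ≤ 3 ^ 2 := by norm_num
          _ ≤ 3 ^ r := Nat.pow_le_pow_right (by norm_num) hr.two_le
      · intro h5
        exfalso
        have hodd : r % 2 = 1 := by
          rcases Nat.mod_two_eq_zero_or_one r with h | h
          · have := hr.eq_one_or_self_of_dvd 2 (Nat.dvd_of_mod_eq_zero h)
            omega
          · exact h
        exact not_five _ (Nat.one_le_pow _ _ (by norm_num)) (CfsgLib.Dickson.three_pow_mod5 r hodd) h5
      · intro a m ha3 h
        exact pow_eq_prime_pow Nat.prime_three hr ha3 h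
    · refine CfsgLib.Dickson.minimal_of p hF (by omega) ?_ ?_
      · intro h
        exact absurd h (not_five q (by omega) h25)
      · intro a m ha3 h
        exact Or.inl ((Nat.Prime.pow_eq_iff hqp).1 h).1
    · refine CfsgLib.Dickson.minimal_of p hF (by norm_num) (fun _ => Or.inr rfl) ?_
      intro a m ha3 h
      exact Or.inl ((Nat.Prime.pow_eq_iff (by norm_num)).1 h).1

end Cfsg.Agent.S0810
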