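import Mathlib
import Cfsg.Agent.Lib.Dickson.PairMax
import Cfsg.Statements.S0811
-- import your own Cfsg.Agent.* helpers here

set_option autoImplicit false
open Cfsg

namespace Cfsg.Agent.S0811

/-- For q ∉ {2, 7, 9}, PSL_2(q) has a maximal subgroup isomorphic to the dihedral group of order 2(q + 1)/d, d = gcd(2, q − 1). -/
theorem result {F : Type*} [Field F] [Fintype F] {q : ℕ} (hF : Fintype.card F = q) (hq : q ∉ ({2, 7, 9} : Finset ℕ)) : ∃ H : Subgroup (Matrix.ProjectiveSpecialLinearGroup (Fin 2) F), IsCoatom H ∧ Nonempty (H ≃* DihedralGroup ((q + 1) / Nat.gcd 2 (q - 1))) := by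
  classical
  obtain ⟨p, hc⟩ := CharP.exists F
  obtain ⟨n, hpp, hn⟩ := FiniteField.card F p
  haveI : Fact p.Prime := ⟨hpp⟩
  simp only [Finset.mem_insert, Finset.mem_singleton, not_or] at hq
  obtain ⟨h2, h7, h9⟩ := hq
  have hq2 := CfsgLib.Dickson.two_le_q hF
  obtain ⟨x, y, g, hxy, hx, hg, hgx, hgy⟩ := CfsgLib.Dickson.exists_nonsplit hF p
  obtain ⟨ρ, w, hρ, hw1, hw2, hk⟩ := CfsgLib.Dickson.torus_data hF p hxy g hg hgx hgy
  have hk' : orderOf ρ * Nat.gcd 2 (q - 1) = q + 1 := by
    rcases hk with ⟨-, h⟩ | ⟨h, -⟩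
    · exact absurd h hx
    · exact h
  have hdv : (q + 1) / Nat.gcd 2 (q - 1) = orderOf ρ := by
    rw [← hk']
    exact Nat.mul_div_cancel _ (CfsgLib.Dickson.gcd_two_pos _)
  obtain ⟨hDc, ⟨hDe⟩⟩ := CfsgLib.Dickson.pair_main hxy w hw1 hw2 ρ hρ
  refine ⟨CfsgLib.Dickson.pairStab x y, ?_, ?_⟩
  · by_cases h3 : q = 3
    · subst h3
      rw [CfsgLib.Dickson.gcd_two_of_odd 3 (by norm_num)] at hk'
      have hk2 : orderOf ρ = 2 := by omega
      rw [hk2] at hDc
      have hG := CfsgLib.Dickson.card_PSL2 hF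
      rw [CfsgLib.Dickson.gcd_two_of_odd 3 (by norm_num)] at hG
      have hG' : Nat.card (CfsgLib.Dickson.PSL2 F) = 12 := by omega
      apply CfsgLib.Dickson.coatom_of
      · intro e
        rw [e, Subgroup.card_top, hG'] at hDc
        omega
      · intro H hle hH
        apply CfsgLib.Dickson.le_of_card _ _ hle
        have h4 : Nat.card (CfsgLib.Dickson.pairStab x y) ∣ Nat.card H := Subgroup.card_dvd_of_le hle
        have h5 : Nat.card H ∣ 12 := by
          rw [← hG']
          exact Subgroup.card_subgroup_dvd_card H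
        have h6 : Nat.card H ≠ 12 := by
          intro e
          apply hH
          apply Subgroup.eq_top_of_le_card
          rw [hG', e]
        rw [hDc] at h4 ⊢
        have h7 : Nat.card H ≤ 12 := Nat.le_of_dvd (by norm_num) h5
        have h8 : 0 < Nat.card H := Nat.card_pos
        interval_cases (Nat.card H) <;> omega
    · have hk3 : 3 ≤ orderOf ρ := by
        by_contra hlt
        push Not at hlt
        rcases Nat.mod_two_eq_zero_or_one q with h4 | h4
        · rw [CfsgLib.Dickson.gcd_two_of_even q h4 (by omega)] at hk'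
          omega
        · rw [CfsgLib.Dickson.gcd_two_of_odd q h4] at hk'
          omega
      refine CfsgLib.Dickson.pair_coatom hF p hxy ρ w hρ hw1 hw2 hk3 (Or.inr hk') h2 h7 h9 ?_
      intro h11 h5
      subst h11
      rw [h5, CfsgLib.Dickson.gcd_two_of_odd 11 (by norm_num)] at hk'
      omega
  · rw [hdv]
    exact ⟨hDe.symm⟩

end Cfsg.Agent.S0811
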