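import Mathlib
import Cfsg.Agent.Lib.Dickson.PairMax
import Cfsg.Statements.S0812
-- import your own Cfsg.Agent.* helpers here

set_option autoImplicit false
open Cfsg

namespace Cfsg.Agent.S0812

/-- For q ∉ {2, 3, 5, 7, 9, 11}, PSL_2(q) has a maximal subgroup isomorphic to the dihedral group of order 2(q − 1)/d, d = gcd(2, q − 1). -/
theorem result {F : Type*} [Field F] [Fintype F] {q : ℕ} (hF : Fintype.card F = q) (hq : q ∉ ({2, 3, 5, 7, 9, 11} : Finset ℕ)) : ∃ H : Subgroup (Matrix.ProjectiveSpecialLinearGroup (Fin 2) F), IsCoatom H ∧ Nonempty (H ≃* DihedralGroup ((q - 1) / Nat.gcd 2 (q - 1))) := by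
  classical
  obtain ⟨p, hc⟩ := CharP.exists F
  obtain ⟨n, hpp, hn⟩ := FiniteField.card F p
  haveI : Fact p.Prime := ⟨hpp⟩
  simp only [Finset.mem_insert, Finset.mem_singleton, not_or] at hq
  obtain ⟨h2, h3, h5, h7, h9, h11⟩ := hq
  have hq2 := CfsgLib.Dickson.two_le_q hF
  have hxy : CfsgLib.Dickson.ptI (CfsgLib.Dickson.AC F) ≠ CfsgLib.Dickson.pt0 F := CfsgLib.Dickson.pt0_ne.symm
  obtain ⟨⟨w, hw1, hw2⟩, h4⟩ := CfsgLib.Dickson.rat_pair_data hF CfsgLib.Dickson.isRat_ptI CfsgLib.Dickson.isRat_pt0 hxy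
  obtain ⟨ρ, hρ⟩ := CfsgLib.Dickson.ptStab_gen p hxy
  have hcρ : Nat.card (CfsgLib.Dickson.ptStab (CfsgLib.Dickson.ptI (CfsgLib.Dickson.AC F)) (CfsgLib.Dickson.pt0 F)) = orderOf ρ := by
    rw [← hρ, Nat.card_zpowers]
  rw [hcρ] at h4
  have hdv : (q - 1) / Nat.gcd 2 (q - 1) = orderOf ρ :=
    Nat.div_eq_of_eq_mul_left (CfsgLib.Dickson.gcd_two_pos _) h4.symm
  obtain ⟨hDc, ⟨hDe⟩⟩ := CfsgLib.Dickson.pair_main hxy w hw1 hw2 ρ hρ
  refine ⟨CfsgLib.Dickson.pairStab (CfsgLib.Dickson.ptI (CfsgLib.Dickson.AC F)) (CfsgLib.Dickson.pt0 F), ?_, ?_⟩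
  · have hk3 : 3 ≤ orderOf ρ := by
      by_contra hlt
      push Not at hlt
      rcases Nat.mod_two_eq_zero_or_one q with h6 | h6
      · rw [CfsgLib.Dickson.gcd_two_of_even q h6 (by omega)] at h4
        omega
      · rw [CfsgLib.Dickson.gcd_two_of_odd q h6] at h4
        omega
    exact CfsgLib.Dickson.pair_coatom hF p hxy ρ w hρ hw1 hw2 hk3 (Or.inl h4) h2 h7 h9 (fun h => absurd h h11)
  · rw [hdv]
    exact ⟨hDe.symm⟩

end Cfsg.Agent.S0812
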