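import Mathlib
import Cfsg.Agent.Lib.ClassGeo.F4b
import Cfsg.Statements.S0820
-- import your own Cfsg.Agent.* helpers here

set_option autoImplicit false
open Cfsg

namespace Cfsg.Agent.S0820

/-- Any two elements of order 2 of PSL_3(4) are conjugate. -/
theorem result {F : Type*} [Field F] [Fintype F] (hF : Fintype.card F = 4) (x y : Matrix.ProjectiveSpecialLinearGroup (Fin 3) F) (hx : orderOf x = 2) (hy : orderOf y = 2) : IsConj x y := by
  have key : ∀ u : Matrix.ProjectiveSpecialLinearGroup (Fin 3) F, orderOf u = 2 → u * u = 1 ∧ u ≠ 1 := by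
    intro u hu
    constructor
    · rw [← pow_two]
      have := pow_orderOf_eq_one u
      rwa [hu] at this
    · rintro rfl
      simp at hu
  exact CfsgLib.ClassGeo.F4.invol_conj hF x y (key x hx).1 (key x hx).2 (key y hy).1 (key y hy).2

end Cfsg.Agent.S0820
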