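import Mathlib
import Cfsg.Agent.Lib.ClassGeo.UTI
import Cfsg.Statements.S0830
-- import your own Cfsg.Agent.* helpers here

set_option autoImplicit false
open Cfsg

namespace Cfsg.Agent.S0830

/-- The unitary quadrangle of PSU_5(q): with |F| = q², the number of 2-dimensional subspaces of F^5 on which the Hermitian form vanishes is (q³ + 1)(q⁵ + 1). -/
theorem result {F : Type*} [Field F] [Fintype F] {q : ℕ} (hF : Fintype.card F = q ^ 2) : Nat.card {W : Submodule F (Fin 5 → F) // Module.finrank F W = 2 ∧ ∀ u ∈ W, ∀ v ∈ W, Cfsg.hermForm 5 F q u v = 0} = (q ^ 3 + 1) * (q ^ 5 + 1) := by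
  have hq2 := CfsgLib.ClassGeo.qfrob_two_le hF
  have a5 := CfsgLib.ClassGeo.herm_zero_closed hF 4
  have a3 := CfsgLib.ClassGeo.herm_zero_closed hF 2
  norm_num at a5 a3
  have hm := CfsgLib.ClassGeo.count_ti_planes hF 5 _ _ _ rfl a5 a3
  have hq : (2 : ℤ) ≤ q := by exact_mod_cast hq2
  have hne : ((q : ℤ) ^ 4 - 1) * ((q : ℤ) ^ 4 - (q : ℤ) ^ 2) ≠ 0 := by
    have h1 : (16 : ℤ) ≤ (q : ℤ) ^ 4 := by nlinarith [sq_nonneg ((q : ℤ) ^ 2 - 4), sq_nonneg ((q:ℤ) - 2)]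
    have h2 : (q : ℤ) ^ 4 = (q : ℤ) ^ 2 * (q : ℤ) ^ 2 := by ring
    have h3 : (4 : ℤ) ≤ (q : ℤ) ^ 2 := by nlinarith
    apply mul_ne_zero
    · intro h0; nlinarith
    · intro h0; nlinarith
  have e := mul_right_cancel₀ hne (hm.trans (by ring : _ = (((q : ℤ) ^ 3 + 1) * ((q : ℤ) ^ 5 + 1)) * (((q : ℤ) ^ 4 - 1) * ((q : ℤ) ^ 4 - (q : ℤ) ^ 2))))
  exact_mod_cast e

end Cfsg.Agent.S0830
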