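import Mathlib
import Cfsg.Agent.Lib.ClassGeo.OFam2
import Cfsg.Agent.Lib.ClassGeo.OStd
import Cfsg.Statements.S0831
-- import your own Cfsg.Agent.* helpers here

set_option autoImplicit false
open Cfsg

namespace Cfsg.Agent.S0831

/-- The two families of maximal totally singular subspaces of the hyperbolic quadric: for the form Σ x_i y_i on F^(2m), m ≥ 1, and m-dimensional subspaces U, W, X on which it vanishes, the parities of m − dim(U ∩ W), m − dim(W ∩ X) and m − dim(U ∩ X) sum to an even number (so 'even codimension of the intersection' is an equivalence relation), and there exist two such subspaces meeting in codimension 1 (so there are exactly two classes). -/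
theorem result {F : Type*} [Field F] (m : ℕ) (hm : 1 ≤ m) : (∀ U W X : Submodule F (Fin m ⊕ Fin m → F), (Module.finrank F U = m ∧ ∀ w ∈ U, Cfsg.quadFormPlus m F w = 0) → (Module.finrank F W = m ∧ ∀ w ∈ W, Cfsg.quadFormPlus m F w = 0) → (Module.finrank F X = m ∧ ∀ w ∈ X, Cfsg.quadFormPlus m F w = 0) → Even ((m - Module.finrank F ↥(U ⊓ W)) + (m - Module.finrank F ↥(W ⊓ X)) + (m - Module.finrank F ↥(U ⊓ X)))) ∧ ∃ U W : Submodule F (Fin m ⊕ Fin m → F), (Module.finrank F U = m ∧ ∀ w ∈ U, Cfsg.quadFormPlus m F w = 0) ∧ (Module.finrank F W = m ∧ ∀ w ∈ W, Cfsg.quadFormPlus m F w = 0) ∧ Module.finrank F ↥(U ⊓ W) + 1 = m := by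
  open CfsgLib.ClassGeo.Orth in
  have nd := quadFormPlus_nondeg (F := F) m
  have hnd := mkQ_nondeg nd
  have hfr : Module.finrank F (Fin m ⊕ Fin m → F) = 2 * m := by
    simp
    omega
  have hmax : ∀ U : Submodule F (Fin m ⊕ Fin m → F), (Module.finrank F U = m ∧ ∀ w ∈ U, Cfsg.quadFormPlus m F w = 0) → MaxTS (mkQ nd) U := by
    rintro U ⟨h1, h2⟩
    exact ⟨h2, by rw [h1, hfr]⟩
  constructor
  · intro U W X hU hW hX
    have := ts_parity hnd (hmax U hU) (hmax W hW) (hmax X hX)
    rwa [hU.1] at this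
  · let θ : (Fin m → F) →ₗ[F] (Fin m ⊕ Fin m → F) :=
      { toFun := fun f => Sum.elim f 0
        map_add' := by
          intro a b
          ext i
          cases i <;> simp
        map_smul' := by
          intro c a
          ext i
          cases i <;> simp }
    have hθ : Function.Injective θ := by
      intro a b h
      ext i
      exact congrFun h (Sum.inl i)
    have hU₀ : Module.finrank F (LinearMap.range θ) = m := by
      rw [LinearMap.finrank_range_of_inj hθ, Module.finrank_fin_fun]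
    have hU₀ts : ∀ w ∈ LinearMap.range θ, Cfsg.quadFormPlus m F w = 0 := by
      rintro _ ⟨f, rfl⟩
      simp [Cfsg.quadFormPlus, θ]
    obtain ⟨x, hx⟩ : ∃ x : Fin m ⊕ Fin m → F, x = Pi.single (Sum.inr ⟨0, hm⟩) 1 := ⟨_, rfl⟩
    have hxQ : Cfsg.quadFormPlus m F x = 0 := by
      simp [Cfsg.quadFormPlus, hx]
    have hxN : x ∉ LinearMap.range θ := by
      rintro ⟨f, hf⟩
      have := congrFun hf (Sum.inr ⟨0, hm⟩)
      simp [θ, hx] at this
    obtain ⟨W', hW', -, -, hd⟩ := exists_neighbor hnd (hmax _ ⟨hU₀, hU₀ts⟩) (x := x) hxQ hxN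
    refine ⟨LinearMap.range θ, W', ⟨hU₀, hU₀ts⟩, ⟨?_, hW'.ts⟩, ?_⟩
    · have h1 := hW'.dim
      omega
    · rw [hU₀] at hd
      exact hd

end Cfsg.Agent.S0831
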