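import Mathlib
import Cfsg.Agent.Lib.ClassGeo.OFam2
import Cfsg.Agent.Lib.ClassGeo.OStd
import Cfsg.Statements.S0832
-- import your own Cfsg.Agent.* helpers here

set_option autoImplicit false
open Cfsg

namespace Cfsg.Agent.S0832

/-- For the form Σ x_i y_i on F^(2m) over a finite field, m ≥ 1: an (m−1)-dimensional subspace on which the form vanishes is contained in exactly two m-dimensional subspaces on which it vanishes. -/
theorem result {F : Type*} [Field F] [Finite F] (m : ℕ) (hm : 1 ≤ m) (U : Submodule F (Fin m ⊕ Fin m → F)) (hU : Module.finrank F U + 1 = m ∧ ∀ u ∈ U, Cfsg.quadFormPlus m F u = 0) : Nat.card {W : Submodule F (Fin m ⊕ Fin m → F) // Module.finrank F W = m ∧ (∀ w ∈ W, Cfsg.quadFormPlus m F w = 0) ∧ U ≤ W} = 2 := by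
  open CfsgLib.ClassGeo.Orth in
  have nd := quadFormPlus_nondeg (F := F) m
  have hnd := mkQ_nondeg nd
  have hfr : Module.finrank F (Fin m ⊕ Fin m → F) = 2 * m := by
    simp
    omega
  have hmax : ∀ U : Submodule F (Fin m ⊕ Fin m → F), (Module.finrank F U = m ∧ ∀ w ∈ U, Cfsg.quadFormPlus m F w = 0) → MaxTS (mkQ nd) U := by
    rintro U ⟨h1, h2⟩
    exact ⟨h2, by rw [h1, hfr]⟩
  have hdimU : ∀ U : Submodule F (Fin m ⊕ Fin m → F), MaxTS (mkQ nd) U → Module.finrank F U = m := by
    intro U hU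
    have := hU.dim
    omega
  let θ : (Fin m → F) →ₗ[F] (Fin m ⊕ Fin m → F) :=
    { toFun := fun f => Sum.elim f 0
      map_add' := by
        intro a b
        ext i
        cases i <;> simp
      map_smul' := by
        intro c a
        ext i
        cases i <;> simp }
  have hθ : Function.Injective θ := by
    intro a b h
    ext i
    exact congrFun h (Sum.inl i)
  have hU₀ : Module.finrank F (LinearMap.range θ) = m := by
    rw [LinearMap.finrank_range_of_inj hθ, Module.finrank_fin_fun]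
  have hU₀ts : ∀ w ∈ LinearMap.range θ, Cfsg.quadFormPlus m F w = 0 := by
    rintro _ ⟨f, rfl⟩
    simp [Cfsg.quadFormPlus, θ]
  obtain ⟨A, B, hA, hB, hUA, hUB, hne, -⟩ := exists_cover_pair hnd (hmax _ ⟨hU₀, hU₀ts⟩) (D := U) hU.2 (by rw [hfr]; omega)
  rw [Nat.card_eq_two_iff]
  refine ⟨⟨A, hdimU A hA, hA.ts, hUA⟩, ⟨B, hdimU B hB, hB.ts, hUB⟩, fun h => hne (congrArg Subtype.val h), ?_⟩
  ext ⟨E, hE1, hE2, hE3⟩
  simp only [Set.mem_insert_iff, Set.mem_singleton_iff, Set.mem_univ, iff_true, Subtype.mk.injEq]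
  exact ts_two_cover hnd hA hB (hmax E ⟨hE1, hE2⟩) hUA hUB hE3 (by rw [hdimU A hA]; omega) hne

end Cfsg.Agent.S0832
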