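import Mathlib
import Cfsg.Agent.Lib.ClassGeo.DiscType
import Cfsg.Statements.S0833
-- import your own Cfsg.Agent.* helpers here

set_option autoImplicit false
open Cfsg

namespace Cfsg.Agent.S0833

open CfsgLib.ClassGeo in
theorem exists_lag {F V : Type*} [Field F] [AddCommGroup V] [Module F V] [FiniteDimensional F V]
    (B : LinearMap.BilinForm F V) (hN : B.Nondegenerate) (hA : B.IsAlt) (k : ℕ) (hV : Module.finrank F V = 2 * k) :
    ∃ L : Submodule F V, Module.finrank F L = k ∧ ∀ x ∈ L, ∀ y ∈ L, B x y = 0 := by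
  classical
  obtain ⟨m, P, hP⟩ := exists_symp_coords hA (fun u hu => hN.1 u hu)
  have hm : m = k := by
    have h1 := P.finrank_eq
    simp at h1
    omega
  subst hm
  let s : (Fin m → F) →ₗ[F] (Fin m ⊕ Fin m → F) :=
    { toFun := fun x => Sum.elim x 0
      map_add' := fun x y => by
        ext i
        cases i <;> simp
      map_smul' := fun a x => by
        ext i
        cases i <;> simp }
  have hs : Function.Injective s := by
    intro x y hxy
    ext i
    have := congrFun hxy (Sum.inl i)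
    simpa [s] using this
  let f : (Fin m → F) →ₗ[F] V := (P : (Fin m ⊕ Fin m → F) →ₗ[F] V) ∘ₗ s
  have hf : Function.Injective f := P.injective.comp hs
  refine ⟨LinearMap.range f, ?_, ?_⟩
  · rw [LinearMap.finrank_range_of_inj hf]
    simp
  · rintro _ ⟨x, rfl⟩ _ ⟨y, rfl⟩
    show B (P (s x)) (P (s y)) = 0
    rw [hP]
    unfold Cfsg.sympForm
    simp [s, dotProduct, Matrix.mulVec, Matrix.J, Matrix.fromBlocks]

theorem tens_ti {F U W : Type*} [Field F] [AddCommGroup U] [Module F U] [AddCommGroup W] [Module F W]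
    (B₁ : LinearMap.BilinForm F U) (B₂ : LinearMap.BilinForm F W) (L : Submodule F U)
    (hT : ∀ x ∈ L, ∀ y ∈ L, B₁ x y = 0) (x y : TensorProduct F L W) :
    (B₁.tmul B₂) (LinearMap.rTensor W L.subtype x) (LinearMap.rTensor W L.subtype y) = 0 := by
  induction x using TensorProduct.induction_on with
  | zero => simp
  | add x x' hx hx' => simp only [map_add, LinearMap.add_apply, hx, hx', add_zero]
  | tmul a b =>
    induction y using TensorProduct.induction_on with
    | zero => simp
    | add y y' hy hy' => simp only [map_add, hy, hy', add_zero]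
    | tmul c d =>
      simp only [LinearMap.rTensor_tmul, LinearMap.BilinForm.tensorDistrib_tmul, Submodule.subtype_apply, smul_eq_mul]
      rw [hT a a.2 c c.2]
      simp

theorem tens_ex {F U W : Type*} [Field F] [AddCommGroup U] [Module F U] [FiniteDimensional F U] [AddCommGroup W] [Module F W] [FiniteDimensional F W]
    (B₁ : LinearMap.BilinForm F U) (B₂ : LinearMap.BilinForm F W) (L : Submodule F U)
    (hT : ∀ x ∈ L, ∀ y ∈ L, B₁ x y = 0) :
    ∃ X : Submodule F (TensorProduct F U W), Module.finrank F X = Module.finrank F L * Module.finrank F W ∧ ∀ x ∈ X, ∀ y ∈ X, (B₁.tmul B₂) x y = 0 := by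
  have hinj : Function.Injective (LinearMap.rTensor W L.subtype) :=
    Module.Flat.rTensor_preserves_injective_linearMap L.subtype L.injective_subtype
  refine ⟨LinearMap.range (LinearMap.rTensor W L.subtype), ?_, ?_⟩
  · rw [LinearMap.finrank_range_of_inj hinj, Module.finrank_tensorProduct]
  · rintro _ ⟨x, rfl⟩ _ ⟨y, rfl⟩
    exact tens_ti B₁ B₂ L hT x y

/-- If B₁, B₂ are non-degenerate alternating forms on U (dim 2k) and W (dim 2l), then B₁ ⊗ B₂ on U ⊗ W is symmetric, non-degenerate, and vanishes identically on some subspace of dimension 2kl (half of dim U ⊗ W). -/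
theorem result {F U W : Type*} [Field F] [Fintype F] [AddCommGroup U] [Module F U] [FiniteDimensional F U] [AddCommGroup W] [Module F W] [FiniteDimensional F W] (B₁ : LinearMap.BilinForm F U) (B₂ : LinearMap.BilinForm F W) (h₁ : B₁.Nondegenerate) (h₂ : B₂.Nondegenerate) (hA₁ : B₁.IsAlt) (hA₂ : B₂.IsAlt) (k l : ℕ) (hU : Module.finrank F U = 2 * k) (hW : Module.finrank F W = 2 * l) : (B₁.tmul B₂).IsSymm ∧ (B₁.tmul B₂).Nondegenerate ∧ (∃ X : Submodule F (TensorProduct F U W), Module.finrank F X = 2 * k * l ∧ ∀ x ∈ X, ∀ y ∈ X, (B₁.tmul B₂) x y = 0) := by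
  classical
  have h1 := CfsgLib.ClassGeo.DiscType.tmul_symm_of_alt B₁ B₂ hA₁ hA₂
  have h2 := CfsgLib.ClassGeo.DiscType.tmul_nondeg B₁ B₂ h₁ h₂
  refine ⟨h1, h2, ?_⟩
  obtain ⟨L, hL, hT⟩ := exists_lag B₁ h₁ hA₁ k hU
  obtain ⟨X, hX, hT'⟩ := tens_ex B₁ B₂ L hT
  refine ⟨X, ?_, hT'⟩
  rw [hX, hL, hW]
  ring

end Cfsg.Agent.S0833
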