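import Mathlib
import Cfsg.Agent.Lib.ClassGeo.DiscType
import Cfsg.Statements.S0835
-- import your own Cfsg.Agent.* helpers here

set_option autoImplicit false
open Cfsg

namespace Cfsg.Agent.S0835

/-- Over a finite field with 2 ≠ 0: if B₁ on U (dim 2k, k ≥ 1) is non-degenerate symmetric of minus type (no totally isotropic k-subspace) and B₂ on W (dim 2l + 1) is non-degenerate symmetric, then B₁ ⊗ B₂ (dimension 2k(2l+1)) admits no totally isotropic subspace of dimension k(2l+1) (minus type). -/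
theorem result {F U W : Type*} [Field F] [Fintype F] [AddCommGroup U] [Module F U] [FiniteDimensional F U] [AddCommGroup W] [Module F W] [FiniteDimensional F W] (h2 : (2 : F) ≠ 0) (B₁ : LinearMap.BilinForm F U) (B₂ : LinearMap.BilinForm F W) (h₁ : B₁.Nondegenerate) (h₂ : B₂.Nondegenerate) (hS₁ : B₁.IsSymm) (hS₂ : B₂.IsSymm) (k l : ℕ) (hk : 1 ≤ k) (hU : Module.finrank F U = 2 * k) (hW : Module.finrank F W = 2 * l + 1) (hm₁ : ¬ (∃ X : Submodule F (U), Module.finrank F X = k ∧ ∀ x ∈ X, ∀ y ∈ X, (B₁) x y = 0)) : ¬ (∃ X : Submodule F (TensorProduct F U W), Module.finrank F X = k * (2 * l + 1) ∧ ∀ x ∈ X, ∀ y ∈ X, (B₁.tmul B₂) x y = 0) := by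
  classical
  rintro ⟨X, hX, hT⟩
  let b₁ := Module.finBasisOfFinrankEq F U hU
  let b₂ := Module.finBasisOfFinrankEq F W hW
  have hV : Module.finrank F (TensorProduct F U W) = 2 * (k * (2 * l + 1)) := by
    rw [Module.finrank_tensorProduct, hU, hW]
    ring
  have hsq := CfsgLib.ClassGeo.DiscType.square_of_ti (B₁.tmul B₂)
    (CfsgLib.ClassGeo.DiscType.tmul_bsymm B₁ B₂ hS₁ hS₂) hV (b₁.tensorProduct b₂) X hX hT
  rw [CfsgLib.ClassGeo.DiscType.gd_tmul] at hsq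
  simp only [Fintype.card_fin] at hsq
  set d₁ := CfsgLib.ClassGeo.DiscType.gd B₁ b₁ with hd₁
  set d₂ := CfsgLib.ClassGeo.DiscType.gd B₂ b₂ with hd₂
  have hd₁0 : d₁ ≠ 0 := (LinearMap.BilinForm.nondegenerate_iff_det_ne_zero b₁).1 h₁
  have hd₂0 : d₂ ≠ 0 := (LinearMap.BilinForm.nondegenerate_iff_det_ne_zero b₂).1 h₂
  apply hm₁
  refine CfsgLib.ClassGeo.DiscType.ti_of_square h2 B₁ hS₁ h₁ hk hU b₁ ?_
  rw [← hd₁]
  set a := (-1 : F) ^ k * d₁ with ha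
  have ha0 : a ≠ 0 := mul_ne_zero (pow_ne_zero _ (neg_ne_zero.2 one_ne_zero)) hd₁0
  obtain ⟨r, hr⟩ := hsq
  have h3 : (-1 : F) ^ (k * (2 * l + 1)) * (d₁ ^ (2 * l + 1) * d₂ ^ (2 * k)) = a * (a ^ l * d₂ ^ k) ^ 2 := by
    rw [ha, pow_mul, ← mul_assoc, ← mul_pow]
    ring
  rw [h3] at hr
  have h4 : a ^ l * d₂ ^ k ≠ 0 := mul_ne_zero (pow_ne_zero _ ha0) (pow_ne_zero _ hd₂0)
  refine ⟨r / (a ^ l * d₂ ^ k), ?_⟩
  field_simp
  linear_combination hr

end Cfsg.Agent.S0835
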