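import Mathlib
import Cfsg.Agent.Lib.H9.QuadDisc
import Cfsg.Statements.S0838
-- import your own Cfsg.Agent.* helpers here

set_option autoImplicit false
open Cfsg

namespace Cfsg.Agent.S0838

/-- Over a finite field with 2 ≠ 0 and n odd: two quadratic forms Q₁, Q₂ on F^n with non-degenerate polar forms are similar — there are an invertible linear map g and a scalar c ≠ 0 with Q₂ (g v) = c · Q₁ v for all v. -/
theorem result {F : Type*} [Field F] [Fintype F] (h2 : (2 : F) ≠ 0) {n : ℕ} (hn : Odd n) (Q₁ Q₂ : QuadraticForm F (Fin n → F)) (h₁ : (QuadraticMap.polarBilin Q₁).Nondegenerate) (h₂ : (QuadraticMap.polarBilin Q₂).Nondegenerate) : ∃ (g : (Fin n → F) ≃ₗ[F] (Fin n → F)) (c : F), c ≠ 0 ∧ ∀ v, Q₂ (g v) = c * Q₁ v := by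
  classical
  set d₁ := (CfsgLib.H9.QuadDisc.gram Q₁).det with hd₁
  set d₂ := (CfsgLib.H9.QuadDisc.gram Q₂).det with hd₂
  have hd₁0 : d₁ ≠ 0 := CfsgLib.H9.QuadDisc.det_gram_ne Q₁ h₁
  have hd₂0 : d₂ ≠ 0 := CfsgLib.H9.QuadDisc.det_gram_ne Q₂ h₂
  set c := d₁ * d₂ with hc
  have hc0 : c ≠ 0 := mul_ne_zero hd₁0 hd₂0
  have hgram : CfsgLib.H9.QuadDisc.gram (c • Q₁) = c • CfsgLib.H9.QuadDisc.gram Q₁ := by
    ext i j
    simp [CfsgLib.H9.QuadDisc.gram, QuadraticMap.polar]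
    ring
  have hdet : (CfsgLib.H9.QuadDisc.gram (c • Q₁)).det = c ^ n * d₁ := by
    rw [hgram, Matrix.det_smul]
    simp [hd₁]
  have hnd : (QuadraticMap.polarBilin (c • Q₁)).Nondegenerate := by
    have h3 : (CfsgLib.H9.QuadDisc.gram (c • Q₁)).det ≠ 0 := by
      rw [hdet]
      exact mul_ne_zero (pow_ne_zero _ hc0) hd₁0
    rw [CfsgLib.H9.QuadDisc.gram_eq, ← Matrix.nondegenerate_iff_det_ne_zero, LinearMap.BilinForm.nondegenerate_toMatrix'_iff] at h3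
    exact h3
  obtain ⟨t, ht⟩ := hn
  obtain ⟨g, hg⟩ := CfsgLib.H9.QuadDisc.backward h2 (c • Q₁) Q₂ hnd h₂ (by
    rw [hdet, ← hd₂]
    refine ⟨c ^ (t + 1), ?_⟩
    have : c ^ n * d₁ * d₂ = c ^ n * c := by rw [hc]; ring
    rw [this, ht]
    ring)
  exact ⟨g, c, hc0, fun v => by rw [hg]; simp⟩

end Cfsg.Agent.S0838
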