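import Mathlib
import Cfsg.Agent.Lib.ClassGeo.Trans
import Cfsg.Statements.S0839
-- import your own Cfsg.Agent.* helpers here

set_option autoImplicit false
open Cfsg Matrix

namespace Cfsg.Agent.S0839

/-- Every transvection t ∈ SL_(n+2)(F) (rank(t − 1) = 1, (t − 1)² = 0) is conjugate in SL_(n+2)(F) to 1 + v·e_0ᵀ for some column vector v with v_0 = 0 (the group A of matrices that are the identity except in the first column below the diagonal); the dimension is written n + 2 ≥ 2. -/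
theorem result {F : Type*} [Field F] (n : ℕ) (t : Matrix.SpecialLinearGroup (Fin (n + 2)) F) (ht : Cfsg.IsTransvection (t : Matrix (Fin (n + 2)) (Fin (n + 2)) F)) : ∃ (g : Matrix.SpecialLinearGroup (Fin (n + 2)) F) (v : Fin (n + 2) → F), v 0 = 0 ∧ ((g⁻¹ * t * g : Matrix.SpecialLinearGroup (Fin (n + 2)) F) : Matrix (Fin (n + 2)) (Fin (n + 2)) F) = 1 + Matrix.vecMulVec v (Pi.single 0 1) := by
  classical
  obtain ⟨hr, hsq⟩ := ht
  obtain ⟨a, b, ha, hb, hN⟩ := CfsgLib.ClassGeo.rank_one_decomp _ hr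
  have hba : b ⬝ᵥ a = 0 := by
    rw [hN, Matrix.vecMulVec_mul_vecMulVec] at hsq
    have hne : Matrix.vecMulVec a b ≠ 0 := by
      intro h0
      rw [← hN] at h0
      rw [h0, Matrix.rank_zero] at hr
      exact zero_ne_one hr
    by_contra hc
    apply hne
    ext i j
    have := congrFun (congrFun hsq i) j
    simp only [vecMulVec_apply, Pi.smul_apply, smul_eq_mul, Matrix.zero_apply] at this ⊢
    have h2 : (b ⬝ᵥ a) * (a i * b j) = 0 := by linear_combination this
    exact (mul_eq_zero.mp h2).resolve_left hc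
  obtain ⟨h, hh⟩ := CfsgLib.ClassGeo.exists_SL_mulVec_eq_single (i := 0) (j := 1) (by simp) b hb
  let g : Matrix.SpecialLinearGroup (Fin (n+2)) F := ⟨(h : Matrix _ _ F).transpose, by simp [Matrix.det_transpose]⟩
  have hgc : (g : Matrix (Fin (n+2)) (Fin (n+2)) F) = (h : Matrix _ _ F).transpose := rfl
  have hbg : Matrix.vecMul b (g : Matrix (Fin (n+2)) (Fin (n+2)) F) = Pi.single 0 1 := by
    rw [hgc, Matrix.vecMul_transpose, hh]
  have hgi : ((g⁻¹ : Matrix.SpecialLinearGroup _ F) : Matrix (Fin (n+2)) (Fin (n+2)) F) * (g : Matrix (Fin (n+2)) (Fin (n+2)) F) = 1 := by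
    rw [← Matrix.SpecialLinearGroup.coe_mul, inv_mul_cancel]; rfl
  have hgi' : (g : Matrix (Fin (n+2)) (Fin (n+2)) F) * ((g⁻¹ : Matrix.SpecialLinearGroup _ F) : Matrix (Fin (n+2)) (Fin (n+2)) F) = 1 := by
    rw [← Matrix.SpecialLinearGroup.coe_mul, mul_inv_cancel]; rfl
  set gi := ((g⁻¹ : Matrix.SpecialLinearGroup _ F) : Matrix (Fin (n+2)) (Fin (n+2)) F) with hgidef
  refine ⟨g, gi *ᵥ a, ?_, ?_⟩
  · have h1 : (gi *ᵥ a) 0 = (Pi.single 0 1 : Fin (n+2) → F) ⬝ᵥ (gi *ᵥ a) := by simp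
    rw [h1, ← hbg, Matrix.dotProduct_mulVec, Matrix.vecMul_vecMul, ← Matrix.dotProduct_mulVec,  hgi', Matrix.one_mulVec]
    exact hba
  · have ht' : (t : Matrix (Fin (n+2)) (Fin (n+2)) F) = 1 + Matrix.vecMulVec a b := by
      rw [← hN]; abel
    rw [Matrix.SpecialLinearGroup.coe_mul, Matrix.SpecialLinearGroup.coe_mul, ht', ← hgidef, mul_add, add_mul, mul_one, hgi,
      Matrix.mul_vecMulVec, Matrix.vecMulVec_mul, hbg]

end Cfsg.Agent.S0839
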