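import Cfsg.Statements.S0840
import Cfsg.Agent.Lib.Char.RealChar

set_option autoImplicit false
open scoped ComplexConjugate
open Cfsg

namespace Cfsg.Agent.S0840

/-- Class multiplication coefficients from the character table: for elements a, b, c of a finite group G, the number of ordered pairs (x, y) with x conjugate to a, y conjugate to b and x * y = c equals the product of the sizes of the conjugacy classes of a and b, divided by the order of G, times the sum over the irreducible characters χ of χ a * χ b * conj (χ c) / χ 1. -/
theorem result {G : Type*} [Group G] [Finite G] (a b c : G) : (Nat.card {p : G × G // IsConj a p.1 ∧ IsConj b p.2 ∧ p.1 * p.2 = c} : ℂ) = (Nat.card {x : G // IsConj a x} : ℂ) * (Nat.card {x : G // IsConj b x} : ℂ) / (Nat.card G : ℂ) * ∑ᶠ χ : Cfsg.IrrCharacter G, (χ : G → ℂ) a * (χ : G → ℂ) b * conj ((χ : G → ℂ) c) / (χ : G → ℂ) 1 := by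
  classical
  cases nonempty_fintype G
  rw [finsum_eq_sum_of_fintype]
  have h := CfsgLib.Char.classMulCount_expand a b c
  have e1 : ∀ x : G, Nat.card {y : G // IsConj x y} = (CfsgLib.Char.classFinset x).card := by
    intro x
    rw [Nat.card_eq_fintype_card, Fintype.card_subtype]
    rfl
  rw [e1, e1, ← h, Nat.card_eq_fintype_card, Fintype.card_subtype]
  congr 1
  unfold CfsgLib.Char.classMulCount
  congr 1
  ext p
  simp only [Finset.mem_filter, Finset.mem_univ, true_and, Finset.mem_product,
    CfsgLib.Char.mem_classFinset, and_assoc]

end Cfsg.Agent.S0840
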