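import Cfsg.Statements.S0848
import Cfsg.Agent.Lib.ZStar.D8
-- import your own Cfsg.Agent.* helpers here

set_option autoImplicit false
open Cfsg

namespace Cfsg.Agent.S0848

/-- If a finite group equals its own commutator subgroup and contains an involution whose centralizer is isomorphic to the dihedral group of order 8, then the group has order 168 or 360. -/
theorem result {G : Type*} [Group G] [Finite G] (hperf : commutator G = ⊤) (t : G) (ht : orderOf t = 2) (e : Subgroup.centralizer ({t} : Set G) ≃* DihedralGroup 4) : Nat.card G = 168 ∨ Nat.card G = 360 := by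
  refine CfsgLib.ZS.d8_order (fun H hH => ?_) t ht e
  have hle : commutator G ≤ H := by
    rw [commutator_def, Subgroup.commutator_le]
    intro a _ b _
    rw [commutatorElement_def]
    have h1 := Subgroup.mul_mem_iff_of_index_two hH (a := a * b) (b := a⁻¹ * b⁻¹)
    have h2 := Subgroup.mul_mem_iff_of_index_two hH (a := a) (b := b)
    have h3 := Subgroup.mul_mem_iff_of_index_two hH (a := a⁻¹) (b := b⁻¹)
    have h4 : a * b * a⁻¹ * b⁻¹ = a * b * (a⁻¹ * b⁻¹) := by group
    rw [h4, h1, h2, h3, H.inv_mem_iff, H.inv_mem_iff]
  rw [hperf] at hle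
  have h1 : H = ⊤ := top_le_iff.1 hle
  rw [h1, Subgroup.index_top] at hH
  omega

end Cfsg.Agent.S0848
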