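import Cfsg.Statements.S0860
import Cfsg.Agent.Lib.Char.Clifford

set_option autoImplicit false
open Cfsg

namespace Cfsg.Agent.S0860

/-- Let a group A act on the set of irreducible characters and on the set of conjugacy classes of a finite group G in such a way that (a • χ) evaluated on the class a • C equals χ evaluated on C, for all a, χ and C. Then every element of A fixes exactly as many irreducible characters as it fixes conjugacy classes. -/
theorem result {G : Type*} [Group G] [Finite G] {A : Type*} [Group A] [MulAction A (Cfsg.IrrCharacter G)] [MulAction A (ConjClasses G)] (hcompat : ∀ (a : A) (χ : Cfsg.IrrCharacter G) (g g' : G), ConjClasses.mk g' = a • ConjClasses.mk g → ((a • χ : Cfsg.IrrCharacter G) : G → ℂ) g' = (χ : G → ℂ) g) (a : A) : Nat.card {χ : Cfsg.IrrCharacter G // a • χ = χ} = Nat.card {C : ConjClasses G // a • C = C} := by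
  classical
  have h := CfsgLib.Char.card_fixed_irr_eq_card_fixed_classes (G := G) (fun χ => a • χ) (MulAction.toPerm a) (by
    intro χ C
    obtain ⟨g, rfl⟩ := ConjClasses.mk_surjective C
    have h1 : ConjClasses.mk ((MulAction.toPerm a) (ConjClasses.mk g) : ConjClasses G).out = a • ConjClasses.mk g := by
      simp only [MulAction.toPerm_apply]
      exact Quotient.out_eq _
    rw [CfsgLib.Char.classVal_mk χ.2.isClassFunction]
    exact hcompat a χ g _ h1)
  exact h

end Cfsg.Agent.S0860
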