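import Cfsg.Statements.S0901
import Cfsg.Agent.Lib.Block.Resid

set_option autoImplicit false
open Cfsg

namespace Cfsg.Agent.S0901

/-- Let M be a maximal ideal of the ring of algebraic integers containing the prime p, and let U be the set of complex roots of unity of order prime to p. Then reduction modulo M is injective on U, and every algebraic integer not in M is congruent modulo M to an element of U (so U maps bijectively onto the nonzero residues). -/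
theorem result (p : ℕ) [Fact p.Prime] (M : Ideal Cfsg.AlgInt) (hM : Cfsg.IsPModular p M) : (∀ ε₁ ε₂ : Cfsg.AlgInt, (∃ m : ℕ, ¬ p ∣ m ∧ (ε₁ : ℂ) ^ m = 1) → (∃ m : ℕ, ¬ p ∣ m ∧ (ε₂ : ℂ) ^ m = 1) → ε₁ - ε₂ ∈ M → ε₁ = ε₂) ∧ (∀ a : Cfsg.AlgInt, a ∉ M → ∃ ε : Cfsg.AlgInt, (∃ m : ℕ, ¬ p ∣ m ∧ (ε : ℂ) ^ m = 1) ∧ a - ε ∈ M) := by
  refine ⟨fun ε₁ ε₂ h1 h2 h => ?_, fun a ha => CfsgLib.Block.exists_root_unity hM ha⟩
  obtain ⟨m, hm, hm1⟩ := h1
  obtain ⟨n, hn, hn1⟩ := h2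
  exact CfsgLib.Block.root_unity_inj hM hm hn hm1 hn1 h

end Cfsg.Agent.S0901
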