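import Cfsg.Statements.S0903
import Mathlib

set_option autoImplicit false

namespace Cfsg.Agent.S0903

/-- Let P be a p-subgroup of the finite group G, let c centralize P and let g, h ∈ G. The number of pairs (x, y) with x conjugate to g, y conjugate to h and x * y = c is congruent modulo p to the number of such pairs in which x and y both centralize P. (This is why the Brauer map on class sums is multiplicative.) -/
theorem result {G : Type*} [Group G] [Finite G] (p : ℕ) [Fact p.Prime] (P : Subgroup G) (hP : IsPGroup p P) (c : G) (hc : c ∈ Subgroup.centralizer (P : Set G)) (g h : G) : Nat.card {xy : G × G // IsConj g xy.1 ∧ IsConj h xy.2 ∧ xy.1 * xy.2 = c} ≡ Nat.card {xy : G × G // IsConj g xy.1 ∧ IsConj h xy.2 ∧ xy.1 * xy.2 = c ∧ xy.1 ∈ Subgroup.centralizer (P : Set G) ∧ xy.2 ∈ Subgroup.centralizer (P : Set G)} [MOD p] := by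
  classical
  let X := {xy : G × G // IsConj g xy.1 ∧ IsConj h xy.2 ∧ xy.1 * xy.2 = c}
  have hcomm : ∀ z ∈ P, z * c * z⁻¹ = c := by
    intro z hz
    have := Subgroup.mem_centralizer_iff.1 hc z hz
    rw [this]; group
  letI act : MulAction P X :=
    { smul := fun z xy => ⟨(z.1 * xy.1.1 * z.1⁻¹, z.1 * xy.1.2 * z.1⁻¹), by
        obtain ⟨h1, h2, h3⟩ := xy.2
        refine ⟨h1.trans (isConj_iff.2 ⟨z.1, rfl⟩), h2.trans (isConj_iff.2 ⟨z.1, rfl⟩), ?_⟩
        show z.1 * xy.1.1 * z.1⁻¹ * (z.1 * xy.1.2 * z.1⁻¹) = c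
        have : z.1 * xy.1.1 * z.1⁻¹ * (z.1 * xy.1.2 * z.1⁻¹) = z.1 * (xy.1.1 * xy.1.2) * z.1⁻¹ := by group
        rw [this, h3]
        exact hcomm z.1 z.2⟩
      one_smul := fun xy => Subtype.ext (by
        show (((1 : G) * xy.1.1 * (1 : G)⁻¹, (1 : G) * xy.1.2 * (1 : G)⁻¹) : G × G) = xy.1
        simp)
      mul_smul := fun a b xy => Subtype.ext (by
        apply Prod.ext
        · show (a.1 * b.1) * xy.1.1 * (a.1 * b.1)⁻¹ = a.1 * (b.1 * xy.1.1 * b.1⁻¹) * a.1⁻¹
          group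
        · show (a.1 * b.1) * xy.1.2 * (a.1 * b.1)⁻¹ = a.1 * (b.1 * xy.1.2 * b.1⁻¹) * a.1⁻¹
          group) }
  have hmod := IsPGroup.card_modEq_card_fixedPoints hP (α := X)
  refine hmod.trans ?_
  have : Nat.card (MulAction.fixedPoints P X) =
      Nat.card {xy : G × G // IsConj g xy.1 ∧ IsConj h xy.2 ∧ xy.1 * xy.2 = c ∧ xy.1 ∈ Subgroup.centralizer (P : Set G) ∧ xy.2 ∈ Subgroup.centralizer (P : Set G)} := by
    refine Nat.card_congr ⟨fun w => ⟨w.1.1, w.1.2.1, w.1.2.2.1, w.1.2.2.2, ?_, ?_⟩, fun w => ⟨⟨w.1, w.2.1, w.2.2.1, w.2.2.2.1⟩, ?_⟩, fun w => rfl, fun w => rfl⟩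
    · rw [Subgroup.mem_centralizer_iff]
      intro z hz
      have h1 := w.2 ⟨z, hz⟩
      have h2 : z * w.1.1.1 * z⁻¹ = w.1.1.1 := congrArg (fun q : X => q.1.1) h1
      have := congrArg (fun q => q * z) h2
      simpa using this
    · rw [Subgroup.mem_centralizer_iff]
      intro z hz
      have h1 := w.2 ⟨z, hz⟩
      have h2 : z * w.1.1.2 * z⁻¹ = w.1.1.2 := congrArg (fun q : X => q.1.2) h1
      have := congrArg (fun q => q * z) h2
      simpa using this
    · intro z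
      apply Subtype.ext
      apply Prod.ext
      · show z.1 * w.1.1 * z.1⁻¹ = w.1.1
        rw [Subgroup.mem_centralizer_iff.1 w.2.2.2.2.1 z.1 z.2]; group
      · show z.1 * w.1.2 * z.1⁻¹ = w.1.2
        rw [Subgroup.mem_centralizer_iff.1 w.2.2.2.2.2 z.1 z.2]; group
  rw [this]

end Cfsg.Agent.S0903
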