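import Cfsg.Statements.S0905
import Cfsg.Agent.Lib.Block.Nilp
import Cfsg.Agent.Lib.PLocal.Core

set_option autoImplicit false
open Cfsg

namespace Cfsg.Agent.S0905

/-- Let F be a field of characteristic p and let g be an element of the finite group G no conjugate of which centralizes O_p(G). Then the class sum of g is a nilpotent element of the group algebra F[G]. -/
theorem result {G : Type*} [Group G] [Finite G] (p : ℕ) [Fact p.Prime] (F : Type*) [Field F] [CharP F p] (g : G) (hg : ∀ x : G, IsConj g x → x ∉ Subgroup.centralizer (Cfsg.pCore p G : Set G)) : IsNilpotent (∑ᶠ x ∈ ConjClasses.carrier (ConjClasses.mk g), MonoidAlgebra.single x (1 : F) : MonoidAlgebra F G) := by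
  classical
  letI : Fintype G := Fintype.ofFinite G
  have hcp : ∀ x : G, x ∈ ConjClasses.carrier (ConjClasses.mk g) ↔ IsConj g x := by
    intro x
    rw [ConjClasses.mem_carrier_iff_mk_eq, ConjClasses.mk_eq_mk_iff_isConj]
    exact ⟨fun h => h.symm, fun h => h.symm⟩
  have hfin : ∑ᶠ x ∈ ConjClasses.carrier (ConjClasses.mk g), MonoidAlgebra.single x (1 : F)
      = CfsgLib.Block.sumK F (Finset.univ.filter (fun x => IsConj g x)) := by
    rw [CfsgLib.Block.sumK, finsum_mem_eq_finite_toFinset_sum _ (Set.toFinite _)]
    refine Finset.sum_congr ?_ fun _ _ => rfl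
    ext x
    simp [hcp]
  rw [hfin]
  letI := CfsgLib.PLocal.pCore_normal' (p := p) (G := G)
  have hnil := CfsgLib.Block.sumK_nilpotent (p := p) (P := Cfsg.pCore p G)
    CfsgLib.PLocal.pCore_isPGroup (Finset.univ.filter (fun x => IsConj g x))
    (fun y hy x _ => by
      simp only [Finset.mem_filter, Finset.mem_univ, true_and] at hy ⊢
      exact hy.trans (isConj_iff.2 ⟨x, rfl⟩))
    (fun y hy => by
      simp only [Finset.mem_filter, Finset.mem_univ, true_and] at hy
      have h := hg y hy
      rw [Subgroup.mem_centralizer_iff] at h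
      push Not at h
      obtain ⟨x, hx, hne⟩ := h
      refine ⟨x, hx, fun hc => hne ?_⟩
      calc x * y = (x * y * x⁻¹) * x := by group
        _ = y * x := by rw [hc])
  let φ : ZMod p →+* F := ZMod.castHom (dvd_refl p) F
  have := hnil.map (MonoidAlgebra.mapRingHom G φ)
  convert this using 1
  simp only [CfsgLib.Block.sumK, map_sum]
  refine Finset.sum_congr rfl fun x _ => ?_
  simp [MonoidAlgebra.mapRingHom_single]

end Cfsg.Agent.S0905
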