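import Cfsg.Statements.S0910
import Cfsg.Agent.Lib.Block.Rank
import Cfsg.Agent.Lib.Char.Burnside
import Cfsg.Agent.Lib.Char.Diag

set_option autoImplicit false
open Cfsg

namespace Cfsg.Agent.S0910

/-- Let G be a non-abelian finite simple group and p a prime. If an irreducible character χ lies in the principal block (relative to a maximal ideal of the algebraic integers containing p) and χ 1 is a power of p, then χ is the principal character. -/
theorem result {G : Type*} [Group G] [Finite G] (p : ℕ) [Fact p.Prime] (M : Ideal Cfsg.AlgInt) (hM : Cfsg.IsPModular p M) [IsSimpleGroup G] (hna : ∃ a b : G, a * b ≠ b * a) (χ : Cfsg.IrrCharacter G) (hχ : χ ∈ Cfsg.principalBlock M G) (k : ℕ) (hdeg : (χ : G → ℂ) 1 = (p : ℂ) ^ k) : (χ : G → ℂ) = fun _ => 1 := by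
  classical
  letI : Fintype G := Fintype.ofFinite G
  have hP := hM.isPrime
  by_contra hne
  obtain ⟨n, ρ, hρ, hρχ⟩ := χ.2
  have hn : (n : ℂ) = (p : ℂ) ^ k := by
    rw [← hdeg, ← hρχ]
    simp
  have hn' : n = p ^ k := by exact_mod_cast hn
  have hinj := CfsgLib.Char.injective_rep_of_simple ρ
    (CfsgLib.Char.rep_ne_one_of_char_ne ρ (by rw [hρχ]; exact hne))
  have key : ∀ z : G, Nat.Coprime n (Subgroup.centralizer ({z} : Set G)).index → (χ : G → ℂ) z ≠ 0 →
      ∀ h : G, z * h = h * z := by
    intro z hc hz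
    have h3 := CfsgLib.Char.eq_zero_or_norm_eq ρ z hc
    rw [hρχ] at h3
    have h4 := h3.resolve_left hz
    rw [← hρχ] at h4
    have h5 : ‖ρ.character z‖ = (Module.finrank ℂ (Fin n → ℂ) : ℝ) := by simpa using h4
    obtain ⟨ω, hω⟩ := (CfsgLib.Char.norm_character_eq_iff ρ z).mp h5
    exact CfsgLib.Char.commutes_of_scalar ρ hinj hω
  obtain ⟨a, b, hab⟩ := hna
  rcases Nat.eq_zero_or_pos k with rfl | hk
  · -- degree one
    have h1 : (χ : G → ℂ) 1 = 1 := by rw [hdeg, pow_zero]
    obtain ⟨l, hl⟩ := CfsgLib.Char.exists_hom_of_degree_one χ.2.isCharacter h1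
    refine hab (key a ?_ ?_ b)
    · rw [hn', pow_zero]; exact Nat.coprime_one_left _
    · rw [hl]
      exact Units.ne_zero _
  · -- p divides the order
    have hdvd : n ∣ Nat.card G := by
      have := CfsgLib.Char.finrank_dvd_card ρ
      simpa using this
    have hpG : p ∣ Nat.card G := (dvd_pow_self p hk.ne').trans (hn' ▸ hdvd)
    obtain ⟨P⟩ : Nonempty (Sylow p G) := inferInstance
    haveI : Nontrivial P := by
      rw [← Finite.one_lt_card_iff_nontrivial, P.card_eq_multiplicity]
      apply Nat.one_lt_pow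
      · have := (Nat.Prime.dvd_iff_one_le_factorization (Fact.out) Nat.card_pos.ne').1 hpG
        omega
      · exact (Fact.out : p.Prime).one_lt
    haveI : Nontrivial (Subgroup.center P) := IsPGroup.center_nontrivial P.isPGroup'
    obtain ⟨z, hz⟩ := exists_ne (1 : Subgroup.center P)
    have hz1 : ((z : P) : G) ≠ 1 := by
      intro h
      apply hz
      ext
      exact h
    have hPle : (P : Subgroup G) ≤ Subgroup.centralizer ({((z : P) : G)} : Set G) := by
      intro w hw
      rw [Subgroup.mem_centralizer_singleton_iff]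
      have := Subgroup.mem_center_iff.1 z.2 ⟨w, hw⟩
      exact congrArg Subtype.val this
    have hidx : ¬ p ∣ (Subgroup.centralizer ({((z : P) : G)} : Set G)).index := by
      intro h
      exact P.not_dvd_index (h.trans (Subgroup.index_dvd_of_le hPle))
    have hcop : Nat.Coprime n (Subgroup.centralizer ({((z : P) : G)} : Set G)).index := by
      rw [hn']
      exact Nat.Coprime.pow_left k ((Nat.Prime.coprime_iff_not_dvd Fact.out).2 hidx)
    have hne0 : (χ : G → ℂ) ((z : P) : G) ≠ 0 := by
      intro h0
      have h1 : Cfsg.SameBlock M (fun _ : G => (1 : ℂ)) (χ : G → ℂ) := hχ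
      have h2 : Cfsg.centralChar (fun _ : G => (1 : ℂ)) ((z : P) : G) - Cfsg.centralChar (χ : G → ℂ) ((z : P) : G) ∈
          CfsgLib.Block.locI hP := h1 ((z : P) : G)
      rw [Cfsg.centralChar, Cfsg.centralChar, h0] at h2
      simp only [mul_zero, zero_div, sub_zero, mul_one, div_one] at h2
      exact hidx ((CfsgLib.Block.natCast_mem_locI_iff hM _).1 h2)
    have hcent := key _ hcop hne0
    have hprime := CfsgLib.Char.prime_card_of_central hz1 hcent
    haveI : Fact (Nat.card G).Prime := ⟨hprime⟩
    haveI : IsCyclic G := isCyclic_of_prime_card rfl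
    exact hab (mul_comm' a b)

end Cfsg.Agent.S0910
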