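import Cfsg.Statements.S0911
import Cfsg.Agent.Lib.Block.MinMax

set_option autoImplicit false
open Cfsg

namespace Cfsg.Agent.S0911

/-- The min–max Theorem for defect classes. Let B be a block of the finite group G relative to a maximal ideal M of the algebraic integers containing the prime p, let g represent a defect class of B and let D be a Sylow p-subgroup of the centralizer of g (viewed in G). For any h: (a) if the idempotent coefficient of B at h is a local integer outside the local ideal, then some conjugate of D contains a Sylow p-subgroup of the centralizer of h; (b) if the central character of some member of B at h is outside the local ideal, then some conjugate of D is contained in a Sylow p-subgroup of the centralizer of h. -/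
theorem result {G : Type*} [Group G] [Finite G] (p : ℕ) [Fact p.Prime] (M : Ideal Cfsg.AlgInt) (hM : Cfsg.IsPModular p M) (B : Set (Cfsg.IrrCharacter G)) (hB : Cfsg.IsPBlock M B) (g : G) (hg : Cfsg.IsDefectClass M B g) (D : Sylow p (Subgroup.centralizer ({g} : Set G))) (h : G) : (Cfsg.MemLocalRing M (Cfsg.blockCoeff B h) → ¬ Cfsg.MemLocalIdeal M (Cfsg.blockCoeff B h) → ∃ (x : G) (Q : Sylow p (Subgroup.centralizer ({h} : Set G))), (Q : Subgroup (Subgroup.centralizer ({h} : Set G))).map (Subgroup.centralizer ({h} : Set G)).subtype ≤ ((D : Subgroup (Subgroup.centralizer ({g} : Set G))).map (Subgroup.centralizer ({g} : Set G)).subtype).map (MulAut.conj x).toMonoidHom) ∧ ((∃ χ ∈ B, ¬ Cfsg.MemLocalIdeal M (Cfsg.centralChar (χ : G → ℂ) h)) → ∃ (x : G) (Q : Sylow p (Subgroup.centralizer ({h} : Set G))), ((D : Subgroup (Subgroup.centralizer ({g} : Set G))).map (Subgroup.centralizer ({g} : Set G)).subtype).map (MulAut.conj x).toMonoidHom ≤ (Q : Subgroup (Subgroup.centralizer ({h} : Set G))).map (Subgroup.centralizer ({h} : Set G)).subtype) := by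
  classical
  letI : Fintype G := Fintype.ofFinite G
  constructor
  · intro _ hh
    have hS : Nonempty (Sylow p (Subgroup.centralizer ({h} : Set G))) := ⟨default⟩
    obtain ⟨Q⟩ := hS
    obtain ⟨x, hx⟩ := CfsgLib.Block.minmax_a hM hB hg D hh (CfsgLib.Block.isPGroup_map_sylow _ Q)
      (CfsgLib.Block.map_sylow_le _ Q)
    refine ⟨x, Q, fun c hc => ?_⟩
    refine Subgroup.mem_map.2 ⟨x⁻¹ * c * x, hx c hc, ?_⟩
    simp [MulAut.conj_apply, mul_assoc]
  · rintro ⟨χ, hχ, hh⟩
    obtain ⟨x, hx⟩ := CfsgLib.Block.minmax_b hM hB hg D hχ hh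
    let R : Subgroup G := (((D : Subgroup (Subgroup.centralizer ({g} : Set G))).map (Subgroup.centralizer ({g} : Set G)).subtype).map (MulAut.conj x).toMonoidHom)
    have hRp : IsPGroup p R := (CfsgLib.Block.isPGroup_map_sylow _ D).map _
    have hRL : R ≤ Subgroup.centralizer ({h} : Set G) := by
      rintro _ ⟨c, hc, rfl⟩
      simpa [MulAut.conj_apply] using hx c hc
    have h1 : IsPGroup p (R.subgroupOf (Subgroup.centralizer ({h} : Set G))) := hRp.comap_subtype
    obtain ⟨Q, hQ⟩ := h1.exists_le_sylow
    refine ⟨x, Q, fun c hc => ?_⟩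
    exact Subgroup.mem_map.2 ⟨⟨c, hRL hc⟩, hQ (Subgroup.mem_subgroupOf.2 hc), rfl⟩

end Cfsg.Agent.S0911
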