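import Cfsg.Statements.S0916
import Cfsg.Agent.Lib.Lead.SylowConj
import Mathlib

set_option autoImplicit false

namespace Cfsg.Agent.S0916

variable {G : Type*} [Group G] [Finite G] {p : ℕ} [Fact p.Prime]

/-- If `P ≤ C` has the same order as a Sylow subgroup `S` of `C` (in the sense `|P| = |S|`) then `P` is a Sylow subgroup of C
in the form used in the statement. -/
private theorem sylow_of_card (C : Subgroup G) (P : Subgroup G) (hPC : P ≤ C) (hP : IsPGroup p P)
    (S : Sylow p C) (hcard : Nat.card S = Nat.card P) :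
    ∃ T : Sylow p C, (T : Subgroup C).map C.subtype = P := by
  have hP' : IsPGroup p (P.subgroupOf C) := hP.comap_subtype
  obtain ⟨T, hT⟩ := hP'.exists_le_sylow
  have hc1 : Nat.card (P.subgroupOf C) = Nat.card P :=
    Nat.card_congr (Subgroup.subgroupOfEquivOfLe hPC).toEquiv
  have hc2 : Nat.card T = Nat.card S := by
    rw [Sylow.card_eq_multiplicity, Sylow.card_eq_multiplicity]
  have heq : P.subgroupOf C = T := by
    apply Subgroup.eq_of_le_of_card_ge hT
    rw [hc1, hc2, hcard]
  refine ⟨T, ?_⟩
  rw [← heq, Subgroup.subgroupOf_map_subtype, inf_of_le_left hPC]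

private theorem card_of_map (C : Subgroup G) (P : Subgroup G) (S : Sylow p C)
    (h : (S : Subgroup C).map C.subtype = P) : Nat.card S = Nat.card P := by
  rw [← h]
  exact (Subgroup.card_map_of_injective C.subtype_injective).symm

private theorem le_of_map (C : Subgroup G) (P : Subgroup G) (S : Sylow p C)
    (h : (S : Subgroup C).map C.subtype = P) : P ≤ C := by
  rw [← h]; exact Subgroup.map_subtype_le _

theorem centralizer_conj' (a x : G) : Nat.card (Subgroup.centralizer ({x * a * x⁻¹} : Set G)) =
    Nat.card (Subgroup.centralizer ({a} : Set G)) := by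
  refine Nat.card_congr ⟨fun y => ⟨x⁻¹ * y.1 * x, ?_⟩, fun y => ⟨x * y.1 * x⁻¹, ?_⟩, ?_, ?_⟩
  · rw [Subgroup.mem_centralizer_singleton_iff]
    have h := Subgroup.mem_centralizer_singleton_iff.1 y.2
    have := congrArg (fun q => x⁻¹ * q * x) h
    simpa [mul_assoc] using this
  · rw [Subgroup.mem_centralizer_singleton_iff]
    have h := Subgroup.mem_centralizer_singleton_iff.1 y.2
    have := congrArg (fun q => x * q * x⁻¹) h
    simpa [mul_assoc] using this
  · intro y; apply Subtype.ext; simp [mul_assoc]
  · intro y; apply Subtype.ext; simp [mul_assoc]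

/-- Let P be a p-subgroup of the finite group G, C its centralizer and N its normalizer. Say that a conjugacy class (of G, or of N) has defect group P when P is a Sylow p-subgroup of the centralizer (in G, respectively in N) of some element of the class. Then: (i) if the class of g in G has defect group P, the elements of that class lying in C form a single N-class, again with defect group P; (ii) every N-class with defect group P arises this way from exactly one G-class with defect group P. -/
theorem result {G : Type*} [Group G] [Finite G] (p : ℕ) [Fact p.Prime] (P : Subgroup G) (hP : IsPGroup p P) : (∀ g : G, (∃ S : Sylow p (Subgroup.centralizer ({g} : Set G)), (S : Subgroup (Subgroup.centralizer ({g} : Set G))).map (Subgroup.centralizer ({g} : Set G)).subtype = P) → (∃ c : G, IsConj g c ∧ c ∈ Subgroup.centralizer (P : Set G)) ∧ (∀ c₁ c₂ : G, IsConj g c₁ → IsConj g c₂ → c₁ ∈ Subgroup.centralizer (P : Set G) → c₂ ∈ Subgroup.centralizer (P : Set G) → ∃ n ∈ Subgroup.normalizer (P : Set G), n * c₁ * n⁻¹ = c₂)) ∧ (∀ c : G, c ∈ Subgroup.centralizer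 (P : Set G) → (∃ S : Sylow p (Subgroup.centralizer ({c} : Set G) ⊓ Subgroup.normalizer (P : Set G) : Subgroup G), (S : Subgroup ↥(Subgroup.centralizer ({c} : Set G) ⊓ Subgroup.normalizer (P : Set G))).map (Subgroup.centralizer ({c} : Set G) ⊓ Subgroup.normalizer (P : Set G)).subtype = P) → ∃ S : Sylow p (Subgroup.centralizer ({c} : Set G)), (S : Subgroup (Subgroup.centralizer ({c} : Set G))).map (Subgroup.centralizer ({c} : Set G)).subtype = P) := by
  classical
  have hcomm : ∀ c : G, c ∈ Subgroup.centralizer (P : Set G) → P ≤ Subgroup.centralizer ({c} : Set G) := by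
    intro c hc z hz
    rw [Subgroup.mem_centralizer_singleton_iff]
    exact (Subgroup.mem_centralizer_iff.1 hc z hz)
  refine ⟨?_, ?_⟩
  · rintro g ⟨S, hS⟩
    have hPle := le_of_map _ P S hS
    have hcardS := card_of_map _ P S hS
    refine ⟨⟨g, IsConj.refl g, ?_⟩, ?_⟩
    · rw [Subgroup.mem_centralizer_iff]
      intro z hz
      exact Subgroup.mem_centralizer_singleton_iff.1 (hPle hz)
    · intro c₁ c₂ h1 h2 hc1 hc2
      -- P is Sylow in C(c₂): same order as Sylow of C(g)
      obtain ⟨x, rfl⟩ : ∃ x, x * c₁ * x⁻¹ = c₂ := isConj_iff.1 (h1.symm.trans h2)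
      have hPc2 := hcomm _ hc2
      -- card centralizers
      obtain ⟨u, hu⟩ := isConj_iff.1 h2
      set C2 := Subgroup.centralizer ({x * c₁ * x⁻¹} : Set G) with hC2
      have hcc : Nat.card C2 = Nat.card (Subgroup.centralizer ({g} : Set G)) := by
        rw [hC2, ← hu, centralizer_conj']
      obtain ⟨S2⟩ : Nonempty (Sylow p C2) := inferInstance
      have hS2 : Nat.card S2 = Nat.card P := by
        rw [← hcardS, Sylow.card_eq_multiplicity, Sylow.card_eq_multiplicity, hcc]
      obtain ⟨T1, hT1⟩ := sylow_of_card C2 P hPc2 hP S2 hS2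
      -- x P x⁻¹
      set P' := P.map (MulAut.conj x).toMonoidHom with hP'
      have hP'le : P' ≤ C2 := by
        rintro _ ⟨z, hz, rfl⟩
        rw [hC2, Subgroup.mem_centralizer_singleton_iff]
        have h3 := Subgroup.mem_centralizer_iff.1 hc1 z hz
        show x * z * x⁻¹ * (x * c₁ * x⁻¹) = x * c₁ * x⁻¹ * (x * z * x⁻¹)
        calc x * z * x⁻¹ * (x * c₁ * x⁻¹) = x * (z * c₁) * x⁻¹ := by group
          _ = x * (c₁ * z) * x⁻¹ := by rw [h3]
          _ = x * c₁ * x⁻¹ * (x * z * x⁻¹) := by group
      have hP'p : IsPGroup p P' := hP.map _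
      have hP'c : Nat.card P' = Nat.card P := Subgroup.card_map_of_injective (MulEquiv.injective _)
      obtain ⟨T2, hT2⟩ := sylow_of_card C2 P' hP'le hP'p S2 (hS2.trans hP'c.symm)
      obtain ⟨y, hy⟩ := MulAction.exists_smul_eq C2 T2 T1
      -- y conjugates P' to P
      have hmem : ∀ z ∈ P', (y : G) * z * (y : G)⁻¹ ∈ P := by
        intro z hz
        rw [← hT2] at hz
        obtain ⟨w, hw, rfl⟩ := hz
        rw [← hT1, ← hy]
        refine ⟨y * w * y⁻¹, ?_, rfl⟩
        rw [Sylow.coe_subgroup_smul]
        exact ⟨w, hw, rfl⟩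
      refine ⟨y * x, ?_, ?_⟩
      · -- y x normalizes P
        have hle : ∀ z ∈ P, ((y : G) * x) * z * ((y : G) * x)⁻¹ ∈ P := by
          intro z hz
          have h4 := hmem (x * z * x⁻¹) ⟨z, hz, rfl⟩
          have e : ((y : G) * x) * z * ((y : G) * x)⁻¹ = (y : G) * (x * z * x⁻¹) * (y : G)⁻¹ := by group
          rwa [e]
        -- finite: the map is a bijection
        have hmap : P.map (MulAut.conj ((y : G) * x)).toMonoidHom = P := by
          apply Subgroup.eq_of_le_of_card_ge
          · rintro _ ⟨z, hz, rfl⟩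
            exact hle z hz
          · rw [Subgroup.card_map_of_injective (MulEquiv.injective _)]
        rw [Subgroup.mem_normalizer_iff]
        intro z
        constructor
        · exact hle z
        · intro hz
          rw [← hmap] at hz
          obtain ⟨w, hw, hzw⟩ := hz
          have hzw' : (y : G) * x * w * ((y : G) * x)⁻¹ = (y : G) * x * z * ((y : G) * x)⁻¹ := hzw
          have := mul_left_cancel (mul_right_cancel hzw')
          rwa [← this]
      · have h5 : (y : G) * (x * c₁ * x⁻¹) * (y : G)⁻¹ = x * c₁ * x⁻¹ := by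
          have := Subgroup.mem_centralizer_singleton_iff.1 y.2
          rw [this]; group
        rw [← h5]; group
  · rintro c hc ⟨S, hS⟩
    have hPc := hcomm c hc
    have hPL := le_of_map _ P S hS
    have hcardS := card_of_map _ P S hS
    -- P is contained in a Sylow Q of (Subgroup.centralizer ({c} : Set G))(c)
    have hP' : IsPGroup p (P.subgroupOf (Subgroup.centralizer ({c} : Set G))) := hP.comap_subtype
    obtain ⟨Q, hQ⟩ := hP'.exists_le_sylow
    refine ⟨Q, ?_⟩
    set Q' : Subgroup G := (Q : Subgroup (Subgroup.centralizer ({c} : Set G))).map (Subgroup.centralizer ({c} : Set G)).subtype with hQ'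
    have hPQ : P ≤ Q' := by
      intro z hz
      exact ⟨⟨z, hPc hz⟩, hQ (Subgroup.mem_subgroupOf.2 hz), rfl⟩
    have hQp : IsPGroup p Q' := Q.isPGroup'.map _
    -- Q' ⊓ N(P) is a p-subgroup of L
    have hR : Q' ⊓ Subgroup.normalizer (P : Set G) ≤ (Subgroup.centralizer ({c} : Set G)) ⊓ Subgroup.normalizer (P : Set G) :=
      inf_le_inf_right _ (Subgroup.map_subtype_le _)
    have hRp : IsPGroup p ↥(Q' ⊓ Subgroup.normalizer (P : Set G)) := hQp.to_le inf_le_left
    obtain ⟨r, hr⟩ := IsPGroup.iff_card.1 hRp
    have hRdvd : Nat.card ↥(Q' ⊓ Subgroup.normalizer (P : Set G)) ∣ Nat.card ↥((Subgroup.centralizer ({c} : Set G)) ⊓ Subgroup.normalizer (P : Set G)) :=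
      Subgroup.card_dvd_of_le hR
    rw [hr] at hRdvd
    have h6 := Sylow.pow_dvd_card_of_pow_dvd_card S hRdvd
    rw [hcardS, ← hr] at h6
    have hRP : Q' ⊓ Subgroup.normalizer (P : Set G) = P := by
      symm
      apply Subgroup.eq_of_le_of_card_ge (le_inf hPQ Subgroup.le_normalizer)
      exact Nat.le_of_dvd Nat.card_pos h6
    -- normalizer condition in Q'
    have hPeq : P = Q' := by
      by_contra hne
      have hlt : P < Q' := lt_of_le_of_ne hPQ hne
      haveI : Group.IsNilpotent Q' := hQp.isNilpotent
      have hnc := normalizerCondition_of_isNilpotent (G := Q')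
      have hlt2 : P.subgroupOf Q' < ⊤ := by
        apply lt_top_iff_ne_top.2
        intro h
        rw [Subgroup.subgroupOf_eq_top] at h
        exact absurd (le_antisymm hPQ h) hne
      have h7 := hnc _ hlt2
      obtain ⟨q, hq1, hq2⟩ := SetLike.exists_of_lt h7
      apply hq2
      rw [Subgroup.mem_subgroupOf]
      rw [← hRP]
      refine ⟨q.2, ?_⟩
      show (q : G) ∈ Subgroup.normalizer (P : Set G)
      rw [Subgroup.mem_normalizer_iff]
      intro z
      rw [Subgroup.mem_normalizer_iff] at hq1
      constructor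
      · intro hz
        have := (hq1 ⟨z, hPQ hz⟩).1 (by simpa [Subgroup.mem_subgroupOf] using hz)
        simpa [Subgroup.mem_subgroupOf] using this
      · intro hz
        have hzQ : z ∈ Q' := by
          have := Q'.mul_mem (Q'.mul_mem (Q'.inv_mem q.2) (hPQ hz)) q.2
          simpa [mul_assoc] using this
        have := (hq1 ⟨z, hzQ⟩).2 (by simpa [Subgroup.mem_subgroupOf] using hz)
        simpa [Subgroup.mem_subgroupOf] using this
    exact hPeq.symm

end Cfsg.Agent.S0916
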