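import Cfsg.Statements.S0926
import Cfsg.Agent.Lib.Block.Value

set_option autoImplicit false
open Cfsg

namespace Cfsg.Agent.S0926

/-- Let B be a block of the finite group G with defect group D (relative to a maximal ideal M of the algebraic integers containing p), let χ ∈ B have height zero, and let x be a p-element. Then some conjugate of x lies in D if and only if χ does not vanish on the whole p-section of x (the elements whose p-part is conjugate to x). -/
theorem result {G : Type*} [Group G] [Finite G] (p : ℕ) [Fact p.Prime] (M : Ideal Cfsg.AlgInt) (hM : Cfsg.IsPModular p M) (B : Set (Cfsg.IrrCharacter G)) (hB : Cfsg.IsPBlock M B) (D : Subgroup G) (hD : Cfsg.IsDefectGroup p M B D) (χ : Cfsg.IrrCharacter G) (hχ : χ ∈ B) (h0 : Cfsg.blockHeight p B (χ : G → ℂ) = 0) (x : G) (hx : ∃ k : ℕ, orderOf x = p ^ k) : (∃ g : G, g * x * g⁻¹ ∈ D) ↔ ∃ u : G, (∃ z : G, Cfsg.IsPPart p u z ∧ IsConj x z) ∧ (χ : G → ℂ) u ≠ 0 := by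
  classical
  letI : Fintype G := Fintype.ofFinite G
  have hP := hM.isPrime
  obtain ⟨k, hk⟩ := hx
  constructor
  · rintro ⟨g, hg⟩
    have h1 : orderOf (g * x * g⁻¹) = p ^ k := by rw [CfsgLib.Block.orderOf_conj', hk]
    obtain ⟨u, ⟨y, hy1, hy2, -, hy3⟩, hu⟩ := CfsgLib.Block.exists_section_ne_zero hM hB hD hχ
      ((CfsgLib.Block.blockHeight_eq_zero_iff hχ).1 h0) h1 hg
    refine ⟨g⁻¹ * u * g, ⟨x, ⟨g⁻¹ * y * g, ?_, ?_, ⟨k, hk⟩, ?_⟩, IsConj.refl x⟩, ?_⟩
    · rw [← hy1]; group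
    · have h2 : (g * x * g⁻¹) * y = y * (g * x * g⁻¹) := hy2
      show x * (g⁻¹ * y * g) = (g⁻¹ * y * g) * x
      calc x * (g⁻¹ * y * g) = g⁻¹ * ((g * x * g⁻¹) * y) * g := by group
        _ = g⁻¹ * (y * (g * x * g⁻¹)) * g := by rw [h2]
        _ = (g⁻¹ * y * g) * x := by group
    · have := CfsgLib.Block.orderOf_conj' y g⁻¹
      rw [inv_inv] at this
      rwa [this]
    · have h3 := χ.2.isClassFunction u g⁻¹
      rw [inv_inv] at h3
      rwa [h3]
  · rintro ⟨u, ⟨z, hz, hxz⟩, hu⟩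
    by_contra hc
    push Not at hc
    have h1 : ∀ D' : Subgroup G, Cfsg.IsDefectGroup p M (Cfsg.blockOf M (χ : G → ℂ)) D' → z ∉ D' := by
      intro D' hD' hzD'
      rw [← CfsgLib.Block.blockOf_eq_of_mem hP hB hχ] at hD'
      obtain ⟨a, ha⟩ := CfsgLib.Block.isDefectGroup_conj_le hM hB hD hD'
      obtain ⟨c, hc'⟩ := isConj_iff.1 hxz
      apply hc (a⁻¹ * c)
      have := ha z hzD'
      rw [← hc'] at this
      convert this using 1
      group
    exact hu (CfsgLib.Block.char_eq_zero_of_pPart hM hz h1)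

end Cfsg.Agent.S0926
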