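import Cfsg.Statements.S0931
import Cfsg.Agent.Lib.Block.Central

set_option autoImplicit false
open Cfsg

namespace Cfsg.Agent.S0931

/-- Let H be a subgroup of the finite group G and fix a maximal ideal M of the algebraic integers containing the prime p. If the block b of H induces the block B of G, then b has defect 0 if and only if B has defect 0. -/
theorem result {G : Type*} [Group G] [Finite G] (p : ℕ) [Fact p.Prime] (M : Ideal Cfsg.AlgInt) (hM : Cfsg.IsPModular p M) (H : Subgroup G) (b : Set (Cfsg.IrrCharacter H)) (B : Set (Cfsg.IrrCharacter G)) (hind : Cfsg.IsInducedBlock M H b B) : Cfsg.blockDefect p b = 0 ↔ Cfsg.blockDefect p B = 0 := by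
  classical
  letI : Fintype G := Fintype.ofFinite G
  letI : Fintype H := Fintype.ofFinite H
  have hp : p.Prime := Fact.out
  obtain ⟨D₀, hD₀⟩ := CfsgLib.Block.exists_defectGroup hM hind.1
  obtain ⟨P₀, hP₀⟩ := CfsgLib.Block.exists_defectGroup hM hind.2.1
  have hc1 := CfsgLib.Block.card_defectGroup hM hind.1 hD₀
  have hc2 := CfsgLib.Block.card_defectGroup hM hind.2.1 hP₀
  have hPp : IsPGroup p P₀ := by
    obtain ⟨g, -, Q, rfl⟩ := hP₀
    exact CfsgLib.Block.isPGroup_map_sylow _ Q
  constructor
  · intro h0
    rw [h0, pow_zero] at hc1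
    have hD1 : D₀ = ⊥ := Subgroup.card_eq_one.1 hc1
    have hbot : P₀ = ⊥ := by
      by_contra hne
      haveI : Nontrivial P₀ := (Subgroup.nontrivial_iff_ne_bot P₀).2 hne
      haveI : Nontrivial (Subgroup.center P₀) := hPp.center_nontrivial
      obtain ⟨z, hz⟩ := exists_ne (1 : Subgroup.center P₀)
      obtain ⟨g, hg, -⟩ := CfsgLib.Block.center_defect_conj hM hind hD₀ hP₀ (z : P₀).2 (fun w hw => by
        have := Subgroup.mem_center_iff.1 z.2 ⟨w, hw⟩
        exact (congrArg Subtype.val this).symm)
      rw [hD1, Subgroup.map_bot, Subgroup.mem_bot] at hg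
      apply hz
      have h3 : (((z : P₀) : G)) = 1 := by
        have : g * ((z : P₀) : G) = g * 1 := by
          rw [mul_one]
          calc g * ((z : P₀) : G) = (g * ((z : P₀) : G) * g⁻¹) * g := by group
            _ = g := by rw [hg, one_mul]
        exact mul_left_cancel this
      exact Subtype.ext (Subtype.ext h3)
    rw [hbot] at hc2
    simp only [Nat.card_unique, Subgroup.card_bot] at hc2
    have h5 : p ^ Cfsg.blockDefect p B = 1 := hc2.symm
    exact (Nat.pow_eq_one.1 h5).resolve_left hp.one_lt.ne'
  · intro h0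
    rw [h0, pow_zero] at hc2
    obtain ⟨E, hE, hle⟩ := CfsgLib.Block.defect_le_of_induced hM hind hD₀
    have hc3 := CfsgLib.Block.card_defectGroup hM hind.2.1 hE
    rw [h0, pow_zero] at hc3
    have h1 : Nat.card (D₀.map H.subtype) ≤ 1 := by
      have := Subgroup.card_le_of_le hle
      rwa [hc3] at this
    rw [Subgroup.card_map_of_injective (Subgroup.subtype_injective _), hc1] at h1
    by_contra hne
    have h2 : p ≤ p ^ Cfsg.blockDefect p b := Nat.le_self_pow hne p
    have := hp.one_lt
    omega

end Cfsg.Agent.S0931
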