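import Cfsg.Statements.S0932
import Mathlib
import Cfsg.Agent.Lib.Char.Induce
import Cfsg.Agent.Lib.Char.Complete

set_option autoImplicit false
open Cfsg

namespace Cfsg.Agent.S0932

open CfsgLib.Char

open scoped Classical in
private theorem card_conj_fiber {G : Type*} [Group G] [Fintype G] (g y : G) (hy : IsConj g y) :
    (Finset.univ.filter (fun x : G => x⁻¹ * g * x = y)).card = Nat.card (Subgroup.centralizer ({g} : Set G)) := by
  obtain ⟨c, rfl⟩ := isConj_iff.1 hy
  rw [← Fintype.card_subtype, ← Nat.card_eq_fintype_card]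
  apply Nat.card_congr
  refine
    { toFun := fun x => ⟨(x : G) * c, ?_⟩
      invFun := fun z => ⟨(z : G) * c⁻¹, ?_⟩
      left_inv := fun x => by ext; simp
      right_inv := fun z => by ext; simp }
  · rw [Subgroup.mem_centralizer_singleton_iff]
    have h := x.2
    calc (x : G) * c * g = (x : G) * c * g * (c⁻¹ * c) := by group
      _ = (x : G) * (c * g * c⁻¹) * c := by group
      _ = (x : G) * ((x : G)⁻¹ * g * x) * c := by rw [h]
      _ = g * (x * c) := by group
  · have hz := Subgroup.mem_centralizer_singleton_iff.1 z.2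
    calc ((z : G) * c⁻¹)⁻¹ * g * ((z : G) * c⁻¹) = c * (z : G)⁻¹ * (g * z) * c⁻¹ := by group
      _ = c * (z : G)⁻¹ * ((z : G) * g) * c⁻¹ := by rw [hz]
      _ = c * g * c⁻¹ := by group

/-- Let H be a subgroup of the finite group G and ξ a character of H. For every g ∈ G, the sum of ξ h / ξ 1 over the elements h ∈ H that are conjugate in G to g equals the central character at g of the character of G induced from ξ (class size times value divided by degree). -/
theorem result {G : Type*} [Group G] [Fintype G] (H : Subgroup G) (ξ : H → ℂ) (hξ : Cfsg.IsCharacter H ξ) (g : G) : Cfsg.inducedCentralChar H ξ g = Cfsg.centralChar (Cfsg.indFun H ξ) g := by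
  classical
  have hCcard : ((Nat.card (Subgroup.centralizer ({g} : Set G)) : ℕ) : ℂ) ≠ 0 := by
    exact_mod_cast (Nat.card_pos (α := Subgroup.centralizer ({g} : Set G))).ne'
  have hHcard := card_subgroup_ne_zero H
  have hindex : ((H.index : ℕ) : ℂ) ≠ 0 := by
    exact_mod_cast Subgroup.index_ne_zero_of_finite
  -- rewrite the sum over `G` as a sum over the class
  have hsum : ∑ x : G, extendByZero H ξ (x⁻¹ * g * x) =
      (Nat.card (Subgroup.centralizer ({g} : Set G)) : ℂ) * ∑ h : H, if IsConj g (h : G) then ξ h else 0 := by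
    have h1 : ∑ x : G, extendByZero H ξ (x⁻¹ * g * x) =
        ∑ y : G, ∑ x ∈ Finset.univ.filter (fun x : G => x⁻¹ * g * x = y), extendByZero H ξ y := by
      rw [← Finset.sum_fiberwise Finset.univ (fun x : G => x⁻¹ * g * x)]
      refine Finset.sum_congr rfl fun y _ => Finset.sum_congr rfl fun x hx => ?_
      rw [(Finset.mem_filter.1 hx).2]
    rw [h1]
    have h2 : ∀ y : G, ∑ x ∈ Finset.univ.filter (fun x : G => x⁻¹ * g * x = y), extendByZero H ξ y =
        (Nat.card (Subgroup.centralizer ({g} : Set G)) : ℂ) * (if IsConj g y then extendByZero H ξ y else 0) := by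
      intro y
      by_cases hy : IsConj g y
      · rw [if_pos hy, Finset.sum_const, card_conj_fiber g y hy, nsmul_eq_mul]
      · rw [if_neg hy, mul_zero]
        refine Finset.sum_eq_zero fun x hx => ?_
        exfalso
        apply hy
        rw [← (Finset.mem_filter.1 hx).2]
        exact isConj_iff.2 ⟨x⁻¹, by group⟩
    simp only [h2, ← Finset.mul_sum]
    congr 1
    have h3 : ∑ h : H, (if IsConj g (h : G) then ξ h else 0) =
        ∑ h : H, (fun y : G => if IsConj g y then extendByZero H ξ y else 0) h := by
      refine Finset.sum_congr rfl fun h _ => ?_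
      simp only [extendByZero_coe]
    rw [h3]
    rw [← Finset.sum_subtype (Finset.univ.filter (· ∈ H)) (by simp) (fun y : G => if IsConj g y then extendByZero H ξ y else 0)]
    symm
    apply Finset.sum_subset (Finset.filter_subset _ _)
    intro y _ hy
    have : y ∉ H := by simpa using hy
    rw [extendByZero_of_not_mem H ξ this]
    simp
  have hL : inducedCentralChar H ξ g = (∑ h : H, if IsConj g (h : G) then ξ h else 0) / ξ 1 := by
    rw [inducedCentralChar]
    simp only [Set.mem_setOf_eq, finsum_eq_if]
    rw [finsum_eq_sum_of_fintype, Finset.sum_div]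
    refine Finset.sum_congr rfl fun h _ => ?_
    split_ifs <;> simp
  rw [hL, centralChar, indFun_one, indFun_def, hsum]
  have h4 : ((Subgroup.centralizer ({g} : Set G)).index : ℂ) * ((Nat.card H : ℂ)⁻¹ * ((Nat.card (Subgroup.centralizer ({g} : Set G)) : ℂ) * ∑ h : H, if IsConj g (h : G) then ξ h else 0)) =
      (H.index : ℂ) * ∑ h : H, if IsConj g (h : G) then ξ h else 0 := by
    have e1 : ((Subgroup.centralizer ({g} : Set G)).index : ℂ) * (Nat.card (Subgroup.centralizer ({g} : Set G)) : ℂ) = (Nat.card H : ℂ) * (H.index : ℂ) := by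
      have a1 := Subgroup.index_mul_card (Subgroup.centralizer ({g} : Set G))
      have a2 := Subgroup.card_mul_index H
      have a3 := a1.trans a2.symm
      exact_mod_cast a3
    calc _ = (((Subgroup.centralizer ({g} : Set G)).index : ℂ) * (Nat.card (Subgroup.centralizer ({g} : Set G)) : ℂ)) * ((Nat.card H : ℂ)⁻¹ * ∑ h : H, if IsConj g (h : G) then ξ h else 0) := by ring
      _ = _ := by
        rw [e1]
        field_simp
  rw [h4, mul_div_mul_left _ _ hindex]

end Cfsg.Agent.S0932
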