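import Cfsg.Statements.S0938
import Cfsg.Agent.Lib.Block.Normal

set_option autoImplicit false
open Cfsg

namespace Cfsg.Agent.S0938

/-- Let B be a block of the finite group G relative to a maximal ideal M of the algebraic integers containing the prime p, and let χ ∈ B. Then the kernel of B (the set of g with ψ g = ψ 1 for all ψ ∈ B) is a normal subgroup of order prime to p contained in the kernel of χ, and it contains every normal subgroup of order prime to p on which χ takes the value χ(1); that is, it is O_p' of the kernel of χ. -/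
theorem result {G : Type*} [Group G] [Finite G] (p : ℕ) [Fact p.Prime] (M : Ideal Cfsg.AlgInt) (hM : Cfsg.IsPModular p M) (B : Set (Cfsg.IrrCharacter G)) (hB : Cfsg.IsPBlock M B) (χ : Cfsg.IrrCharacter G) (hχ : χ ∈ B) : ∃ K : Subgroup G, K.Normal ∧ (K : Set G) = Cfsg.blockKer B ∧ ¬ p ∣ Nat.card K ∧ (∀ g ∈ K, (χ : G → ℂ) g = (χ : G → ℂ) 1) ∧ ∀ N : Subgroup G, N.Normal → ¬ p ∣ Nat.card N → (∀ g ∈ N, (χ : G → ℂ) g = (χ : G → ℂ) 1) → N ≤ K := by
  classical
  letI : Fintype G := Fintype.ofFinite G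
  obtain ⟨K, hKn, hK⟩ := CfsgLib.Block.exists_setKer B
  refine ⟨K, hKn, Set.ext hK, CfsgLib.Block.not_dvd_card_of_blockKer hM hB hK, fun g hg => (hK g).1 hg χ hχ, ?_⟩
  intro N hN hNp hNχ n hn
  refine (hK n).2 fun ψ hψ => ?_
  letI : Fintype N := Fintype.ofFinite N
  have hP := hM.isPrime
  have h0 : (fun n : N => (χ : G → ℂ) n) = (χ : G → ℂ) 1 • ((CfsgLib.Block.oneIrr N : Cfsg.IrrCharacter N) : N → ℂ) := by
    funext m
    have := hNχ m m.2
    simpa [CfsgLib.Block.oneIrr] using this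
  have hc : Cfsg.classInner (fun n : N => (χ : G → ℂ) n) ((CfsgLib.Block.oneIrr N : Cfsg.IrrCharacter N) : N → ℂ) ≠ 0 := by
    rw [h0, CfsgLib.Char.classInner_smul_left, CfsgLib.Char.classInner_irr_self (CfsgLib.Block.oneIrr N).2, mul_one]
    exact χ.2.map_one_ne_zero
  have hc' := CfsgLib.Block.constituent_of_sameBlock_coprime N hM hNp (CfsgLib.Block.sameBlock_of_mem hP hB hχ hψ) hc
  have hinv : ∀ g : G, CfsgLib.Char.conjOn N g ((CfsgLib.Block.oneIrr N : Cfsg.IrrCharacter N) : N → ℂ) = (CfsgLib.Block.oneIrr N : N → ℂ) := by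
    intro g
    funext m
    simp [CfsgLib.Block.oneIrr]
  have h1 := CfsgLib.Char.clifford_invariant N ψ.2 (CfsgLib.Block.oneIrr N).2 hinv hc'
  have h2 := congrFun h1 ⟨n, hn⟩
  have h3 := congrFun h1 1
  simp only [Pi.smul_apply] at h2 h3
  have h4 : ((1 : N) : G) = 1 := rfl
  rw [h4] at h3
  rw [h2, h3]
  simp [CfsgLib.Block.oneIrr]

end Cfsg.Agent.S0938
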