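import Cfsg.Statements.S0943
import Cfsg.Agent.Lib.Char.Integrality
import Mathlib

set_option autoImplicit false

namespace Cfsg.Agent.S0943

open CfsgLib.Char Module

/-- Let χ be an irreducible character of the finite group G and u, v ∈ G. If χ (x * y) = χ (u * v) whenever x is conjugate to u and y is conjugate to v, then χ u * χ v = χ 1 * χ (u * v). (Multiply the class sums of u and v and apply the central character of χ.) -/
theorem result {G : Type*} [Group G] [Finite G] (χ : Cfsg.IrrCharacter G) (u v : G) (hc : ∀ x y : G, IsConj u x → IsConj v y → (χ : G → ℂ) (x * y) = (χ : G → ℂ) (u * v)) : (χ : G → ℂ) u * (χ : G → ℂ) v = (χ : G → ℂ) 1 * (χ : G → ℂ) (u * v) := by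
  classical
  haveI := Fintype.ofFinite G
  obtain ⟨χ, d, ρ, hρ, rfl⟩ := χ
  simp only at hc ⊢
  haveI : Nontrivial (Fin d → ℂ) := ((isIrreducible_iff ρ).mp hρ).1
  have hV : (finrank ℂ (Fin d → ℂ) : ℂ) ≠ 0 := by
    exact_mod_cast (finrank_pos (R := ℂ) (M := Fin d → ℂ)).ne'
  have hone : ρ.character 1 = (finrank ℂ (Fin d → ℂ) : ℂ) := by
    simp [Representation.character]
  -- operator identity
  have hA := classSumOp_eq_smul ρ u
  have hB := classSumOp_eq_smul ρ v
  -- trace of the product in two ways
  have htr1 : LinearMap.trace ℂ (Fin d → ℂ) (classSumOp ρ u * classSumOp ρ v) =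
      centralChar ρ.character u * centralChar ρ.character v * (finrank ℂ (Fin d → ℂ) : ℂ) := by
    rw [hA, hB]
    have : (centralChar ρ.character u • (LinearMap.id : (Fin d → ℂ) →ₗ[ℂ] (Fin d → ℂ))) * (centralChar ρ.character v • LinearMap.id) =
        (centralChar ρ.character u * centralChar ρ.character v) • (LinearMap.id : (Fin d → ℂ) →ₗ[ℂ] (Fin d → ℂ)) :=
      LinearMap.ext fun x => by simp [smul_smul, Module.End.mul_apply, mul_comm]
    rw [this, map_smul, LinearMap.trace_id, smul_eq_mul]
  have htr2 : LinearMap.trace ℂ (Fin d → ℂ) (classSumOp ρ u * classSumOp ρ v) =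
      ((classFinset u).card : ℂ) * ((classFinset v).card : ℂ) * ρ.character (u * v) := by
    have hexpand : classSumOp ρ u * classSumOp ρ v = ∑ x ∈ classFinset u, ∑ y ∈ classFinset v, ρ (x * y) := by
      unfold classSumOp
      rw [Finset.sum_mul_sum]
      refine Finset.sum_congr rfl (fun x _ => Finset.sum_congr rfl (fun y _ => ?_))
      rw [map_mul]
    rw [hexpand, map_sum]
    have : ∀ x ∈ classFinset u, LinearMap.trace ℂ (Fin d → ℂ) (∑ y ∈ classFinset v, ρ (x * y)) =
        ((classFinset v).card : ℂ) * ρ.character (u * v) := by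
      intro x hx
      rw [map_sum]
      have h2 : ∀ y ∈ classFinset v, LinearMap.trace ℂ (Fin d → ℂ) (ρ (x * y)) = ρ.character (u * v) := by
        intro y hy
        exact hc x y (mem_classFinset.1 hx) (mem_classFinset.1 hy)
      rw [Finset.sum_congr rfl h2, Finset.sum_const, nsmul_eq_mul]
    rw [Finset.sum_congr rfl this, Finset.sum_const, nsmul_eq_mul]
    ring
  have hmain := htr1.symm.trans htr2
  rw [card_classFinset, card_classFinset] at hmain
  unfold centralChar at hmain
  rw [hone] at hmain ⊢
  have hcu : ((Subgroup.centralizer ({u} : Set G)).index : ℂ) ≠ 0 := by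
    exact_mod_cast Subgroup.index_ne_zero_of_finite
  have hcv : ((Subgroup.centralizer ({v} : Set G)).index : ℂ) ≠ 0 := by
    exact_mod_cast Subgroup.index_ne_zero_of_finite
  set iu := ((Subgroup.centralizer ({u} : Set G)).index : ℂ)
  set iv := ((Subgroup.centralizer ({v} : Set G)).index : ℂ)
  set D := (finrank ℂ (Fin d → ℂ) : ℂ)
  field_simp at hmain
  linear_combination hmain

end Cfsg.Agent.S0943
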