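import Cfsg.Statements.S0944
import Cfsg.Agent.Lib.Lead.CharEigen
import Mathlib

set_option autoImplicit false

namespace Cfsg.Agent.S0944

open Module

/-- Let χ be an irreducible character of the finite group G and u an involution. Then χ u is a rational integer n with n ≡ χ 1 (mod 2). -/
theorem result {G : Type*} [Group G] [Finite G] (χ : Cfsg.IrrCharacter G) (u : G) (hu : orderOf u = 2) : ∃ n : ℤ, (χ : G → ℂ) u = (n : ℂ) ∧ (2 : ℤ) ∣ (Cfsg.charDegree (χ : G → ℂ) : ℤ) - n := by
  classical
  obtain ⟨χ, d, ρ, -, rfl⟩ := χ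
  obtain ⟨m, b, μ, hb, hμ⟩ := CfsgLib.Lead.rep_eigen_order ρ u
  have hdeg : Cfsg.charDegree ρ.character = d := by
    unfold Cfsg.charDegree
    rw [CfsgLib.Lead.character_one_eq]
    simp
  have hm : m = d := by
    have := CfsgLib.Char.finrank_eq_of_basis b
    simpa using this.symm
  have hsum := CfsgLib.Char.character_eq_sum ρ u b μ hb
  have hpm : ∀ i, μ i = 1 ∨ μ i = -1 := by
    intro i
    have h := hμ i
    rw [hu] at h
    rcases mul_eq_zero.1 (show (μ i - 1) * (μ i + 1) = 0 by linear_combination h) with h1 | h1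
    · left; linear_combination h1
    · right; linear_combination h1
  refine ⟨∑ i, (if μ i = 1 then (1 : ℤ) else -1), ?_, ?_⟩
  · show ρ.character u = _
    rw [hsum]
    push_cast
    refine Finset.sum_congr rfl (fun i _ => ?_)
    rcases hpm i with h | h
    · simp [h]
    · have : (-1 : ℂ) ≠ 1 := by norm_num
      simp [h, this]
  · rw [hdeg, ← hm]
    have e : (m : ℤ) = ∑ i : Fin m, (1 : ℤ) := by simp
    rw [e, ← Finset.sum_sub_distrib]
    refine Finset.dvd_sum (fun i _ => ?_)
    split_ifs
    · simp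
    · norm_num

end Cfsg.Agent.S0944
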