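import Cfsg.Statements.S0945
import Mathlib

set_option autoImplicit false
open Cfsg

namespace Cfsg.Agent.S0945

open Subgroup

private theorem zmod_two_mul (k : ℕ) (a : ZMod (2 ^ (k + 1))) (h : 2 * a = 0) :
    a = 0 ∨ a = ((2 ^ k : ℕ) : ZMod (2 ^ (k + 1))) := by
  haveI : NeZero (2 ^ (k + 1)) := ⟨by positivity⟩
  have hv : ((a.val : ℕ) : ZMod (2 ^ (k + 1))) = a := ZMod.natCast_zmod_val a
  have hlt : a.val < 2 ^ (k + 1) := ZMod.val_lt a
  have h1 : ((2 * a.val : ℕ) : ZMod (2 ^ (k + 1))) = 0 := by
    push_cast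
    rw [hv, h]
  have h2 : 2 ^ (k + 1) ∣ 2 * a.val := (ZMod.natCast_eq_zero_iff _ _).1 h1
  have key : ∀ v : ℕ, v < 2 ^ (k + 1) → 2 ^ (k + 1) ∣ 2 * v → v = 0 ∨ v = 2 ^ k := by
    intro v hv1 hv2
    have h3 : 2 ^ k ∣ v := by
      rw [pow_succ, mul_comm] at hv2
      exact Nat.dvd_of_mul_dvd_mul_left (by norm_num) hv2
    obtain ⟨t, ht⟩ := h3
    have h4 : t < 2 := by
      rw [ht, pow_succ] at hv1
      have : 0 < 2 ^ k := by positivity
      nlinarith
    interval_cases t
    · left; simpa using ht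
    · right; simpa using ht
  rcases key a.val hlt h2 with h5 | h5
  · left
    rw [← hv, h5]
    simp
  · right
    rw [← hv, h5]

/-- Elementary fact on permutations of a set of at most three points. -/
private theorem perm_three {X : Type*} [Fintype X] [DecidableEq X] (hX : Fintype.card X ≤ 3) (σ : Equiv.Perm X)
    (k : ℕ) (hk : Odd k) (hσ : σ ^ k = 1) (x : X) (hx : σ x = x) : σ = 1 := by
  by_contra hne
  have hct : σ.cycleType ≠ 0 := by
    rwa [Ne, Equiv.Perm.cycleType_eq_zero]
  obtain ⟨a, ha⟩ := Multiset.exists_mem_of_ne_zero hct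
  have h1 : a ∣ orderOf σ := Equiv.Perm.dvd_of_mem_cycleType ha
  have h2 : orderOf σ ∣ k := orderOf_dvd_of_pow_eq_one hσ
  have h3 : Odd a := hk.of_dvd_nat (h1.trans h2)
  have h4 : 2 ≤ a := Equiv.Perm.two_le_of_mem_cycleType ha
  have h5 : a ≤ σ.cycleType.sum := Multiset.single_le_sum (fun _ _ => Nat.zero_le _) a ha
  rw [Equiv.Perm.sum_cycleType] at h5
  have h6 : σ.support.card < Fintype.card X := by
    apply Finset.card_lt_univ_of_notMem (x := x)
    simpa using hx
  have : a = 3 ∨ 3 < a := by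
    obtain ⟨t, rfl⟩ := h3
    omega
  omega

/-- Let P be a Sylow 2-subgroup of the finite group G isomorphic to Z/2^m × Z/2^m with m ≥ 1. Then (i) the index of C_G(P) in N_G(P) is 1 or 3, and (ii) if it is not 1, then for every z ≠ 1 in P, C_G(z) ∩ N_G(P) = C_G(P). -/
theorem result {G : Type*} [Group G] [Finite G] (P : Sylow 2 G) (m : ℕ) (hm : 1 ≤ m) (e : (P : Subgroup G) ≃* Multiplicative (ZMod (2 ^ m) × ZMod (2 ^ m))) : ((Subgroup.centralizer (P : Set G)).relIndex (Subgroup.normalizer (P : Set G)) = 1 ∨ (Subgroup.centralizer (P : Set G)).relIndex (Subgroup.normalizer (P : Set G)) = 3) ∧ ((Subgroup.centralizer (P : Set G)).relIndex (Subgroup.normalizer (P : Set G)) ≠ 1 → ∀ z ∈ (P : Subgroup G), z ≠ 1 → Subgroup.centralizer ({z} : Set G) ⊓ Subgroup.normalizer (P : Set G) = Subgroup.centralizer (P : Set G)) := by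
  classical
  haveI : Fact (Nat.Prime 2) := ⟨Nat.prime_two⟩
  obtain ⟨C, hCdef⟩ : ∃ C : Subgroup G, C = Subgroup.centralizer (P : Set G) := ⟨_, rfl⟩
  obtain ⟨N, hNdef⟩ : ∃ N : Subgroup G, N = Subgroup.normalizer (P : Set G) := ⟨_, rfl⟩
  rw [← hCdef, ← hNdef]
  have hPab : ∀ a ∈ (P : Subgroup G), ∀ b ∈ (P : Subgroup G), a * b = b * a := by
    intro a ha b hb
    have := mul_comm (e ⟨a, ha⟩) (e ⟨b, hb⟩)
    rw [← map_mul, ← map_mul] at this
    exact congrArg Subtype.val (e.injective this)
  have hCmem : ∀ g, g ∈ C ↔ ∀ a ∈ (P : Subgroup G), a * g = g * a := by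
    intro g
    rw [hCdef, Subgroup.mem_centralizer_iff]
    rfl
  have hPC : (P : Subgroup G) ≤ C := fun a ha => (hCmem a).2 fun b hb => hPab b hb a ha
  have hCN : C ≤ N := by
    rw [hCdef, hNdef]
    exact Subgroup.centralizer_le_normalizer _
  have hCnN : (C.subgroupOf N).Normal := by
    rw [hCdef, hNdef]
    exact Subgroup.normal_subgroupOf_centralizer_normalizer _
  have hNmem : ∀ g ∈ N, ∀ a ∈ (P : Subgroup G), g * a * g⁻¹ ∈ (P : Subgroup G) := by
    intro g hg a ha
    have hg' : g ∈ Subgroup.normalizer ((P : Subgroup G) : Set G) := by rw [hNdef] at hg; exact hg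
    exact (Subgroup.mem_normalizer_iff.1 hg' a).1 ha
  obtain ⟨k, hk⟩ : ∃ k, k = C.relIndex N := ⟨_, rfl⟩
  rw [← hk]
  -- odd index
  have hodd : Odd k := by
    have h1 : (C.subgroupOf N).index * Nat.card (C.subgroupOf N) = Nat.card N := Subgroup.index_mul_card _
    have h2 : Nat.card (C.subgroupOf N) = Nat.card C := Nat.card_congr (Subgroup.subgroupOfEquivOfLe hCN).toEquiv
    rw [h2] at h1
    have h1' : k * Nat.card C = Nat.card N := h1 ▸ (by rw [hk]; rfl)
    obtain ⟨t, ht⟩ := Subgroup.card_dvd_of_le hPC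
    obtain ⟨u, hu⟩ := Subgroup.card_subgroup_dvd_card N
    have h3 := Subgroup.card_mul_index (P : Subgroup G)
    have h4 : Nat.card (P : Subgroup G) * (k * t * u) = Nat.card (P : Subgroup G) * (P : Subgroup G).index := by
      rw [h3, hu, ← h1', ht]; ring
    have h5 : k * t * u = (P : Subgroup G).index := Nat.eq_of_mul_eq_mul_left Nat.card_pos h4
    have h6 : ¬ 2 ∣ (P : Subgroup G).index := P.not_dvd_index
    rw [← Nat.not_even_iff_odd]
    intro he
    apply h6
    rw [← h5]
    exact Dvd.dvd.mul_right (Dvd.dvd.mul_right he.two_dvd _) _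
  have hgk : ∀ g ∈ N, g ^ k ∈ C := by
    intro g hg
    have h1 := Subgroup.pow_index_mem (C.subgroupOf N) (⟨g, hg⟩ : N)
    have h2 : (C.subgroupOf N).index = k := by rw [hk]; rfl
    rw [h2, Subgroup.mem_subgroupOf] at h1
    simpa using h1
  -- the involutions of P
  let X := {z : G // z ∈ (P : Subgroup G) ∧ z ^ 2 = 1 ∧ z ≠ 1}
  haveI : Fintype X := Fintype.ofFinite _
  have hXcard : Fintype.card X ≤ 3 := by
    obtain ⟨m', rfl⟩ : ∃ m', m = m' + 1 := ⟨m - 1, by omega⟩
    let t : ZMod (2 ^ (m' + 1)) := ((2 ^ m' : ℕ) : ZMod (2 ^ (m' + 1)))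
    let F : X → ZMod (2 ^ (m' + 1)) × ZMod (2 ^ (m' + 1)) := fun z => Multiplicative.toAdd (e ⟨z.1, z.2.1⟩)
    have hFinj : Function.Injective F := by
      intro a b hab
      have h1 := e.injective (Multiplicative.toAdd.injective hab)
      have h2 : ((⟨a.1, a.2.1⟩ : (P : Subgroup G)) : G) = ((⟨b.1, b.2.1⟩ : (P : Subgroup G)) : G) := by rw [h1]
      exact Subtype.ext h2
    have hFmem : ∀ z : X, F z ∈ ({(0, t), (t, 0), (t, t)} : Finset (ZMod (2 ^ (m' + 1)) × ZMod (2 ^ (m' + 1)))) := by
      intro z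
      have h1 : (e ⟨z.1, z.2.1⟩) ^ 2 = 1 := by
        rw [← map_pow]
        have : (⟨z.1, z.2.1⟩ : (P : Subgroup G)) ^ 2 = 1 := Subtype.ext z.2.2.1
        rw [this, map_one]
      have h2 : (2 : ℕ) • F z = 0 := by
        show (2 : ℕ) • Multiplicative.toAdd (e ⟨z.1, z.2.1⟩) = 0
        rw [← toAdd_pow, h1]
        rfl
      have h3 : 2 * (F z).1 = 0 := by
        have := congrArg Prod.fst h2
        simpa [two_mul, two_nsmul] using this
      have h4 : 2 * (F z).2 = 0 := by
        have := congrArg Prod.snd h2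
        simpa [two_mul, two_nsmul] using this
      have h5 : F z ≠ 0 := by
        intro h0
        apply z.2.2.2
        have h6 : e ⟨z.1, z.2.1⟩ = 1 := h0
        rw [map_eq_one_iff e e.injective] at h6
        exact congrArg Subtype.val h6
      have hFe : F z = ((F z).1, (F z).2) := rfl
      rcases zmod_two_mul m' _ h3 with h6 | h6 <;> rcases zmod_two_mul m' _ h4 with h7 | h7
      · exfalso
        apply h5
        rw [hFe, h6, h7]
        rfl
      · rw [hFe, h6, h7]; simp [t]
      · rw [hFe, h6, h7]; simp [t]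
      · rw [hFe, h6, h7]; simp [t]
    have h6 : Fintype.card X ≤ ({(0, t), (t, 0), (t, t)} : Finset (ZMod (2 ^ (m' + 1)) × ZMod (2 ^ (m' + 1)))).card := by
      rw [← Finset.card_univ]
      exact Finset.card_le_card_of_injOn F (fun z _ => hFmem z) (hFinj.injOn)
    exact h6.trans Finset.card_le_three
  -- the action
  let act : N → X → X := fun g z => ⟨(g : G) * z.1 * (g : G)⁻¹, hNmem g g.2 z.1 z.2.1, by
      rw [conj_pow, z.2.2.1]; simp, by
      intro h
      apply z.2.2.2
      have : (g : G) * z.1 * (g : G)⁻¹ = 1 := h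
      rw [mul_inv_eq_one] at this
      exact mul_left_cancel (a := (g : G)) (by rw [mul_one]; exact this)⟩
  have hact : ∀ (g : N) (z : X), (act g z).1 = (g : G) * z.1 * (g : G)⁻¹ := fun _ _ => rfl
  let φ : N →* Equiv.Perm X :=
    { toFun := fun g =>
        { toFun := act g
          invFun := act g⁻¹
          left_inv := fun z => by
            apply Subtype.ext
            simp only [hact]
            push_cast
            group
          right_inv := fun z => by
            apply Subtype.ext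
            simp only [hact]
            push_cast
            group }
      map_one' := by
        ext z
        show (act 1 z).1 = z.1
        simp [hact]
      map_mul' := fun a b => by
        ext z
        show (act (a * b) z).1 = (act a (act b z)).1
        simp only [hact]
        push_cast
        group }
  have hφ : ∀ (g : N) (z : X), ((φ g) z).1 = (g : G) * z.1 * (g : G)⁻¹ := fun _ _ => rfl
  -- Lemma A
  have hA : ∀ g : N, φ g = 1 → (g : G) ∈ C := by
    intro g hg
    have hw : ∀ w ∈ (P : Subgroup G), w ^ 2 = 1 → (g : G) * w * (g : G)⁻¹ = w := by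
      intro w hw1 hw2
      by_cases hw3 : w = 1
      · rw [hw3]; simp
      · have := congrArg (fun f : Equiv.Perm X => (f ⟨w, hw1, hw2, hw3⟩).1) hg
        exact this
    have hind : ∀ n : ℕ, ∀ a ∈ (P : Subgroup G), a ^ 2 ^ n = 1 → (g : G) * a * (g : G)⁻¹ = a := by
      intro n
      induction n with
      | zero =>
        intro a _ h
        rw [pow_zero, pow_one] at h
        rw [h]; simp
      | succ n ih =>
        intro a ha h
        have hb : (a ^ 2) ^ 2 ^ n = 1 := by
          rw [← pow_mul, ← h, pow_succ' 2 n]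
        have h1 := ih (a ^ 2) ((P : Subgroup G).pow_mem ha 2) hb
        have hc : (g : G) * a * (g : G)⁻¹ ∈ (P : Subgroup G) := hNmem g g.2 a ha
        obtain ⟨c, hcdef⟩ : ∃ c, c = (g : G) * a * (g : G)⁻¹ := ⟨_, rfl⟩
        rw [← hcdef] at hc ⊢
        obtain ⟨w, hwdef⟩ : ∃ w, w = c * a⁻¹ := ⟨_, rfl⟩
        have hwP : w ∈ (P : Subgroup G) := by
          rw [hwdef]; exact (P : Subgroup G).mul_mem hc ((P : Subgroup G).inv_mem ha)
        have hc2 : c ^ 2 = a ^ 2 := by
          rw [hcdef, conj_pow]; exact h1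
        have hw2 : w ^ 2 = 1 := by
          rw [hwdef, pow_two]
          have h2 := hPab a⁻¹ ((P : Subgroup G).inv_mem ha) c hc
          calc c * a⁻¹ * (c * a⁻¹) = c * (a⁻¹ * c) * a⁻¹ := by group
            _ = c * (c * a⁻¹) * a⁻¹ := by rw [h2]
            _ = c ^ 2 * (a ^ 2)⁻¹ := by rw [pow_two, pow_two]; group
            _ = 1 := by rw [hc2]; group
        have hwfix := hw w hwP hw2
        have hca : c = w * a := by rw [hwdef]; group
        have hpow : ∀ j : ℕ, ((g : G) ^ j) * a * ((g : G) ^ j)⁻¹ = w ^ j * a := by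
          intro j
          induction j with
          | zero => simp
          | succ j ihj =>
            calc (g : G) ^ (j + 1) * a * ((g : G) ^ (j + 1))⁻¹
                = (g : G) * ((g : G) ^ j * a * ((g : G) ^ j)⁻¹) * (g : G)⁻¹ := by
                  rw [pow_succ']; group
              _ = (g : G) * (w ^ j * a) * (g : G)⁻¹ := by rw [ihj]
              _ = ((g : G) * w ^ j * (g : G)⁻¹) * ((g : G) * a * (g : G)⁻¹) := by group
              _ = w ^ j * c := by rw [← conj_pow, hwfix, ← hcdef]
              _ = w ^ (j + 1) * a := by rw [hca, pow_succ]; group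
        have hgkg := hgk g g.2
        have h3 := ((hCmem _).1 hgkg) a ha
        have h4 := hpow k
        have h5 : (g : G) ^ k * a * ((g : G) ^ k)⁻¹ = a := by
          rw [← h3]; group
        rw [h5] at h4
        have h6 : w ^ k = 1 := by
          have : w ^ k * a = 1 * a := by rw [← h4, one_mul]
          exact mul_right_cancel this
        obtain ⟨l, hl⟩ := hodd
        have h7 : w = 1 := by
          rw [hl, pow_succ, pow_mul, hw2, one_pow, one_mul] at h6
          exact h6
        rw [hca, h7, one_mul]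
    rw [hCmem]
    intro a ha
    obtain ⟨n, hn⟩ := P.isPGroup' ⟨a, ha⟩
    have h1 := hind n a ha (by simpa using congrArg Subtype.val hn)
    rw [mul_inv_eq_iff_eq_mul] at h1
    exact h1.symm
  have hA' : ∀ g : N, (g : G) ∈ C → φ g = 1 := by
    intro g hg
    ext z
    show (act g z).1 = z.1
    rw [hact]
    have := ((hCmem _).1 hg) z.1 z.2.1
    rw [← this]; group
  have hker : φ.ker = C.subgroupOf N := by
    ext g
    rw [MonoidHom.mem_ker, Subgroup.mem_subgroupOf]
    exact ⟨hA g, hA' g⟩
  constructor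
  · have h1 : k = Nat.card φ.range := by
      rw [hk, ← Subgroup.index_ker, hker]
      rfl
    have h2 : Nat.card φ.range ∣ Nat.card (Equiv.Perm X) := Subgroup.card_subgroup_dvd_card _
    rw [Nat.card_eq_fintype_card (α := Equiv.Perm X), Fintype.card_perm, ← h1] at h2
    have h3 : (Fintype.card X).factorial ∣ 6 := by
      have : Fintype.card X = 0 ∨ Fintype.card X = 1 ∨ Fintype.card X = 2 ∨ Fintype.card X = 3 := by omega
      rcases this with h | h | h | h <;> rw [h] <;> decide
    have h4 : k ∣ 6 := h2.trans h3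
    have h5 : k ≤ 6 := Nat.le_of_dvd (by norm_num) h4
    obtain ⟨l, hl⟩ := hodd
    rcases (show l = 0 ∨ l = 1 ∨ l = 2 by omega) with rfl | rfl | rfl
    · left; omega
    · right; omega
    · exfalso
      rw [hl] at h4
      revert h4
      decide
  · intro _ z hz hz1
    apply le_antisymm
    · rintro g ⟨hg1, hg2⟩
      have hgc : g * z = z * g := Subgroup.mem_centralizer_singleton_iff.1 hg1
      obtain ⟨n, hn⟩ := P.isPGroup' ⟨z, hz⟩
      have hzn : z ^ 2 ^ n = 1 := by simpa using congrArg Subtype.val hn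
      have hd : orderOf z ∣ 2 ^ n := orderOf_dvd_of_pow_eq_one hzn
      obtain ⟨j, _, hj⟩ := (Nat.dvd_prime_pow Nat.prime_two).1 hd
      have hj0 : j ≠ 0 := by
        rintro rfl
        rw [pow_zero, orderOf_eq_one_iff] at hj
        exact hz1 hj
      obtain ⟨j', rfl⟩ : ∃ j', j = j' + 1 := ⟨j - 1, by omega⟩
      let w := z ^ 2 ^ j'
      have hwP : w ∈ (P : Subgroup G) := (P : Subgroup G).pow_mem hz _
      have hw2 : w ^ 2 = 1 := by
        show (z ^ 2 ^ j') ^ 2 = 1
        rw [← pow_mul, ← pow_succ, ← hj, pow_orderOf_eq_one]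
      have hw1 : w ≠ 1 := by
        apply pow_ne_one_of_lt_orderOf
        · positivity
        · rw [hj, pow_succ]
          have : 0 < 2 ^ j' := by positivity
          omega
      have hgw : g * w * g⁻¹ = w := by
        have : Commute g z := hgc
        have h2 : Commute g w := this.pow_right _
        rw [h2.eq]; group
      let x0 : X := ⟨w, hwP, hw2, hw1⟩
      have hfix : φ ⟨g, hg2⟩ x0 = x0 := Subtype.ext hgw
      have hσ : (φ ⟨g, hg2⟩) ^ k = 1 := by
        rw [← map_pow]
        apply hA'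
        exact hgk g hg2
      have h3 := perm_three hXcard (φ ⟨g, hg2⟩) k hodd hσ x0 hfix
      exact hA ⟨g, hg2⟩ h3
    · intro g hg
      refine Subgroup.mem_inf.2 ⟨?_, hCN hg⟩
      rw [Subgroup.mem_centralizer_singleton_iff]
      exact ((hCmem g).1 hg z hz).symm

end Cfsg.Agent.S0945
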