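import Cfsg.Statements.S0946
import Mathlib
-- import your own Cfsg.Agent.* helpers here

set_option autoImplicit false
open Cfsg

namespace Cfsg.Agent.S0946

section aux

variable {A : Type*} [CommGroup A]

theorem iter_fix_mul (α : A →* A) {x y : A} (hxy : α x = x * y) (hy : α y = y) (i : ℕ) :
    α^[i] x = x * y ^ i := by
  induction i with
  | zero => simp
  | succ i ih =>
    rw [Function.iterate_succ_apply', ih, map_mul, map_pow, hxy, hy, pow_succ]
    ac_rfl

theorem odd_iter {α : A →* A} {x : A} (h : α (α x) = x) (j : ℕ) : α^[2 * j + 1] x = α x := by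
  induction j with
  | zero => simp
  | succ j ih =>
    rw [show 2 * (j + 1) + 1 = (2 * j + 1) + 2 by ring, Function.iterate_add_apply]
    simp only [Function.iterate_succ, Function.iterate_zero, Function.comp_apply, id_eq]
    rw [h]
    exact ih

theorem fix_of_invol {α : A →* A} {r : ℕ} (hr : Odd r) (hit : ∀ x, α^[r] x = x) {x : A}
    (h : α (α x) = x) : α x = x := by
  obtain ⟨j, rfl⟩ := hr
  rw [← odd_iter h j, hit]

theorem fix_all {α : A →* A} {r : ℕ} (hr : Odd r) (hit : ∀ x, α^[r] x = x)
    (hinv : ∀ x, x * x = 1 → α x = x) (k : ℕ) : ∀ x : A, x ^ (2 ^ k) = 1 → α x = x := by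
  induction k with
  | zero => intro x hx; simp at hx; simp [hx]
  | succ k ih =>
    intro x hx
    have h1 : α (x * x) = x * x := by
      apply ih
      rw [← pow_two, ← pow_mul, ← pow_succ']
      exact hx
    set y := x⁻¹ * α x with hy
    have hy2 : y * y = 1 := by
      rw [hy]
      have : α x * α x = x * x := by rw [← map_mul, h1]
      calc x⁻¹ * α x * (x⁻¹ * α x) = (x * x)⁻¹ * (α x * α x) := by
            rw [mul_inv]; ac_rfl
        _ = 1 := by rw [this]; simp
    have hyf : α y = y := hinv y hy2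
    have hxy : α x = x * y := by rw [hy]; simp
    have h2 := iter_fix_mul α hxy hyf r
    rw [hit] at h2
    obtain ⟨j, rfl⟩ := hr
    have hyr : y ^ (2 * j + 1) = y := by
      rw [pow_succ, pow_mul, pow_two, hy2]; simp
    rw [hyr] at h2
    rw [hxy]
    exact h2.symm

theorem perm_cases {α : A →* A} {r : ℕ} (hr : Odd r) (hit : ∀ x, α^[r] x = x) {a b : A}
    (ha : a * a = 1) (hb : b * b = 1) (ha1 : a ≠ 1) (hb1 : b ≠ 1) (hab : a ≠ b)
    (hall : ∀ x : A, x * x = 1 → x = 1 ∨ x = a ∨ x = b ∨ x = a * b)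
    (hne : ¬ ∀ x, x * x = 1 → α x = x) :
    (α a = b ∧ α b = a * b) ∨ (α a = a * b ∧ α (a * b) = b) := by
  have hinj : Function.Injective α := by
    intro x y hxy
    rw [← hit x, ← hit y]
    obtain ⟨j, rfl⟩ := hr
    rw [show 2 * j + 1 = (2 * j) + 1 by rfl, Function.iterate_succ_apply, Function.iterate_succ_apply, hxy]
  have hab' : a * b * (a * b) = 1 := by
    calc a * b * (a * b) = (a * a) * (b * b) := by ac_rfl
      _ = 1 := by rw [ha, hb]; simp
  have hab1 : a * b ≠ 1 := by
    intro h
    apply hab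
    have : a = b⁻¹ := eq_inv_of_mul_eq_one_left h
    rw [this]
    exact inv_eq_of_mul_eq_one_left hb
  have hab2 : a * b ≠ a := by
    intro h
    exact hb1 (by simpa using h)
  have hab3 : a * b ≠ b := by
    intro h
    exact ha1 (by simpa using h)
  have himg : ∀ x, x * x = 1 → x ≠ 1 → α x = a ∨ α x = b ∨ α x = a * b := by
    intro x hx hx1
    have h1 : α x * α x = 1 := by rw [← map_mul, hx, map_one]
    have h2 : α x ≠ 1 := fun h => hx1 (hinj (by rw [h, map_one]))
    rcases hall _ h1 with h | h | h | h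
    · exact absurd h h2
    · exact Or.inl h
    · exact Or.inr (Or.inl h)
    · exact Or.inr (Or.inr h)
  rcases himg a ha ha1 with h1 | h1 | h1
  · -- α a = a
    exfalso
    rcases himg b hb hb1 with h2 | h2 | h2
    · exact hab (hinj (by rw [h1, h2]))
    · apply hne
      intro x hx
      rcases hall x hx with rfl | rfl | rfl | rfl
      · exact map_one _
      · exact h1
      · exact h2
      · rw [map_mul, h1, h2]
    · have h3 : α (α b) = b := by
        rw [h2, map_mul, h1, h2]
        calc a * (a * b) = (a * a) * b := by ac_rfl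
          _ = b := by rw [ha]; simp
      have := fix_of_invol hr hit h3
      rw [h2] at this
      exact hab3 this
  · -- α a = b
    left
    refine ⟨h1, ?_⟩
    rcases himg b hb hb1 with h2 | h2 | h2
    · exfalso
      have h3 : α (α a) = a := by rw [h1, h2]
      have := fix_of_invol hr hit h3
      rw [h1] at this
      exact hab this.symm
    · exfalso
      exact hab (hinj (by rw [h1, h2]))
    · exact h2
  · -- α a = a * b
    right
    refine ⟨h1, ?_⟩
    rcases himg (a * b) hab' hab1 with h2 | h2 | h2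
    · exfalso
      have h3 : α (α a) = a := by rw [h1, h2]
      have := fix_of_invol hr hit h3
      rw [h1] at this
      exact hab2 this
    · exact h2
    · exfalso
      exact hab2 (hinj (by rw [h1, h2]))

theorem zmod_double {m : ℕ} (hm : 1 ≤ m) (x : ZMod (2 ^ m)) (hx : x + x = 0) :
    x = 0 ∨ x = ((2 ^ (m - 1) : ℕ) : ZMod (2 ^ m)) := by
  obtain ⟨n, rfl⟩ : ∃ n, m = n + 1 := ⟨m - 1, by omega⟩
  simp only [Nat.add_sub_cancel]
  haveI : NeZero (2 ^ (n + 1)) := ⟨by positivity⟩
  have h1 : ((x.val + x.val : ℕ) : ZMod (2 ^ (n + 1))) = 0 := by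
    push_cast
    rw [ZMod.natCast_zmod_val]
    exact hx
  rw [ZMod.natCast_eq_zero_iff] at h1
  have h2 : x.val < 2 ^ (n + 1) := ZMod.val_lt x
  obtain ⟨v, hv⟩ : ∃ v, v = x.val := ⟨_, rfl⟩
  rw [← hv] at h1 h2
  have e2 : (2 : ℕ) ^ (n + 1) = 2 ^ n * 2 := pow_succ 2 n
  rw [e2] at h1 h2
  have h3 : 2 ^ n ∣ v := by
    obtain ⟨c, hc⟩ := h1
    exact ⟨c, by nlinarith⟩
  obtain ⟨c, hc⟩ := h3
  have h4 : c < 2 := by
    by_contra hcon
    have : 2 ^ n * 2 ≤ 2 ^ n * c := Nat.mul_le_mul_left _ (by omega)
    omega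
  have hx' : x = (v : ZMod (2 ^ (n + 1))) := by rw [hv]; exact (ZMod.natCast_zmod_val x).symm
  interval_cases c
  · left
    rw [hx', hc]; simp
  · right
    rw [hx', hc]; simp

end aux

/-- The conjugation endomorphism of `P`. -/
def conjOn {G : Type*} [Group G] (P : Subgroup G) (h : G) (hh : h ∈ Subgroup.normalizer (P : Set G)) : P →* P where
  toFun x := ⟨h * x * h⁻¹, (Subgroup.mem_normalizer_iff.mp hh x).mp x.2⟩
  map_one' := by ext; simp
  map_mul' x y := by ext; simp [mul_assoc]

theorem conjOn_iter {G : Type*} [Group G] (P : Subgroup G) (h : G) (hh : h ∈ Subgroup.normalizer (P : Set G)) (i : ℕ)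
    (x : P) : (((conjOn P h hh)^[i] x : P) : G) = h ^ i * x * (h ^ i)⁻¹ := by
  induction i with
  | zero => simp
  | succ i ih =>
    rw [Function.iterate_succ_apply']
    show h * (((conjOn P h hh)^[i] x : P) : G) * h⁻¹ = _
    rw [ih, pow_succ']
    group

/-- Let P be a Sylow 2-subgroup of the finite group G isomorphic to Z/2^m × Z/2^m with m ≥ 1. Then either P has a normal complement in G, or all involutions of G are conjugate. -/
theorem result {G : Type*} [Group G] [Finite G] (P : Sylow 2 G) (m : ℕ) (hm : 1 ≤ m) (e : (P : Subgroup G) ≃* Multiplicative (ZMod (2 ^ m) × ZMod (2 ^ m))) : (∃ N : Subgroup G, N.Normal ∧ Subgroup.IsComplement' N (P : Subgroup G)) ∨ ∀ s t : G, orderOf s = 2 → orderOf t = 2 → IsConj s t := by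
  classical
  by_cases hN : Subgroup.normalizer ((P : Subgroup G) : Set G) ≤ Subgroup.centralizer ((P : Subgroup G) : Set G)
  · left
    exact ⟨_, MonoidHom.normal_ker _, MonoidHom.ker_transferSylow_isComplement' P hN⟩
  right
  -- the abelian group
  set A := Multiplicative (ZMod (2 ^ m) × ZMod (2 ^ m)) with hA
  have hPcomm : ∀ x y : (P : Subgroup G), x * y = y * x := by
    intro x y
    apply e.injective
    rw [map_mul, map_mul, mul_comm]
  have hPc : ∀ x ∈ (P : Subgroup G), ∀ y ∈ (P : Subgroup G), x * y = y * x := by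
    intro x hx y hy
    have := hPcomm ⟨x, hx⟩ ⟨y, hy⟩
    simpa [Subtype.ext_iff] using this
  -- odd element acting nontrivially
  obtain ⟨g, hgN, hgC⟩ := Set.not_subset.mp hN
  obtain ⟨k, r, hrodd, hkr⟩ : ∃ k r : ℕ, Odd r ∧ orderOf g = 2 ^ k * r := by
    obtain ⟨k, r, hr, h⟩ := Nat.exists_eq_pow_mul_and_not_dvd (orderOf_pos g).ne' 2 (by norm_num)
    exact ⟨k, r, Nat.odd_iff.mpr (by omega), h⟩
  set h := g ^ (2 ^ k) with hh
  have hhN : h ∈ Subgroup.normalizer ((P : Subgroup G) : Set G) := Subgroup.pow_mem _ hgN _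
  have hhr : h ^ r = 1 := by
    rw [hh, ← pow_mul, ← hkr, pow_orderOf_eq_one]
  have hg2 : g ^ r ∈ (P : Subgroup G) := by
    have h3 : (g ^ r) ^ (2 ^ k) = 1 := by
      rw [← pow_mul, mul_comm, ← hkr, pow_orderOf_eq_one]
    have h2 : IsPGroup 2 (Subgroup.zpowers (g ^ r)) := by
      rintro ⟨y, hy⟩
      refine ⟨k, ?_⟩
      obtain ⟨i, rfl⟩ := Subgroup.mem_zpowers_iff.mp hy
      ext
      simp only [Subgroup.coe_pow, Subgroup.coe_one]
      rw [← zpow_natCast, ← zpow_mul, mul_comm, zpow_mul, zpow_natCast, h3, one_zpow]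
    have h5 : Subgroup.zpowers (g ^ r) ≤ Subgroup.normalizer ((P : Subgroup G) : Set G) := by
      rw [Subgroup.zpowers_le]
      exact Subgroup.pow_mem _ hgN _
    have h6 := IsPGroup.to_sup_of_normal_right' h2 P.isPGroup' h5
    have h7 := P.is_maximal' h6 le_sup_right
    have : g ^ r ∈ Subgroup.zpowers (g ^ r) ⊔ (P : Subgroup G) :=
      Subgroup.mem_sup_left (Subgroup.mem_zpowers _)
    rwa [h7] at this
  -- `h` does not centralize `P`
  have hhC : h ∉ Subgroup.centralizer ((P : Subgroup G) : Set G) := by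
    intro hc
    apply hgC
    have hcop : IsCoprime ((2 ^ k : ℕ) : ℤ) (r : ℤ) := by
      rw [Nat.isCoprime_iff_coprime]
      exact Nat.Coprime.pow_left _ (Nat.coprime_two_left.mpr hrodd)
    obtain ⟨a, b, hab⟩ := hcop
    have hg2C : g ^ r ∈ Subgroup.centralizer ((P : Subgroup G) : Set G) := by
      rw [Subgroup.mem_centralizer_iff]
      intro y hy
      exact hPc y hy _ hg2
    have : g = h ^ a * (g ^ r) ^ b := by
      rw [hh, ← zpow_natCast g (2 ^ k), ← zpow_natCast g r, ← zpow_mul, ← zpow_mul, ← zpow_add]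
      have : ((2 ^ k : ℕ) : ℤ) * a + (r : ℤ) * b = 1 := by linarith
      rw [this, zpow_one]
    rw [this]
    exact Subgroup.mul_mem _ (Subgroup.zpow_mem _ hc _) (Subgroup.zpow_mem _ hg2C _)
  -- the endomorphism of `A`
  set φ := conjOn (P : Subgroup G) h hhN with hφ
  let α : A →* A := e.toMonoidHom.comp (φ.comp e.symm.toMonoidHom)
  have hαit : ∀ (i : ℕ) (x : A), α^[i] x = e (φ^[i] (e.symm x)) := by
    intro i
    induction i with
    | zero => intro x; simp
    | succ i ih =>
      intro x
      rw [Function.iterate_succ_apply', ih, Function.iterate_succ_apply']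
      simp [α]
  have hit : ∀ x : A, α^[r] x = x := by
    intro x
    rw [hαit]
    have : φ^[r] (e.symm x) = e.symm x := by
      ext
      rw [conjOn_iter, hhr]; simp
    rw [this]; simp
  have hconj : ∀ x : A, IsConj ((e.symm x : P) : G) ((e.symm (α x) : P) : G) := by
    intro x
    rw [isConj_iff]
    refine ⟨h, ?_⟩
    simp [α, hφ, conjOn]
  -- the involutions
  have hpow : ∀ x : A, x ^ (2 ^ m) = 1 := by
    intro x
    have : x = Multiplicative.ofAdd (Multiplicative.toAdd x) := rfl
    rw [this, ← ofAdd_nsmul]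
    apply Multiplicative.toAdd.injective
    have h0 : ((2 : ZMod (2 ^ m)) ^ m) = 0 := by exact_mod_cast ZMod.natCast_self (2 ^ m)
    ext <;> simp [h0]
  set n := ((2 ^ (m - 1) : ℕ) : ZMod (2 ^ m)) with hn
  have hn2 : n + n = 0 := by
    obtain ⟨c, rfl⟩ : ∃ c, m = c + 1 := ⟨m - 1, by omega⟩
    rw [hn]
    simp only [Nat.add_sub_cancel]
    rw [← Nat.cast_add, ← two_mul, ← pow_succ', ZMod.natCast_self]
  have hn0 : n ≠ 0 := by
    obtain ⟨c, rfl⟩ : ∃ c, m = c + 1 := ⟨m - 1, by omega⟩
    rw [hn]
    simp only [Nat.add_sub_cancel]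
    rw [Ne, ZMod.natCast_eq_zero_iff]
    intro hdvd
    have := Nat.le_of_dvd (by positivity) hdvd
    rw [pow_succ] at this
    have h2c : 0 < 2 ^ c := by positivity
    omega
  set a : A := Multiplicative.ofAdd (n, 0) with ha
  set b : A := Multiplicative.ofAdd (0, n) with hb
  have haa : a * a = 1 := by
    rw [ha, ← ofAdd_add]
    apply Multiplicative.toAdd.injective
    ext <;> simp [hn2]
  have hbb : b * b = 1 := by
    rw [hb, ← ofAdd_add]
    apply Multiplicative.toAdd.injective
    ext <;> simp [hn2]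
  have ha1 : a ≠ 1 := by
    intro hc
    apply hn0
    have := congrArg (fun z : A => (Multiplicative.toAdd z).1) hc
    simpa [ha] using this
  have hb1 : b ≠ 1 := by
    intro hc
    apply hn0
    have := congrArg (fun z : A => (Multiplicative.toAdd z).2) hc
    simpa [hb] using this
  have hab : a ≠ b := by
    intro hc
    apply hn0
    have := congrArg (fun z : A => (Multiplicative.toAdd z).1) hc
    simpa [ha, hb] using this
  have hall : ∀ x : A, x * x = 1 → x = 1 ∨ x = a ∨ x = b ∨ x = a * b := by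
    intro x hx
    have h1 : (Multiplicative.toAdd x).1 + (Multiplicative.toAdd x).1 = 0 := by
      have := congrArg (fun z : A => (Multiplicative.toAdd z).1) hx
      exact this
    have h2 : (Multiplicative.toAdd x).2 + (Multiplicative.toAdd x).2 = 0 := by
      have := congrArg (fun z : A => (Multiplicative.toAdd z).2) hx
      exact this
    have hxe : x = Multiplicative.ofAdd ((Multiplicative.toAdd x).1, (Multiplicative.toAdd x).2) := rfl
    rcases zmod_double hm _ h1 with h3 | h3 <;> rcases zmod_double hm _ h2 with h4 | h4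
    · left
      rw [hxe, h3, h4]; rfl
    · right; right; left
      rw [hxe, h3, h4]
    · right; left
      rw [hxe, h3, h4]
    · right; right; right
      have h3' : (Multiplicative.toAdd x).1 = n := h3
      have h4' : (Multiplicative.toAdd x).2 = n := h4
      rw [hxe, h3', h4', ha, hb, ← ofAdd_add, Prod.mk_add_mk, add_zero, zero_add]
  -- `α` is nontrivial on involutions
  have hne : ¬ ∀ x : A, x * x = 1 → α x = x := by
    intro hfix
    apply hhC
    rw [Subgroup.mem_centralizer_iff]
    intro y hy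
    have hod := fix_all hrodd hit hfix m (e ⟨y, hy⟩) (hpow _)
    have h1 : φ ⟨y, hy⟩ = ⟨y, hy⟩ := by
      apply e.injective
      have : α (e ⟨y, hy⟩) = e (φ ⟨y, hy⟩) := by simp [α]
      rw [← this, hod]
    have h2 : h * y * h⁻¹ = y := congrArg Subtype.val h1
    calc y * h = (h * y * h⁻¹) * h := by rw [h2]
      _ = h * y := by group
  have hconj3 : IsConj ((e.symm a : P) : G) ((e.symm b : P) : G) ∧ IsConj ((e.symm a : P) : G) ((e.symm (a * b) : P) : G) := by
    rcases perm_cases hrodd hit haa hbb ha1 hb1 hab hall hne with ⟨h1, h2⟩ | ⟨h1, h2⟩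
    · have c1 := hconj a
      have c2 := hconj b
      rw [h1] at c1
      rw [h2] at c2
      exact ⟨c1, c1.trans c2⟩
    · have c1 := hconj a
      have c2 := hconj (a * b)
      rw [h1] at c1
      rw [h2] at c2
      exact ⟨c1.trans c2, c1⟩
  -- every involution of `G`
  have hkey : ∀ s : G, orderOf s = 2 → IsConj s ((e.symm a : P) : G) := by
    intro s hs
    obtain ⟨Q, hQ⟩ : ∃ Q : Sylow 2 G, s ∈ (Q : Subgroup G) := by
      have : IsPGroup 2 (Subgroup.zpowers s) := by
        rw [IsPGroup.iff_card, Nat.card_zpowers, hs]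
        exact ⟨1, by norm_num⟩
      obtain ⟨Q, hQ⟩ := this.exists_le_sylow
      exact ⟨Q, hQ (Subgroup.mem_zpowers s)⟩
    obtain ⟨c, hc⟩ := MulAction.exists_smul_eq G Q P
    have hs' : c * s * c⁻¹ ∈ (P : Subgroup G) := by
      rw [← hc]
      rw [Sylow.coe_subgroup_smul]
      exact Subgroup.mem_map_of_mem _ hQ
    have hsc : IsConj s (c * s * c⁻¹) := by
      rw [isConj_iff]; exact ⟨c, rfl⟩
    have hs2 : s * s = 1 := by
      rw [← pow_two, ← hs, pow_orderOf_eq_one]
    have hs1 : s ≠ 1 := by
      rintro rfl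
      simp at hs
    have hy2 : (c * s * c⁻¹) * (c * s * c⁻¹) = 1 := by
      calc (c * s * c⁻¹) * (c * s * c⁻¹) = c * (s * s) * c⁻¹ := by group
        _ = 1 := by rw [hs2]; simp
    have hy1 : c * s * c⁻¹ ≠ 1 := by
      intro hc1
      apply hs1
      have : c * s = c := by
        calc c * s = (c * s * c⁻¹) * c := by group
          _ = c := by rw [hc1]; simp
      simpa using this
    set y : (P : Subgroup G) := ⟨c * s * c⁻¹, hs'⟩ with hy
    have hyy : y * y = 1 := by ext; exact hy2
    have hy1' : y ≠ 1 := fun h => hy1 (congrArg Subtype.val h)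
    have hex : e y * e y = 1 := by rw [← map_mul, hyy, map_one]
    have hsy : IsConj s ((e.symm (e y) : P) : G) := by
      rw [MulEquiv.symm_apply_apply]; exact hsc
    rcases hall _ hex with h1 | h1 | h1 | h1
    · exfalso
      apply hy1'
      apply e.injective
      rw [h1, map_one]
    · rw [h1] at hsy; exact hsy
    · rw [h1] at hsy; exact hsy.trans hconj3.1.symm
    · rw [h1] at hsy; exact hsy.trans hconj3.2.symm
  intro s t hs ht
  exact (hkey s hs).trans (hkey t ht).symm

end Cfsg.Agent.S0946
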