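import Cfsg.Statements.S0948
import Cfsg.Agent.Lib.Block.V4

set_option autoImplicit false
open Cfsg

namespace Cfsg.Agent.S0948

/-- Let the finite group G have a Sylow 2-subgroup P that is a Klein four-group, suppose all involutions of G are conjugate, and fix a maximal ideal M of the algebraic integers containing 2. Then the principal block consists of exactly four irreducible characters, the principal character and ζ₂, ζ₃, ζ₄, and there is a sign ε such that for every involution z: ζ₂ z = 1, ζ₃ z = ε, ζ₄ z = -1; moreover ζ₂ 1 ≡ 1, ζ₃ 1 ≡ ε, ζ₄ 1 ≡ -1 (mod 4), and 1 + ζ₂ y + ε ζ₃ y - ζ₄ y = 0 for every y of odd order. -/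
theorem result {G : Type*} [Group G] [Finite G] (M : Ideal Cfsg.AlgInt) (hM : Cfsg.IsPModular 2 M) (P : Sylow 2 G) (hP : IsKleinFour (P : Subgroup G)) (hone : ∀ s t : G, orderOf s = 2 → orderOf t = 2 → IsConj s t) : ∃ ζ₂ ζ₃ ζ₄ : Cfsg.IrrCharacter G, ∃ ε : ℤ, (ε = 1 ∨ ε = -1) ∧ (ζ₂ : G → ℂ) ≠ (fun _ => 1) ∧ (ζ₃ : G → ℂ) ≠ (fun _ => 1) ∧ ζ₂ ≠ ζ₃ ∧ ζ₂ ≠ ζ₄ ∧ ζ₃ ≠ ζ₄ ∧ Cfsg.principalBlock M G = {χ : Cfsg.IrrCharacter G | (χ : G → ℂ) = (fun _ => 1) ∨ χ = ζ₂ ∨ χ = ζ₃ ∨ χ = ζ₄} ∧ (∀ z : G, orderOf z = 2 → (ζ₂ : G → ℂ) z = 1 ∧ (ζ₃ : G → ℂ) z = (ε : ℂ) ∧ (ζ₄ : G → ℂ) z = -1) ∧ (4 : ℤ) ∣ (Cfsg.charDegree (ζ₂ : G → ℂ) : ℤ) - 1 ∧ (4 : ℤ) ∣ (Cfsg.charDegree (ζ₃ : G → ℂ) : ℤ) - ε ∧ (4 : ℤ) ∣ (Cfsg.charDegree (ζ₄ : G → ℂ) : ℤ) + 1 ∧ ∀ y : G, Odd (orderOf y) → 1 + (ζ₂ : G → ℂ) y + (ε : ℂ) * (ζ₃ : G → ℂ) y - (ζ₄ : G → ℂ) y = 0 := by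
  classical
  letI : Fintype G := Fintype.ofFinite G
  have hPr := hM.isPrime
  have hV : CfsgLib.Block.V4S G := CfsgLib.Block.V4S.of_sylow P hP.card_four (fun x => by
    have h := Monoid.pow_exponent_eq_one (G := ↥(P : Subgroup G)) x
    rw [hP.exponent_two, pow_two] at h
    exact h)
  obtain ⟨t, ht⟩ := hV.exists_involution
  obtain ⟨d, ζ₂, ζ₃, ζ₄, ε, hε, h21, h31, h41, h23, h24, h34, hT, hd1, hd2, hd3, hd4, hd0, hdpm, hval, hodd, horth, hdeg⟩ :=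
    CfsgLib.Block.v4_main hM hV hone ht
  have hmem : ∀ χ, χ ∈ Cfsg.principalBlock M G ↔ χ = CfsgLib.Block.oneIrr G ∨ χ = ζ₂ ∨ χ = ζ₃ ∨ χ = ζ₄ := by
    intro χ
    have h : χ ∈ Finset.univ.filter (· ∈ Cfsg.principalBlock M G) ↔ χ ∈ ({CfsgLib.Block.oneIrr G, ζ₂, ζ₃, ζ₄} : Finset (Cfsg.IrrCharacter G)) := by
      rw [hT]
    simpa using h
  have h1' : ∀ χ : Cfsg.IrrCharacter G, χ = CfsgLib.Block.oneIrr G ↔ (χ : G → ℂ) = (fun _ => 1) := by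
    intro χ
    constructor
    · rintro rfl
      rfl
    · intro h
      exact Subtype.ext h
  have hz2 := (hmem ζ₂).2 (Or.inr (Or.inl rfl))
  have hz3 := (hmem ζ₃).2 (Or.inr (Or.inr (Or.inl rfl)))
  have hz4 := (hmem ζ₄).2 (Or.inr (Or.inr (Or.inr rfl)))
  refine ⟨ζ₂, ζ₃, ζ₄, ε, hε, fun h => h21 ((h1' _).2 h), fun h => h31 ((h1' _).2 h), h23, h24, h34, ?_, ?_, ?_, ?_, ?_, ?_⟩
  · ext χ
    rw [hmem, h1']
    rfl
  · intro z hz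
    have h2z : 2 ∣ orderOf z := by rw [hz]
    refine ⟨?_, ?_, ?_⟩
    · rw [hval _ hz2 z h2z, hd2]; simp
    · rw [hval _ hz3 z h2z, hd3]
    · rw [hval _ hz4 z h2z, hd4]; simp
  · have := hdeg _ hz2
    rwa [hd2] at this
  · have := hdeg _ hz3
    rwa [hd3] at this
  · have := hdeg _ hz4
    rw [hd4] at this
    simpa using this
  · intro y hy
    exact horth y hy.not_two_dvd_nat

end Cfsg.Agent.S0948
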