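import Cfsg.Statements.S0951
import Cfsg.Agent.Lib.Block.Q8Rank
import Cfsg.Agent.S4511
import Cfsg.Agent.S0201
import Cfsg.Agent.Lib.Block.Nil2

set_option autoImplicit false
open Cfsg

namespace Cfsg.Agent.S0951

/-- Let S be a Sylow 2-subgroup of the finite group G isomorphic to the quaternion group of order 8. Suppose G has no nontrivial normal subgroup of odd order and G ≠ S. Then, relative to any maximal ideal M of the algebraic integers containing 2, the principal block of G consists of exactly 7 irreducible characters. -/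
theorem result {G : Type*} [Group G] [Finite G] (M : Ideal Cfsg.AlgInt) (hM : Cfsg.IsPModular 2 M) (S : Sylow 2 G) (e : (S : Subgroup G) ≃* QuaternionGroup 2) (hO : ∀ N : Subgroup G, N.Normal → Odd (Nat.card N) → N = ⊥) (hG : (S : Subgroup G) ≠ ⊤) : Nat.card (Cfsg.principalBlock M G) = 7 := by
  classical
  letI : Fintype G := Fintype.ofFinite G
  haveI : Fact (Nat.Prime 2) := ⟨Nat.prime_two⟩
  have hcen : Nat.card (Subgroup.center G) = 2 := Cfsg.Agent.S0201.result S 0 e hO
  obtain ⟨zc, hzc0⟩ := exists_prime_orderOf_dvd_card' (G := Subgroup.center G) 2 (by rw [hcen])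
  obtain ⟨z, hzm⟩ := zc
  have hzord : orderOf z = 2 := by rw [← hzc0, Subgroup.orderOf_mk]
  have hz2 : z * z = 1 := by
    have := pow_orderOf_eq_one z
    rwa [hzord, sq] at this
  have hz1 : z ≠ 1 := by
    rintro rfl
    simp at hzord
  have hzc : ∀ g, z * g = g * z := fun g => (Subgroup.mem_center_iff.1 hzm g).symm
  have hzS : z ∈ S := by
    obtain ⟨w, hw⟩ := CfsgLib.Block.exists_conj_mem_sylow (p := 2) S z 1 (by rw [hzord]; rfl)
    rw [← hzc w] at hw
    simpa using hw
  have hQcard : Nat.card S = 8 := by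
    rw [Nat.card_congr e.toEquiv, Nat.card_eq_fintype_card, QuaternionGroup.card]
  have hez : e ⟨z, hzS⟩ = QuaternionGroup.a 2 := by
    have h0 : e ⟨z, hzS⟩ * e ⟨z, hzS⟩ = 1 := by
      rw [← map_mul]
      have : (⟨z, hzS⟩ * ⟨z, hzS⟩ : S) = 1 := Subtype.ext hz2
      rw [this, map_one]
    rcases CfsgLib.Block.q8_inv _ h0 with h | h
    · exfalso
      have := (map_eq_one_iff e e.injective).1 h
      exact hz1 (congrArg Subtype.val this)
    · exact h
  have hsq : ∀ t ∈ S, t * t = 1 ∨ t * t = z := by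
    intro t ht
    rcases CfsgLib.Block.q8_sq (e ⟨t, ht⟩) with h | h
    · left
      rw [← map_mul] at h
      exact congrArg Subtype.val ((map_eq_one_iff e e.injective).1 h)
    · right
      rw [← map_mul, ← hez] at h
      exact congrArg Subtype.val (e.injective h)
  have hinvS : ∀ t ∈ S, t * t = 1 → t = 1 ∨ t = z := by
    intro t ht htt
    have h0 : e ⟨t, ht⟩ * e ⟨t, ht⟩ = 1 := by
      rw [← map_mul]
      have : (⟨t, ht⟩ * ⟨t, ht⟩ : S) = 1 := Subtype.ext htt
      rw [this, map_one]
    rcases CfsgLib.Block.q8_inv _ h0 with h | h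
    · left
      exact congrArg Subtype.val ((map_eq_one_iff e e.injective).1 h)
    · right
      rw [← hez] at h
      exact congrArg Subtype.val (e.injective h)
  have hroot : ∀ t (ht : t ∈ S), t * t = z → e ⟨t, ht⟩ * e ⟨t, ht⟩ = QuaternionGroup.a 2 := by
    intro t ht htt
    rw [← map_mul, ← hez]
    congr 1
    exact Subtype.ext htt
  have htinv : ∀ t ∈ S, t * t = z → ∃ s : G, s * t * s⁻¹ = t⁻¹ := by
    intro t ht htt
    obtain ⟨s, hs⟩ := CfsgLib.Block.q8_conj _ (hroot t ht htt)
    refine ⟨((e.symm s : S) : G), ?_⟩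
    have h2 : e.symm s * ⟨t, ht⟩ * (e.symm s)⁻¹ = (⟨t, ht⟩ : S)⁻¹ := by
      apply e.injective
      rw [map_mul, map_mul, map_inv, map_inv, MulEquiv.apply_symm_apply, hs]
    exact congrArg Subtype.val h2
  have hcentS : ∀ t ∈ S, ∀ u ∈ S, t * t = z → u * t = t * u → u = 1 ∨ u = z ∨ u = t ∨ u = t⁻¹ := by
    intro t ht u hu htt hut
    have h1 : e ⟨u, hu⟩ * e ⟨t, ht⟩ = e ⟨t, ht⟩ * e ⟨u, hu⟩ := by
      rw [← map_mul, ← map_mul]
      congr 1
      exact Subtype.ext hut
    rcases CfsgLib.Block.q8_cent _ _ (hroot t ht htt) h1 with h | h | h | h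
    · left
      exact congrArg Subtype.val ((map_eq_one_iff e e.injective).1 h)
    · right; left
      rw [← hez] at h
      exact congrArg Subtype.val (e.injective h)
    · right; right; left
      exact congrArg Subtype.val (e.injective h)
    · right; right; right
      rw [← map_inv] at h
      exact congrArg Subtype.val (e.injective h)
  have hGinv : ∀ t : G, t * t = 1 → t = 1 ∨ t = z := by
    intro t ht
    by_cases ht1 : t = 1
    · exact Or.inl ht1
    right
    have ho : orderOf t = 2 := orderOf_eq_prime (by rw [sq, ht]) ht1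
    obtain ⟨w, hw⟩ := CfsgLib.Block.exists_conj_mem_sylow (p := 2) S t 1 (by rw [ho]; rfl)
    have h2 : (w * t * w⁻¹) * (w * t * w⁻¹) = 1 := by
      have : (w * t * w⁻¹) * (w * t * w⁻¹) = w * (t * t) * w⁻¹ := by group
      rw [this, ht]
      group
    rcases hinvS _ hw h2 with h | h
    · exfalso
      apply ht1
      simpa using h
    · have : t = w⁻¹ * (w * t * w⁻¹) * w := by group
      rw [this, h, mul_assoc, hzc w, ← mul_assoc]
      group
  have hG8 : Nat.card G ≠ 8 := fun h => hG (Subgroup.eq_top_of_card_eq _ (hQcard.trans h.symm))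
  have hconj := CfsgLib.Block.q8_conj_all z hz1 hz2 hzc hO hG8 S hQcard hzS hsq htinv
  -- the element of order four
  obtain ⟨x, hxS, hxx⟩ : ∃ x, x ∈ S ∧ x * x = z := by
    refine ⟨((e.symm (QuaternionGroup.a 1) : S) : G), (e.symm (QuaternionGroup.a 1) : S).2, ?_⟩
    have h1 : (e.symm (QuaternionGroup.a 1) * e.symm (QuaternionGroup.a 1) : S) = ⟨z, hzS⟩ := by
      apply e.injective
      rw [map_mul, MulEquiv.apply_symm_apply, hez]
      exact CfsgLib.Block.q8_a1
    exact congrArg Subtype.val h1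
  have hx4 : orderOf x = 2 ^ 2 := by
    have h1 : x ^ 2 ^ (1 + 1) = 1 := by
      have : x ^ 2 ^ (1 + 1) = (x * x) * (x * x) := by
        rw [show 2 ^ (1 + 1) = 2 + 2 from rfl, pow_add, sq]
      rw [this, hxx, hz2]
    have h2 : ¬ x ^ 2 ^ 1 = 1 := by
      rw [pow_one, sq, hxx]
      exact hz1
    exact orderOf_eq_prime_pow h2 h1
  have hz' : orderOf z = 2 ^ 1 := by rw [hzord]; rfl
  have h1' : orderOf (1 : G) = 2 ^ 0 := by simp
  -- the conjugacy classes
  have hc1 : ∀ a b : G, IsConj a b → (a = 1 ↔ b = 1) := by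
    intro a b h
    constructor
    · rintro rfl
      exact isConj_one_right.1 h
    · rintro rfl
      exact isConj_one_left.1 h
  have hc2 : ∀ a b : G, IsConj a b → (a * a = 1 ↔ b * b = 1) := by
    intro a b h
    obtain ⟨c, rfl⟩ := isConj_iff.1 h
    have h0 : (c * a * c⁻¹) * (c * a * c⁻¹) = c * (a * a) * c⁻¹ := by group
    rw [h0]
    constructor
    · intro h'
      rw [h']
      group
    · intro h'
      simpa using h'
  have hx1 : x ≠ 1 := by
    rintro rfl
    apply hz1
    rw [← hxx, one_mul]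
  have hx2 : ¬ x * x = 1 := by
    rw [hxx]
    exact hz1
  have hzx : z ≠ x := by
    rintro rfl
    exact hx2 hz2
  let X : Finset G := {1, z, x}
  have hX : ∀ y ∈ X, ∃ k : ℕ, orderOf y = 2 ^ k := by
    intro y hy
    simp only [X, Finset.mem_insert, Finset.mem_singleton] at hy
    rcases hy with rfl | rfl | rfl
    · exact ⟨0, h1'⟩
    · exact ⟨1, hz'⟩
    · exact ⟨2, hx4⟩
  have hXrep : ∀ g : G, (∃ k : ℕ, orderOf g = 2 ^ k) → ∃! y, y ∈ X ∧ IsConj g y := by
    rintro g ⟨k, hk⟩
    obtain ⟨w, hw⟩ := CfsgLib.Block.exists_conj_mem_sylow (p := 2) S g k hk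
    have hg : IsConj g (w * g * w⁻¹) := isConj_iff.2 ⟨w, rfl⟩
    have hex : ∃ y ∈ X, IsConj g y := by
      rcases hsq _ hw with h | h
      · rcases hinvS _ hw h with h' | h'
        · rw [h'] at hg
          exact ⟨1, by simp [X], hg⟩
        · rw [h'] at hg
          exact ⟨z, by simp [X], hg⟩
      · exact ⟨x, by simp [X], hg.trans (hconj _ _ h hxx)⟩
    obtain ⟨y, hy, hgy⟩ := hex
    refine ⟨y, ⟨hy, hgy⟩, ?_⟩
    rintro y' ⟨hy', hgy'⟩
    have h12 : IsConj y y' := hgy.symm.trans hgy'
    have h3 := hc1 _ _ h12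
    have h4 := hc2 _ _ h12
    simp only [X, Finset.mem_insert, Finset.mem_singleton] at hy hy'
    rcases hy with rfl | rfl | rfl <;> rcases hy' with rfl | rfl | rfl <;> first
      | rfl
      | (exfalso; exact hz1 (h3.1 rfl))
      | (exfalso; exact hx1 (h3.1 rfl))
      | (exfalso; exact hz1 (h3.2 rfl))
      | (exfalso; exact hx1 (h3.2 rfl))
      | (exfalso; exact hx2 (h4.1 hz2))
      | (exfalso; exact hx2 (h4.2 hz2))
  have hB : Cfsg.IsPBlock M (Cfsg.principalBlock M G) := ⟨CfsgLib.Block.oneIrr G, rfl⟩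
  have hmain := Cfsg.Agent.S4511.result 2 M hM (Cfsg.principalBlock M G) hB X hX hXrep
  have hinner : ∀ (y : G) (k : ℕ), orderOf y = 2 ^ k →
      (∑ᶠ b ∈ {b : Set (Cfsg.IrrCharacter ↥(Subgroup.centralizer ({y} : Set G))) | Cfsg.IsInducedBlock M (Subgroup.centralizer ({y} : Set G)) b (Cfsg.principalBlock M G)},
        Cfsg.blockRank 2 b) = Cfsg.blockRank 2 (Cfsg.principalBlock M (Subgroup.centralizer ({y} : Set G))) := by
    intro y k hk
    have hset : {b : Set (Cfsg.IrrCharacter ↥(Subgroup.centralizer ({y} : Set G))) | Cfsg.IsInducedBlock M (Subgroup.centralizer ({y} : Set G)) b (Cfsg.principalBlock M G)} =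
        {Cfsg.principalBlock M (Subgroup.centralizer ({y} : Set G))} := by
      ext b
      simp only [Set.mem_setOf_eq, Set.mem_singleton_iff]
      constructor
      · intro h
        exact (CfsgLib.Block.third_main hM (CfsgLib.Block.inducedBlockDefined_centralizer hM hk h.1)).1 h
      · rintro rfl
        have hb : Cfsg.IsPBlock M (Cfsg.principalBlock M (Subgroup.centralizer ({y} : Set G))) := ⟨CfsgLib.Block.oneIrr _, rfl⟩
        exact (CfsgLib.Block.third_main hM (CfsgLib.Block.inducedBlockDefined_centralizer hM hk hb)).2 rfl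
    rw [hset, finsum_mem_singleton]
  have hr1 := CfsgLib.Block.rank_centralizer_q8 hM (1 : G) (by simp) z hz1 hz2 hzc hGinv S hQcard hsq hconj
  have hrz := CfsgLib.Block.rank_centralizer_q8 hM z hzc z hz1 hz2 hzc hGinv S hQcard hsq hconj
  have hrx : Cfsg.blockRank 2 (Cfsg.principalBlock M (Subgroup.centralizer ({x} : Set G))) = 1 :=
    (CfsgLib.Block.rank_eq_one_iff hM).2
      (CfsgLib.Block.complement_centralizer_q8 z x hzc hxx hz2 S hcentS hx4)
  rw [hmain]
  simp only [X]
  rw [Finset.sum_insert (by simp [hz1.symm, hx1.symm]), Finset.sum_insert (by simp [hzx]), Finset.sum_singleton,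
    hinner 1 0 h1', hinner z 1 hz', hinner x 2 hx4, hr1, hrz, hrx]
  norm_num

end Cfsg.Agent.S0951
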