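import Cfsg.Statements.S0952
import Cfsg.Agent.Lib.Block.Orth

set_option autoImplicit false
open scoped ComplexConjugate
open Cfsg

namespace Cfsg.Agent.S0952

/-- Let χ and ψ be irreducible characters of the finite group G lying in different blocks relative to a maximal ideal M of the algebraic integers containing the prime p. Then the sum of χ x * conj (ψ x) over the elements x of order prime to p is zero. -/
theorem result {G : Type*} [Group G] [Finite G] (p : ℕ) [Fact p.Prime] (M : Ideal Cfsg.AlgInt) (hM : Cfsg.IsPModular p M) (χ ψ : Cfsg.IrrCharacter G) (h : ¬ Cfsg.SameBlock M (χ : G → ℂ) (ψ : G → ℂ)) : ∑ᶠ x ∈ {x : G | ¬ p ∣ orderOf x}, (χ : G → ℂ) x * conj ((ψ : G → ℂ) x) = 0 := by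
  classical
  haveI := Fintype.ofFinite G
  have h1 := CfsgLib.Block.classInner_regPart_eq_zero (p := p) hM h
  rw [CfsgLib.Char.classInner_def] at h1
  have h2 := (mul_eq_zero.1 h1).resolve_left (inv_ne_zero (CfsgLib.Char.card_ne_zero_C G))
  rw [finsum_mem_eq_finite_toFinset_sum _ (Set.toFinite _)]
  have h3 : (Set.toFinite {x : G | ¬ p ∣ orderOf x}).toFinset = Finset.univ.filter (fun x => ¬ p ∣ orderOf x) := by
    ext; simp
  rw [h3, Finset.sum_filter]
  refine Eq.trans (Finset.sum_congr rfl fun x _ => ?_) h2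
  by_cases hx : p ∣ orderOf x
  · rw [if_neg (not_not.2 hx), CfsgLib.Block.regPart_of_singular _ hx, zero_mul]
  · rw [if_pos hx, CfsgLib.Block.regPart_of_regular _ hx]

end Cfsg.Agent.S0952
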