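import Cfsg.Statements.S0955
import Cfsg.Agent.Lib.Block.Central
import Cfsg.Agent.Lib.Solv.Core

set_option autoImplicit false
open Cfsg

namespace Cfsg.Agent.S0955

/-- Let D be a defect group of a block of the finite group G relative to a maximal ideal M of the algebraic integers containing the prime p. Then D is the largest normal p-subgroup of its own normalizer: O_p(N_G(D)) = D. -/
theorem result {G : Type*} [Group G] [Finite G] (p : ℕ) [Fact p.Prime] (M : Ideal Cfsg.AlgInt) (hM : Cfsg.IsPModular p M) (B : Set (Cfsg.IrrCharacter G)) (hB : Cfsg.IsPBlock M B) (D : Subgroup G) (hD : Cfsg.IsDefectGroup p M B D) : (Cfsg.pCore p (Subgroup.normalizer (D : Set G))).map (Subgroup.normalizer (D : Set G)).subtype = D := by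
  classical
  letI : Fintype G := Fintype.ofFinite G
  letI : Fintype (Subgroup.normalizer (D : Set G)) := Fintype.ofFinite _
  have hDp : IsPGroup p D := by
    obtain ⟨g, -, Q, rfl⟩ := hD
    exact CfsgLib.Block.isPGroup_map_sylow _ Q
  obtain ⟨b, hind⟩ := CfsgLib.Block.exists_induced_of_le_defect hM hDp Subgroup.le_normalizer
    (Subgroup.centralizer_le_normalizer _) le_rfl hB hD le_rfl
  have hdef := CfsgLib.Block.first_main_ii_exists hM hDp hB hD hind
  haveI hnor : (Cfsg.pCore p (Subgroup.normalizer (D : Set G))).Normal := CfsgLib.Solv.pCore_normal' p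
  have hpg : IsPGroup p (Cfsg.pCore p (Subgroup.normalizer (D : Set G))) := CfsgLib.Solv.pCore_isPGroup p
  apply le_antisymm
  · obtain ⟨g, hg, Q, hQ⟩ := hdef
    have h1 := CfsgLib.Block.normal_le_of_defectClass hM hind.1 hg Q hnor hpg
    rw [← hQ] at h1
    rintro _ ⟨w, hw, rfl⟩
    exact Subgroup.mem_subgroupOf.1 (h1 hw)
  · intro d hd
    have h1 : (⟨d, Subgroup.le_normalizer hd⟩ : Subgroup.normalizer (D : Set G)) ∈
        Cfsg.pCore p (Subgroup.normalizer (D : Set G)) := by
      haveI : (D.subgroupOf (Subgroup.normalizer (D : Set G))).Normal := Subgroup.normal_in_normalizer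
      have h2 : D.subgroupOf (Subgroup.normalizer (D : Set G)) ≤ Cfsg.pCore p (Subgroup.normalizer (D : Set G)) :=
        CfsgLib.Solv.le_pCore' _ hDp.comap_subtype
      exact h2 (Subgroup.mem_subgroupOf.2 hd)
    exact ⟨_, h1, rfl⟩

end Cfsg.Agent.S0955
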