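import Cfsg.Statements.S0957
import Mathlib

set_option autoImplicit false

namespace Cfsg.Agent.S0957

/-- Let P be a Sylow p-subgroup of the finite group G, let g, h ∈ G and let p ^ d be the order of a Sylow p-subgroup of the centralizer of g. Then the number of pairs (y, z) with y conjugate to g, z conjugate to h and z * y⁻¹ ∈ P is divisible by the order of P divided by p ^ d. -/
theorem result {G : Type*} [Group G] [Finite G] (p : ℕ) [Fact p.Prime] (P : Sylow p G) (g h : G) (S : Sylow p (Subgroup.centralizer ({g} : Set G))) : Nat.card P / Nat.card S ∣ Nat.card {yz : G × G // IsConj g yz.1 ∧ IsConj h yz.2 ∧ yz.2 * yz.1⁻¹ ∈ (P : Subgroup G)} := by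
  classical
  have hp : p.Prime := Fact.out
  let X := {yz : G × G // IsConj g yz.1 ∧ IsConj h yz.2 ∧ yz.2 * yz.1⁻¹ ∈ (P : Subgroup G)}
  letI act : MulAction P X :=
    { smul := fun z xy => ⟨(z.1 * xy.1.1 * z.1⁻¹, z.1 * xy.1.2 * z.1⁻¹), by
        obtain ⟨h1, h2, h3⟩ := xy.2
        refine ⟨h1.trans (isConj_iff.2 ⟨z.1, rfl⟩), h2.trans (isConj_iff.2 ⟨z.1, rfl⟩), ?_⟩
        show z.1 * xy.1.2 * z.1⁻¹ * (z.1 * xy.1.1 * z.1⁻¹)⁻¹ ∈ (P : Subgroup G)
        have : z.1 * xy.1.2 * z.1⁻¹ * (z.1 * xy.1.1 * z.1⁻¹)⁻¹ = z.1 * (xy.1.2 * xy.1.1⁻¹) * z.1⁻¹ := by group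
        rw [this]
        exact (P : Subgroup G).mul_mem ((P : Subgroup G).mul_mem z.2 h3) ((P : Subgroup G).inv_mem z.2)⟩
      one_smul := fun xy => Subtype.ext (by
        show (((1 : G) * xy.1.1 * (1 : G)⁻¹, (1 : G) * xy.1.2 * (1 : G)⁻¹) : G × G) = xy.1
        simp)
      mul_smul := fun a b xy => Subtype.ext (by
        apply Prod.ext
        · show (a.1 * b.1) * xy.1.1 * (a.1 * b.1)⁻¹ = a.1 * (b.1 * xy.1.1 * b.1⁻¹) * a.1⁻¹
          group
        · show (a.1 * b.1) * xy.1.2 * (a.1 * b.1)⁻¹ = a.1 * (b.1 * xy.1.2 * b.1⁻¹) * a.1⁻¹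
          group) }
  obtain ⟨n, hn⟩ : ∃ n, Nat.card P = p ^ n := IsPGroup.iff_card.1 P.isPGroup'
  obtain ⟨d, hd⟩ : ∃ d, Nat.card S = p ^ d := IsPGroup.iff_card.1 S.isPGroup'
  rw [hn, hd]
  by_cases hdn : d ≤ n
  · rw [Nat.pow_div hdn hp.pos]
    haveI : Fintype X := Fintype.ofFinite _
    haveI : Fintype (MulAction.orbitRel.Quotient P X) := Fintype.ofFinite _
    rw [Nat.card_congr (MulAction.selfEquivSigmaOrbits P X), Nat.card_sigma]
    refine Finset.dvd_sum (fun ω _ => ?_)
    set w : X := Quotient.out ω with hw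
    -- orbit of w
    have horb : Nat.card (MulAction.orbit P w) * Nat.card (MulAction.stabilizer P w) = Nat.card P := by
      rw [Nat.card_congr (MulAction.orbitEquivQuotientStabilizer P w)]
      exact (MulAction.stabilizer P w).index_mul_card
    -- stabilizer is a p-group inside a conjugate of C(g)
    obtain ⟨k, hk⟩ : ∃ k, Nat.card (MulAction.stabilizer P w) = p ^ k :=
      IsPGroup.iff_card.1 (P.isPGroup'.to_subgroup _)
    have hkd : k ≤ d := by
      -- transport into C(g)
      obtain ⟨x, hx⟩ := isConj_iff.1 w.2.1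
      -- w.1.1 = x g x⁻¹
      have hmem : ∀ s : MulAction.stabilizer P w, x⁻¹ * (s.1.1) * x ∈ Subgroup.centralizer ({g} : Set G) := by
        intro s
        rw [Subgroup.mem_centralizer_singleton_iff]
        have h1 : s.1 • w = w := s.2
        have h2 : s.1.1 * w.1.1 * s.1.1⁻¹ = w.1.1 := congrArg (fun q : X => q.1.1) h1
        rw [← hx] at h2
        have h3 : (x⁻¹ * s.1.1 * x) * g * (x⁻¹ * s.1.1 * x)⁻¹ = g := by
          have := congrArg (fun q => x⁻¹ * q * x) h2
          have e1 : x⁻¹ * (s.1.1 * (x * g * x⁻¹) * s.1.1⁻¹) * x = (x⁻¹ * s.1.1 * x) * g * (x⁻¹ * s.1.1 * x)⁻¹ := by group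
          have e2 : x⁻¹ * (x * g * x⁻¹) * x = g := by group
          exact e1.symm.trans (this.trans e2)
        exact mul_inv_eq_iff_eq_mul.1 h3
      let φ : MulAction.stabilizer P w →* Subgroup.centralizer ({g} : Set G) :=
        { toFun := fun s => ⟨x⁻¹ * s.1.1 * x, hmem s⟩
          map_one' := by apply Subtype.ext; simp
          map_mul' := by
            intro a b
            apply Subtype.ext
            show x⁻¹ * (a.1.1 * b.1.1) * x = x⁻¹ * a.1.1 * x * (x⁻¹ * b.1.1 * x)
            group }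
      have hφ : Function.Injective φ := by
        intro a b hab
        have h1 : x⁻¹ * a.1.1 * x = x⁻¹ * b.1.1 * x := congrArg Subtype.val hab
        have h2 : a.1.1 = b.1.1 := by
          have := mul_right_cancel h1
          exact mul_left_cancel this
        exact Subtype.ext (Subtype.ext h2)
      have hdvd : Nat.card (MulAction.stabilizer P w) ∣ Nat.card (Subgroup.centralizer ({g} : Set G)) := by
        have := Subgroup.card_dvd_of_injective φ hφ
        exact this
      rw [hk] at hdvd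
      have h5 := Sylow.pow_dvd_card_of_pow_dvd_card S hdvd
      rw [hd] at h5
      exact (Nat.pow_dvd_pow_iff_le_right hp.one_lt).1 h5
    rw [hn, hk] at horb
    have hkn : k ≤ n := hkd.trans hdn
    have horb' : Nat.card (MulAction.orbit P w) = p ^ (n - k) := by
      have h1 : p ^ n = p ^ (n - k) * p ^ k := by
        rw [← pow_add]; congr 1; omega
      rw [h1] at horb
      exact Nat.eq_of_mul_eq_mul_right (pow_pos hp.pos k) horb
    rw [horb']
    exact pow_dvd_pow p (by omega)
  · -- impossible or division gives ... 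
    push Not at hdn
    have hz : p ^ n / p ^ d = 0 := Nat.div_eq_of_lt (Nat.pow_lt_pow_right hp.one_lt hdn)
    exfalso
    -- S embeds in G, so |S| ≤ |P|
    have hdvd : Nat.card S ∣ Nat.card G := by
      have h1 := Subgroup.card_subgroup_dvd_card (S : Subgroup (Subgroup.centralizer ({g} : Set G)))
      have h2 := Subgroup.card_subgroup_dvd_card (Subgroup.centralizer ({g} : Set G))
      exact h1.trans h2
    rw [hd] at hdvd
    have h5 := Sylow.pow_dvd_card_of_pow_dvd_card P hdvd
    rw [hn] at h5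
    have := (Nat.pow_dvd_pow_iff_le_right hp.one_lt).1 h5
    omega

end Cfsg.Agent.S0957
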