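import Cfsg.Statements.S0958
import Cfsg.Agent.Lib.Block.Central

set_option autoImplicit false
open Cfsg

namespace Cfsg.Agent.S0958

/-- Let P be a p-subgroup of the finite group G and H a subgroup with P ⊔ C_G(P) ≤ H ≤ N_G(P); fix a maximal ideal M of the algebraic integers containing p. Then a block B of G is induced by some block of H if and only if some conjugate of P is contained in a defect group of B. -/
theorem result {G : Type*} [Group G] [Finite G] (p : ℕ) [Fact p.Prime] (M : Ideal Cfsg.AlgInt) (hM : Cfsg.IsPModular p M) (P H : Subgroup G) (hP : IsPGroup p P) (hPH : P ⊔ Subgroup.centralizer (P : Set G) ≤ H) (hHN : H ≤ Subgroup.normalizer (P : Set G)) (B : Set (Cfsg.IrrCharacter G)) (hB : Cfsg.IsPBlock M B) : (∃ b : Set (Cfsg.IrrCharacter H), Cfsg.IsInducedBlock M H b B) ↔ ∃ D : Subgroup G, Cfsg.IsDefectGroup p M B D ∧ ∃ x : G, P.map (MulAut.conj x).toMonoidHom ≤ D := by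
  classical
  letI : Fintype G := Fintype.ofFinite G
  letI : Fintype H := Fintype.ofFinite H
  have hPH' : P ≤ H := le_sup_left.trans hPH
  have hCH : Subgroup.centralizer (P : Set G) ≤ H := le_sup_right.trans hPH
  constructor
  · rintro ⟨b, hind⟩
    obtain ⟨D, hD, hPD⟩ := CfsgLib.Block.exists_defect_ge_of_induced hM hP hPH' hHN hind
    refine ⟨D, hD, 1, ?_⟩
    intro w hw
    obtain ⟨v, hv, rfl⟩ := hw
    simpa using hPD hv
  · rintro ⟨D, hD, x, hx⟩
    refine CfsgLib.Block.exists_induced_of_le_defect hM hP hPH' hCH hHN hB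
      (CfsgLib.Block.isDefectGroup_conj hD x⁻¹) ?_
    intro v hv
    refine ⟨x * v * x⁻¹, hx ⟨v, hv, rfl⟩, ?_⟩
    simp [MulAut.conj_apply, mul_assoc]

end Cfsg.Agent.S0958
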