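import Cfsg.Statements.S0959
import Cfsg.Agent.Lib.Block.Value

set_option autoImplicit false
open Cfsg

namespace Cfsg.Agent.S0959

/-- Let B be a block of the finite group G with defect group D (relative to a maximal ideal M of the algebraic integers containing the prime p), and let P be a p-subgroup. Then there is an element g whose idempotent coefficient for B is a local integer outside the local ideal at M and which has a conjugate centralizing P, if and only if some conjugate of P is contained in D. -/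
theorem result {G : Type*} [Group G] [Finite G] (p : ℕ) [Fact p.Prime] (M : Ideal Cfsg.AlgInt) (hM : Cfsg.IsPModular p M) (B : Set (Cfsg.IrrCharacter G)) (hB : Cfsg.IsPBlock M B) (D : Subgroup G) (hD : Cfsg.IsDefectGroup p M B D) (P : Subgroup G) (hP : IsPGroup p P) : (∃ g : G, Cfsg.MemLocalRing M (Cfsg.blockCoeff B g) ∧ ¬ Cfsg.MemLocalIdeal M (Cfsg.blockCoeff B g) ∧ ∃ c : G, IsConj g c ∧ c ∈ Subgroup.centralizer (P : Set G)) ↔ ∃ x : G, P.map (MulAut.conj x).toMonoidHom ≤ D := by
  classical
  letI : Fintype G := Fintype.ofFinite G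
  have hP' := hM.isPrime
  constructor
  · rintro ⟨g, -, hg, c, hgc, hc⟩
    obtain ⟨y, hy, Q, rfl⟩ := hD
    obtain ⟨a, rfl⟩ := isConj_iff.1 hgc
    have h1 : Cfsg.blockCoeff B g ∉ CfsgLib.Block.locI hP' := hg
    have h2 : Cfsg.blockCoeff B (a * g * a⁻¹) ∉ CfsgLib.Block.locI hP' := by
      rwa [CfsgLib.Block.blockCoeff_conj]
    have h3 : P ≤ Subgroup.centralizer ({a * g * a⁻¹} : Set G) := by
      intro w hw
      rw [Subgroup.mem_centralizer_singleton_iff]
      have := Subgroup.mem_centralizer_iff.1 hc w hw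
      exact this
    obtain ⟨x, hx⟩ := CfsgLib.Block.minmax_a hM hB hy Q h2 hP h3
    refine ⟨x⁻¹, ?_⟩
    rintro _ ⟨w, hw, rfl⟩
    have := hx w hw
    simpa using this
  · rintro ⟨x, hx⟩
    obtain ⟨y, hy, Q, rfl⟩ := hD
    refine ⟨y, hy.1, hy.2.1, x⁻¹ * y * x, ?_, ?_⟩
    · exact isConj_iff.2 ⟨x⁻¹, by group⟩
    · rw [Subgroup.mem_centralizer_iff]
      intro w hw
      have h1 : x * w * x⁻¹ ∈ P.map (MulAut.conj x).toMonoidHom := ⟨w, hw, rfl⟩
      obtain ⟨q, -, hq⟩ := hx h1
      have h2 := Subgroup.mem_centralizer_singleton_iff.1 q.2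
      simp only [Subgroup.subtype_apply] at hq
      rw [hq] at h2
      calc w * (x⁻¹ * y * x) = x⁻¹ * (x * w * x⁻¹ * y) * x := by group
        _ = x⁻¹ * (y * (x * w * x⁻¹)) * x := by rw [h2]
        _ = (x⁻¹ * y * x) * w := by group

end Cfsg.Agent.S0959
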