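import Cfsg.Statements.S0971
import Cfsg.Agent.Lib.Block.Normal

set_option autoImplicit false
open Cfsg

namespace Cfsg.Agent.S0971

/-- Let Q be a normal p-subgroup of the finite group G, let N = Q ⊔ C_G(Q) (a normal subgroup) and let b be a block of N relative to a maximal ideal M of the algebraic integers containing p. Then b induces some block of G, and every block B of G containing a character whose restriction to N has a constituent in b is induced by b. -/
theorem result {G : Type*} [Group G] [Fintype G] (p : ℕ) [Fact p.Prime] (M : Ideal Cfsg.AlgInt) (hM : Cfsg.IsPModular p M) (Q : Subgroup G) [Q.Normal] (hQ : IsPGroup p Q) [Fintype ↥(Q ⊔ Subgroup.centralizer (Q : Set G))] (b : Set (Cfsg.IrrCharacter ↥(Q ⊔ Subgroup.centralizer (Q : Set G)))) (hb : Cfsg.IsPBlock M b) : Cfsg.InducedBlockDefined M (Q ⊔ Subgroup.centralizer (Q : Set G)) b ∧ ∀ B : Set (Cfsg.IrrCharacter G), Cfsg.IsPBlock M B → (∃ χ ∈ B, ∃ θ ∈ b, Cfsg.classInner (fun n : ↥(Q ⊔ Subgroup.centralizer (Q : Set G)) => (χ : G → ℂ) n) (θ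 : ↥(Q ⊔ Subgroup.centralizer (Q : Set G)) → ℂ) ≠ 0) → Cfsg.IsInducedBlock M (Q ⊔ Subgroup.centralizer (Q : Set G)) b B := by
  classical
  have hP := hM.isPrime
  haveI hHn : (Q ⊔ Subgroup.centralizer (Q : Set G)).Normal := Subgroup.sup_normal _ _
  constructor
  · obtain ⟨θ, hθ⟩ := CfsgLib.Block.IsPBlock.nonempty hP hb
    have hnorm : Q ⊔ Subgroup.centralizer (Q : Set G) ≤ Subgroup.normalizer (Q : Set G) := by
      rw [Subgroup.normalizer_eq_top Q]
      exact le_top
    obtain ⟨B, hB⟩ := CfsgLib.Block.exists_isInduced hM hQ (le_sup_left) (le_sup_right) hnorm θ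
    rw [← CfsgLib.Block.blockOf_eq_of_mem hP hb hθ] at hB
    exact ⟨B, hB⟩
  · rintro B hB ⟨χ, hχ, θ, hθ, hc⟩
    refine ⟨hb, hB, fun ξ hξ χ' hχ' g => ?_⟩
    by_cases hg : g ∈ Q ⊔ Subgroup.centralizer (Q : Set G)
    · have h1 := CfsgLib.Block.centralChar_cong_of_constituent _ hM hB hb hχ hθ hc hχ' hξ ⟨g, hg⟩
      have h2 := (CfsgLib.Block.locI hP).neg_mem h1
      change _ ∈ CfsgLib.Block.locI hP
      rwa [neg_sub] at h2
    · have h0 : Cfsg.inducedCentralChar (Q ⊔ Subgroup.centralizer (Q : Set G)) (ξ : ↥(Q ⊔ Subgroup.centralizer (Q : Set G)) → ℂ) g = 0 := by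
        rw [CfsgLib.Block.inducedCentralChar_eq_sum]
        refine Finset.sum_eq_zero fun h _ => ?_
        rw [if_neg]
        intro hcon
        apply hg
        obtain ⟨c, hc⟩ := isConj_iff.1 hcon.symm
        rw [← hc]
        exact hHn.conj_mem _ h.2 c
      have h1 := CfsgLib.Block.centralChar_mem_locI hM hQ g (fun y hy => ?_) χ'.2
      · change _ ∈ CfsgLib.Block.locI hP
        rw [h0, zero_sub]
        exact (CfsgLib.Block.locI hP).neg_mem h1
      · by_contra hcon
        push Not at hcon
        apply hg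
        have hy' : y ∈ Q ⊔ Subgroup.centralizer (Q : Set G) := by
          have : y ∈ Subgroup.centralizer (Q : Set G) := by
            rw [Subgroup.mem_centralizer_iff]
            intro x hx
            have := hcon x hx
            exact mul_inv_eq_iff_eq_mul.1 this
          exact (le_sup_right : Subgroup.centralizer (Q : Set G) ≤ Q ⊔ Subgroup.centralizer (Q : Set G)) this
        obtain ⟨c, hc⟩ := isConj_iff.1 hy.symm
        rw [← hc]
        exact hHn.conj_mem _ hy' c

end Cfsg.Agent.S0971
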