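import Cfsg.Statements.S0973
import Cfsg.Agent.Lib.Block.MaxPair4

set_option autoImplicit false
open Cfsg

namespace Cfsg.Agent.S0973

/-- Let B be a block of the finite group G with defect group P (relative to a maximal ideal M of the algebraic integers containing p), and let L = P ⊔ C_G(P). Then (i) some block b of L with defect group P (viewed in L) induces B, and (ii) if b and b' are blocks of L both inducing B, there is n ∈ N_G(P) carrying b to b': for every θ ∈ b there is θ' ∈ b' with θ' x = θ (n x n⁻¹) for all x ∈ L. -/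
theorem result {G : Type*} [Group G] [Finite G] (p : ℕ) [Fact p.Prime] (M : Ideal Cfsg.AlgInt) (hM : Cfsg.IsPModular p M) (B : Set (Cfsg.IrrCharacter G)) (hB : Cfsg.IsPBlock M B) (P : Subgroup G) (hP : Cfsg.IsDefectGroup p M B P) : (∃ b : Set (Cfsg.IrrCharacter ↥(P ⊔ Subgroup.centralizer (P : Set G))), Cfsg.IsDefectGroup p M b (P.subgroupOf (P ⊔ Subgroup.centralizer (P : Set G))) ∧ Cfsg.IsInducedBlock M (P ⊔ Subgroup.centralizer (P : Set G)) b B) ∧ ∀ b b' : Set (Cfsg.IrrCharacter ↥(P ⊔ Subgroup.centralizer (P : Set G))), Cfsg.IsInducedBlock M (P ⊔ Subgroup.centralizer (P : Set G)) b B → Cfsg.IsInducedBlock M (P ⊔ Subgroup.centralizer (P : Set G)) b' B → ∃ n ∈ Subgroup.normalizer (P : Set G), ∀ θ ∈ b, ∃ θ' ∈ b', ∀ x : ↥(P ⊔ Subgroup.centralizer (P : Set G)), ∀ hx : n * (x : G) * n⁻¹ ∈ P ⊔ Subgroup.centralizer (P : Set G), (θ' : ↥(P ⊔ Subgroup.centralizer (P : Set G)) → ℂ) x = (θ : ↥(P ⊔ Subgroup.centralizer (P : Set G)) → ℂ) ⟨n * (x : G) * n⁻¹, hx⟩ := by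
  classical
  letI : Fintype G := Fintype.ofFinite G
  letI : Fintype ↥(P ⊔ Subgroup.centralizer (P : Set G)) := Fintype.ofFinite _
  have hPp : IsPGroup p P := by
    obtain ⟨g, _, Q, rfl⟩ := hP
    exact CfsgLib.Block.isPGroup_map_sylow _ Q
  have hLN : P ⊔ Subgroup.centralizer (P : Set G) ≤ Subgroup.normalizer (P : Set G) :=
    sup_le Subgroup.le_normalizer (Subgroup.centralizer_le_normalizer _)
  have hPL : P ≤ P ⊔ Subgroup.centralizer (P : Set G) := le_sup_left
  have hCL : Subgroup.centralizer (P : Set G) ≤ P ⊔ Subgroup.centralizer (P : Set G) := le_sup_right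
  constructor
  · obtain ⟨b, hb⟩ := CfsgLib.Block.exists_induced_of_le_defect hM hPp hPL hCL hLN hB hP le_rfl
    obtain ⟨D, hD⟩ := CfsgLib.Block.exists_defectGroup hM hb.1
    have hDP := CfsgLib.Block.isDefect_of_induced_of_le hM hPp hPL hLN hB hb hP hD
    exact ⟨b, hDP ▸ hD, hb⟩
  · intro b b' hb hb'
    have hKn : ((P ⊔ Subgroup.centralizer (P : Set G)).subgroupOf (Subgroup.normalizer (P : Set G))).Normal := by
      refine ⟨fun x hx g => ?_⟩
      have h1 : ((P ⊔ Subgroup.centralizer (P : Set G)) : Subgroup G).map (MulAut.conj (g : G)).toMonoidHom ≤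
          P ⊔ Subgroup.centralizer (P : Set G) := by
        rw [Subgroup.map_sup]
        refine sup_le_sup ?_ ?_
        · rintro _ ⟨y, hy, rfl⟩
          exact (Subgroup.mem_normalizer_iff.1 g.2 y).1 hy
        · rintro _ ⟨y, hy, rfl⟩
          exact (Subgroup.mem_normalizer_iff.1 (CfsgLib.Block.le_normalizer_centralizer le_rfl g.2) y).1 hy
      exact h1 ⟨_, hx, rfl⟩
    exact CfsgLib.Block.conj_of_induced hM hPp hPL hLN hCL hKn hB hP hb hb'

end Cfsg.Agent.S0973
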