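import Cfsg.Statements.S0986
import Mathlib

set_option autoImplicit false
open Cfsg

namespace Cfsg.Agent.S0986

/-- Let P and Q be distinct Sylow p-subgroups of a finite group G chosen so that the order of P ∩ Q is as large as possible among intersections of two distinct Sylow p-subgroups, and let N be the normalizer of P ∩ Q. Then N has more than one Sylow p-subgroup, any two distinct Sylow p-subgroups of N intersect exactly in P ∩ Q, and each Sylow p-subgroup of N lies in exactly one Sylow p-subgroup of G. -/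
theorem result {G : Type*} [Group G] [Finite G] (p : ℕ) [Fact p.Prime] (P Q : Sylow p G) (hPQ : P ≠ Q) (hmax : ∀ P' Q' : Sylow p G, P' ≠ Q' → Nat.card ↥((P' : Subgroup G) ⊓ (Q' : Subgroup G)) ≤ Nat.card ↥((P : Subgroup G) ⊓ (Q : Subgroup G))) : 1 < Nat.card (Sylow p ↥(Subgroup.normalizer (((P : Subgroup G) ⊓ (Q : Subgroup G) : Subgroup G) : Set G))) ∧ (∀ S T : Sylow p ↥(Subgroup.normalizer (((P : Subgroup G) ⊓ (Q : Subgroup G) : Subgroup G) : Set G)), S ≠ T → (S : Subgroup _) ⊓ (T : Subgroup _) = ((P : Subgroup G) ⊓ (Q : Subgroup G)).subgroupOf (Subgroup.normalizer (((P : Subgroup G) ⊓ (Q : Subgroup G) : Subgroup G) : Set G))) ∧ ∀ S : Sylow p ↥(Subgroup.normalizer (((P : Subgroup G) ⊓ (Q : Subgroup G) : Subgroup G) : Set G)), ∃! T : Sylow p G, (S : Subgroup _).map (Subgroup.normalizer (((P : Subgroup G) ⊓ (Q : Subgroup G) : Subgroup G) : Set G)).subtype ≤ (T : Subgroup G) := by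
  classical
  set D : Subgroup G := (P : Subgroup G) ⊓ (Q : Subgroup G) with hD
  set N : Subgroup G := Subgroup.normalizer (D : Set G) with hN
  have hp : p.Prime := Fact.out
  have hDN : D ≤ N := Subgroup.le_normalizer
  have hDnorm : (D.subgroupOf N).Normal := Subgroup.normal_in_normalizer
  have hDp : IsPGroup p D := (P.isPGroup').to_le inf_le_left
  have hD'p : IsPGroup p (D.subgroupOf N) :=
    hDp.of_equiv (Subgroup.subgroupOfEquivOfLe hDN).symm
  -- two different Sylow subgroups containing `D` intersect exactly in `D`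
  have hstrict : ∀ T T' : Sylow p G, T ≠ T' → D ≤ (T : Subgroup G) → D ≤ (T' : Subgroup G) →
      ∀ x, x ∈ (T : Subgroup G) → x ∈ (T' : Subgroup G) → x ∈ D := by
    intro T T' hne h1 h2 x hx hx'
    have hle : D ≤ (T : Subgroup G) ⊓ (T' : Subgroup G) := le_inf h1 h2
    have := Subgroup.eq_of_le_of_card_ge hle (hmax T T' hne)
    rw [this]
    exact ⟨hx, hx'⟩
  -- growth of the normaliser
  have hgrow : ∀ R : Sylow p G, D ≤ (R : Subgroup G) → D ≠ (R : Subgroup G) →
      ∃ x, x ∈ (R : Subgroup G) ∧ x ∈ N ∧ x ∉ D := by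
    intro R hDR hne
    haveI : Group.IsNilpotent (R : Subgroup G) := R.isPGroup'.isNilpotent
    have hcond := Group.normalizerCondition_of_isNilpotent (G := (R : Subgroup G))
    have hlt : D.subgroupOf (R : Subgroup G) < ⊤ := by
      rw [lt_top_iff_ne_top]
      intro htop
      apply hne
      exact le_antisymm hDR (Subgroup.subgroupOf_eq_top.mp htop)
    have h1 := hcond _ hlt
    obtain ⟨x, hx1, hx2⟩ := SetLike.exists_of_lt h1
    refine ⟨x, x.2, ?_, hx2⟩
    rw [hN, Subgroup.mem_normalizer_iff]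
    intro h
    have hnorm := Subgroup.mem_normalizer_iff.mp hx1
    constructor
    · intro hh
      have := (hnorm ⟨h, hDR hh⟩).mp hh
      exact this
    · intro hh
      have hhR : h ∈ (R : Subgroup G) := by
        have h2 := hDR hh
        have e : h = (x : G)⁻¹ * ((x : G) * h * (x : G)⁻¹) * (x : G) := by group
        rw [e]
        exact (R : Subgroup G).mul_mem ((R : Subgroup G).mul_mem ((R : Subgroup G).inv_mem x.2) h2) x.2
      exact (hnorm ⟨h, hhR⟩).mpr hh
  have hDP : D ≤ (P : Subgroup G) := inf_le_left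
  have hDQ : D ≤ (Q : Subgroup G) := inf_le_right
  have hDneP : D ≠ (P : Subgroup G) := by
    intro h
    apply hPQ
    apply Sylow.ext
    apply Subgroup.eq_of_le_of_card_ge
    · rw [← h]; exact hDQ
    · rw [Sylow.card_eq_multiplicity, ← Sylow.card_eq_multiplicity P]
  have hDneQ : D ≠ (Q : Subgroup G) := by
    intro h
    apply hPQ
    apply Sylow.ext
    apply Eq.symm
    apply Subgroup.eq_of_le_of_card_ge
    · rw [← h]; exact hDP
    · rw [Sylow.card_eq_multiplicity, ← Sylow.card_eq_multiplicity Q]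
  obtain ⟨xP, hxP1, hxP2, hxP3⟩ := hgrow P hDP hDneP
  obtain ⟨xQ, hxQ1, hxQ2, hxQ3⟩ := hgrow Q hDQ hDneQ
  -- `D` lies in every Sylow subgroup of `N`
  have hDS : ∀ S : Sylow p N, D.subgroupOf N ≤ (S : Subgroup N) := fun S =>
    hD'p.le_sylow_of_normal S
  have hDS' : ∀ S : Sylow p N, D ≤ (S : Subgroup N).map N.subtype := by
    intro S x hx
    exact ⟨⟨x, hDN hx⟩, hDS S hx, rfl⟩
  -- Sylow subgroups of `N` containing the `P`-part and the `Q`-part
  have hXp : ∀ R : Sylow p G, IsPGroup p ((R : Subgroup G).subgroupOf N) := fun R =>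
    R.isPGroup'.comap_subtype
  obtain ⟨SP, hSP⟩ := (hXp P).exists_le_sylow
  obtain ⟨SQ, hSQ⟩ := (hXp Q).exists_le_sylow
  have hmapp : ∀ S : Sylow p N, IsPGroup p ((S : Subgroup N).map N.subtype) := fun S =>
    S.isPGroup'.map N.subtype
  have hSup : ∀ S : Sylow p N, ∃ T : Sylow p G, (S : Subgroup N).map N.subtype ≤ (T : Subgroup G) :=
    fun S => (hmapp S).exists_le_sylow
  have hcardD : Nat.card (D.subgroupOf N) = Nat.card D :=
    Nat.card_congr (Subgroup.subgroupOfEquivOfLe hDN).toEquiv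
  have hxPS : (⟨xP, hxP2⟩ : N) ∈ (SP : Subgroup N) := hSP hxP1
  have hxQS : (⟨xQ, hxQ2⟩ : N) ∈ (SQ : Subgroup N) := hSQ hxQ1
  have hcardlt : ∀ S : Sylow p N, Nat.card D < Nat.card (S : Subgroup N) := by
    intro S
    rw [Sylow.card_eq_multiplicity, ← Sylow.card_eq_multiplicity SP, ← hcardD]
    by_contra hcon
    push Not at hcon
    have := Subgroup.eq_of_le_of_card_ge (hDS SP) hcon
    rw [← this] at hxPS
    exact hxP3 hxPS
  have hmapcard : ∀ S : Sylow p N, Nat.card ((S : Subgroup N).map N.subtype) = Nat.card (S : Subgroup N) :=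
    fun S => Nat.card_congr ((S : Subgroup N).equivMapOfInjective _ N.subtype_injective).toEquiv.symm
  refine ⟨?_, ?_, ?_⟩
  · have hne : SP ≠ SQ := by
      intro heq
      obtain ⟨T, hT⟩ := hSup SP
      have hDT : D ≤ (T : Subgroup G) := (hDS' SP).trans hT
      have h1 : xP ∈ (T : Subgroup G) := hT ⟨⟨xP, hxP2⟩, hxPS, rfl⟩
      have h2 : xQ ∈ (T : Subgroup G) := by
        apply hT
        refine ⟨⟨xQ, hxQ2⟩, ?_, rfl⟩
        rw [heq]
        exact hxQS
      have hTP : T = P := by
        by_contra hne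
        exact hxP3 (hstrict T P hne hDT hDP xP h1 hxP1)
      have hTQ : T = Q := by
        by_contra hne
        exact hxQ3 (hstrict T Q hne hDT hDQ xQ h2 hxQ1)
      exact hPQ (hTP.symm.trans hTQ)
    exact Finite.one_lt_card_iff_nontrivial.mpr ⟨⟨SP, SQ, hne⟩⟩
  · intro S T hST
    obtain ⟨P₁, hP₁⟩ := hSup S
    obtain ⟨P₂, hP₂⟩ := hSup T
    by_cases heq : P₁ = P₂
    · exfalso
      subst heq
      apply hST
      have hS : (S : Subgroup N) ≤ (P₁ : Subgroup G).subgroupOf N := fun y hy =>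
        hP₁ ⟨y, hy, rfl⟩
      have hT : (T : Subgroup N) ≤ (P₁ : Subgroup G).subgroupOf N := fun y hy =>
        hP₂ ⟨y, hy, rfl⟩
      have h1 := S.is_maximal' (hXp P₁) hS
      have h2 := T.is_maximal' (hXp P₁) hT
      apply Sylow.ext
      rw [← h1, ← h2]
    · apply le_antisymm
      · rintro y ⟨hyS, hyT⟩
        exact hstrict P₁ P₂ heq ((hDS' S).trans hP₁) ((hDS' T).trans hP₂) y
          (hP₁ ⟨y, hyS, rfl⟩) (hP₂ ⟨y, hyT, rfl⟩)
      · exact le_inf (hDS S) (hDS T)
  · intro S
    obtain ⟨T, hT⟩ := hSup S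
    refine ⟨T, hT, ?_⟩
    intro T' hT'
    by_contra hne
    have hsub : (S : Subgroup N).map N.subtype ≤ D := by
      intro y hy
      exact hstrict T' T hne ((hDS' S).trans hT') ((hDS' S).trans hT) y (hT' hy) (hT hy)
    have h1 := Subgroup.card_le_of_le hsub
    rw [hmapcard] at h1
    have h2 := hcardlt S
    omega

end Cfsg.Agent.S0986
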