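import Cfsg.Statements.S0989
import Cfsg.Agent.Lib.H9.SimpleTools
import Cfsg.Agent.Lib.H9.SylowTools

set_option autoImplicit false
open Cfsg

namespace Cfsg.Agent.S0989

/-- In the symmetric group on p or p + 1 letters, p a prime, the normalizer of a Sylow p-subgroup has order p * (p - 1). -/
theorem result {α : Type*} [Fintype α] [DecidableEq α] (p : ℕ) [Fact p.Prime] (hα : Fintype.card α = p ∨ Fintype.card α = p + 1) (P : Sylow p (Equiv.Perm α)) : Nat.card ↥(Subgroup.normalizer ((P : Subgroup (Equiv.Perm α)) : Set (Equiv.Perm α))) = p * (p - 1) := by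
  classical
  have hp : p.Prime := Fact.out
  have hp2 := hp.two_le
  set n := Fintype.card α with hn
  have hord : ∀ σ : Equiv.Perm α, orderOf σ = p ↔ σ.cycleType = {p} := by
    intro σ
    constructor
    · intro h
      obtain ⟨k, hk⟩ := Equiv.Perm.cycleType_prime_order (h ▸ hp)
      have hsum : σ.cycleType.sum ≤ n := Equiv.Perm.sum_cycleType_le σ
      rw [hk, h] at hsum
      simp only [Multiset.sum_replicate, smul_eq_mul] at hsum
      have hk0 : k = 0 := by
        by_contra hk0
        have : 2 * p ≤ (k + 1) * p := Nat.mul_le_mul_right p (by omega)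
        omega
      rw [hk, h, hk0]
      rfl
    · intro h
      rw [← Equiv.Perm.lcm_cycleType, h]
      simp
  have hcount : Nat.card {σ : Equiv.Perm α // orderOf σ = p} = n.factorial / ((n - p).factorial * p) := by
    have h1 := Equiv.Perm.card_of_cycleType (α := α) ({p} : Multiset ℕ)
    have hc : ({p} : Multiset ℕ).sum ≤ Fintype.card α ∧ ∀ a ∈ ({p} : Multiset ℕ), 2 ≤ a := by
      constructor
      · simp only [Multiset.sum_singleton]; omega
      · intro a ha; rw [Multiset.mem_singleton] at ha; omega
    rw [if_pos hc] at h1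
    simp only [Multiset.sum_singleton, Multiset.prod_singleton, Multiset.toFinset_singleton,
      Finset.prod_singleton, Multiset.count_singleton_self, Nat.factorial_one, mul_one] at h1
    rw [← hn] at h1
    rw [← h1, Nat.card_eq_fintype_card, Fintype.card_subtype]
    congr 1
    ext σ
    simp [hord]
  have hGc : Nat.card (Equiv.Perm α) = n.factorial := by
    rw [Nat.card_eq_fintype_card, Fintype.card_perm]
  -- Sylow has order p
  have hcop : Nat.card (Equiv.Perm α) = p ^ 1 * (n.factorial / p) := by
    rw [hGc, pow_one]
    have : p ∣ n.factorial := Nat.dvd_factorial hp.pos (by omega)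
    exact (Nat.mul_div_cancel' this).symm
  have hnd : ¬ p ∣ n.factorial / p := by
    intro hd
    have hpsq : p ^ 2 ∣ n.factorial := by
      have h2 : p * p ∣ p * (n.factorial / p) := Nat.mul_dvd_mul_left p hd
      rw [Nat.mul_div_cancel' (Nat.dvd_factorial hp.pos (by omega))] at h2
      rwa [← sq] at h2
    rcases hα with h | h
    · rw [h] at hpsq
      have hh : p.factorial = p * (p - 1).factorial := (Nat.mul_factorial_pred (by omega)).symm
      rw [hh, sq] at hpsq
      have : p ∣ (p - 1).factorial := Nat.dvd_of_mul_dvd_mul_left hp.pos hpsq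
      rw [hp.dvd_factorial] at this
      omega
    · rw [h] at hpsq
      have hh : (p + 1).factorial = (p + 1) * (p * (p - 1).factorial) := by
        rw [Nat.factorial_succ, Nat.mul_factorial_pred (by omega)]
      rw [hh, sq] at hpsq
      have h3 : p ∣ (p + 1) * (p - 1).factorial := by
        have h4 : p * p ∣ p * ((p + 1) * (p - 1).factorial) := by
          convert hpsq using 1
          ring
        exact Nat.dvd_of_mul_dvd_mul_left hp.pos h4
      rcases (hp.dvd_mul).mp h3 with h5 | h5
      · have : p ∣ 1 := (Nat.dvd_add_right (dvd_refl p)).mp h5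
        have := Nat.le_of_dvd one_pos this
        omega
      · rw [hp.dvd_factorial] at h5
        omega
  have hPc : ∀ P : Sylow p (Equiv.Perm α), Nat.card P = p := by
    intro P
    have := CfsgLib.H9.card_sylow_of_factor hcop hnd P
    simpa using this
  have hcnt := CfsgLib.H9.card_orderOf_eq_prime_of_sylow (G := Equiv.Perm α) (p := p) hPc
  rw [hcount] at hcnt
  have hfac : (n - p).factorial = 1 := by
    rcases hα with h | h
    · rw [h]; simp
    · rw [h]; simp
  rw [hfac, one_mul] at hcnt
  have hN := CfsgLib.H9.card_normalizer_mul_card_sylow P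
  rw [hGc] at hN
  have hdvd : p ∣ n.factorial := Nat.dvd_factorial hp.pos (by omega)
  have h1 : n.factorial = p * (Nat.card (Sylow p (Equiv.Perm α)) * (p - 1)) := by
    rw [← hcnt, Nat.mul_div_cancel' hdvd]
  have hpos : 0 < Nat.card (Sylow p (Equiv.Perm α)) := Nat.card_pos
  apply Nat.eq_of_mul_eq_mul_right hpos
  rw [hN, h1]
  ring

end Cfsg.Agent.S0989
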