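import Cfsg.Statements.S0990
import Cfsg.Agent.Lib.H9.SimpleTools

set_option autoImplicit false
open Cfsg

namespace Cfsg.Agent.S0990

/-- Let p be an odd prime and P a Sylow p-subgroup of the symmetric group on a finite set with at least two elements. Then P is contained in the alternating group, and twice the order of the normalizer of P inside the alternating group equals the order of the normalizer of P in the symmetric group. -/
theorem result {α : Type*} [Fintype α] [DecidableEq α] (hα : 2 ≤ Fintype.card α) (p : ℕ) [Fact p.Prime] (hp : p ≠ 2) (P : Sylow p (Equiv.Perm α)) : (P : Subgroup (Equiv.Perm α)) ≤ alternatingGroup α ∧ 2 * Nat.card ↥(Subgroup.normalizer ((((P : Subgroup (Equiv.Perm α)).subgroupOf (alternatingGroup α) : Subgroup ↥(alternatingGroup α)) : Set ↥(alternatingGroup α)))) = Nat.card ↥(Subgroup.normalizer ((P : Subgroup (Equiv.Perm α)) : Set (Equiv.Perm α))) := by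
  classical
  have hpp : p.Prime := Fact.out
  have hodd : Odd p := hpp.odd_of_ne_two hp
  have hPA : (P : Subgroup (Equiv.Perm α)) ≤ alternatingGroup α := by
    intro σ hσ
    rw [Equiv.Perm.mem_alternatingGroup]
    obtain ⟨k, hk⟩ := P.isPGroup' ⟨σ, hσ⟩
    have h1 : σ ^ p ^ k = 1 := by
      have := congrArg Subtype.val hk
      simpa using this
    have h2 : (Equiv.Perm.sign σ) ^ p ^ k = 1 := by
      rw [← map_pow, h1, map_one]
    rcases Int.units_eq_one_or (Equiv.Perm.sign σ) with h | h
    · exact h
    · rw [h, Odd.neg_one_pow (hodd.pow)] at h2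
      exact absurd h2 (by decide)
  refine ⟨hPA, ?_⟩
  set A := alternatingGroup α with hA
  set N : Subgroup (Equiv.Perm α) := Subgroup.normalizer ((P : Subgroup (Equiv.Perm α)) : Set (Equiv.Perm α)) with hN
  have hNA : ¬ N ≤ A := by
    intro hle
    let P' : Sylow p A := P.subtype hPA
    have hsup := Sylow.normalizer_sup_eq_top (N := A) P'
    have hmap : ((P' : Subgroup A).map A.subtype) = (P : Subgroup (Equiv.Perm α)) := by
      rw [Sylow.coe_subtype, Subgroup.subgroupOf_map_subtype]
      exact inf_eq_left.mpr hPA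
    rw [hmap] at hsup
    have h2 : (⊤ : Subgroup (Equiv.Perm α)) ≤ A := by
      rw [← hsup]
      exact sup_le hle le_rfl
    have h1 : 1 < Fintype.card α := by omega
    obtain ⟨a, b, hab⟩ := Fintype.exists_pair_of_one_lt_card h1
    have h3 := h2 (Subgroup.mem_top (Equiv.swap a b))
    rw [hA, Equiv.Perm.mem_alternatingGroup, Equiv.Perm.sign_swap hab] at h3
    exact absurd h3 (by decide)
  have hidx : A.index = 2 := by
    have h1 : 1 < Fintype.card α := by omega
    haveI : Nontrivial α := Fintype.one_lt_card_iff_nontrivial.mp h1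
    exact alternatingGroup.index_eq_two
  have hrel : A.relIndex N = 2 := by
    have hd : A.relIndex N ∣ A.index := Subgroup.relIndex_dvd_index_of_normal A N
    rw [hidx] at hd
    rcases (Nat.dvd_prime Nat.prime_two).mp hd with h | h
    · exact absurd (Subgroup.relIndex_eq_one.mp h) hNA
    · exact h
  have hcard := CfsgLib.H9.card_inf_mul_relIndex A N
  rw [hrel] at hcard
  have hmap : (Subgroup.normalizer (((P : Subgroup (Equiv.Perm α)).subgroupOf A : Subgroup A) : Set A)).map A.subtype = A ⊓ N := by
    ext x
    simp only [Subgroup.mem_map, Subgroup.mem_inf]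
    constructor
    · rintro ⟨y, hy, rfl⟩
      refine ⟨y.2, ?_⟩
      rw [hN, Subgroup.mem_normalizer_iff]
      intro h
      rw [Subgroup.mem_normalizer_iff] at hy
      constructor
      · intro hh
        have h1 : (⟨h, hPA hh⟩ : A) ∈ ((P : Subgroup (Equiv.Perm α)).subgroupOf A : Subgroup A) := hh
        have h2 := (hy _).mp h1
        exact h2
      · intro hh
        have hhA : h ∈ A := by
          have h4 : (y : Equiv.Perm α) * h * (y : Equiv.Perm α)⁻¹ ∈ A := hPA hh
          have h5 : (y : Equiv.Perm α)⁻¹ * ((y : Equiv.Perm α) * h * (y : Equiv.Perm α)⁻¹) * (y : Equiv.Perm α) ∈ A :=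
            A.mul_mem (A.mul_mem (A.inv_mem y.2) h4) y.2
          simpa [mul_assoc] using h5
        have h1 : y * (⟨h, hhA⟩ : A) * y⁻¹ ∈ ((P : Subgroup (Equiv.Perm α)).subgroupOf A : Subgroup A) := hh
        have h2 := (hy _).mpr h1
        exact h2
    · rintro ⟨hxA, hxN⟩
      refine ⟨⟨x, hxA⟩, ?_, rfl⟩
      rw [Subgroup.mem_normalizer_iff]
      intro h
      rw [hN, Subgroup.mem_normalizer_iff] at hxN
      exact hxN h
  have hc2 : Nat.card ↥(Subgroup.normalizer (((P : Subgroup (Equiv.Perm α)).subgroupOf A : Subgroup A) : Set A)) = Nat.card ↥(A ⊓ N) := by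
    rw [← hmap]
    exact (Subgroup.card_map_of_injective A.subtype_injective).symm
  rw [hc2, ← hcard]
  ring

end Cfsg.Agent.S0990
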