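import Cfsg.Statements.S0992
import Cfsg.Agent.Lib.H9.SimpleTools

set_option autoImplicit false
open Cfsg

namespace Cfsg.Agent.S0992

theorem aut_dvd_six {V : Type*} [Group V] [Finite V] (hV : Nat.card V = 4) :
    Nat.card (MulAut V) ∣ 6 := by
  classical
  let φ : MulAut V →* Equiv.Perm {x : V // x ≠ 1} :=
    { toFun := fun f => Equiv.Perm.subtypePerm (f.toEquiv : Equiv.Perm V) (fun x => by
        show f x ≠ 1 ↔ x ≠ 1
        simp)
      map_one' := by
        ext x
        simp
      map_mul' := fun f g => by
        ext x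
        simp }
  have hinj : Function.Injective φ := by
    intro f g hfg
    ext x
    by_cases hx : x = 1
    · simp [hx]
    · have := congrArg (fun e : Equiv.Perm {x : V // x ≠ 1} => (e ⟨x, hx⟩ : V)) hfg
      simpa [φ] using this
  have h1 := Subgroup.card_dvd_of_injective φ hinj
  haveI : Fintype V := Fintype.ofFinite V
  have h2 : Nat.card (Equiv.Perm {x : V // x ≠ 1}) = 6 := by
    rw [Nat.card_eq_fintype_card, Fintype.card_perm]
    have : Fintype.card {x : V // x ≠ 1} = 3 := by
      rw [Fintype.card_subtype_compl, Fintype.card_subtype_eq]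
      rw [Nat.card_eq_fintype_card] at hV
      omega
    rw [this]
    rfl
  rwa [h2] at h1

/-- Let G be a non-abelian finite simple group of even order not divisible by 8, and T a Sylow 2-subgroup. Then T is a Klein four-group and the centralizer of T has index 3 in the normalizer of T. -/
theorem result {G : Type*} [Group G] [Finite G] [IsSimpleGroup G] (hG : ¬ IsMulCommutative G) (h2 : Even (Nat.card G)) (h8 : ¬ 8 ∣ Nat.card G) (T : Sylow 2 G) : IsKleinFour ↥(T : Subgroup G) ∧ (Subgroup.centralizer ((T : Subgroup G) : Set G)).relIndex (Subgroup.normalizer ((T : Subgroup G) : Set G)) = 3 := by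
  classical
  have hTc : Nat.card T = 2 ^ (Nat.card G).factorization 2 := T.card_eq_multiplicity
  have hTd : Nat.card (T : Subgroup G) ∣ Nat.card G := Subgroup.card_subgroup_dvd_card _
  have hk : (Nat.card G).factorization 2 = 1 ∨ (Nat.card G).factorization 2 = 2 := by
    have h0 : (Nat.card G).factorization 2 ≠ 0 := by
      have := Nat.Prime.factorization_pos_of_dvd Nat.prime_two Nat.card_pos.ne' h2.two_dvd
      omega
    have h3 : (Nat.card G).factorization 2 < 3 := by
      by_contra h
      push Not at h
      apply h8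
      have : (8 : ℕ) ∣ 2 ^ (Nat.card G).factorization 2 := by
        have := pow_dvd_pow 2 h
        simpa using this
      exact this.trans (hTc ▸ hTd)
    omega
  have hT24 : Nat.card T = 2 ∨ Nat.card T = 4 := by
    rcases hk with h | h
    · left; rw [hTc, h]; norm_num
    · right; rw [hTc, h]; norm_num
  have hab : IsMulCommutative (T : Subgroup G) := by
    rcases hT24 with h | h
    · haveI : Fact (Nat.Prime 2) := ⟨Nat.prime_two⟩
      haveI := isCyclic_of_prime_card (α := (T : Subgroup G)) (p := 2) h
      exact IsCyclic.isMulCommutative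
    · haveI : Fact (Nat.Prime 2) := ⟨Nat.prime_two⟩
      exact IsPGroup.isMulCommutative_of_card_eq_prime_sq (p := 2) (by rw [h]; norm_num)
  have hne : (T : Subgroup G) ≠ ⊥ := by
    intro hb
    have : Nat.card (T : Subgroup G) = 1 := by rw [hb]; simp
    rcases hT24 with h | h <;> omega
  have hnot := CfsgLib.H9.not_normalizer_le_centralizer hG T hab hne
  set C := Subgroup.centralizer ((T : Subgroup G) : Set G) with hC
  set N := Subgroup.normalizer ((T : Subgroup G) : Set G) with hN
  have hr1 : C.relIndex N ≠ 1 := by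
    intro h
    exact hnot (Subgroup.relIndex_eq_one.mp h)
  have hrd : C.relIndex N ∣ Nat.card (MulAut (T : Subgroup G)) := by
    have h1 : C.relIndex N = ((T : Subgroup G).normalizerMonoidHom).ker.index := by
      rw [Subgroup.normalizerMonoidHom_ker]
      rfl
    rw [h1, Subgroup.index_ker]
    exact Subgroup.card_subgroup_dvd_card _
  have hTC : (T : Subgroup G) ≤ C := by
    intro x hx
    rw [hC, Subgroup.mem_centralizer_iff]
    intro y hy
    have := hab.is_comm.comm ⟨y, hy⟩ ⟨x, hx⟩
    exact congrArg Subtype.val this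
  have hTN : (T : Subgroup G) ≤ N := Subgroup.le_normalizer
  have hodd : ¬ 2 ∣ C.relIndex N := by
    rintro ⟨s, hs⟩
    have hc := CfsgLib.H9.card_inf_mul_relIndex C N
    have hd1 : Nat.card (T : Subgroup G) ∣ Nat.card ↥(C ⊓ N) := Subgroup.card_dvd_of_le (le_inf hTC hTN)
    obtain ⟨c, hc1⟩ := hd1
    have hd2 : Nat.card N ∣ Nat.card G := Subgroup.card_subgroup_dvd_card _
    have hd3 : Nat.card (T : Subgroup G) * 2 ∣ Nat.card G := by
      refine Dvd.dvd.trans ?_ hd2
      rw [← hc, hc1, hs]
      exact ⟨c * s, by ring⟩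
    have hidx := Subgroup.card_mul_index (T : Subgroup G)
    rw [← hidx] at hd3
    have hpos : 0 < Nat.card (T : Subgroup G) := Nat.card_pos
    exact T.not_dvd_index (Nat.dvd_of_mul_dvd_mul_left hpos hd3)
  -- not cyclic
  have hncyc : ¬ IsCyclic (T : Subgroup G) := by
    intro hcyc
    have h1 : Nat.card (MulAut (T : Subgroup G)) = (Nat.card T).totient := IsCyclic.card_mulAut _
    rw [h1] at hrd
    have h3 : (Nat.card T).totient ∣ 2 := by
      rcases hT24 with h | h <;> rw [h] <;> decide
    have h4 := hrd.trans h3
    rcases (Nat.dvd_prime Nat.prime_two).mp h4 with h5 | h5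
    · exact hr1 h5
    · exact hodd (h5 ▸ dvd_refl _)
  have hT4 : Nat.card (T : Subgroup G) = 4 := by
    rcases hT24 with h | h
    · exact absurd (isCyclic_of_prime_card (p := 2) (hp := ⟨Nat.prime_two⟩) h) hncyc
    · exact h
  have hexp : ∀ x : (T : Subgroup G), x ^ 2 = 1 := by
    intro x
    have h1 : orderOf x ∣ 4 := hT4 ▸ orderOf_dvd_natCard x
    have h2 : orderOf x ≠ 4 := by
      intro h
      exact hncyc (isCyclic_of_orderOf_eq_card x (by rw [h, hT4]))
    have h3 : orderOf x ∣ 2 := by
      have : orderOf x ∈ Nat.divisors 4 := by simp [h1]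
      have h4 : Nat.divisors 4 = {1, 2, 4} := by decide
      rw [h4] at this
      simp only [Finset.mem_insert, Finset.mem_singleton] at this
      rcases this with h | h | h
      · rw [h]; exact one_dvd _
      · rw [h]
      · exact absurd h h2
    exact orderOf_dvd_iff_pow_eq_one.mp h3
  have hkl : IsKleinFour (T : Subgroup G) := by
    refine ⟨hT4, ?_⟩
    have h1 : Monoid.exponent (T : Subgroup G) ∣ 2 := Monoid.exponent_dvd_of_forall_pow_eq_one hexp
    rcases (Nat.dvd_prime Nat.prime_two).mp h1 with h | h
    · exfalso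
      haveI : Subsingleton (T : Subgroup G) := Monoid.exp_eq_one_iff.mp h
      have := Nat.card_of_subsingleton (α := (T : Subgroup G)) (1 : (T : Subgroup G))
      omega
    · exact h
  refine ⟨hkl, ?_⟩
  have h6 := hrd.trans (aut_dvd_six hT4)
  have hmem : C.relIndex N ∈ Nat.divisors 6 := by simp [h6]
  have h4 : Nat.divisors 6 = {1, 2, 3, 6} := by decide
  rw [h4] at hmem
  simp only [Finset.mem_insert, Finset.mem_singleton] at hmem
  rcases hmem with h | h | h | h
  · exact absurd h hr1
  · exact absurd (h ▸ dvd_refl _) hodd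
  · exact h
  · exact absurd (by rw [h]; norm_num) hodd

end Cfsg.Agent.S0992
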