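import Cfsg.Statements.S0995
import Cfsg.Agent.Lib.H9.SimpleTools
import Cfsg.Agent.Lib.H9.SylowConj
import Cfsg.Agent.Lib.H9.SylowTools
import Cfsg.Agent.Lib.H9.Count

set_option autoImplicit false
open Cfsg

namespace Cfsg.Agent.S0995

/-- Let G be a finite perfect group containing an element z of prime order p whose centralizer is the cyclic group it generates. Let t be the number of conjugacy classes of elements of order p. Then t divides p - 1, the number of Sylow p-subgroups has the form 1 + n * p, and |G| * t = (p - 1) * p * (1 + n * p). -/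
theorem result {G : Type*} [Group G] [Finite G] (hperf : commutator G = ⊤) (p : ℕ) [Fact p.Prime] (z : G) (hz : orderOf z = p) (hC : Subgroup.centralizer ({z} : Set G) = Subgroup.zpowers z) : ∃ n t : ℕ, t = Nat.card {c : ConjClasses G // ∃ g : G, ConjClasses.mk g = c ∧ orderOf g = p} ∧ t ∣ p - 1 ∧ Nat.card (Sylow p G) = 1 + n * p ∧ Nat.card G * t = (p - 1) * p * (1 + n * p) := by
  classical
  have hp : p.Prime := Fact.out
  set Z : Subgroup G := Subgroup.zpowers z with hZ
  have hZc : Nat.card Z = p := by rw [hZ, Nat.card_zpowers, hz]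
  have hgen : ∀ w ∈ Z, w ≠ 1 → z ∈ Subgroup.zpowers w := by
    intro w hw hw1
    have h1 : Subgroup.zpowers w ≤ Z := by
      rw [Subgroup.zpowers_le]; exact hw
    have h2 : Nat.card (Subgroup.zpowers w) ∣ p := by
      rw [← hZc]; exact Subgroup.card_dvd_of_le h1
    have h3 : Nat.card (Subgroup.zpowers w) ≠ 1 := by
      rw [Nat.card_zpowers]
      intro h
      exact hw1 (orderOf_eq_one_iff.mp h)
    rcases (Nat.dvd_prime hp).mp h2 with h | h
    · exact absurd h h3
    · have h4 : Subgroup.zpowers w = Z := Subgroup.eq_of_le_of_card_ge h1 (by rw [h, hZc])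
      rw [h4]
      exact Subgroup.mem_zpowers z
  have hcent : ∀ w ∈ Z, w ≠ 1 → Subgroup.centralizer ({w} : Set G) = Z := by
    intro w hw hw1
    apply le_antisymm
    · intro y hy
      rw [← hC, Subgroup.mem_centralizer_singleton_iff]
      rw [Subgroup.mem_centralizer_singleton_iff] at hy
      have hzw := hgen w hw hw1
      rw [Subgroup.mem_zpowers_iff] at hzw
      obtain ⟨k, rfl⟩ := hzw
      have : Commute y w := hy
      exact (this.zpow_right k)
    · intro y hy
      rw [Subgroup.mem_centralizer_singleton_iff]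
      rw [hZ, Subgroup.mem_zpowers_iff] at hw hy
      obtain ⟨a, rfl⟩ := hw
      obtain ⟨b, rfl⟩ := hy
      rw [← zpow_add, ← zpow_add, add_comm]
  have hZp : IsPGroup p Z := IsPGroup.of_card (n := 1) (by rw [hZc, pow_one])
  obtain ⟨S, hS⟩ := hZp.exists_le_sylow
  have hSZ : (S : Subgroup G) = Z := by
    apply le_antisymm _ hS
    haveI : Nontrivial (S : Subgroup G) := by
      refine ⟨⟨⟨z, hS (Subgroup.mem_zpowers z)⟩, 1, ?_⟩⟩
      intro h
      have h1 : z = 1 := congrArg Subtype.val h
      rw [h1, orderOf_one] at hz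
      exact hp.one_lt.ne hz
    haveI : Nontrivial (Subgroup.center (S : Subgroup G)) := S.isPGroup'.center_nontrivial
    obtain ⟨w, hw⟩ := exists_ne (1 : Subgroup.center (S : Subgroup G))
    have hw1 : ((w : (S : Subgroup G)) : G) ≠ 1 := by
      intro h
      apply hw
      ext
      exact h
    have hwc : ∀ y : (S : Subgroup G), y * w = w * y := fun y => by
      have := (Subgroup.mem_center_iff.mp w.2) y
      exact this
    have hwZ : ((w : (S : Subgroup G)) : G) ∈ Z := by
      rw [← hC, Subgroup.mem_centralizer_singleton_iff]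
      have := hwc ⟨z, hS (Subgroup.mem_zpowers z)⟩
      exact (congrArg Subtype.val this).symm
    intro y hy
    rw [← hcent _ hwZ hw1, Subgroup.mem_centralizer_singleton_iff]
    have := hwc ⟨y, hy⟩
    exact congrArg Subtype.val this
  have hSc : Nat.card (S : Subgroup G) = p := by rw [hSZ, hZc]
  have hall : ∀ P : Sylow p G, Nat.card P = p := by
    intro P
    have h1 : Nat.card P = Nat.card S := by
      rw [Sylow.card_eq_multiplicity, Sylow.card_eq_multiplicity]
    rw [h1]
    exact hSc
  have hcnt := CfsgLib.H9.card_orderOf_eq_prime_of_sylow (G := G) (p := p) hall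
  -- the centraliser of any element of order `p` has order `p`
  have hstab : ∀ g : G, orderOf g = p →
      Nat.card (MulAction.orbit (ConjAct G) g) * p = Nat.card G := by
    intro g hg
    have hgp : IsPGroup p (Subgroup.zpowers g) := IsPGroup.of_card (n := 1) (by
      rw [Nat.card_zpowers, hg, pow_one])
    obtain ⟨S', hS'⟩ := hgp.exists_le_sylow
    obtain ⟨x, hx⟩ := MulAction.exists_smul_eq G S' S
    have hgS' : g ∈ (S' : Subgroup G) := hS' (Subgroup.mem_zpowers g)
    have hw : x * g * x⁻¹ ∈ (S : Subgroup G) := by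
      rw [← hx, CfsgLib.H9.mem_smul_sylow]
      simpa [mul_assoc] using hgS'
    rw [hSZ] at hw
    have hw1 : x * g * x⁻¹ ≠ 1 := by
      intro h
      have : g = 1 := by
        have h2 : x⁻¹ * (x * g * x⁻¹) * x = g := by group
        rw [← h2, h]
        group
      rw [this, orderOf_one] at hg
      exact hp.one_lt.ne hg
    have hc2 := hcent _ hw hw1
    have horb : Nat.card (MulAction.orbit (ConjAct G) g) = Nat.card (MulAction.orbit (ConjAct G) (x * g * x⁻¹)) := by
      have : MulAction.orbit (ConjAct G) (x * g * x⁻¹) = MulAction.orbit (ConjAct G) g := by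
        apply MulAction.orbit_eq_iff.mpr
        refine ⟨ConjAct.toConjAct x, ?_⟩
        show ConjAct.toConjAct x • g = _
        rw [ConjAct.smul_def]
        rfl
      rw [this]
    rw [horb]
    have h1 := CfsgLib.H9.card_orbit_mul_card_stabilizer' (H := ConjAct G) (x * g * x⁻¹)
    have h3 : Nat.card (MulAction.stabilizer (ConjAct G) (x * g * x⁻¹)) = p := by
      rw [← hZc, ← hc2]
      refine Nat.card_congr (Equiv.subtypeEquiv ConjAct.ofConjAct.toEquiv ?_)
      intro a
      rw [MulAction.mem_stabilizer_iff, ConjAct.smul_def, Subgroup.mem_centralizer_singleton_iff]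
      show _ ↔ ConjAct.ofConjAct a * _ = _ * ConjAct.ofConjAct a
      constructor
      · intro h
        exact (mul_inv_eq_iff_eq_mul.mp h)
      · intro h
        exact (mul_inv_eq_iff_eq_mul.mpr h)
    rw [h3] at h1
    rw [h1]
    rfl
  -- counting
  set T := {c : ConjClasses G // ∃ g : G, ConjClasses.mk g = c ∧ orderOf g = p} with hT
  set k := Nat.card G / p with hk
  have hZd : p ∣ Nat.card G := by
    rw [← hZc]; exact Subgroup.card_subgroup_dvd_card Z
  have hkp : k * p = Nat.card G := Nat.div_mul_cancel hZd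
  let f : {g : G // orderOf g = p} → T := fun g => ⟨ConjClasses.mk g.1, g.1, rfl, g.2⟩
  have hfib : ∀ b : T, Nat.card {q : {g : G // orderOf g = p} // f q = b} = k := by
    rintro ⟨c, g, rfl, hg⟩
    have h1 := hstab g hg
    have h2 : Nat.card (MulAction.orbit (ConjAct G) g) = k := by
      apply Nat.eq_of_mul_eq_mul_right hp.pos
      rw [h1, hkp]
    rw [← h2]
    refine Nat.card_congr ?_
    refine ⟨fun q => ⟨q.1.1, ?_⟩, fun y => ⟨⟨y.1, ?_⟩, ?_⟩, ?_, ?_⟩
    · have h3 : ConjClasses.mk q.1.1 = ConjClasses.mk g := congrArg Subtype.val q.2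
      rw [ConjClasses.mk_eq_mk_iff_isConj] at h3
      obtain ⟨u, hu⟩ := isConj_comm.mp h3 |> isConj_iff.mp
      exact ⟨ConjAct.toConjAct u, by
        show ConjAct.toConjAct u • g = _
        rw [ConjAct.smul_def]
        exact hu⟩
    · obtain ⟨u, hu⟩ := y.2
      have hu' : (ConjAct.ofConjAct u) * g * (ConjAct.ofConjAct u)⁻¹ = y.1 := by
        rw [← ConjAct.smul_def]; exact hu
      rw [← hu', ← MulAut.conj_apply, MulEquiv.orderOf_eq, hg]
    · obtain ⟨u, hu⟩ := y.2
      have hu' : (ConjAct.ofConjAct u) * g * (ConjAct.ofConjAct u)⁻¹ = y.1 := by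
        rw [← ConjAct.smul_def]; exact hu
      apply Subtype.ext
      show ConjClasses.mk y.1 = ConjClasses.mk g
      rw [ConjClasses.mk_eq_mk_iff_isConj, ← hu']
      exact (isConj_iff.mpr ⟨_, rfl⟩).symm
    · intro q; rfl
    · intro y; rfl
  have hcount := CfsgLib.H9.natCard_eq_of_fibers f k hfib
  rw [hcnt] at hcount
  set t := Nat.card T with ht
  have hmain : Nat.card G * t = (p - 1) * p * Nat.card (Sylow p G) := by
    rw [← hkp]
    calc k * p * t = p * (t * k) := by ring
      _ = p * (Nat.card (Sylow p G) * (p - 1)) := by rw [hcount]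
      _ = (p - 1) * p * Nat.card (Sylow p G) := by ring
  have hmod : Nat.card (Sylow p G) ≡ 1 [MOD p] := card_sylow_modEq_one p G
  have hnp : 1 ≤ Nat.card (Sylow p G) := Nat.card_pos
  obtain ⟨n, hn⟩ : ∃ n, Nat.card (Sylow p G) = 1 + n * p := by
    have h1 : p ∣ Nat.card (Sylow p G) - 1 := (Nat.modEq_iff_dvd' hnp).mp hmod.symm
    obtain ⟨m, hm⟩ := h1
    refine ⟨m, ?_⟩
    rw [mul_comm m p, ← hm]
    omega
  refine ⟨n, t, rfl, ?_, hn, ?_⟩
  · have hN := CfsgLib.H9.card_normalizer_mul_card_sylow S
    have hSN : Nat.card (S : Subgroup G) ∣ Nat.card ↥(Subgroup.normalizer ((S : Subgroup G) : Set G)) :=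
      Subgroup.card_dvd_of_le Subgroup.le_normalizer
    rw [hSc] at hSN
    obtain ⟨a, ha⟩ := hSN
    rw [ha] at hN
    refine ⟨a, ?_⟩
    have hpos : 0 < p * Nat.card (Sylow p G) := Nat.mul_pos hp.pos Nat.card_pos
    apply Nat.eq_of_mul_eq_mul_right hpos
    calc (p - 1) * (p * Nat.card (Sylow p G)) = (p - 1) * p * Nat.card (Sylow p G) := by ring
      _ = Nat.card G * t := hmain.symm
      _ = (p * a * Nat.card (Sylow p G)) * t := by rw [hN]
      _ = t * a * (p * Nat.card (Sylow p G)) := by ring
  · rw [hmain, hn]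

end Cfsg.Agent.S0995
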