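import Cfsg.Statements.S1002
import Cfsg.Agent.Lib.H9.FirstPower2
import Mathlib

set_option autoImplicit false
open Cfsg

namespace Cfsg.Agent.S1002

/-- No finite simple group has order 1004913 = 3^3 * 7 * 13 * 409. -/
theorem result {G : Type*} [Group G] [Finite G] [IsSimpleGroup G] : Nat.card G ≠ 1004913 := by
  classical
  intro h
  haveI : Fintype G := Fintype.ofFinite G
  have hG : ¬ IsMulCommutative G := CfsgLib.H9.not_isMulCommutative_of_not_prime (by rw [h]; norm_num)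
  haveI : Fact (Nat.Prime 409) := ⟨by norm_num⟩
  have hpp : Nat.Prime 409 := Fact.out
  have h1 : Nat.card G = 409 ^ 1 * 2457 := by rw [h]; norm_num
  have hnd : ¬ 409 ∣ 2457 := by norm_num
  let P : Sylow 409 G := default
  have hP := CfsgLib.H9.card_sylow_of_factor h1 hnd P
  rw [pow_one] at hP
  obtain ⟨hd, hmod⟩ := CfsgLib.H9.card_sylow_dvd_cofactor h1 hnd
  have hne : Nat.card (Sylow 409 G) ≠ 1 :=
    CfsgLib.H9.card_sylow_ne_one' (q := 3) (by norm_num) (by norm_num) (by rw [h]; norm_num) (by rw [h]; norm_num)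
  have hmul := CfsgLib.H9.card_normalizer_mul_card_sylow P
  have hall : ∀ n ∈ Nat.divisors 2457, n % 409 = 1 → n ≠ 1 → n = 819 := by decide +kernel
  have hnp := hall _ (Nat.mem_divisors.mpr ⟨hd, by norm_num⟩) hmod hne
  rw [hnp, h] at hmul
  have hN : Nat.card (Subgroup.normalizer ((P : Subgroup G) : Set G)) = 409 * 3 := by omega
  have hC := CfsgLib.H9.FirstPower.hC_of_prime hG P hP (by norm_num) hN
  haveI : Fintype (P : Subgroup G) := Fintype.ofFinite _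
  obtain ⟨δ₁, δ₂, d₁, d₂, hδ₁, hδ₂, hd1, hd1', hd2, hd2', hd3, hd3', hd4⟩ :=
    CfsgLib.H9.FirstPower.data_three hG (P : Subgroup G) hpp hP hC hN (by norm_num)
  rw [h] at hd2 hd2' hd4
  have aux : ∀ (d : ℕ) (δ : ℤ), (δ = 1 ∨ δ = -1) → ((409 : ℕ) : ℤ) ∣ (d : ℤ) + δ → d ∣ 1004913 → d ∣ 2457 := by
    intro d δ hδ hd3 hd2
    have hco : Nat.Coprime 409 d := by
      rw [hpp.coprime_iff_not_dvd]
      intro hdiv
      have hdiv' : ((409 : ℕ) : ℤ) ∣ (d : ℤ) := by exact_mod_cast hdiv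
      have : ((409 : ℕ) : ℤ) ∣ δ := by
        have h5 := dvd_sub hd3 hdiv'
        simpa using h5
      rcases hδ with rfl | rfl <;> norm_num at this
    have : d ∣ 409 * 2457 := by simpa using hd2
    exact hco.symm.dvd_of_dvd_mul_left this
  have key : ∀ d ∈ Nat.divisors 2457, ∀ δ ∈ ({1, -1} : Finset ℤ), 1 < d → ((409 : ℕ) : ℤ) ∣ (d : ℤ) + δ →
      ∀ d' ∈ Nat.divisors 2457, ∀ δ' ∈ ({1, -1} : Finset ℤ), 1 < d' → ((409 : ℕ) : ℤ) ∣ (d' : ℤ) + δ' →
      (1 - δ * d - δ' * d').natAbs ∣ 1004913 → False := by decide +kernel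
  refine key d₁ (Nat.mem_divisors.mpr ⟨aux _ _ hδ₁ hd3 hd2, by norm_num⟩) δ₁ ?_ hd1 hd3
    d₂ (Nat.mem_divisors.mpr ⟨aux _ _ hδ₂ hd3' hd2', by norm_num⟩) δ₂ ?_ hd1' hd3' hd4
  · rcases hδ₁ with rfl | rfl <;> simp
  · rcases hδ₂ with rfl | rfl <;> simp

end Cfsg.Agent.S1002
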