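import Cfsg.Statements.S1009
import Cfsg.Agent.Lib.H9.SimpleTools
import Cfsg.Agent.Lib.H9.SylowConj

set_option autoImplicit false
open Cfsg

namespace Cfsg.Agent.S1009

/-- Brodkey's Theorem: if a finite group has abelian Sylow p-subgroups, then there are two Sylow p-subgroups whose intersection equals the intersection of all Sylow p-subgroups. -/
theorem result {G : Type*} [Group G] [Finite G] (p : ℕ) [Fact p.Prime] (hab : ∀ P : Sylow p G, IsMulCommutative ↥(P : Subgroup G)) : ∃ P Q : Sylow p G, (P : Subgroup G) ⊓ (Q : Subgroup G) = ⨅ R : Sylow p G, (R : Subgroup G) := by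
  classical
  haveI : Fintype (Sylow p G) := Fintype.ofFinite _
  obtain ⟨⟨P, Q⟩, -, hmin⟩ := Finset.exists_min_image (Finset.univ : Finset (Sylow p G × Sylow p G))
    (fun q => Nat.card ↥((q.1 : Subgroup G) ⊓ (q.2 : Subgroup G))) ⟨(default, default), Finset.mem_univ _⟩
  refine ⟨P, Q, le_antisymm ?_ ?_⟩
  · apply le_iInf
    intro R
    by_contra hR
    set D : Subgroup G := (P : Subgroup G) ⊓ (Q : Subgroup G) with hD
    set N : Subgroup G := Subgroup.normalizer (D : Set G) with hN
    have hPN : (P : Subgroup G) ≤ N := CfsgLib.H9.le_normalizer_of_comm (hab P) inf_le_left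
    have hQN : (Q : Subgroup G) ≤ N := CfsgLib.H9.le_normalizer_of_comm (hab Q) inf_le_right
    let P' : Sylow p N := P.subtype hPN
    let Q' : Sylow p N := Q.subtype hQN
    have hP' : (P' : Subgroup N) = (P : Subgroup G).subgroupOf N := Sylow.coe_subtype P hPN
    have hQ' : (Q' : Subgroup N) = (Q : Subgroup G).subgroupOf N := Sylow.coe_subtype Q hQN
    have hX : IsPGroup p ((R : Subgroup G).subgroupOf N) := R.isPGroup'.comap_subtype
    obtain ⟨S', hS'⟩ := hX.exists_le_sylow
    obtain ⟨m, hm⟩ := MulAction.exists_smul_eq N S' P'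
    obtain ⟨n, hn⟩ := MulAction.exists_smul_eq N P' Q'
    set u : N := n * m with hu
    set S : Sylow p G := (u : G) • R with hS
    have hsub : (P : Subgroup G) ⊓ (S : Subgroup G) ≤ D := by
      intro x hx
      have hxP : x ∈ (P : Subgroup G) := hx.1
      have hxS : x ∈ ((S : Sylow p G) : Subgroup G) := hx.2
      refine ⟨hxP, ?_⟩
      rw [hS, CfsgLib.H9.mem_smul_sylow] at hxS
      have hxN : x ∈ N := hPN hxP
      let y : N := u⁻¹ * ⟨x, hxN⟩ * u
      have hy : y ∈ (R : Subgroup G).subgroupOf N := hxS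
      have hyS : y ∈ (S' : Subgroup N) := hS' hy
      have hw : m * y * m⁻¹ ∈ (P' : Subgroup N) := by
        rw [← hm, CfsgLib.H9.mem_smul_sylow]
        simpa [mul_assoc] using hyS
      have hz : n * (m * y * m⁻¹) * n⁻¹ ∈ (Q' : Subgroup N) := by
        rw [← hn, CfsgLib.H9.mem_smul_sylow]
        simpa [mul_assoc] using hw
      rw [hQ'] at hz
      have hzx : n * (m * y * m⁻¹) * n⁻¹ = ⟨x, hxN⟩ := by
        simp only [y, hu]
        group
      rw [hzx] at hz
      exact hz
    have hnot : ¬ D ≤ (S : Subgroup G) := by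
      intro hle
      apply hR
      intro d hd
      have h1 : (u : G) * d * (u : G)⁻¹ ∈ D := (Subgroup.mem_normalizer_iff.mp u.2 d).mp hd
      have h2 := hle h1
      rw [hS, CfsgLib.H9.mem_smul_sylow] at h2
      have e : (u : G)⁻¹ * ((u : G) * d * (u : G)⁻¹) * (u : G) = d := by group
      rw [e] at h2
      exact h2
    have hle := hmin (P, S) (Finset.mem_univ _)
    simp only at hle
    have heq := Subgroup.eq_of_le_of_card_ge hsub hle
    apply hnot
    rw [← heq]
    exact inf_le_right
  · exact le_inf (iInf_le _ P) (iInf_le _ Q)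

end Cfsg.Agent.S1009
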