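import Cfsg.Statements.S1012
import Cfsg.Agent.Lib.H9.SimpleTools

set_option autoImplicit false
open Cfsg

namespace Cfsg.Agent.S1012

/-- A group of order 24 containing no element of order 6 is isomorphic to the symmetric group of degree 4. -/
theorem result {G : Type*} [Group G] [Finite G] (h : Nat.card G = 24) (h6 : ∀ g : G, orderOf g ≠ 6) : Nonempty (G ≃* Equiv.Perm (Fin 4)) := by
  classical
  haveI : Fact (Nat.Prime 3) := ⟨Nat.prime_three⟩
  haveI : Fact (Nat.Prime 2) := ⟨Nat.prime_two⟩
  have hcomm : ∀ x t : G, orderOf x = 3 → orderOf t = 2 → Commute t x → False := by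
    intro x t hx ht hc
    apply h6 (t * x)
    rw [hc.orderOf_mul_eq_mul_orderOf_of_coprime (by rw [hx, ht]; decide), hx, ht]
  have h24 : Nat.card G = 3 ^ 1 * 8 := by rw [h]; norm_num
  have hnd : ¬ 3 ∣ 8 := by decide
  obtain ⟨hn1, hn2⟩ := CfsgLib.H9.card_sylow_dvd_cofactor h24 hnd
  have hPc : ∀ P : Sylow 3 G, Nat.card (P : Subgroup G) = 3 := fun P => by
    have := CfsgLib.H9.card_sylow_of_factor h24 hnd P
    simpa using this
  have hgen : ∀ P : Sylow 3 G, ∃ x : G, x ∈ (P : Subgroup G) ∧ orderOf x = 3 := by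
    intro P
    obtain ⟨x, hx⟩ := exists_prime_orderOf_dvd_card' (G := (P : Subgroup G)) 3 (by rw [hPc P])
    refine ⟨x, x.2, ?_⟩
    exact (Subgroup.orderOf_coe x).trans hx
  -- `n_3 = 4`
  have hn4 : Nat.card (Sylow 3 G) = 4 := by
    have hne : Nat.card (Sylow 3 G) ≠ 1 := by
      intro h1
      haveI : Subsingleton (Sylow 3 G) := (Nat.card_eq_one_iff_unique.mp h1).1
      let P : Sylow 3 G := default
      have hnorm : (P : Subgroup G).Normal := by
        haveI : Finite (Sylow 3 G) := inferInstance
        exact P.normal_of_subsingleton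
      have hN : Subgroup.normalizer ((P : Subgroup G) : Set G) = ⊤ := Subgroup.normalizer_eq_top_iff.mpr hnorm
      have hd := CfsgLib.H9.card_normalizer_dvd_of_prime Nat.prime_three (P : Subgroup G) (hPc P)
      rw [hN, Subgroup.card_top, h] at hd
      have h2C : 2 ∣ Nat.card (Subgroup.centralizer ((P : Subgroup G) : Set G)) := by
        have : (12 : ℕ) ∣ Nat.card (Subgroup.centralizer ((P : Subgroup G) : Set G)) := by
          have h5 : 12 * 2 ∣ Nat.card (Subgroup.centralizer ((P : Subgroup G) : Set G)) * 2 := hd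
          exact Nat.dvd_of_mul_dvd_mul_right (by norm_num) h5
        exact (by norm_num : (2 : ℕ) ∣ 12).trans this
      obtain ⟨t, ht⟩ := exists_prime_orderOf_dvd_card' 2 h2C
      obtain ⟨x, hxP, hx⟩ := hgen P
      apply hcomm x t hx ((Subgroup.orderOf_coe t).trans ht)
      exact (Subgroup.mem_centralizer_iff.mp t.2 x hxP).symm
    have hmem : Nat.card (Sylow 3 G) ∈ Nat.divisors 8 := by simp [hn1]
    have h4 : Nat.divisors 8 = {1, 2, 4, 8} := by decide
    rw [h4] at hmem
    simp only [Finset.mem_insert, Finset.mem_singleton] at hmem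
    rcases hmem with h1 | h1 | h1 | h1
    · exact absurd h1 hne
    · rw [h1] at hn2; omega
    · exact h1
    · rw [h1] at hn2; omega
  let f : G →* Equiv.Perm (Sylow 3 G) := MulAction.toPermHom G (Sylow 3 G)
  have hker : f.ker = ⊥ := by
    set K := f.ker with hK
    have hKmem : ∀ k ∈ K, ∀ Q : Sylow 3 G, k ∈ Subgroup.normalizer ((Q : Subgroup G) : Set G) := by
      intro k hk Q
      rw [hK, MonoidHom.mem_ker] at hk
      have h1 : k • Q = Q := by
        have := congrArg (fun e : Equiv.Perm (Sylow 3 G) => e Q) hk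
        simpa [f] using this
      exact Sylow.smul_eq_iff_mem_normalizer.mp h1
    let P : Sylow 3 G := default
    have hNc : Nat.card (Subgroup.normalizer ((P : Subgroup G) : Set G)) * 4 = 24 := by
      have := CfsgLib.H9.card_normalizer_mul_card_sylow P
      rwa [hn4, h] at this
    have hNP : Nat.card (Subgroup.normalizer ((P : Subgroup G) : Set G)) = 6 := by omega
    have hKN : K ≤ Subgroup.normalizer ((P : Subgroup G) : Set G) := fun k hk => hKmem k hk P
    have hKd : Nat.card K ∣ 6 := hNP ▸ Subgroup.card_dvd_of_le hKN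
    have h3K : ¬ 3 ∣ Nat.card K := by
      intro hd
      obtain ⟨k, hk⟩ := exists_prime_orderOf_dvd_card' 3 hd
      have hk' : orderOf (k : G) = 3 := by rw [← hk]; exact (Subgroup.orderOf_coe k)
      have hp : IsPGroup 3 (Subgroup.zpowers (k : G)) := IsPGroup.of_card (n := 1) (by
        rw [Nat.card_zpowers, hk', pow_one])
      have hall : ∀ Q : Sylow 3 G, (k : G) ∈ (Q : Subgroup G) := by
        intro Q
        have h1 := hp.inf_normalizer_sylow Q
        have h2 : (k : G) ∈ Subgroup.zpowers (k : G) ⊓ Subgroup.normalizer ((Q : Subgroup G) : Set G) :=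
          ⟨Subgroup.mem_zpowers _, hKmem _ k.2 Q⟩
        have h3 : (k : G) ∈ Subgroup.zpowers (k : G) ⊓ (Q : Subgroup G) := h1 ▸ h2
        exact h3.2
      have heq : ∀ Q : Sylow 3 G, (Q : Subgroup G) = Subgroup.zpowers (k : G) := by
        intro Q
        symm
        apply Subgroup.eq_of_le_of_card_ge
        · rw [Subgroup.zpowers_le]; exact hall Q
        · rw [Nat.card_zpowers, hk', hPc Q]
      have : Subsingleton (Sylow 3 G) := ⟨fun Q R => Sylow.ext (by rw [heq Q, heq R])⟩
      have h1 : Nat.card (Sylow 3 G) = 1 := Nat.card_of_subsingleton (default : Sylow 3 G)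
      omega
    have hK1 : Nat.card K = 1 ∨ Nat.card K = 2 := by
      have hmem : Nat.card K ∈ Nat.divisors 6 := by simp [hKd]
      have h4 : Nat.divisors 6 = {1, 2, 3, 6} := by decide
      rw [h4] at hmem
      simp only [Finset.mem_insert, Finset.mem_singleton] at hmem
      rcases hmem with h1 | h1 | h1 | h1
      · exact Or.inl h1
      · exact Or.inr h1
      · exact absurd (by rw [h1]) h3K
      · exact absurd (by rw [h1]; norm_num) h3K
    rcases hK1 with h1 | h1
    · exact Subgroup.eq_bot_of_card_eq _ h1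
    · exfalso
      have hnorm : K.Normal := f.normal_ker
      have hN : Subgroup.normalizer (K : Set G) = ⊤ := Subgroup.normalizer_eq_top_iff.mpr hnorm
      have hd := CfsgLib.H9.card_normalizer_dvd_of_prime Nat.prime_two K h1
      rw [hN, Subgroup.card_top, h] at hd
      have hC : Subgroup.centralizer (K : Set G) = ⊤ := by
        apply Subgroup.eq_top_of_card_eq
        apply le_antisymm (Subgroup.card_le_card_group _)
        rw [h]
        exact Nat.le_of_dvd Nat.card_pos (by simpa using hd)
      obtain ⟨t, ht⟩ := exists_prime_orderOf_dvd_card' (G := K) 2 (by rw [h1])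
      obtain ⟨x, -, hx⟩ := hgen P
      apply hcomm x t hx ((Subgroup.orderOf_coe t).trans ht)
      have := Subgroup.mem_centralizer_iff.mp (hC ▸ Subgroup.mem_top x : x ∈ Subgroup.centralizer (K : Set G)) t t.2
      exact this
  have hinj : Function.Injective f := (MonoidHom.ker_eq_bot_iff f).mp hker
  have hcard : Nat.card G = Nat.card (Equiv.Perm (Sylow 3 G)) := by
    haveI : Fintype (Sylow 3 G) := Fintype.ofFinite _
    rw [Nat.card_eq_fintype_card (α := Equiv.Perm (Sylow 3 G)), Fintype.card_perm, ← Nat.card_eq_fintype_card, hn4, h]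
    rfl
  have hbij : Function.Bijective f := (Nat.bijective_iff_injective_and_card f).mpr ⟨hinj, hcard⟩
  exact ⟨(MulEquiv.ofBijective f hbij).trans (Equiv.permCongrHom (Finite.equivFinOfCardEq hn4))⟩

end Cfsg.Agent.S1012
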