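import Cfsg.Statements.S1013
import Cfsg.Agent.Lib.H9.PrimeDeg2
import Cfsg.Agent.Lib.H9.KNormal
import Cfsg.Agent.Lib.H9.SylowConj
import Mathlib

set_option autoImplicit false
open Cfsg

namespace Cfsg.Agent.S1013

/-- Let G be a transitive permutation group of prime degree p having more than one Sylow p-subgroup, and suppose a Sylow p-subgroup P has prime index in its normalizer. Then G is simple. -/
theorem result {α : Type*} [Fintype α] [DecidableEq α] {p : ℕ} [Fact p.Prime] (hα : Fintype.card α = p) (G : Subgroup (Equiv.Perm α)) [MulAction.IsPretransitive ↥G α] (P : Sylow p ↥G) (hn : 1 < Nat.card (Sylow p ↥G)) (ht : (((P : Subgroup ↥G).subgroupOf (Subgroup.normalizer ((P : Subgroup ↥G) : Set ↥G))).index).Prime) : IsSimpleGroup ↥G := by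
  classical
  have hp : p.Prime := Fact.out
  have hPc : Nat.card (P : Subgroup G) = p := CfsgLib.H9.WPoly.card_sylow_of_prime_degree hα G P
  haveI hnt : Nontrivial G := by
    by_contra h
    rw [not_nontrivial_iff_subsingleton] at h
    have : Nat.card (P : Subgroup G) = 1 := Nat.card_unique
    rw [hPc] at this
    exact hp.one_lt.ne' this
  have hcard : Nat.card α = p := by rw [Nat.card_eq_fintype_card, hα]
  haveI : Nonempty α := by
    rw [← Fintype.card_pos_iff, hα]
    exact hp.pos
  obtain ⟨a⟩ := ‹Nonempty α›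
  have hprim : MulAction.IsPreprimitive G α :=
    MulAction.IsPreprimitive.of_prime_card (by rw [hcard]; exact hp)
  -- every nontrivial normal subgroup has order divisible by `p`
  have hdiv : ∀ N : Subgroup G, N.Normal → N ≠ ⊥ → p ∣ Nat.card N := by
    intro N hN hne
    haveI := hN
    have htr := CfsgLib.H9.KNormal.transitive_of_primitive hprim N hne
    haveI : MulAction.IsPretransitive N α := ⟨fun x y => by
      obtain ⟨n, hn, h⟩ := htr x y
      exact ⟨⟨n, hn⟩, h⟩⟩
    have h1 := Subgroup.card_mul_index (MulAction.stabilizer N a)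
    have h2 : (MulAction.stabilizer N a).index = p := by
      rw [MulAction.index_stabilizer, MulAction.orbit_eq_univ, Set.ncard_univ, hcard]
    rw [h2] at h1
    exact ⟨_, by rw [← h1, mul_comm]⟩
  have hnp2 : ¬ p ^ 2 ∣ Nat.card G := by
    intro h
    have := Sylow.pow_dvd_card_of_pow_dvd_card P h
    rw [hPc, sq] at this
    have h3 := Nat.le_of_dvd hp.pos this
    have := hp.two_le
    nlinarith
  refine ⟨fun N hN => ?_⟩
  haveI := hN
  by_contra hcon
  push Not at hcon
  obtain ⟨hNb, hNt⟩ := hcon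
  have hpN := hdiv N hN hNb
  -- `P ≤ N`
  have hPN : (P : Subgroup G) ≤ N := by
    obtain ⟨x, hx⟩ := exists_prime_orderOf_dvd_card' (G := N) p hpN
    have hx' : orderOf (x : G) = p := by rw [Subgroup.orderOf_coe]; exact hx
    have hQc : Nat.card (Subgroup.zpowers (x : G)) = p := by rw [Nat.card_zpowers, hx']
    have hQp : IsPGroup p (Subgroup.zpowers (x : G)) := IsPGroup.of_card (n := 1) (by rw [hQc, pow_one])
    obtain ⟨S, hS⟩ := hQp.exists_le_sylow
    have hSc : Nat.card (S : Subgroup G) = p := CfsgLib.H9.WPoly.card_sylow_of_prime_degree hα G S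
    have hQS : Subgroup.zpowers (x : G) = (S : Subgroup G) :=
      Subgroup.eq_of_le_of_card_ge hS (by rw [hQc, hSc])
    obtain ⟨g, hg⟩ := MulAction.exists_smul_eq G S P
    intro y hy
    rw [← hg, CfsgLib.H9.mem_smul_sylow, ← hQS] at hy
    have h1 : g⁻¹ * y * g ∈ N := by
      obtain ⟨k, hk⟩ := Subgroup.mem_zpowers_iff.mp hy
      rw [← hk]
      exact N.zpow_mem x.2 k
    have h2 := hN.conj_mem _ h1 g
    have h3 : g * (g⁻¹ * y * g) * g⁻¹ = y := by group
    rwa [h3] at h2
  -- the intersection with the normalizer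
  set Nm : Subgroup G := Subgroup.normalizer ((P : Subgroup G) : Set G) with hNm
  have htop : Nm ⊔ N = ⊤ := Sylow.normalizer_sup_eq_top' P hPN
  have hPNm : (P : Subgroup G) ≤ Nm := Subgroup.le_normalizer
  have hNmN : ¬ Nm ≤ N := by
    intro h
    apply hNt
    rw [sup_eq_right.mpr h] at htop
    exact htop
  -- `N ⊓ Nm = P`
  have hI : N ⊓ Nm ≤ (P : Subgroup G) := by
    by_contra hI
    -- an intermediate subgroup: `I = N ⊓ Nm`
    have hP_I : (P : Subgroup G) ≤ N ⊓ Nm := le_inf hPN hPNm
    have hdvd : ((P : Subgroup G).subgroupOf (N ⊓ Nm)).index ∣ ((P : Subgroup G).subgroupOf Nm).index := by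
      have h1 : ((P : Subgroup G).subgroupOf Nm).index =
          (P : Subgroup G).relIndex Nm := rfl
      have h2 : ((P : Subgroup G).subgroupOf (N ⊓ Nm)).index =
          (P : Subgroup G).relIndex (N ⊓ Nm) := rfl
      rw [h1, h2]
      exact Dvd.intro _ (Subgroup.relIndex_mul_relIndex (P : Subgroup G) (N ⊓ Nm) Nm hP_I inf_le_right)
    have hne1 : (P : Subgroup G).relIndex (N ⊓ Nm) ≠ 1 := by
      intro h1
      apply hI
      exact Subgroup.relIndex_eq_one.mp h1
    have hcases := (Nat.dvd_prime ht).mp hdvd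
    rcases hcases with h1 | h1
    · exact hne1 h1
    · -- then `Nm ≤ N`
      apply hNmN
      have hmul1 := Subgroup.relIndex_mul_relIndex (P : Subgroup G) (N ⊓ Nm) Nm hP_I inf_le_right
      have hne0 : (P : Subgroup G).relIndex Nm ≠ 0 := ht.ne_zero
      have h5 : (N ⊓ Nm).relIndex Nm = 1 := by
        have h6 : (P : Subgroup G).relIndex Nm * (N ⊓ Nm).relIndex Nm = (P : Subgroup G).relIndex Nm := by
          have h7 : ((P : Subgroup G).subgroupOf (N ⊓ Nm)).index = (P : Subgroup G).relIndex (N ⊓ Nm) := rfl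
          have h8 : ((P : Subgroup G).subgroupOf Nm).index = (P : Subgroup G).relIndex Nm := rfl
          rw [h7, h8] at h1
          rw [h1] at hmul1
          exact hmul1
        exact Nat.eq_of_mul_eq_mul_left (Nat.pos_of_ne_zero hne0) (by rw [h6, mul_one])
      have h9 := Subgroup.relIndex_eq_one.mp h5
      exact fun y hy => (h9 hy).1
  let P' : Sylow p N := P.subtype hPN
  have hP' : (P' : Subgroup N) = (P : Subgroup G).subgroupOf N := Sylow.coe_subtype P hPN
  have hP'c : Nat.card (P' : Subgroup N) = p := by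
    rw [hP']
    exact (Nat.card_congr (Subgroup.subgroupOfEquivOfLe hPN).toEquiv).trans hPc
  have hmem : ∀ m : N, m ∈ (P' : Subgroup N) ↔ (m : G) ∈ (P : Subgroup G) := fun m => by
    rw [hP', Subgroup.mem_subgroupOf]
  haveI hcyc : IsCyclic (P' : Subgroup N) := isCyclic_of_prime_card hP'c
  haveI hcomm : IsMulCommutative (P' : Subgroup N) := IsCyclic.isMulCommutative
  have hle : Subgroup.normalizer ((P' : Subgroup N) : Set N) ≤
      Subgroup.centralizer ((P' : Subgroup N) : Set N) := by
    intro n hn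
    have hnP : (n : G) ∈ Nm := by
      rw [hNm, Subgroup.mem_normalizer_iff]
      intro y
      rw [Subgroup.mem_normalizer_iff] at hn
      constructor
      · intro hy
        have hyN : y ∈ N := hPN hy
        have h1 := (hn ⟨y, hyN⟩).mp ((hmem _).mpr hy)
        exact (hmem _).mp h1
      · intro hy
        have hcn : (n : G) * y * (n : G)⁻¹ ∈ N := hPN hy
        have hyN : y ∈ N := by
          have h2 := N.mul_mem (N.mul_mem (N.inv_mem n.2) hcn) n.2
          have h3 : (n : G)⁻¹ * ((n : G) * y * (n : G)⁻¹) * (n : G) = y := by group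
          rwa [h3] at h2
        have h1 := (hn ⟨y, hyN⟩).mpr ((hmem _).mpr hy)
        exact (hmem _).mp h1
    have hnPP : (n : G) ∈ (P : Subgroup G) := hI ⟨n.2, hnP⟩
    have hnP' : n ∈ (P' : Subgroup N) := (hmem _).mpr hnPP
    rw [Subgroup.mem_centralizer_iff]
    intro y hy
    have := hcomm.is_comm.comm ⟨y, hy⟩ ⟨n, hnP'⟩
    exact congrArg Subtype.val this
  have hc := MonoidHom.ker_transferSylow_isComplement' P' hle
  set φ := MonoidHom.transferSylow P' hle with hφ
  have hcardK := hc.card_mul
  rw [hP'c] at hcardK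
  have hKnp : ¬ p ∣ Nat.card φ.ker := by
    intro h
    apply hnp2
    have h1 : p * p ∣ Nat.card N := by
      rw [← hcardK]
      exact mul_dvd_mul_right h p
    rw [sq]
    exact h1.trans (Subgroup.card_subgroup_dvd_card N)
  -- the image of the kernel is normal in `G`
  let K' : Subgroup G := φ.ker.map N.subtype
  have hK'c : Nat.card K' = Nat.card φ.ker := by
    exact Nat.card_congr (Subgroup.equivMapOfInjective φ.ker N.subtype N.subtype_injective).symm.toEquiv
  have hK'n : K'.Normal := by
    constructor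
    rintro x ⟨n, hn, rfl⟩ g
    have hm : g * (n : G) * g⁻¹ ∈ N := hN.conj_mem _ n.2 g
    refine ⟨⟨_, hm⟩, ?_, rfl⟩
    show φ ⟨_, hm⟩ = 1
    have ho : orderOf (⟨_, hm⟩ : N) = orderOf n := by
      rw [← Subgroup.orderOf_coe (⟨_, hm⟩ : N), ← Subgroup.orderOf_coe n]
      show orderOf (g * (n : G) * g⁻¹) = _
      rw [← MulAut.conj_apply, MulEquiv.orderOf_eq]
    have h1 : orderOf (φ ⟨_, hm⟩) ∣ orderOf (⟨_, hm⟩ : N) := orderOf_map_dvd _ _
    have h2 : orderOf (φ ⟨_, hm⟩) ∣ p := by
      have := orderOf_dvd_natCard (φ ⟨_, hm⟩)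
      rwa [hP'c] at this
    have h3 : orderOf n ∣ Nat.card φ.ker := by
      have h4 : orderOf (⟨n, hn⟩ : φ.ker) = orderOf n := Subgroup.orderOf_mk n hn
      rw [← h4]
      exact orderOf_dvd_natCard _
    rcases (Nat.dvd_prime hp).mp h2 with h4 | h4
    · exact orderOf_eq_one_iff.mp h4
    · exfalso
      apply hKnp
      rw [ho] at h1
      exact (dvd_of_eq h4.symm).trans (h1.trans h3)
  have hK'b : K' = ⊥ := by
    by_contra hb
    have := hdiv K' hK'n hb
    rw [hK'c] at this
    exact hKnp this
  have hK1 : Nat.card φ.ker = 1 := by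
    rw [← hK'c, hK'b]
    exact Subgroup.card_bot
  rw [hK1, one_mul] at hcardK
  have hPeq : (P : Subgroup G) = N := Subgroup.eq_of_le_of_card_ge hPN (by rw [hPc, hcardK])
  have hnormal : (P : Subgroup G).Normal := by rw [hPeq]; exact hN
  have hsub : Unique (Sylow p G) := Sylow.unique_of_normal P hnormal
  rw [Nat.card_unique] at hn
  exact lt_irrefl _ hn

end Cfsg.Agent.S1013
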