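import Cfsg.Statements.S1014
import Cfsg.Agent.Lib.H9.SimpleTools
import Mathlib.Tactic

set_option autoImplicit false
open Cfsg

namespace Cfsg.Agent.S1014

/-- No finite simple group has order 1104 = 2^4 * 3 * 23. -/
theorem result {G : Type*} [Group G] [Finite G] [IsSimpleGroup G] : Nat.card G ≠ 1104 := by
  intro h
  have hG : ¬ IsMulCommutative G := CfsgLib.H9.not_isMulCommutative_of_not_prime (by rw [h]; norm_num)
  haveI : Fact (Nat.Prime 23) := ⟨by norm_num⟩
  haveI : Fact (Nat.Prime 2) := ⟨by norm_num⟩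
  have h1 : Nat.card G = 23 ^ 1 * 48 := by rw [h]; norm_num
  have hnd : ¬ 23 ∣ 48 := by norm_num
  let P : Sylow 23 G := default
  have hP := CfsgLib.H9.card_sylow_of_factor h1 hnd P
  rw [pow_one] at hP
  obtain ⟨hd, hm⟩ := CfsgLib.H9.card_sylow_dvd_cofactor h1 hnd
  have hne : Nat.card (Sylow 23 G) ≠ 1 :=
    CfsgLib.H9.card_sylow_ne_one' Nat.prime_two (by norm_num) (by rw [h]; norm_num) (by rw [h]; norm_num)
  have hmul := CfsgLib.H9.card_normalizer_mul_card_sylow P
  have hle := Nat.le_of_dvd (by norm_num) hd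
  generalize hn : Nat.card (Sylow 23 G) = n at *
  have hn24 : n = 24 := by
    interval_cases n <;> omega
  subst hn24
  have hN : Nat.card (Subgroup.normalizer ((P : Subgroup G) : Set G)) = 46 := by omega
  -- an involution in the normalizer
  obtain ⟨t, ht⟩ := exists_prime_orderOf_dvd_card' (G := Subgroup.normalizer ((P : Subgroup G) : Set G)) 2
    (by rw [hN]; norm_num)
  have ht' : orderOf (t : G) = 2 := by rw [Subgroup.orderOf_coe]; exact ht
  have hPC : 23 ∣ Nat.card (Subgroup.centralizer ((P : Subgroup G) : Set G)) := by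
    haveI : IsCyclic (P : Subgroup G) := isCyclic_of_prime_card hP
    have hab : IsMulCommutative (P : Subgroup G) := IsCyclic.isMulCommutative
    have := Subgroup.card_dvd_of_le (Subgroup.le_centralizer (P : Subgroup G))
    rwa [hP] at this
  have hCN : Subgroup.centralizer ((P : Subgroup G) : Set G) ≤ Subgroup.normalizer ((P : Subgroup G) : Set G) :=
    Subgroup.centralizer_le_normalizer _
  have hCd := Subgroup.card_dvd_of_le hCN
  rw [hN] at hCd
  have hne2 : (P : Subgroup G) ≠ ⊥ := by
    intro hb
    have h5 : Nat.card (P : Subgroup G) = 1 := by rw [hb]; exact Subgroup.card_bot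
    rw [hP] at h5
    omega
  haveI hcyc : IsCyclic (P : Subgroup G) := isCyclic_of_prime_card hP
  have hburn := CfsgLib.H9.not_normalizer_le_centralizer hG P IsCyclic.isMulCommutative hne2
  have hC23 : Nat.card (Subgroup.centralizer ((P : Subgroup G) : Set G)) = 23 := by
    obtain ⟨d, hd⟩ := hPC
    rw [hd] at hCd
    have hd2' : 23 * d ∣ 23 * 2 := hCd
    have hd2 : d ∣ 2 := Nat.dvd_of_mul_dvd_mul_left (by norm_num) hd2'
    have hd3 : d = 1 ∨ d = 2 := (Nat.dvd_prime Nat.prime_two).mp hd2
    rcases hd3 with rfl | rfl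
    · simpa using hd
    · exfalso
      apply hburn
      have : Subgroup.centralizer ((P : Subgroup G) : Set G) = Subgroup.normalizer ((P : Subgroup G) : Set G) :=
        Subgroup.eq_of_le_of_card_ge hCN (by rw [hN, hd])
      rw [this]
  apply CfsgLib.H9.false_of_sign_sylow (p := 23) hG (by norm_num) P hP hn t.2 (t := (t : G))
  · rw [← ht']; exact pow_orderOf_eq_one _
  · intro htc
    have := Subgroup.orderOf_dvd_natCard _ htc
    rw [ht', hC23] at this
    omega

end Cfsg.Agent.S1014
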