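import Cfsg.Statements.S1015
import Cfsg.Agent.Lib.H9.SimpleTools
import Cfsg.Agent.S0985
import Mathlib.Tactic

set_option autoImplicit false
open Cfsg

namespace Cfsg.Agent.S1015

/-- No finite simple group has order 1200 = 2^4 * 3 * 5^2. -/
theorem result {G : Type*} [Group G] [Finite G] [IsSimpleGroup G] : Nat.card G ≠ 1200 := by
  intro h
  have hG : ¬ IsMulCommutative G := CfsgLib.H9.not_isMulCommutative_of_not_prime (by rw [h]; norm_num)
  haveI : Fact (Nat.Prime 5) := ⟨by norm_num⟩
  have h1 : Nat.card G = 5 ^ 2 * 48 := by rw [h]; norm_num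
  have hnd : ¬ 5 ∣ 48 := by norm_num
  have hcardP : ∀ P : Sylow 5 G, Nat.card (P : Subgroup G) = 25 := fun P => by
    rw [CfsgLib.H9.card_sylow_of_factor h1 hnd P]; norm_num
  obtain ⟨hd, hm⟩ := CfsgLib.H9.card_sylow_dvd_cofactor h1 hnd
  have hne : Nat.card (Sylow 5 G) ≠ 1 :=
    CfsgLib.H9.card_sylow_ne_one' Nat.prime_two (by norm_num) (by rw [h]; norm_num) (by rw [h]; norm_num)
  have hle := Nat.le_of_dvd (by norm_num) hd
  have hlarge : ∀ H : Subgroup G, H ≠ ⊤ → 10 ≤ H.index := by
    intro H hH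
    have h2 := CfsgLib.H9.two_mul_card_dvd_factorial hG H hH
    rw [h] at h2
    by_contra hcon
    push Not at hcon
    generalize H.index = k at *
    interval_cases k <;> revert h2 <;> decide
  have hnorm : ∀ P : Sylow 5 G, Subgroup.normalizer ((P : Subgroup G) : Set G) ≠ ⊤ := by
    intro P htop
    have h2 : Nat.card (Sylow 5 G) = 1 := by
      have hidx : Nat.card (Sylow 5 G) = (Subgroup.normalizer ((P : Subgroup G) : Set G)).index :=
        Sylow.card_eq_index_normalizer P
      rw [hidx, htop, Subgroup.index_top]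
    exact hne h2
  have hn16 : Nat.card (Sylow 5 G) = 16 := by
    let P : Sylow 5 G := default
    have h2 := hlarge _ (hnorm P)
    have hidx : Nat.card (Sylow 5 G) = (Subgroup.normalizer ((P : Subgroup G) : Set G)).index :=
      Sylow.card_eq_index_normalizer P
    rw [← hidx] at h2
    generalize Nat.card (Sylow 5 G) = n at *
    interval_cases n <;> omega
  have hmod : ¬ Nat.card (Sylow 5 G) ≡ 1 [MOD 5 ^ 2] := by
    rw [hn16]; decide
  obtain ⟨P, R, hPR, hidx⟩ := Cfsg.Agent.S0985.result 5 2 hmod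
  have hPc : IsMulCommutative (P : Subgroup G) :=
    IsPGroup.isMulCommutative_of_card_eq_prime_sq (p := 5) (by rw [hcardP P]; norm_num)
  have hRc : IsMulCommutative (R : Subgroup G) :=
    IsPGroup.isMulCommutative_of_card_eq_prime_sq (p := 5) (by rw [hcardP R]; norm_num)
  set D := (R : Subgroup G) ⊓ (P : Subgroup G) with hD
  have hDcard := CfsgLib.H9.card_inf_mul_relIndex (R : Subgroup G) (P : Subgroup G)
  rw [hcardP P] at hDcard
  change Nat.card D * ((R : Subgroup G).subgroupOf (P : Subgroup G)).index = 25 at hDcard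
  obtain ⟨a, ha⟩ := (P.isPGroup').index ((R : Subgroup G).subgroupOf (P : Subgroup G))
  rw [ha] at hidx hDcard
  have ha1 : a ≤ 1 := by
    have : 5 ^ a ≤ 5 ^ 1 := by simpa using hidx
    exact (Nat.pow_le_pow_iff_right (by norm_num)).mp this
  have hane : a ≠ 0 := by
    rintro rfl
    rw [pow_zero] at ha
    have h5 : (R : Subgroup G).relIndex (P : Subgroup G) = 1 := ha
    have hle : (P : Subgroup G) ≤ (R : Subgroup G) := Subgroup.relIndex_eq_one.mp h5
    apply hPR
    apply Sylow.ext
    exact Subgroup.eq_of_le_of_card_ge hle (by rw [hcardP P, hcardP R])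
  have ha2 : a = 1 := by omega
  subst ha2
  have hDc : Nat.card D = 5 := by omega
  let N := Subgroup.normalizer (D : Set G)
  have hNtop : N ≠ ⊤ := by
    intro htop
    have hDn : D.Normal := Subgroup.normalizer_eq_top_iff.mp htop
    rcases IsSimpleGroup.eq_bot_or_eq_top_of_normal D hDn with h5 | h5
    · rw [h5, Subgroup.card_bot] at hDc
      omega
    · rw [h5, Subgroup.card_top, h] at hDc
      omega
  have hPN : (P : Subgroup G) ≤ N := CfsgLib.H9.le_normalizer_of_comm hPc inf_le_right
  have hRN : (R : Subgroup G) ≤ N := CfsgLib.H9.le_normalizer_of_comm hRc inf_le_left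
  obtain ⟨m, hm1, hm2⟩ := CfsgLib.H9.card_of_two_sylow N P R hPN hRN hPR
  have h3 := hlarge N hNtop
  have h4 := Subgroup.card_mul_index N
  rw [hm1, hcardP P, h] at h4
  have h5 : 25 * 6 * 10 ≤ 25 * m * N.index := Nat.mul_le_mul (by omega) h3
  omega

end Cfsg.Agent.S1015
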