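import Cfsg.Statements.S1018

set_option autoImplicit false
open Cfsg

namespace Cfsg.Agent.S1018

/-- helper: an element of order `p` normalising a Sylow `p`-subgroup lies in it -/
private lemma mem_of_mem_normalizer {G : Type*} [Group G] [Finite G] {p : ℕ} [Fact p.Prime]
    (P : Sylow p G) (z : G) (hz : orderOf z = p)
    (h : z ∈ Subgroup.normalizer ((P : Subgroup G) : Set G)) : z ∈ (P : Subgroup G) := by
  have hZ : IsPGroup p (Subgroup.zpowers z) := by
    refine IsPGroup.of_card (n := 1) ?_
    rw [Nat.card_zpowers, hz, pow_one]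
  have := hZ.inf_normalizer_sylow P
  have h2 : z ∈ Subgroup.zpowers z ⊓ Subgroup.normalizer (P : Set G) :=
    ⟨Subgroup.mem_zpowers z, h⟩
  rw [this] at h2
  exact h2.2

private lemma eq_zpowers {G : Type*} [Group G] [Finite G] {p : ℕ} [Fact p.Prime]
    (Q : Subgroup G) (hQ : Nat.card Q = p) (z : G) (hz : orderOf z = p) (h : z ∈ Q) :
    Q = Subgroup.zpowers z := by
  symm
  refine Subgroup.eq_of_le_of_card_ge ?_ ?_
  · exact (Subgroup.zpowers_le).2 h
  · rw [Nat.card_zpowers, hz, hQ]

/-- fixed-coset criterion -/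
private lemma fixed_iff {G : Type*} [Group G] (N : Subgroup G) (y g : G) :
    y • (g : G ⧸ N) = (g : G ⧸ N) ↔ g⁻¹ * y * g ∈ N := by
  have : y • (g : G ⧸ N) = ((y * g : G) : G ⧸ N) := rfl
  rw [this, eq_comm, QuotientGroup.eq]
  simp [mul_assoc]

private lemma orderOf_conj' {G : Type*} [Group G] (g y : G) : orderOf (g⁻¹ * y * g) = orderOf y := by
  have h := MulEquiv.orderOf_eq (MulAut.conj g⁻¹) y
  simpa [MulAut.conj_apply] using h

private lemma mem_norm_aux {G : Type*} [Group G] (P : Subgroup G) (h z₁ z₂ : G)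
    (e₁ : P = Subgroup.zpowers z₁) (e₂ : P = Subgroup.zpowers z₂) (hz : z₁ = h * z₂ * h⁻¹) :
    h ∈ Subgroup.normalizer (P : Set G) := by
  rw [Subgroup.mem_set_normalizer_iff]
  intro u
  have hzk : ∀ k : ℤ, z₁ ^ k = h * z₂ ^ k * h⁻¹ := by
    intro k
    rw [hz]
    simp [conj_zpow]
  simp only [SetLike.mem_coe]
  constructor
  · intro hu
    rw [e₂] at hu
    obtain ⟨k, rfl⟩ := Subgroup.mem_zpowers_iff.1 hu
    rw [e₁]
    exact ⟨k, hzk k⟩
  · intro hu
    rw [e₁] at hu
    obtain ⟨k, hk⟩ := Subgroup.mem_zpowers_iff.1 hu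
    rw [hzk k] at hk
    have : z₂ ^ k = u := by
      simpa using hk
    rw [e₂, ← this]
    exact Subgroup.zpow_mem_zpowers z₂ k

/-- Let P be a Sylow p-subgroup of order p of a finite group G, and consider the action of G on the left cosets of the normalizer N of P. Then every element of order p fixes exactly one coset, and an element of N that does not centralize P fixes at most as many cosets as there are orbits of P. -/
theorem result {G : Type*} [Group G] [Finite G] (p : ℕ) [Fact p.Prime] (P : Sylow p G) (hP : Nat.card ↥(P : Subgroup G) = p) : (∀ y : G, orderOf y = p → Nat.card (MulAction.fixedBy (G ⧸ Subgroup.normalizer ((P : Subgroup G) : Set G)) y) = 1) ∧ ∀ x : G, x ∈ Subgroup.normalizer ((P : Subgroup G) : Set G) → x ∉ Subgroup.centralizer ((P : Subgroup G) : Set G) → Nat.card (MulAction.fixedBy (G ⧸ Subgroup.normalizer ((P : Subgroup G) : Set G)) x) ≤ Nat.card (MulAction.orbitRel.Quotient ↥(P : Subgroup G) (G ⧸ Subgroup.normalizer ((P : Subgroup G) : Set G))) := by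
  classical
  set N := Subgroup.normalizer ((P : Subgroup G) : Set G) with hN
  have key : ∀ y : G, orderOf y = p → ∀ g : G, y • (g : G ⧸ N) = (g : G ⧸ N) → (P : Subgroup G) = Subgroup.zpowers (g⁻¹ * y * g) := by
    intro y hy g hg
    rw [fixed_iff] at hg
    have hord : orderOf (g⁻¹ * y * g) = p := by
      rw [orderOf_conj', hy]
    have := mem_of_mem_normalizer P _ hord hg
    exact eq_zpowers _ hP _ hord this
  have huniq : ∀ y : G, orderOf y = p → ∀ c₁ c₂ : G ⧸ N, y • c₁ = c₁ → y • c₂ = c₂ → c₁ = c₂ := by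
    intro y hy c₁ c₂ h₁ h₂
    obtain ⟨g₁, rfl⟩ := QuotientGroup.mk_surjective c₁
    obtain ⟨g₂, rfl⟩ := QuotientGroup.mk_surjective c₂
    have e₁ := key y hy g₁ h₁
    have e₂ := key y hy g₂ h₂
    refine QuotientGroup.eq.2 ?_
    refine mem_norm_aux _ _ _ _ e₁ e₂ ?_
    group
  refine ⟨?_, ?_⟩
  · intro y hy
    rw [Nat.card_eq_one_iff_unique]
    refine ⟨⟨?_⟩, ?_⟩
    · rintro ⟨c₁, h₁⟩ ⟨c₂, h₂⟩
      exact Subtype.ext (huniq y hy c₁ c₂ h₁ h₂)
    · -- existence
      have hZ : IsPGroup p (Subgroup.zpowers y) := by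
        refine IsPGroup.of_card (n := 1) ?_
        rw [Nat.card_zpowers, hy, pow_one]
      obtain ⟨Q, hQ⟩ := hZ.exists_le_sylow
      obtain ⟨g, hg⟩ := MulAction.exists_smul_eq G P Q
      have hyQ : y ∈ (Q : Subgroup G) := hQ (Subgroup.mem_zpowers y)
      have hmem : g⁻¹ * y * g ∈ (P : Subgroup G) := by
        rw [← hg, Sylow.coe_subgroup_smul, Subgroup.mem_pointwise_smul_iff_inv_smul_mem] at hyQ
        simpa [MulAut.conj_apply] using hyQ
      refine ⟨⟨(g : G ⧸ N), ?_⟩⟩
      rw [MulAction.mem_fixedBy, fixed_iff]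
      exact Subgroup.le_normalizer hmem
  · intro x hxN hxC
    -- the map from fixed cosets to `P`-orbits
    refine Nat.card_le_card_of_injective (fun c => Quotient.mk'' c.1) ?_
    rintro ⟨c₁, h₁⟩ ⟨c₂, h₂⟩ h12
    rw [MulAction.mem_fixedBy] at h₁ h₂
    have h12' : MulAction.orbitRel (↥(P : Subgroup G)) (G ⧸ N) c₁ c₂ := Quotient.exact h12
    rw [MulAction.orbitRel_apply] at h12'
    obtain ⟨⟨u, hu⟩, rfl⟩ := h12'
    -- `c₁ = u • c₂`
    show _ = _
    apply Subtype.ext
    show (u • c₂ : G ⧸ N) = c₂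
    -- commutator of `u` and `x` fixes `c₂`
    set w : G := u⁻¹ * x * u * x⁻¹ with hw
    have hwP : w ∈ (P : Subgroup G) := by
      have hxu : x * u * x⁻¹ ∈ (P : Subgroup G) := (Subgroup.mem_set_normalizer_iff.1 hxN u).1 hu
      have : w = u⁻¹ * (x * u * x⁻¹) := by rw [hw]; group
      rw [this]
      exact (P : Subgroup G).mul_mem ((P : Subgroup G).inv_mem hu) hxu
    have hwfix : w • c₂ = c₂ := by
      have h1 : x • (u • c₂) = u • c₂ := by
        exact h₁
      have h2 : x⁻¹ • c₂ = c₂ := by
        rw [inv_smul_eq_iff, h₂]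
      calc w • c₂ = u⁻¹ • x • u • x⁻¹ • c₂ := by simp [hw, mul_smul]
        _ = u⁻¹ • x • u • c₂ := by rw [h2]
        _ = u⁻¹ • u • c₂ := by rw [h1]
        _ = c₂ := by simp
    by_cases hw1 : w = 1
    · -- `u` commutes with `x`
      by_cases hu1 : u = 1
      · subst hu1; simp
      · exfalso
        apply hxC
        have hcomm : x * u = u * x := by
          have : u⁻¹ * x * u * x⁻¹ = 1 := hw1
          have h3 : u⁻¹ * x * u = x := by
            rw [mul_inv_eq_one] at this; exact this
          calc x * u = u * (u⁻¹ * x * u) := by group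
            _ = u * x := by rw [h3]
        have hord : orderOf u = p := by
          have h1 : orderOf u ∣ p := by
            have := Subgroup.orderOf_dvd_natCard (s := (P : Subgroup G)) hu
            rwa [hP] at this
          have hp := (Fact.out : p.Prime)
          rcases (Nat.dvd_prime hp).1 h1 with h | h
          · exact absurd (orderOf_eq_one_iff.1 h) hu1
          · exact h
        have hPu := eq_zpowers (P : Subgroup G) hP u hord hu
        rw [Subgroup.mem_centralizer_iff]
        intro v hv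
        have hv' : v ∈ (P : Subgroup G) := hv
        rw [hPu] at hv'
        obtain ⟨k, rfl⟩ := Subgroup.mem_zpowers_iff.1 hv'
        exact ((Commute.zpow_left (show Commute u x from hcomm.symm) k)).eq
    · -- `w` has order `p`, so it has a unique fixed coset, namely the coset of `1`
      have hord : orderOf w = p := by
        have h1 : orderOf w ∣ p := by
          have := Subgroup.orderOf_dvd_natCard (s := (P : Subgroup G)) hwP
          rwa [hP] at this
        have hp := (Fact.out : p.Prime)
        rcases (Nat.dvd_prime hp).1 h1 with h | h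
        · exact absurd (orderOf_eq_one_iff.1 h) hw1
        · exact h
      have hbase : ∀ v ∈ (P : Subgroup G), v • ((1 : G) : G ⧸ N) = ((1 : G) : G ⧸ N) := by
        intro v hv
        rw [fixed_iff]
        have h1 : (1 : G)⁻¹ * v * 1 = v := by simp
        rw [h1]
        exact Subgroup.le_normalizer hv
      have hc2 : c₂ = ((1 : G) : G ⧸ N) := huniq w hord _ _ hwfix (hbase w hwP)
      rw [hc2]
      exact hbase u hu

end Cfsg.Agent.S1018
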