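import Cfsg.Statements.S1019
import Cfsg.Agent.Lib.H9.Count

set_option autoImplicit false
open Cfsg

namespace Cfsg.Agent.S1019

/-- Let H be a subgroup of a finite group G and x an element of H. In the action of G on the left cosets of H, the number of cosets fixed by x, multiplied by the size of the conjugacy class of x, equals the index of H multiplied by the number of conjugates of x that lie in H. -/
theorem result {G : Type*} [Group G] [Finite G] (H : Subgroup G) (x : G) (hx : x ∈ H) : Nat.card (MulAction.fixedBy (G ⧸ H) x) * Nat.card {g : G // IsConj x g} = H.index * Nat.card {g : G // IsConj x g ∧ g ∈ H} := by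
  classical
  have hfin : Finite (G ⧸ H) := inferInstance
  let P : Type _ := {p : (G ⧸ H) × G // IsConj x p.2 ∧ p.2 • p.1 = p.1}
  -- count by the second coordinate
  have h1 : Nat.card P = Nat.card {g : G // IsConj x g} * Nat.card (MulAction.fixedBy (G ⧸ H) x) := by
    let f : P → {g : G // IsConj x g} := fun p => ⟨p.1.2, p.2.1⟩
    refine CfsgLib.H9.natCard_eq_of_fibers f _ ?_
    rintro ⟨y, hy⟩
    obtain ⟨c, hc⟩ := isConj_iff.1 hy
    subst hc
    refine Nat.card_congr ?_
    refine
      { toFun := fun p => ⟨c⁻¹ • p.1.1.1, ?_⟩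
        invFun := fun q => ⟨⟨(c • q.1, c * x * c⁻¹), ?_⟩, ?_⟩
        left_inv := ?_
        right_inv := ?_ }
    · obtain ⟨⟨⟨a, b⟩, hb1, hb2⟩, hp⟩ := p
      simp only [f, Subtype.mk.injEq] at hp
      subst hp
      simp only [MulAction.mem_fixedBy]
      have hb2' : (c * x * c⁻¹) • a = a := hb2
      calc x • c⁻¹ • a = c⁻¹ • (c * x * c⁻¹) • a := by simp [smul_smul, mul_assoc]
        _ = c⁻¹ • a := by rw [hb2']
    · refine ⟨hy, ?_⟩
      have := q.2
      simp only [MulAction.mem_fixedBy] at this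
      simp only
      rw [← mul_smul]
      have h2 : c * x * c⁻¹ * c = c * x := by group
      rw [h2, mul_smul, this]
    · rfl
    · rintro ⟨⟨⟨a, b⟩, hb1, hb2⟩, hp⟩
      simp only [f, Subtype.mk.injEq] at hp
      subst hp
      simp
    · rintro ⟨a, ha⟩
      simp
  -- count by the first coordinate
  have h2 : Nat.card P = Nat.card (G ⧸ H) * Nat.card {g : G // IsConj x g ∧ g ∈ H} := by
    let f : P → (G ⧸ H) := fun p => p.1.1
    refine CfsgLib.H9.natCard_eq_of_fibers f _ ?_
    intro c
    obtain ⟨c', rfl⟩ := QuotientGroup.mk_surjective c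
    refine Nat.card_congr ?_
    refine
      { toFun := fun p => ⟨c'⁻¹ * p.1.1.2 * c', ?_, ?_⟩
        invFun := fun q => ⟨⟨((c' : G ⧸ H), c' * q.1 * c'⁻¹), ?_, ?_⟩, rfl⟩
        left_inv := ?_
        right_inv := ?_ }
    · obtain ⟨⟨⟨a, b⟩, hb1, hb2⟩, hp⟩ := p
      simp only
      refine hb1.trans ?_
      rw [isConj_iff]
      exact ⟨c'⁻¹, by group⟩
    · obtain ⟨⟨⟨a, b⟩, hb1, hb2⟩, hp⟩ := p
      simp only [f] at hp
      subst hp
      simp only at hb2 ⊢
      have h4 : (c'⁻¹ * (b * c')) ∈ H := by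
        have := QuotientGroup.eq.1 (show (c' : G ⧸ H) = ((b * c' : G) : G ⧸ H) from hb2.symm)
        exact this
      simpa [mul_assoc] using h4
    · refine q.2.1.trans ?_
      rw [isConj_iff]
      exact ⟨c', by group⟩
    · have hq := q.2.2
      show ((c' * q.1 * c'⁻¹ * c' : G) : G ⧸ H) = (c' : G ⧸ H)
      refine QuotientGroup.eq.2 ?_
      have : (c' * q.1 * c'⁻¹ * c')⁻¹ * c' = q.1⁻¹ := by group
      rw [this]
      exact H.inv_mem hq
    · rintro ⟨⟨⟨a, b⟩, hb1, hb2⟩, hp⟩
      simp only [f] at hp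
      subst hp
      simp [mul_assoc]
    · rintro ⟨a, ha⟩
      simp [mul_assoc]
  have h3 : Nat.card (G ⧸ H) = H.index := rfl
  rw [h3] at h2
  rw [← h2, h1, mul_comm]

end Cfsg.Agent.S1019
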