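import Cfsg.Statements.S1030
import Cfsg.Agent.Lib.Chev.API
import Cfsg.Agent.Lib.Chev.All

set_option autoImplicit false
open Cfsg

namespace Cfsg.Agent.S1030

/-- There is a homomorphism `SL₂(F) → GL` with image `⟨X_r, X_{-r}⟩` sending `[[1,t],[0,1]]` to `x_r(t)` and `[[1,0],[t,1]]` to `x_{-r}(t)`. -/
theorem result {F : Type*} [Field F] (D : Cfsg.Lie.ChevalleyDatum) (hD : D ∈ [Cfsg.Lie.chevG2, Cfsg.Lie.chevB2, Cfsg.Lie.chevD4, Cfsg.Lie.chevF4, Cfsg.Lie.chevE6, Cfsg.Lie.chevE7, Cfsg.Lie.chevE8]) (r : ℕ) (hr : r < D.nroots) :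
    ∃ φ : Matrix.SpecialLinearGroup (Fin 2) F →* GL D.Idx F,
      φ.range = D.rootSubgroup F r ⊔ D.rootSubgroup F (D.neg r) ∧
      ∀ (g : Matrix.SpecialLinearGroup (Fin 2) F) (t : F),
        ((g : Matrix (Fin 2) (Fin 2) F) = !![1, t; 0, 1] → ((φ g : GL D.Idx F) : Matrix D.Idx D.Idx F) = D.x F r t) ∧
        ((g : Matrix (Fin 2) (Fin 2) F) = !![1, 0; t, 1] → ((φ g : GL D.Idx F) : Matrix D.Idx D.Idx F) = D.x F (D.neg r) t) := by
  obtain ⟨C, hG, hE⟩ := CfsgLib.Chev.cert_of_mem hD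
  have R := hG.sl2 (F := F) hr
  refine ⟨CfsgLib.Chev.sl2Hom R, ?_, ?_⟩
  · rw [CfsgLib.Chev.sl2Hom_range, hG.rootSubgroup_eq_closure, hG.rootSubgroup_eq_closure]
  · intro g t
    constructor
    · intro h
      rw [CfsgLib.Chev.sl2Hom_upper R g t h]
      rfl
    · intro h
      rw [CfsgLib.Chev.sl2Hom_lower R g t h]
      rfl

end Cfsg.Agent.S1030
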