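import Cfsg.Statements.S1035
import Cfsg.Agent.Lib.Chev.AllT

set_option autoImplicit false
open Cfsg

namespace Cfsg.Agent.S1035

/-- `d · |H| = (q - 1)^rank` over a field with `q` elements, with `d = 1` (G₂, F₄, E₈), `gcd(3, q-1)` (E₆), `gcd(2, q-1)` (E₇, B₂), `gcd(2, q-1)²` (D₄). -/
theorem result {F : Type*} [Field F] [Fintype F] {q : ℕ} (hq : Fintype.card F = q)
    (p : Cfsg.Lie.ChevalleyDatum × ℕ)
    (hp : p ∈ [(Cfsg.Lie.chevG2, 1), (Cfsg.Lie.chevF4, 1), (Cfsg.Lie.chevE8, 1), (Cfsg.Lie.chevE6, Nat.gcd 3 (q - 1)),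
      (Cfsg.Lie.chevE7, Nat.gcd 2 (q - 1)), (Cfsg.Lie.chevB2, Nat.gcd 2 (q - 1)), (Cfsg.Lie.chevD4, Nat.gcd 2 (q - 1) ^ 2)]) :
    p.2 * Nat.card (p.1.diagonalSubgroup F) = (q - 1) ^ p.1.rank := by
  classical
  have hU : Nat.card Fˣ = q - 1 := by
    rw [Nat.card_eq_fintype_card, Fintype.card_units, hq]
  simp only [List.mem_cons, List.not_mem_nil, or_false] at hp
  rcases hp with rfl | rfl | rfl | rfl | rfl | rfl | rfl
  · have h := CfsgLib.Chev.TG2.card_torus (F := F)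
    rw [hU] at h
    rw [show (∏ m : Fin Cfsg.Lie.chevG2.rank, (q - 1).gcd (CfsgLib.Chev.fG2 m)) = 1 from by
      show (∏ m : Fin 2, (q - 1).gcd (CfsgLib.Chev.fG2 m)) = 1
      simp [Fin.prod_univ_succ, CfsgLib.Chev.fG2], mul_one] at h
    show 1 * _ = _
    rw [one_mul]
    exact h
  · have h := CfsgLib.Chev.TF4.card_torus (F := F)
    rw [hU] at h
    rw [show (∏ m : Fin Cfsg.Lie.chevF4.rank, (q - 1).gcd (CfsgLib.Chev.fF4 m)) = 1 from by
      show (∏ m : Fin 4, (q - 1).gcd (CfsgLib.Chev.fF4 m)) = 1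
      simp [Fin.prod_univ_succ, CfsgLib.Chev.fF4], mul_one] at h
    show 1 * _ = _
    rw [one_mul]
    exact h
  · have h := CfsgLib.Chev.TE8.card_torus (F := F)
    rw [hU] at h
    rw [show (∏ m : Fin Cfsg.Lie.chevE8.rank, (q - 1).gcd (CfsgLib.Chev.fE8 m)) = 1 from by
      show (∏ m : Fin 8, (q - 1).gcd (CfsgLib.Chev.fE8 m)) = 1
      simp [Fin.prod_univ_succ, CfsgLib.Chev.fE8], mul_one] at h
    show 1 * _ = _
    rw [one_mul]
    exact h
  · have h := CfsgLib.Chev.TE6.card_torus (F := F)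
    rw [hU] at h
    rw [show (∏ m : Fin Cfsg.Lie.chevE6.rank, (q - 1).gcd (CfsgLib.Chev.fE6 m)) = Nat.gcd 3 (q - 1) from by
      show (∏ m : Fin 6, (q - 1).gcd (CfsgLib.Chev.fE6 m)) = _
      simp [Fin.prod_univ_succ, CfsgLib.Chev.fE6, Nat.gcd_comm]] at h
    show _ * _ = _
    rw [mul_comm]
    exact h
  · have h := CfsgLib.Chev.TE7.card_torus (F := F)
    rw [hU] at h
    rw [show (∏ m : Fin Cfsg.Lie.chevE7.rank, (q - 1).gcd (CfsgLib.Chev.fE7 m)) = Nat.gcd 2 (q - 1) from by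
      show (∏ m : Fin 7, (q - 1).gcd (CfsgLib.Chev.fE7 m)) = _
      simp [Fin.prod_univ_succ, CfsgLib.Chev.fE7, Nat.gcd_comm]] at h
    show _ * _ = _
    rw [mul_comm]
    exact h
  · have h := CfsgLib.Chev.TB2.card_torus (F := F)
    rw [hU] at h
    rw [show (∏ m : Fin Cfsg.Lie.chevB2.rank, (q - 1).gcd (CfsgLib.Chev.fB2 m)) = Nat.gcd 2 (q - 1) from by
      show (∏ m : Fin 2, (q - 1).gcd (CfsgLib.Chev.fB2 m)) = _
      simp [Fin.prod_univ_succ, CfsgLib.Chev.fB2, Nat.gcd_comm]] at h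
    show _ * _ = _
    rw [mul_comm]
    exact h
  · have h := CfsgLib.Chev.TD4.card_torus (F := F)
    rw [hU] at h
    rw [show (∏ m : Fin Cfsg.Lie.chevD4.rank, (q - 1).gcd (CfsgLib.Chev.fD4 m)) = Nat.gcd 2 (q - 1) ^ 2 from by
      show (∏ m : Fin 4, (q - 1).gcd (CfsgLib.Chev.fD4 m)) = _
      simp [Fin.prod_univ_succ, CfsgLib.Chev.fD4, Nat.gcd_comm, pow_two]] at h
    show _ * _ = _
    rw [mul_comm]
    exact h

end Cfsg.Agent.S1035
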