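import Cfsg.Statements.S1061
import Cfsg.Agent.Lib.Chev.AllC

set_option autoImplicit false
open Cfsg

namespace Cfsg.Agent.S1061

/-- `gcd(2, q-1)² · |D₄(q)| = q¹² (q² - 1)(q⁴ - 1)(q⁴ - 1)(q⁶ - 1)`. -/
theorem result {F : Type*} [Field F] [Fintype F] {q : ℕ} (hq : Fintype.card F = q) : Nat.gcd 2 (q - 1) ^ 2 * Nat.card ↥(Cfsg.Lie.chevD4.group F) = q ^ 12 * (q ^ 2 - 1) * (q ^ 4 - 1) * (q ^ 4 - 1) * (q ^ 6 - 1) := by
  have hq' : Nat.card F = q := by rw [Nat.card_eq_fintype_card, hq]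
  have hU : Nat.card Fˣ = q - 1 := by rw [Nat.card_units, hq']
  have h := CfsgLib.Chev.TD4.card_main (F := F)
  have hn : Cfsg.Lie.chevD4.nroots / 2 = 12 := by decide
  have hc : ∏ m, (Nat.card Fˣ).gcd (CfsgLib.Chev.fD4 m) = Nat.gcd 2 (q - 1) ^ 2 := by
    rw [hU]
    show ∏ m : Fin 4, (q - 1).gcd (([1, 1, 2, 2] : List ℕ).getD m 0) = _
    simp [Fin.prod_univ_succ, Nat.gcd_comm, sq]
  rw [hn, hc, hq'] at h
  simp only [List.map_cons, List.map_nil, List.prod_cons, List.prod_nil, mul_one] at h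
  rw [mul_comm, h]
  ring

end Cfsg.Agent.S1061
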