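import Cfsg.Statements.S1067
import Cfsg.Agent.Lib.Tw.OrdD4

set_option autoImplicit false
open Cfsg

namespace Cfsg.Agent.S1067

/-- `|³D₄(q)| = q¹² (q² - 1)(q⁶ - 1)(q⁸ + q⁴ + 1)`, the group being realised inside D₄ over the field with `q³` elements. -/
theorem result {K : Type*} [Field K] [Fintype K] {q : ℕ} (hq : IsPrimePow q) (hK : Fintype.card K = q ^ 3) :
    Nat.card ↥(Cfsg.Lie.twistedD4 K q) = q ^ 12 * (q ^ 2 - 1) * (q ^ 6 - 1) * (q ^ 8 + q ^ 4 + 1) := by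
  obtain ⟨φ, hφ, hφ3⟩ := CfsgLib.Chev.exists_phi3 hq hK
  have hH := CfsgLib.Chev.d4_card_H φ hφ hφ3
  rw [CfsgLib.Chev.d4S_card φ hφ hq.one_lt hK] at hH
  obtain ⟨r, rfl⟩ : ∃ r, q = r + 1 := ⟨q - 1, by
    have := hq.one_lt
    omega⟩
  have e3 : (r + 1) ^ 3 - 1 = r * ((r + 1) ^ 2 + (r + 1) + 1) := by
    apply Nat.sub_eq_of_eq_add
    ring
  rw [CfsgLib.Chev.d4_card_T φ hφ hφ3 hq.one_lt hK, hH, e3]
  have e2 : (r + 1) ^ 2 - 1 = r * (r + 2) := by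
    apply Nat.sub_eq_of_eq_add
    ring
  have e6 : (r + 1) ^ 6 - 1 = r * ((r + 1) ^ 2 + (r + 1) + 1) * ((r + 1) ^ 3 + 1) := by
    apply Nat.sub_eq_of_eq_add
    ring
  rw [e2, e6]
  simp only [Nat.add_sub_cancel]
  ring

end Cfsg.Agent.S1067
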