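import Cfsg.Statements.S1070
import Cfsg.Agent.Lib.Tw.SimpleT
import Cfsg.Agent.Lib.Tw.PerfE6
import Cfsg.Agent.Lib.Tw.OrdE6b
import Cfsg.Agent.Lib.Tw.CoreT

set_option autoImplicit false
open Cfsg

namespace Cfsg.Agent.S1070

open CfsgLib.Chev Cfsg.Lie CfsgLib.PC

set_option synthInstance.maxHeartbeats 400000
set_option synthInstance.maxSize 1024


/-- ²E₆(q) is simple for every `q`. -/
theorem result {K : Type*} [Field K] [Fintype K] {q : ℕ} (hq : IsPrimePow q) (hK : Fintype.card K = q ^ 2) :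
    IsSimpleGroup ↥(Cfsg.Lie.twistedE6 K q) ∧ ¬ IsMulCommutative ↥(Cfsg.Lie.twistedE6 K q) := by
  classical
  obtain ⟨φ, hφ, hφ2⟩ := exists_phi2 hq hK
  obtain ⟨Dt, e', hJ⟩ := e6_td φ hφ hφ2
  have hgen : ∀ j r (hr : r < chevE6.nroots), ((Dt.τw TE6.extra TE6.braid j) ⟨r, hr⟩).val = dg (e6GenC (e' j)) r := by
    intro j r hr
    have hj := hJ j
    rcases h : e' j with ⟨i, hi⟩
    rw [h] at hj
    have hi' : i < 4 := hi
    interval_cases i
    · rw [Dt.τw_val_eq TE6.extra TE6.braid j (Jl := [1]) (L := [1]) hj (by decide +kernel) (by decide +kernel) r hr]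
      exact e6_g0 r hr
    · rw [Dt.τw_val_eq TE6.extra TE6.braid j (Jl := [3]) (L := [3]) hj (by decide +kernel) (by decide +kernel) r hr]
      exact e6_g1 r hr
    · rw [Dt.τw_val_eq TE6.extra TE6.braid j (Jl := [0, 5]) (L := [0, 5]) hj (by decide +kernel) (by decide +kernel) r hr]
      exact e6_g2 r hr
    · rw [Dt.τw_val_eq TE6.extra TE6.braid j (Jl := [2, 4]) (L := [2, 4]) hj (by decide +kernel) (by decide +kernel) r hr]
      exact e6_g3 r hr
  refine Dt.simple_of TE6.extra TE6.braid e' (fun i => dg (e6GenC i)) hgen ?_ (e6_perfect φ hφ hφ2 hq.one_lt hK) (e6_core φ hφ hφ2)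
  intro P hP i j
  have h1 := hP 0 1 (by decide +kernel)
  have h2 := hP 1 3 (by decide +kernel)
  have h3 := hP 3 2 (by decide +kernel)
  have hall : ∀ i, P i = P 0 := by
    intro i
    fin_cases i
    · rfl
    · exact h1.symm
    · exact (h1.trans (h2.trans h3)).symm
    · exact (h1.trans h2).symm
  rw [hall i, hall j]

end Cfsg.Agent.S1070
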