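import Cfsg.Statements.S1071
import Cfsg.Agent.Lib.Tw.SimpleT
import Cfsg.Agent.Lib.Tw.PerfD4
import Cfsg.Agent.Lib.Tw.CoreT

set_option autoImplicit false
open Cfsg

namespace Cfsg.Agent.S1071

open CfsgLib.Chev Cfsg.Lie

set_option synthInstance.maxHeartbeats 400000
set_option synthInstance.maxSize 1024


/-- ³D₄(q) is simple for every `q`. -/
theorem result {K : Type*} [Field K] [Fintype K] {q : ℕ} (hq : IsPrimePow q) (hK : Fintype.card K = q ^ 3) :
    IsSimpleGroup ↥(Cfsg.Lie.twistedD4 K q) ∧ ¬ IsMulCommutative ↥(Cfsg.Lie.twistedD4 K q) := by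
  classical
  obtain ⟨φ, hφ, hφ3⟩ := exists_phi3 hq hK
  obtain ⟨Dt, e', hJ⟩ := d4_td φ hφ hφ3
  have hgen : ∀ j r (hr : r < chevD4.nroots), ((Dt.τw TD4.extra TD4.braid j) ⟨r, hr⟩).val = d4Dig (d4Gen (e' j)) r := by
    intro j r hr
    have hj := hJ j
    rcases h : e' j with ⟨i, hi⟩
    rw [h] at hj
    have hi' : i < 2 := hi
    interval_cases i
    · exact Dt.τw_val_eq TD4.extra TD4.braid j (Jl := [1]) (L := [1]) hj (by decide +kernel) (by decide +kernel) r hr
    · exact Dt.τw_val_eq TD4.extra TD4.braid j (Jl := [0, 2, 3]) (L := [0, 2, 3]) hj (by decide +kernel) (by decide +kernel) r hr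
  refine Dt.simple_of TD4.extra TD4.braid e' (fun i => d4Dig (d4Gen i)) hgen ?_ (d4_perfect φ hφ hφ3 hq.one_lt hK) (d4_core φ hφ hφ3)
  intro P hP i j
  have h1 := hP 0 1 (by decide +kernel)
  have hall : ∀ i, P i = P 0 := by
    intro i
    fin_cases i
    · rfl
    · exact h1.symm
  rw [hall i, hall j]

end Cfsg.Agent.S1071
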