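import Cfsg.Statements.S1072
import Cfsg.Agent.Lib.Tw.SimpleT
import Cfsg.Agent.Lib.Tw.PerfF4
import Cfsg.Agent.Lib.Tw.CoreT

set_option autoImplicit false
open Cfsg

namespace Cfsg.Agent.S1072

open CfsgLib.Chev Cfsg.Lie

set_option synthInstance.maxHeartbeats 400000
set_option synthInstance.maxSize 1024


/-- ²F₄(2^(2m+1)) is simple for `m ≥ 1`. -/
theorem result {K : Type*} [Field K] [Fintype K] {m : ℕ} (hm : 1 ≤ m) (hK : Fintype.card K = 2 ^ (2 * m + 1)) :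
    IsSimpleGroup ↥(Cfsg.Lie.twistedF4 K (2 ^ m)) ∧ ¬ IsMulCommutative ↥(Cfsg.Lie.twistedF4 K (2 ^ m)) := by
  classical
  haveI : CharP K 2 := charP_of_card Nat.prime_two hK
  obtain ⟨φ, hφ, hφ2⟩ := exists_theta Nat.prime_two hK
  have hperf : ∀ x : K, ∃ y : K, y ^ 2 = x := fun x => ⟨φ (φ x), hφ2 x⟩
  obtain ⟨Dt, e', hJ⟩ := f4_td hperf φ hφ2 hφ
  have hgen : ∀ j r (hr : r < chevF4.nroots), ((Dt.τw TF4.extra TF4.braid j) ⟨r, hr⟩).val = f4Dig (f4Gen (e' j)) r := by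
    intro j r hr
    rcases h : e' j with ⟨i, hi⟩
    have hi' : i < 2 := hi
    interval_cases i
    · exact f4_τ0 hperf φ Dt e' hJ j h r hr
    · exact f4_τ1 hperf φ Dt e' hJ j h r hr
  refine Dt.simple_of TF4.extra TF4.braid e' (fun i => f4Dig (f4Gen i)) hgen ?_ (f4_perfect hperf φ hφ2 hφ rfl hm hK) (f4_core hperf φ hφ2 hφ)
  intro P hP i j
  have h1 := hP 0 1 (by decide +kernel)
  have hall : ∀ i, P i = P 0 := by
    intro i
    fin_cases i
    · rfl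
    · exact h1.symm
  rw [hall i, hall j]

end Cfsg.Agent.S1072
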