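import Cfsg.Statements.S1087
import Cfsg.Agent.Lib.Tw.D4

set_option autoImplicit false
open Cfsg

namespace Cfsg.Agent.S1087

/-- ³D₄(q) has a (B,N)-pair: B¹ = G¹ ∩ B and N¹ = G¹ ∩ N, intersections with the ambient Chevalley group's B = UH and N. -/
theorem result {K : Type*} [Field K] [Fintype K] {q : ℕ} (hq : IsPrimePow q) (hK : Fintype.card K = q ^ 3) :
    ∃ P : Cfsg.BNPair ↥(Cfsg.Lie.twistedD4 K q),
      P.B = (Cfsg.Lie.chevD4.borelSubgroup K ⊓ Cfsg.Lie.twistedD4 K q).subgroupOf (Cfsg.Lie.twistedD4 K q) ∧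
      P.N = (Cfsg.Lie.chevD4.monomialSubgroup K ⊓ Cfsg.Lie.twistedD4 K q).subgroupOf (Cfsg.Lie.twistedD4 K q) := by
  obtain ⟨φ, hφ⟩ := CfsgLib.Chev.exists_frobQ hq (by norm_num) hK
  have hφ3 : ∀ t, φ (φ (φ t)) = t := by
    intro t
    rw [hφ, hφ, hφ, ← pow_mul, ← pow_mul]
    have e : q * (q * q) = Fintype.card K := by
      rw [hK]
      ring
    rw [e]
    exact FiniteField.pow_card t
  obtain ⟨Dt, -⟩ := CfsgLib.Chev.d4_td φ hφ hφ3
  obtain ⟨Q, h1, h2, _⟩ := Dt.exists_bnpair CfsgLib.Chev.TD4.extra CfsgLib.Chev.TD4.braid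
  exact ⟨Q, h1, h2⟩

end Cfsg.Agent.S1087
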