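import Cfsg.Statements.S1090
import Cfsg.Agent.Lib.Tw.Uni

set_option autoImplicit false
open Cfsg

namespace Cfsg.Agent.S1090

/-- |U¹| = |G¹ ∩ U| = (2 ^ (2 * m + 1)) ^ 12 for ²F₄(2^(2m+1)). -/
theorem result {K : Type*} [Field K] [Fintype K] {m : ℕ} (hK : Fintype.card K = 2 ^ (2 * m + 1)) :
    Nat.card ↥(Cfsg.Lie.chevF4.posUnipotent K ⊓ Cfsg.Lie.twistedF4 K (2 ^ m)) = (2 ^ (2 * m + 1)) ^ 12 := by
  haveI : CharP K 2 := CfsgLib.Chev.charP_of_card Nat.prime_two hK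
  obtain ⟨φ, hφ, hφ2⟩ := CfsgLib.Chev.exists_theta Nat.prime_two hK
  have hperf : ∀ x : K, ∃ y : K, y ^ 2 = x := fun x => ⟨φ (φ x), hφ2 x⟩
  rw [CfsgLib.Chev.f4_card_U hperf φ hφ2 hφ, Nat.card_eq_fintype_card, hK]

end Cfsg.Agent.S1090
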