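import Cfsg.Statements.S1095
import Cfsg.Agent.Lib.Chev.API
import Cfsg.Agent.Lib.Chev.All

set_option autoImplicit false
open Cfsg

namespace Cfsg.Agent.S1095

/-- `n_p` (p = p_{i+1} fundamental) is the signed monomial matrix `h_{p_j} ↦ h_{p_j} - A_{p_j,p} h_p`, `e_s ↦ η_s e_{w_p(s)}`, with `η_s = ±1`, `η_p = η_{-p} = -1`, `η_s η_{w_p(s)} = (-1)^{A_{p,s}}`, `η_s η_{-s} = 1`. -/
theorem result {F : Type*} [Field F] (D : Cfsg.Lie.ChevalleyDatum) (hD : D ∈ [Cfsg.Lie.chevG2, Cfsg.Lie.chevB2, Cfsg.Lie.chevD4, Cfsg.Lie.chevF4, Cfsg.Lie.chevE6, Cfsg.Lie.chevE7, Cfsg.Lie.chevE8]) (i : ℕ) (hi : i < D.rank) :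
    ∃ η : ℕ → ℤ, (∀ s < D.nroots, η s = 1 ∨ η s = -1) ∧ η (D.simple i) = -1 ∧ η (D.neg (D.simple i)) = -1 ∧
      (∀ s < D.nroots, η s * η (D.reflectRoot i s) = (-1) ^ (D.cartan i s).natAbs ∧ η s * η (D.neg s) = 1) ∧
      D.nMat F (D.simple i) 1 = Matrix.of (fun (row col : D.Idx) =>
        Sum.elim
          (fun j' : Fin D.rank => Sum.elim
            (fun j : Fin D.rank => (if j' = j then (1 : F) else 0) - (if (j' : ℕ) = i then ((D.cartan j (D.simple i) : ℤ) : F) else 0))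
            (fun _ => (0 : F)) col)
          (fun s' : Fin D.nroots => Sum.elim
            (fun _ => (0 : F))
            (fun s : Fin D.nroots => if (s' : ℕ) = D.reflectRoot i s then ((η s : ℤ) : F) else 0) col)
          row) := by
  obtain ⟨C, hG, hE⟩ := CfsgLib.Chev.cert_of_mem hD
  have hP := hG.spg hi
  have hp := hG.simple_lt' hi
  refine ⟨C.sg i, hP.sgn, ?_, ?_, ?_, ?_⟩
  · rw [hG.simple_eq hi]
    exact hE.sgp i hi
  · rw [hG.simple_eq hi]
    have := hP.σneg _ hp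
    exact this.trans (hE.sgp i hi)
  · intro s hs
    refine ⟨?_, ?_⟩
    · rw [hE.refl i hi s hs]
      exact hE.sgA i hi s hs
    · have h1 : C.sg i (D.neg s) = C.sg i s := hP.σneg s hs
      rw [h1]
      exact CfsgLib.Chev.sg_sq_int hP hs
  · rw [hG.simple_eq hi, CfsgLib.Chev.nMat_eq_mat hG.agree hi hp (hG.mono i hi)]
    ext ρ c
    rcases ρ with j' | v <;> rcases c with j | s
    · rw [CfsgLib.Chev.SP.mat_inl_inl]
      simp only [Matrix.of_apply, Sum.elim_inl, CfsgLib.Chev.Cert.sp]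
      have e : D.cartan j (C.simp i) = C.E.car j (C.simp i) := (hG.agree.hcar j j.2 _ hp).symm
      rw [e]
      push_cast
      simp only [Fin.ext_iff]
    · rw [CfsgLib.Chev.SP.mat_inl_inr]
      simp
    · rw [CfsgLib.Chev.SP.mat_inr_inl]
      simp
    · rw [CfsgLib.Chev.SP.mat_inr_inr]
      simp only [Matrix.of_apply, Sum.elim_inr]
      rw [hE.refl i hi s s.2]
      rfl

end Cfsg.Agent.S1095
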