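import Cfsg.Statements.S1099
import Cfsg.Agent.Lib.Chev.AllGF

set_option autoImplicit false
open Cfsg

namespace Cfsg.Agent.S1099

/-- Graph automorphism of G₂ in characteristic 3 (K perfect): `x_a(t) ↦ x_b(t³)`, `x_b(t) ↦ x_a(t)`, `x_{-a}(t) ↦ x_{-b}(t³)`, `x_{-b}(t) ↦ x_{-a}(t)` extend to an automorphism of the group. -/
theorem result {K : Type*} [Field K] [CharP K 3] (hperf : ∀ x : K, ∃ y : K, y ^ 3 = x) :
    ∃ α : ↥(Cfsg.Lie.chevG2.group K) ≃* ↥(Cfsg.Lie.chevG2.group K), ∀ (g : ↥(Cfsg.Lie.chevG2.group K)) (t : K),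
      (((g : GL Cfsg.Lie.chevG2.Idx K) : Matrix _ _ K) = Cfsg.Lie.chevG2.x K Cfsg.Lie.g2a t →
        ((α g : GL Cfsg.Lie.chevG2.Idx K) : Matrix _ _ K) = Cfsg.Lie.chevG2.x K Cfsg.Lie.g2b (t ^ 3)) ∧
      (((g : GL Cfsg.Lie.chevG2.Idx K) : Matrix _ _ K) = Cfsg.Lie.chevG2.x K Cfsg.Lie.g2b t →
        ((α g : GL Cfsg.Lie.chevG2.Idx K) : Matrix _ _ K) = Cfsg.Lie.chevG2.x K Cfsg.Lie.g2a t) ∧
      (((g : GL Cfsg.Lie.chevG2.Idx K) : Matrix _ _ K) = Cfsg.Lie.chevG2.x K Cfsg.Lie.g2ma t →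
        ((α g : GL Cfsg.Lie.chevG2.Idx K) : Matrix _ _ K) = Cfsg.Lie.chevG2.x K Cfsg.Lie.g2mb (t ^ 3)) ∧
      (((g : GL Cfsg.Lie.chevG2.Idx K) : Matrix _ _ K) = Cfsg.Lie.chevG2.x K Cfsg.Lie.g2mb t →
        ((α g : GL Cfsg.Lie.chevG2.Idx K) : Matrix _ _ K) = Cfsg.Lie.chevG2.x K Cfsg.Lie.g2ma t) := by
  haveI : Fact (Nat.Prime 3) := ⟨Nat.prime_three⟩
  obtain ⟨α, hα⟩ := CfsgLib.Chev.GF.exists_aut' CfsgLib.Chev.TG2.good CfsgLib.Chev.gfG2_chk hperf CfsgLib.Chev.TG2.extra CfsgLib.Chev.TG2.braid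
      CfsgLib.Chev.TG2.long (CfsgLib.Chev.TG2.rank1 _)
  refine ⟨α, fun g t => ⟨fun e => ?_, fun e => ?_, fun e => ?_, fun e => ?_⟩⟩
  · exact hα g _ t (by decide) e
  · have h := hα g _ t (by decide) e
    have e1 : CfsgLib.Chev.gfG2.lam Cfsg.Lie.g2b = 1 := by decide
    rw [e1, pow_one] at h
    exact h
  · exact hα g _ t (by decide) e
  · have h := hα g _ t (by decide) e
    have e1 : CfsgLib.Chev.gfG2.lam Cfsg.Lie.g2mb = 1 := by decide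
    rw [e1, pow_one] at h
    exact h

end Cfsg.Agent.S1099
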