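import Cfsg.Statements.S1104
import Cfsg.Agent.Lib.Tw.PerfE6

set_option autoImplicit false
open Cfsg

namespace Cfsg.Agent.S1104

/-- ²E₆(q) equals its derived subgroup. -/
theorem result {K : Type*} [Field K] [Fintype K] {q : ℕ} (hq : IsPrimePow q) (hK : Fintype.card K = q ^ 2) : commutator ↥(Cfsg.Lie.twistedE6 K q) = ⊤ := by
  obtain ⟨φ, hφ, hφ2⟩ := CfsgLib.Chev.exists_phi2 hq hK
  exact CfsgLib.Chev.e6_perfect φ hφ hφ2 hq.one_lt hK

end Cfsg.Agent.S1104
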