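import Cfsg.Statements.S1108
import Cfsg.Agent.Lib.Tw.PerfD4

set_option autoImplicit false
open Cfsg

namespace Cfsg.Agent.S1108

/-- ³D₄(q) equals its derived subgroup. -/
theorem result {K : Type*} [Field K] [Fintype K] {q : ℕ} (hq : IsPrimePow q) (hK : Fintype.card K = q ^ 3) : commutator ↥(Cfsg.Lie.twistedD4 K q) = ⊤ := by
  obtain ⟨φ, hφ, hφ3⟩ := CfsgLib.Chev.exists_phi3 hq hK
  exact CfsgLib.Chev.d4_perfect φ hφ hφ3 hq.one_lt hK

end Cfsg.Agent.S1108
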