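import Cfsg.Statements.S1114
import Cfsg.Agent.Lib.Tw.OrdG2

set_option autoImplicit false
open Cfsg

namespace Cfsg.Agent.S1114

/-- `|H¹| = |G¹ ∩ H|`: `|H¹| = 3 ^ (2 * m + 1) - 1` for ²G₂(3^(2m+1)). -/
theorem result {K : Type*} [Field K] [Fintype K] {m : ℕ} (hK : Fintype.card K = 3 ^ (2 * m + 1)) :
    Nat.card ↥(Cfsg.Lie.chevG2.diagonalSubgroup K ⊓ Cfsg.Lie.twistedG2 K (3 ^ m)) = 3 ^ (2 * m + 1) - 1 := by
  classical
  haveI : CharP K 3 := CfsgLib.Chev.charP_of_card Nat.prime_three hK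
  obtain ⟨φ, hφ, hφ2⟩ := CfsgLib.Chev.exists_theta Nat.prime_three hK
  have hperf : ∀ x : K, ∃ y : K, y ^ 3 = x := fun x => ⟨φ (φ x), hφ2 x⟩
  obtain ⟨Dt, e', hJ⟩ := CfsgLib.Chev.g2_td hperf φ hφ2 hφ
  have hm1 : ¬ IsSquare (-1 : K) := by
    rw [FiniteField.isSquare_neg_one_iff, hK]
    have h : 3 ^ (2 * m + 1) % 4 = 3 := by
      rw [pow_succ, pow_mul, Nat.mul_mod, Nat.pow_mod]
      norm_num
    rw [h]
    simp
  have hH := CfsgLib.Chev.g2_card_H hperf φ hφ2 Dt hJ (by positivity) hm1 (e'.symm 0)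
  rw [Nat.card_eq_fintype_card (α := Kˣ), Fintype.card_units, hK] at hH
  exact hH

end Cfsg.Agent.S1114
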