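import Cfsg.Statements.S1165
import Cfsg.Agent.Lib.RankOne.Gen

set_option autoImplicit false
open Cfsg

namespace Cfsg.Agent.S1165

open CfsgLib.RankOne MulAction

/-- In the rank-one set-up (`G` finite and doubly transitive on `Ω`, `t` an involution moving `a`, `Q` normal in `G_a` with `G_a = Q D`, `Q ⊓ D = 1` for the two-point stabiliser `D = G_a ⊓ G_{t • a}`, `|Q|` even, `|D|` odd): every `x ∈ Q`, `x ≠ 1`, determines unique `g, f ∈ Q`, `h ∈ D` with `t x t = g h t f` (a consequence of the canonical form). For these: (H1) the `f`-part of `x⁻¹` is `g⁻¹`; (H2) the `f`-part of `f` is `x`; (H3) for `a ∈ D` the `f`-part of `a⁻¹ x a` is `(t a t)⁻¹ f (t a t)`; (H4) the `h`-part of `a⁻¹ x a` is `(t a t)⁻¹ h a`, that of `x⁻¹` is `t h⁻¹ t`, and that of `f` is `h⁻¹`. -/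
theorem result {G Ω : Type*} [Group G] [Finite G] [MulAction G Ω] {a : Ω} {t : G} {Q : Subgroup G}
    (hS : Cfsg.IsRankOneSetup G Ω a t Q)
    (x g h f : G) (hx : x ∈ Q) (hx1 : x ≠ 1) (hg : g ∈ Q) (hh : h ∈ (MulAction.stabilizer G a ⊓ MulAction.stabilizer G (t • a))) (hf : f ∈ Q)
    (heq : t * x * t = g * h * t * f) :
    (∀ g₁ h₁ f₁ : G, g₁ ∈ Q → h₁ ∈ (MulAction.stabilizer G a ⊓ MulAction.stabilizer G (t • a)) → f₁ ∈ Q → t * x⁻¹ * t = g₁ * h₁ * t * f₁ →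
        f₁ = g⁻¹ ∧ h₁ = t * h⁻¹ * t) ∧
      (∀ g₂ h₂ f₂ : G, g₂ ∈ Q → h₂ ∈ (MulAction.stabilizer G a ⊓ MulAction.stabilizer G (t • a)) → f₂ ∈ Q → t * f * t = g₂ * h₂ * t * f₂ →
        f₂ = x ∧ h₂ = h⁻¹) ∧
      ∀ c ∈ (MulAction.stabilizer G a ⊓ MulAction.stabilizer G (t • a)), ∀ g₃ h₃ f₃ : G, g₃ ∈ Q → h₃ ∈ (MulAction.stabilizer G a ⊓ MulAction.stabilizer G (t • a)) → f₃ ∈ Q →
        t * (c⁻¹ * x * c) * t = g₃ * h₃ * t * f₃ →
          f₃ = (t * c * t)⁻¹ * f * (t * c * t) ∧ h₃ = (t * c * t)⁻¹ * h * c := by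
  have hti := t_inv hS
  have htt := t_t_mul hS
  have hDt : ∀ {d : G}, d ∈ (MulAction.stabilizer G a ⊓ MulAction.stabilizer G (t • a)) → t * d * t ∈ (MulAction.stabilizer G a ⊓ MulAction.stabilizer G (t • a)) := by
    intro d hd
    have := t_conj_mem hS hd
    rwa [hti] at this
  refine ⟨?_, ?_, ?_⟩
  · intro g₁ h₁ f₁ hg₁ hh₁ hf₁ e₁
    have e : t * x⁻¹ * t = f⁻¹ * (t * h⁻¹ * t) * t * g⁻¹ := by
      have e2 : t * x⁻¹ * t = (t * x * t)⁻¹ := by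
        simp only [mul_inv_rev, hti, mul_assoc]
      rw [e2, heq]
      simp only [mul_inv_rev, hti, mul_assoc, hS.mul_self, mul_one, htt]
    obtain ⟨-, h2, h3⟩ := canon_unique₃ hS hg₁ (inv_mem hf) hh₁ (hDt (inv_mem hh)) hf₁ (inv_mem hg) (e₁.symm.trans e)
    exact ⟨h3, h2⟩
  · intro g₂ h₂ f₂ hg₂ hh₂ hf₂ e₂
    have e : t * f * t = (h⁻¹ * g⁻¹ * h⁻¹⁻¹) * h⁻¹ * t * x := by
      have hf' : f = (g * h * t)⁻¹ * (t * x * t) := by rw [heq]; group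
      rw [hf']
      simp only [mul_inv_rev, hti, mul_assoc, hS.mul_self, mul_one, htt, inv_inv, inv_mul_cancel_left, mul_inv_cancel_left]
    obtain ⟨-, h2, h3⟩ := canon_unique₃ hS hg₂ (hS.conj_mem _ (inv_mem hh.1) _ (inv_mem hg)) hh₂ (inv_mem hh) hf₂ hx (e₂.symm.trans e)
    exact ⟨h3, h2⟩
  · intro c hc g₃ h₃ f₃ hg₃ hh₃ hf₃ e₃
    have hc' := hDt hc
    set c' := t * c * t with hcc
    have hc'i : c'⁻¹ = t * c⁻¹ * t := by
      simp only [hcc, mul_inv_rev, hti, mul_assoc]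
    have e3 : c * t * c'⁻¹ = t := by
      rw [hc'i]
      simp only [mul_assoc, htt, mul_inv_cancel_left]
    have e : t * (c⁻¹ * x * c) * t = (c'⁻¹ * g * c') * (c'⁻¹ * h * c) * t * (c'⁻¹ * f * c') := by
      have e1 : t * (c⁻¹ * x * c) * t = c'⁻¹ * (t * x * t) * c' := by
        rw [hc'i, hcc]
        simp only [mul_assoc, htt]
      rw [e1, heq]
      calc c'⁻¹ * (g * h * t * f) * c' = c'⁻¹ * g * h * t * f * c' := by group
        _ = c'⁻¹ * g * h * (c * t * c'⁻¹) * f * c' := by rw [e3]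
        _ = (c'⁻¹ * g * c') * (c'⁻¹ * h * c) * t * (c'⁻¹ * f * c') := by group
    have h1 : c'⁻¹ * g * c' ∈ Q := by
      have := hS.conj_mem _ (inv_mem hc'.1) _ hg
      rwa [inv_inv] at this
    have h2 : c'⁻¹ * f * c' ∈ Q := by
      have := hS.conj_mem _ (inv_mem hc'.1) _ hf
      rwa [inv_inv] at this
    obtain ⟨-, h4, h5⟩ := canon_unique₃ hS hg₃ h1 hh₃ (mul_mem (mul_mem (inv_mem hc') hh) hc) hf₃ h2 (e₃.symm.trans e)
    exact ⟨h5, h4⟩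

end Cfsg.Agent.S1165
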