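import Cfsg.Statements.S1166
import Cfsg.Agent.Lib.RankOne.Gen

set_option autoImplicit false
open Cfsg

namespace Cfsg.Agent.S1166

open CfsgLib.RankOne MulAction

/-- In the rank-one set-up (`G` finite and doubly transitive on `Ω`, `t` an involution moving `a`, `Q` normal in `G_a` with `G_a = Q D`, `Q ⊓ D = 1` for the two-point stabiliser `D = G_a ⊓ G_{t • a}`, `|Q|` even, `|D|` odd), with `t x t = g_x h_x t f_x` and `t y t = g_y h_y t f_y` (`g, f ∈ Q`, `h ∈ D`) for `x, y ∈ Q ∖ 1` with `x y ≠ 1`: then `z = f_x g_y ≠ 1`, and if `t z t = g_z h_z t f_z` and `t (x y) t = g' h' t f'` then `f' = (t h_y t)⁻¹ f_z (t h_y t) f_y` and `h' = h_x h_z h_y` (H6). -/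
theorem result {G Ω : Type*} [Group G] [Finite G] [MulAction G Ω] {a : Ω} {t : G} {Q : Subgroup G}
    (hS : Cfsg.IsRankOneSetup G Ω a t Q)
    (x y gx hx fx gy hy fy : G) (hxQ : x ∈ Q) (hx1 : x ≠ 1) (hyQ : y ∈ Q) (hy1 : y ≠ 1) (hxy : x * y ≠ 1)
    (hgx : gx ∈ Q) (hhx : hx ∈ (MulAction.stabilizer G a ⊓ MulAction.stabilizer G (t • a))) (hfx : fx ∈ Q) (ex : t * x * t = gx * hx * t * fx)
    (hgy : gy ∈ Q) (hhy : hy ∈ (MulAction.stabilizer G a ⊓ MulAction.stabilizer G (t • a))) (hfy : fy ∈ Q) (ey : t * y * t = gy * hy * t * fy) :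
    fx * gy ≠ 1 ∧
      ∀ gz hz fz g' h' f' : G, gz ∈ Q → hz ∈ (MulAction.stabilizer G a ⊓ MulAction.stabilizer G (t • a)) → fz ∈ Q → t * (fx * gy) * t = gz * hz * t * fz →
        g' ∈ Q → h' ∈ (MulAction.stabilizer G a ⊓ MulAction.stabilizer G (t • a)) → f' ∈ Q → t * (x * y) * t = g' * h' * t * f' →
          f' = (t * hy * t)⁻¹ * fz * (t * hy * t) * fy ∧ h' = hx * hz * hy := by
  have hti := t_inv hS
  have htt := t_t_mul hS
  have hDt : ∀ {d : G}, d ∈ (MulAction.stabilizer G a ⊓ MulAction.stabilizer G (t • a)) → t * d * t ∈ (MulAction.stabilizer G a ⊓ MulAction.stabilizer G (t • a)) := by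
    intro d hd
    have := t_conj_mem hS hd
    rwa [hti] at this
  have hprod : t * (x * y) * t = gx * hx * t * (fx * gy) * hy * t * fy := by
    calc t * (x * y) * t = (t * x * t) * (t * y * t) := by
          simp only [mul_assoc, htt]
      _ = gx * hx * t * (fx * gy) * hy * t * fy := by
          rw [ex, ey]
          group
  refine ⟨?_, ?_⟩
  · intro hz
    rw [hz] at hprod
    apply hxy
    have hmem : t * (x * y) * t ∈ MulAction.stabilizer G a := by
      rw [hprod]
      have e : gx * hx * t * 1 * hy * t * fy = gx * hx * (t * hy * t) * fy := by group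
      rw [e]
      exact mul_mem (mul_mem (mul_mem (hS.le hgx) hhx.1) (hDt hhy).1) (hS.le hfy)
    have h1 : (x * y) • t • a = t • a := by
      have h2 : (t * (x * y) * t) • a = a := hmem
      simp only [mul_smul] at h2
      have h3 := congrArg (fun b => t • b) h2
      simp only [t_t hS] at h3
      simpa [mul_smul] using h3
    exact eq_one_of_fix_ta hS (mul_mem hxQ hyQ) h1
  · intro gz hz fz g' h' f' hgz hhz hfz ez hg' hh' hf' e'
    have hc := hDt hhy
    set c := t * hy * t with hcd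
    have e1 : t * (fx * gy) = gz * hz * t * fz * t := by
      calc t * (fx * gy) = (t * (fx * gy) * t) * t := by
            simp only [mul_assoc, hS.mul_self, mul_one]
        _ = gz * hz * t * fz * t := by rw [ez]
    have e2 : t * c = hy * t := by
      rw [hcd]
      simp only [mul_assoc, htt]
    have e : t * (x * y) * t = (gx * (hx * gz * hx⁻¹)) * (hx * hz * hy) * t * (c⁻¹ * fz * c * fy) := by
      rw [hprod]
      calc gx * hx * t * (fx * gy) * hy * t * fy
          = gx * hx * (t * (fx * gy)) * hy * t * fy := by group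
        _ = gx * hx * (gz * hz * t * fz * t) * hy * t * fy := by rw [e1]
        _ = gx * hx * gz * hz * t * fz * c * fy := by rw [hcd]; group
        _ = gx * hx * gz * hz * (t * c) * (c⁻¹ * fz * c) * fy := by group
        _ = gx * hx * gz * hz * (hy * t) * (c⁻¹ * fz * c) * fy := by rw [e2]
        _ = (gx * (hx * gz * hx⁻¹)) * (hx * hz * hy) * t * (c⁻¹ * fz * c * fy) := by group
    have h1 : gx * (hx * gz * hx⁻¹) ∈ Q := mul_mem hgx (hS.conj_mem _ hhx.1 _ hgz)
    have h2 : hx * hz * hy ∈ (MulAction.stabilizer G a ⊓ MulAction.stabilizer G (t • a)) := mul_mem (mul_mem hhx hhz) hhy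
    have h3 : c⁻¹ * fz * c * fy ∈ Q := by
      have := hS.conj_mem _ (inv_mem hc.1) _ hfz
      rw [inv_inv] at this
      exact mul_mem this hfy
    obtain ⟨-, h4, h5⟩ := canon_unique₃ hS hg' h1 hh' h2 hf' h3 (e'.symm.trans e)
    exact ⟨h5, h4⟩

end Cfsg.Agent.S1166
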