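import Cfsg.Statements.S1176
import Cfsg.Agent.Lib.Invol.Isolated

set_option autoImplicit false
open Cfsg

namespace Cfsg.Agent.S1176

/-- Let x₀ be an involution of the finite group G and D its conjugacy class. Assume (a) for each x ∈ D the subgroup W(x) generated by the members of D commuting with x is a 2-group of nilpotency class at most 2, and (b) the product of two distinct commuting members of D again lies in D. Then for all x, y ∈ D, if xy has even order greater than 2, its order is 4. -/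
theorem result {G : Type*} [Group G] [Finite G] (x₀ : G) (hx₀ : orderOf x₀ = 2) (ha : ∀ x : G, IsConj x₀ x → IsPGroup 2 ↥(Subgroup.closure {y : G | IsConj x₀ y ∧ Commute y x}) ∧ ⁅⁅Subgroup.closure {y : G | IsConj x₀ y ∧ Commute y x}, Subgroup.closure {y : G | IsConj x₀ y ∧ Commute y x}⁆, Subgroup.closure {y : G | IsConj x₀ y ∧ Commute y x}⁆ = ⊥) (hb : ∀ x y : G, IsConj x₀ x → IsConj x₀ y → x ≠ y → Commute x y → IsConj x₀ (x * y)) (x y : G) (hx : IsConj x₀ x) (hy : IsConj x₀ y) (heven : Even (orderOf (x * y))) (hgt : 2 < orderOf (x * y)) : orderOf (x * y) = 4 := by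
  -- notation
  have hxo : orderOf x = 2 := by rw [← hx₀]; exact (CfsgLib.Invol.orderOf_eq_of_isConj hx).symm
  have hyo : orderOf y = 2 := by rw [← hx₀]; exact (CfsgLib.Invol.orderOf_eq_of_isConj hy).symm
  obtain ⟨hw, hwx, hwy⟩ := CfsgLib.Invol.z_props hxo hyo heven
  set w := (x * y) ^ (orderOf (x * y) / 2) with hwdef
  -- `x w ∈ D`
  have hxw : IsConj x₀ (x * w) := by
    by_cases h4 : 4 ∣ orderOf (x * y)
    · obtain ⟨c, _, hc⟩ := (CfsgLib.Invol.conj_xz_iff hxo hyo heven).2 h4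
      exact hx.trans (isConj_iff.2 ⟨c, hc⟩)
    · have h2 : orderOf (x * y) % 4 = 2 := by
        have := heven.two_dvd
        omega
      obtain ⟨c, _, hc⟩ := CfsgLib.Invol.conj_xz_of_two_mod_four hxo hyo h2
      exact hy.trans (isConj_iff.2 ⟨c, hc⟩)
  have hw1 : w ≠ 1 := CfsgLib.Invol.ne_one_of_order_two hw
  have hxx := CfsgLib.Invol.mul_self_of_order_two hxo
  have hyy := CfsgLib.Invol.mul_self_of_order_two hyo
  -- `w ∈ D`
  have hwD : IsConj x₀ w := by
    have hne : x ≠ x * w := by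
      intro h
      apply hw1
      have : x * w = x * 1 := by rw [← h, mul_one]
      exact mul_left_cancel this
    have h1 := hb x (x * w) hx hxw hne (Commute.mul_right (Commute.refl x) hwx.symm)
    have h2 : x * (x * w) = w := by rw [← mul_assoc, hxx, one_mul]
    rwa [h2] at h1
  -- `x, y ∈ W(w)`
  set W := Subgroup.closure {u : G | IsConj x₀ u ∧ Commute u w} with hWdef
  have hxW : x ∈ W := Subgroup.subset_closure ⟨hx, hwx.symm⟩
  have hyW : y ∈ W := Subgroup.subset_closure ⟨hy, hwy.symm⟩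
  have hcl := (ha w hwD).2
  have hcm : x * y * x⁻¹ * y⁻¹ ∈ ⁅W, W⁆ := Subgroup.commutator_mem_commutator hxW hyW
  have hcm2 : (x * y * x⁻¹ * y⁻¹) * x * (x * y * x⁻¹ * y⁻¹)⁻¹ * x⁻¹ ∈ ⁅⁅W, W⁆, W⁆ :=
    Subgroup.commutator_mem_commutator hcm hxW
  rw [hcl, Subgroup.mem_bot] at hcm2
  -- `⁅x, y⁆ = (x y)^2`
  have hxi := CfsgLib.Invol.inv_eq_of_order_two hxo
  have hyi := CfsgLib.Invol.inv_eq_of_order_two hyo
  have h1 : x * y * x⁻¹ * y⁻¹ = (x * y) ^ 2 := by
    rw [hxi, hyi, pow_two]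
    group
  rw [h1] at hcm2
  have hcm3 : (x * y) ^ 2 * x = x * (x * y) ^ 2 := by
    have h10 : (x * y) ^ 2 * x * ((x * y) ^ 2)⁻¹ = x := by
      have h11 : (x * y) ^ 2 * x * ((x * y) ^ 2)⁻¹ * x⁻¹ * x = 1 * x := by rw [hcm2]
      simpa using h11
    calc (x * y) ^ 2 * x = (x * y) ^ 2 * x * ((x * y) ^ 2)⁻¹ * (x * y) ^ 2 := by group
      _ = x * (x * y) ^ 2 := by rw [h10]
  -- so `(x y)^4 = 1`
  have h2 := CfsgLib.Invol.conj_zpow_mul hxo hyo 2
  have h3 : (x * y) ^ (2 : ℤ) = (x * y) ^ 2 := by norm_cast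
  rw [h3] at h2
  have h4 : x * (x * y) ^ 2 * x = (x * y) ^ 2 := by
    rw [← hcm3, mul_assoc, hxx, mul_one]
  rw [h4] at h2
  have h5 : (x * y) ^ 4 = 1 := by
    have : (x * y) ^ 4 = (x * y) ^ 2 * (x * y) ^ 2 := by rw [← pow_add]
    rw [this]
    nth_rw 1 [h2]
    simp
  have h6 : orderOf (x * y) ∣ 4 := orderOf_dvd_of_pow_eq_one h5
  have h7 := Nat.le_of_dvd (by norm_num) h6
  obtain ⟨m, hm⟩ := heven
  interval_cases h : orderOf (x * y) <;> omega

end Cfsg.Agent.S1176
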