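import Cfsg.Statements.S1177
import Cfsg.Agent.Lib.H3.ConjTools

set_option autoImplicit false
open Cfsg

namespace Cfsg.Agent.S1177

/-- Let A be a nontrivial elementary abelian 2-subgroup of a finite group G which is a T.I. set (each conjugate of A meets A trivially or equals A) and which does not commute elementwise with any conjugate of A other than A itself. Then for every a ∈ A, a ≠ 1, every conjugate of A contained in C_G(a) is equal to A (A is weakly closed in C_G(a)). -/
theorem result {G : Type*} [Group G] [Finite G] (A : Subgroup G) (hA : Cfsg.IsElementaryAbelian 2 A) (hA1 : A ≠ ⊥) (hTI : ∀ g : G, A.map (MulAut.conj g).toMonoidHom ⊓ A = ⊥ ∨ A.map (MulAut.conj g).toMonoidHom = A) (hb : ∀ g : G, (∀ a ∈ A, ∀ b ∈ A.map (MulAut.conj g).toMonoidHom, a * b = b * a) → A.map (MulAut.conj g).toMonoidHom = A) (a : G) (ha : a ∈ A) (ha1 : a ≠ 1) (g : G) (hg : A.map (MulAut.conj g).toMonoidHom ≤ Subgroup.centralizer ({a} : Set G)) : A.map (MulAut.conj g).toMonoidHom = A :=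 by
  set B := A.map (MulAut.conj g).toMonoidHom with hB
  by_cases hBA : B = A
  · exact hBA
  have hdisj : B ⊓ A = ⊥ := by
    rcases hTI g with h | h
    · exact h
    · exact absurd h hBA
  -- TI property, elementwise
  have hti : ∀ h : G, ∀ c ∈ A, c ≠ 1 → h * c * h⁻¹ ∈ A → h ∈ Subgroup.normalizer (A : Set G) := by
    intro h c hc hc1 hhc
    rw [← CfsgLib.CT.map_conj_eq_iff]
    rcases hTI h with h1 | h1
    · exfalso
      have : h * c * h⁻¹ ∈ A.map (MulAut.conj h).toMonoidHom ⊓ A :=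
        ⟨CfsgLib.CT.conj_mem_map hc, hhc⟩
      rw [h1, Subgroup.mem_bot] at this
      apply hc1
      exact conj_eq_one_iff.1 this
    · exact h1
  -- `B` normalizes `A`
  have hBN : ∀ b ∈ B, b ∈ Subgroup.normalizer (A : Set G) := by
    intro b hb
    have h1 := hg hb
    rw [Subgroup.mem_centralizer_singleton_iff] at h1
    apply hti b a ha ha1
    have : b * a * b⁻¹ = a := by rw [h1]; group
    rwa [this]
  -- if `y ∈ A` commutes with a nontrivial `b ∈ B` it centralizes `B`
  have hcomm : ∀ y ∈ A, ∀ b ∈ B, b ≠ 1 → y * b = b * y → ∀ b' ∈ B, y * b' = b' * y := by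
    intro y hy b hb hb1 hyb b' hb'
    -- `y` normalizes `B`
    have hyN : g⁻¹ * y * g ∈ Subgroup.normalizer (A : Set G) := by
      have hb2 : g⁻¹ * b * g ∈ A := CfsgLib.CT.mem_map_conj'.1 hb
      apply hti _ (g⁻¹ * b * g) hb2
      · intro h
        apply hb1
        have : b = g * (g⁻¹ * b * g) * g⁻¹ := by group
        rw [this, h]
        simp
      · have : g⁻¹ * y * g * (g⁻¹ * b * g) * (g⁻¹ * y * g)⁻¹ = g⁻¹ * b * g := by
          have e : g⁻¹ * y * g * (g⁻¹ * b * g) * (g⁻¹ * y * g)⁻¹ = g⁻¹ * (y * b * y⁻¹) * g := by group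
          rw [e, hyb]; group
        rwa [this]
    have hb'2 : g⁻¹ * b' * g ∈ A := CfsgLib.CT.mem_map_conj'.1 hb'
    have h1 := CfsgLib.CT.conj_mem_of_mem_normalizer hyN hb'2
    have h2 : y * b' * y⁻¹ ∈ B := by
      rw [CfsgLib.CT.mem_map_conj']
      have e : g⁻¹ * (y * b' * y⁻¹) * g
          = g⁻¹ * y * g * (g⁻¹ * b' * g) * (g⁻¹ * y * g)⁻¹ := by group
      rwa [e]
    -- `[y, b'] ∈ A ∩ B`
    have h3 : y * b' * y⁻¹ * b'⁻¹ ∈ B := B.mul_mem h2 (B.inv_mem hb')
    have h4 : y * b' * y⁻¹ * b'⁻¹ ∈ A := by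
      have h5 := CfsgLib.CT.conj_mem_of_mem_normalizer (hBN b' hb') (A.inv_mem hy)
      have e : y * b' * y⁻¹ * b'⁻¹ = y * (b' * y⁻¹ * b'⁻¹) := by group
      rw [e]
      exact A.mul_mem hy h5
    have h6 : y * b' * y⁻¹ * b'⁻¹ ∈ B ⊓ A := ⟨h3, h4⟩
    rw [hdisj, Subgroup.mem_bot] at h6
    have h7 : y * b' * y⁻¹ = b' := by
      have := congrArg (· * b') h6
      simpa using this
    calc y * b' = y * b' * y⁻¹ * y := by group
      _ = b' * y := by rw [h7]
  -- main claim: `A` centralizes `B`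
  have hmain : ∀ y ∈ A, ∀ b ∈ B, y * b = b * y := by
    intro y hy
    by_contra hcon
    push Not at hcon
    obtain ⟨b₀, hb₀, hne⟩ := hcon
    have hy1 : y ≠ 1 := by
      rintro rfl
      simp at hne
    -- the map `B → A`
    let f : B → A := fun b => ⟨(b : G) * y * (b : G)⁻¹,
      CfsgLib.CT.conj_mem_of_mem_normalizer (hBN b b.2) hy⟩
    have hinj : Function.Injective f := by
      intro b b' hbb
      have h1 : (b : G) * y * (b : G)⁻¹ = (b' : G) * y * (b' : G)⁻¹ := congrArg Subtype.val hbb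
      by_contra hne'
      have hc : (b' : G)⁻¹ * b ≠ 1 := by
        intro h
        apply hne'
        apply Subtype.ext
        exact (inv_mul_eq_one.1 h).symm
      have hm : (b' : G)⁻¹ * b ∈ B := B.mul_mem (B.inv_mem b'.2) b.2
      apply hne
      apply hcomm y hy _ hm hc
      · have e : (b' : G)⁻¹ * b * y * ((b' : G)⁻¹ * b)⁻¹ = y := by
          calc (b' : G)⁻¹ * b * y * ((b' : G)⁻¹ * b)⁻¹
              = (b' : G)⁻¹ * ((b : G) * y * (b : G)⁻¹) * b' := by group
            _ = (b' : G)⁻¹ * ((b' : G) * y * (b' : G)⁻¹) * b' := by rw [h1]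
            _ = y := by group
        calc y * ((b' : G)⁻¹ * b) = ((b' : G)⁻¹ * b * y * ((b' : G)⁻¹ * b)⁻¹) * ((b' : G)⁻¹ * b) := by
              rw [e]
          _ = _ := by group
      · exact hb₀
    have hcard : Nat.card A ≤ Nat.card B := by
      rw [hB, Subgroup.card_map_of_injective (MulAut.conj g).injective]
    have hbij := hinj.bijective_of_nat_card_le hcard
    obtain ⟨b, hb⟩ := hbij.2 (1 : A)
    apply hy1
    have h2 : (b : G) * y * (b : G)⁻¹ = 1 := congrArg Subtype.val hb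
    exact conj_eq_one_iff.1 h2
  exact hb g hmain

end Cfsg.Agent.S1177
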