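import Cfsg.Statements.S1178
import Cfsg.Agent.Lib.H3.ConjTools
import Cfsg.Agent.Lib.Lead.SylowConj

set_option autoImplicit false
open Cfsg

namespace Cfsg.Agent.S1178

/-- Let A be a subgroup of a Sylow 2-subgroup S of the finite group G which is weakly closed in S. If a conjugate g A g⁻¹ commutes elementwise with A, then g A g⁻¹ = A. -/
theorem result {G : Type*} [Group G] [Finite G] (S : Sylow 2 G) (A : Subgroup G) (hW : Cfsg.IsWeaklyClosed A (S : Subgroup G)) (g : G) (hc : ∀ a ∈ A, ∀ b ∈ A.map (MulAut.conj g).toMonoidHom, a * b = b * a) : A.map (MulAut.conj g).toMonoidHom = A := by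
  obtain ⟨hAS, hwc⟩ := hW
  have hAp : IsPGroup 2 A := (S.isPGroup').to_le hAS
  set B := A.map (MulAut.conj g).toMonoidHom with hB
  have hBp : IsPGroup 2 B := hAp.map _
  have hsup : IsPGroup 2 (A ⊔ B : Subgroup G) := by
    apply hAp.to_sup_of_normal_right' hBp
    refine le_trans ?_ (Subgroup.centralizer_le_normalizer (B : Set G))
    intro a ha
    rw [Subgroup.mem_centralizer_iff]
    intro b hb
    exact (hc a ha b hb).symm
  -- conjugate into `S`
  obtain ⟨h, hh, hmem⟩ := CfsgLib.Lead.exists_conj_into_sylow S ⊤ le_top _ le_top hsup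
  -- `A^(h⁻¹) ≤ S`
  have hleA : A.map (MulAut.conj h⁻¹).toMonoidHom ≤ S := by
    rintro _ ⟨a, ha, rfl⟩
    have := hmem a (Subgroup.mem_sup_left ha)
    simpa using this
  have h1 := hwc h⁻¹ hleA
  have hleB : A.map (MulAut.conj (h⁻¹ * g)).toMonoidHom ≤ S := by
    rintro _ ⟨a, ha, rfl⟩
    have hb : g * a * g⁻¹ ∈ B := ⟨a, ha, by simp⟩
    have := hmem _ (Subgroup.mem_sup_right hb)
    simpa [mul_assoc] using this
  have h2 := hwc (h⁻¹ * g) hleB
  rw [CfsgLib.CT.map_conj_eq_iff] at h1 h2 ⊢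
  have h3 := Subgroup.mul_mem _ (Subgroup.inv_mem _ h1) h2
  simpa using h3

end Cfsg.Agent.S1178
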