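import Cfsg.Statements.S1181
import Cfsg.Agent.Lib.H3.IsoInv

set_option autoImplicit false
open Cfsg

namespace Cfsg.Agent.S1181

/-- Let z be an isolated involution of the finite group G and N a normal subgroup with z ∉ N. Then the centralizer of zN in G/N is the image of C_G(z), and zN is an isolated involution of G/N. -/
theorem result {G : Type*} [Group G] [Finite G] (z : G) (hz : Cfsg.IsIsolatedInvolution z) (N : Subgroup G) [N.Normal] (hzN : z ∉ N) : Subgroup.centralizer ({(QuotientGroup.mk z : G ⧸ N)} : Set (G ⧸ N)) = (Subgroup.centralizer ({z} : Set G)).map (QuotientGroup.mk' N) ∧ Cfsg.IsIsolatedInvolution (QuotientGroup.mk z : G ⧸ N) := by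
  have hmk : ∀ a b : G, (QuotientGroup.mk a : G ⧸ N) = QuotientGroup.mk b ↔ a⁻¹ * b ∈ N := fun a b =>
    QuotientGroup.eq
  have hzzi : z⁻¹ = z := CfsgLib.Invol.inv_eq_of_order_two hz.1
  have hzz : z * z = 1 := CfsgLib.Invol.mul_self_of_order_two hz.1
  have hnorm : ∀ a ∈ N, ∀ g : G, g * a * g⁻¹ ∈ N := fun a ha g => ‹N.Normal›.conj_mem a ha g
  constructor
  · ext x
    induction x using QuotientGroup.induction_on with
    | H g =>
    rw [Subgroup.mem_centralizer_singleton_iff, Subgroup.mem_map]
    constructor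
    · intro hc
      -- `g z g⁻¹ z ∈ N`.
      have h1 : g * z * g⁻¹ * z ∈ N := by
        have h2 : ((g * z : G) : G ⧸ N) = ((z * g : G) : G ⧸ N) := by
          rw [QuotientGroup.mk_mul, QuotientGroup.mk_mul]
          exact hc
        have h3 := (hmk _ _).1 h2
        have h4 : g * z * g⁻¹ * z = g * (z⁻¹ * g⁻¹ * z * g) * g⁻¹ := by
          rw [hzzi]; group
        have h5 : (g * z)⁻¹ * (z * g) = z⁻¹ * g⁻¹ * z * g := by group
        rw [h5] at h3
        rw [h4]
        exact hnorm _ h3 g
      obtain ⟨k, hk, _, _, hkc⟩ := CfsgLib.IsoInv.exists_k_conj hz g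
      have hkN : k ∈ N := (Subgroup.zpowers_le.2 h1) hk
      refine ⟨k⁻¹ * g, ?_, ?_⟩
      · -- k⁻¹ g commutes with z
        rw [Subgroup.mem_centralizer_singleton_iff]
        have h2 : k * z = g * z * g⁻¹ * k := by rw [← hkc]; group
        have h3 : z * k⁻¹ = k⁻¹ * (g * z * g⁻¹) := by
          rw [← hkc]; group
        calc k⁻¹ * g * z = k⁻¹ * (g * z * g⁻¹) * g := by group
          _ = z * k⁻¹ * g := by rw [h3]
          _ = z * (k⁻¹ * g) := by group
      · rw [QuotientGroup.mk'_apply]
        exact (hmk _ _).2 (by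
          have : (k⁻¹ * g)⁻¹ * g = g⁻¹ * k * g := by group
          rw [this]
          have := hnorm k hkN g⁻¹
          simpa using this)
    · rintro ⟨c, hc, hcg⟩
      rw [Subgroup.mem_centralizer_singleton_iff] at hc
      rw [← hcg, QuotientGroup.mk'_apply, ← QuotientGroup.mk_mul, ← QuotientGroup.mk_mul, hc]
  · constructor
    · apply CfsgLib.Invol.order_two_of_mul_self
      · rw [← QuotientGroup.mk_mul, hzz]; rfl
      · intro h
        exact hzN ((QuotientGroup.eq_one_iff z).1 h)
    · intro g hc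
      induction g using QuotientGroup.induction_on with
      | H g =>
      -- `d = g z g⁻¹`, `r = z d` odd, `r² ∈ N`
      set d := g * z * g⁻¹ with hd
      have hd2 : orderOf d = 2 := by rw [hd, CfsgLib.IsoInv.orderOf_conj]; exact hz.1
      have hdd := CfsgLib.Invol.mul_self_of_order_two hd2
      have hdi := CfsgLib.Invol.inv_eq_of_order_two hd2
      have hro := CfsgLib.IsoInv.odd_mul_conj hz g
      rw [← hd] at hro
      have hcq : ((z : G ⧸ N)) * (d : G ⧸ N) = (d : G ⧸ N) * (z : G ⧸ N) := by
        have := hc.eq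
        have h1 : ((g : G ⧸ N) * (z : G ⧸ N) * (g : G ⧸ N)⁻¹) = (d : G ⧸ N) := by
          rw [hd, QuotientGroup.mk_mul, QuotientGroup.mk_mul, QuotientGroup.mk_inv]
        rw [h1] at this
        exact this
      have hsq : (z * d) ^ 2 ∈ N := by
        have h2 : ((z * d : G) : G ⧸ N) = ((d * z : G) : G ⧸ N) := by
          rw [QuotientGroup.mk_mul, QuotientGroup.mk_mul]
          exact hcq
        have h3 := (hmk _ _).1 h2
        have h5 : (z * d)⁻¹ * (d * z) = d⁻¹ * z⁻¹ * d * z := by group
        rw [h5, hdi, hzzi] at h3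
        have h6 : (z * d) ^ 2 = z * (d * z * d * z) * z⁻¹ := by
          rw [hzzi, pow_two]
          calc z * d * (z * d) = z * (d * z * d) * 1 := by group
            _ = z * (d * z * d) * (z * z) := by rw [hzz]
            _ = _ := by group
        rw [h6]
        exact hnorm _ h3 z
      have hrN : z * d ∈ N := (Subgroup.zpowers_le.2 hsq) (CfsgLib.IsoInv.mem_zpowers_of_odd_sq hro)
      have h1 : ((g : G ⧸ N) * (z : G ⧸ N) * (g : G ⧸ N)⁻¹) = (d : G ⧸ N) := by
        rw [hd, QuotientGroup.mk_mul, QuotientGroup.mk_mul, QuotientGroup.mk_inv]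
      rw [h1]
      apply (QuotientGroup.eq).2
      rw [hdi]
      have h7 : d * z = (z * d)⁻¹ := by
        rw [mul_inv_rev, hdi, hzzi]
      rw [h7]
      exact N.inv_mem hrN

end Cfsg.Agent.S1181
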