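import Cfsg.Statements.S1182
import Cfsg.Agent.Lib.H3.IsoInv

set_option autoImplicit false
open Cfsg

namespace Cfsg.Agent.S1182

/-- Let z be an isolated involution of the finite group G and H a subgroup normalized by z. If x, y ∈ H both commute with z and y = h x h⁻¹ for some h ∈ H, then y = c x c⁻¹ for some c ∈ H commuting with z. -/
theorem result {G : Type*} [Group G] [Finite G] (z : G) (hz : Cfsg.IsIsolatedInvolution z) (H : Subgroup G) (hzH : z ∈ Subgroup.normalizer (H : Set G)) (x y : G) (hx : x ∈ H) (hy : y ∈ H) (hxz : Commute x z) (hyz : Commute y z) (h : G) (hh : h ∈ H) (hconj : h * x * h⁻¹ = y) : ∃ c ∈ H, Commute c z ∧ c * x * c⁻¹ = y := by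
  -- `u z u⁻¹ = h⁻¹ z h`, with `u ∈ H` commuting with `x`.
  have hzm : ∀ a ∈ H, z * a * z⁻¹ ∈ H := by
    intro a ha
    exact (Subgroup.mem_normalizer_iff.1 hzH a).1 ha
  have hy2 : Commute (h⁻¹ * z * h) x := by
    have h1 : x = h⁻¹ * y * h := by rw [← hconj]; group
    rw [h1]
    show h⁻¹ * z * h * (h⁻¹ * y * h) = h⁻¹ * y * h * (h⁻¹ * z * h)
    have h2 := hyz.eq
    calc h⁻¹ * z * h * (h⁻¹ * y * h) = h⁻¹ * (z * y) * h := by group
      _ = h⁻¹ * (y * z) * h := by rw [h2]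
      _ = _ := by group
  obtain ⟨u, hu, _, _, huc⟩ := CfsgLib.IsoInv.exists_k_conj hz h⁻¹
  have hh' : h⁻¹ * z * h⁻¹⁻¹ = h⁻¹ * z * h := by rw [inv_inv]
  rw [hh'] at hu huc
  -- `d = (h⁻¹ z h) z` lies in `H` and in `C(x)`
  have hzi : z⁻¹ = z := CfsgLib.Invol.inv_eq_of_order_two hz.1
  have hdH : h⁻¹ * z * h * z ∈ H := by
    have h1 : h⁻¹ * z * h * z = h⁻¹ * (z * h * z⁻¹) := by rw [hzi]; group
    rw [h1]
    exact H.mul_mem (H.inv_mem hh) (hzm h hh)
  have hdC : h⁻¹ * z * h * z ∈ Subgroup.centralizer ({x} : Set G) := by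
    rw [Subgroup.mem_centralizer_singleton_iff]
    exact (Commute.mul_left hy2 hxz.symm).eq
  have huH : u ∈ H := (Subgroup.zpowers_le.2 hdH) hu
  have huC : u ∈ Subgroup.centralizer ({x} : Set G) := (Subgroup.zpowers_le.2 hdC) hu
  rw [Subgroup.mem_centralizer_singleton_iff] at huC
  refine ⟨h * u, H.mul_mem hh huH, ?_, ?_⟩
  · -- h u z u⁻¹ h⁻¹ = z
    show h * u * z = z * (h * u)
    have h1 : u * z = h⁻¹ * z * h * u := by
      have : u * z * u⁻¹ * u = h⁻¹ * z * h * u := by rw [huc]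
      rwa [inv_mul_cancel_right] at this
    calc h * u * z = h * (u * z) := by group
      _ = h * (h⁻¹ * z * h * u) := by rw [h1]
      _ = z * (h * u) := by group
  · calc h * u * x * (h * u)⁻¹ = h * (u * x * u⁻¹) * h⁻¹ := by group
      _ = h * x * h⁻¹ := by
          congr 2
          rw [huC]
          group
      _ = y := hconj

end Cfsg.Agent.S1182
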