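import Cfsg.Statements.S1183
import Cfsg.Agent.Lib.H3.TransferTools
import Cfsg.Agent.Lib.H3.IsoInv2

set_option autoImplicit false
open Cfsg

namespace Cfsg.Agent.S1183

/-- Let z be an isolated involution of the finite group G and C = C_G(z). Then the subgroup of G generated by its elements of odd order is all of G if and only if the subgroup of C generated by its elements of odd order is all of C. -/
theorem result {G : Type*} [Group G] [Finite G] (z : G) (hz : Cfsg.IsIsolatedInvolution z) : Cfsg.pResidual 2 G = ⊤ ↔ Cfsg.pResidual 2 ↥(Subgroup.centralizer ({z} : Set G)) = ⊤ := by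
  set C := Subgroup.centralizer ({z} : Set G) with hC
  constructor
  · intro h
    apply CfsgLib.Tr.eq_top_of_sup_commutator_eq_top 2
    have hidx : Nat.Coprime 2 C.index :=
      (Nat.coprime_two_left.2 (CfsgLib.IsoInv.odd_index_centralizer hz))
    have hf := CfsgLib.Tr.focal_theorem (p := 2) C hidx (by
      intro g hg _ a ha
      rw [hC, Subgroup.mem_centralizer_singleton_iff] at hg ha
      obtain ⟨c, _, hcz, hcc⟩ := CfsgLib.IsoInv.exists_conj_in_centralizer hz ⊤ (by
        rw [Subgroup.mem_normalizer_iff]; simp) g (a * g * a⁻¹) hg ha a (Subgroup.mem_top a) rfl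
      refine ⟨c, ?_, hcc⟩
      rw [hC, Subgroup.mem_centralizer_singleton_iff]
      exact hcz)
    rw [h, top_sup_eq, top_inf_eq] at hf
    -- every element of `C` lies in the image
    rw [eq_top_iff]
    rintro ⟨x, hx⟩ _
    have hx' : x ∈ (Cfsg.pResidual 2 ↥C ⊔ commutator ↥C).map C.subtype := by
      rw [← hf]; exact hx
    obtain ⟨y, hy, hyx⟩ := hx'
    have : y = ⟨x, hx⟩ := Subtype.ext hyx
    rwa [← this]
  · intro h
    rw [eq_top_iff]
    rintro g _
    obtain ⟨k, c, hko, _, hcz, rfl⟩ := CfsgLib.IsoInv.exists_decomp hz g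
    refine Subgroup.mul_mem _ (Subgroup.subset_closure ?_) ?_
    · show Nat.Coprime _ _
      exact Nat.coprime_two_right.2 hko
    · have hcC : c ∈ C := by
        rw [hC, Subgroup.mem_centralizer_singleton_iff]
        exact hcz
      have h1 : (⟨c, hcC⟩ : C) ∈ Cfsg.pResidual 2 ↥C := by rw [h]; exact Subgroup.mem_top _
      have h2 : (Cfsg.pResidual 2 ↥C).map C.subtype ≤ Cfsg.pResidual 2 G := by
        unfold Cfsg.pResidual
        rw [MonoidHom.map_closure]
        apply Subgroup.closure_mono
        rintro _ ⟨y, hy, rfl⟩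
        show Nat.Coprime _ _
        rw [Subgroup.coe_subtype, Subgroup.orderOf_coe]
        exact hy
      exact h2 ⟨_, h1, rfl⟩

end Cfsg.Agent.S1183
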