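import Cfsg.Statements.S1185
import Cfsg.Agent.Lib.H3.IsoInv

set_option autoImplicit false
open Cfsg

namespace Cfsg.Agent.S1185

/-- Let z be an isolated involution of the finite group G with centralizer C. Then for every g ∈ G there is exactly one element k in the coset gC that has odd order and is inverted by z. -/
theorem result {G : Type*} [Group G] [Finite G] (z : G) (hz : Cfsg.IsIsolatedInvolution z) (g : G) : ∃! k : G, (Odd (orderOf k) ∧ z * k * z⁻¹ = k⁻¹) ∧ g⁻¹ * k ∈ Subgroup.centralizer ({z} : Set G) := by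
  obtain ⟨k, _, hko, hki, hkc⟩ := CfsgLib.IsoInv.exists_k_conj hz g
  refine ⟨k, ⟨⟨hko, hki⟩, ?_⟩, ?_⟩
  · -- g⁻¹ k commutes with z
    rw [Subgroup.mem_centralizer_singleton_iff]
    have h1 : k * z = g * z * g⁻¹ * k := by
      rw [← hkc]; group
    calc g⁻¹ * k * z = g⁻¹ * (k * z) := by group
      _ = g⁻¹ * (g * z * g⁻¹ * k) := by rw [h1]
      _ = z * (g⁻¹ * k) := by group
  · rintro k' ⟨⟨hko', hki'⟩, hm⟩
    rw [Subgroup.mem_centralizer_singleton_iff] at hm
    apply CfsgLib.IsoInv.k_unique hz.1 hko' hko hki' hki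
    rw [hkc]
    have h1 : g⁻¹ * k' * z * (g⁻¹ * k')⁻¹ = z := by
      rw [hm]; group
    calc k' * z * k'⁻¹ = g * (g⁻¹ * k' * z * (g⁻¹ * k')⁻¹) * g⁻¹ := by group
      _ = g * z * g⁻¹ := by rw [h1]

end Cfsg.Agent.S1185
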