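import Cfsg.Statements.S1187
import Cfsg.Agent.Lib.ZStar.Inv
-- import your own Cfsg.Agent.* helpers here

set_option autoImplicit false
open Cfsg

namespace Cfsg.Agent.S1187

/-- Let z be an isolated involution of the finite group G and p a prime. If Q is a p-subgroup normalized by z that is maximal among p-subgroups normalized by z, then Q is a Sylow p-subgroup of G. -/
theorem result {G : Type*} [Group G] [Finite G] (z : G) (hz : Cfsg.IsIsolatedInvolution z) {p : ℕ} [Fact p.Prime] (Q : Subgroup G) (hQ : IsPGroup p Q) (hzQ : z ∈ Subgroup.normalizer (Q : Set G)) (hmax : ∀ R : Subgroup G, IsPGroup p R → z ∈ Subgroup.normalizer (R : Set G) → Q ≤ R → R = Q) : ∃ P : Sylow p G, (P : Subgroup G) = Q := by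
  classical
  by_cases hp : p = 2
  · subst hp
    -- `z ∈ Q`
    have hzord : IsPGroup 2 (Subgroup.zpowers z) := by
      rw [IsPGroup.iff_card]
      exact ⟨1, by rw [Nat.card_zpowers, hz.1]; rfl⟩
    have hR : IsPGroup 2 (Subgroup.zpowers z ⊔ Q : Subgroup G) :=
      hzord.to_sup_of_normal_right' hQ (CfsgLib.ZS.zpowers_le_normalizer hzQ)
    have hzR : z ∈ (Subgroup.zpowers z ⊔ Q : Subgroup G) := Subgroup.mem_sup_left (Subgroup.mem_zpowers z)
    have h1 := hmax _ hR (Subgroup.le_normalizer hzR) le_sup_right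
    have hzQ' : z ∈ Q := h1 ▸ hzR
    obtain ⟨P, hP⟩ := hQ.exists_le_sylow
    exact ⟨P, hmax _ P.2 (Subgroup.le_normalizer (hP hzQ')) hP⟩
  · obtain ⟨P, hP, hPz⟩ := CfsgLib.ZS.exists_invariant_sylow_of_isolated hz.1 hz.2 hp Q hQ hzQ
    exact ⟨P, hmax _ P.2 hPz hP⟩

end Cfsg.Agent.S1187
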