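import Cfsg.Statements.S1243
import Cfsg.Agent.Lib.H3.ConjTools
import Cfsg.Agent.Lib.Lead.SylowConj

set_option autoImplicit false
open Cfsg

namespace Cfsg.Agent.S1243

/-- Let T be a Sylow p-subgroup of the finite group G and W ≤ T a subgroup weakly closed in T. If d and g d g⁻¹ both centralize W, then g d g⁻¹ = h d h⁻¹ for some h ∈ N_G(W). -/
theorem result {G : Type*} [Group G] [Finite G] {p : ℕ} [Fact p.Prime] (T : Sylow p G) (W : Subgroup G) (hW : Cfsg.IsWeaklyClosed W (T : Subgroup G)) (d g : G) (hd : d ∈ Subgroup.centralizer (W : Set G)) (hgd : g * d * g⁻¹ ∈ Subgroup.centralizer (W : Set G)) : ∃ h ∈ Subgroup.normalizer (W : Set G), h * d * h⁻¹ = g * d * g⁻¹ := by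
  obtain ⟨hWT, hwc⟩ := hW
  have hWp : IsPGroup p W := (T.isPGroup').to_le hWT
  set d' := g * d * g⁻¹ with hd'
  set X := Subgroup.centralizer ({d'} : Set G) with hX
  -- W and W^g are p-subgroups of X
  have hWX : W ≤ X := by
    intro w hw
    rw [Subgroup.mem_centralizer_iff] at hgd
    rw [hX, Subgroup.mem_centralizer_singleton_iff]
    exact (hgd w hw)
  set V := W.map (MulAut.conj g).toMonoidHom with hV
  have hVp : IsPGroup p V := hWp.map _
  have hVX : V ≤ X := by
    rintro _ ⟨w, hw, rfl⟩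
    rw [Subgroup.mem_centralizer_iff] at hd
    rw [hX, Subgroup.mem_centralizer_singleton_iff]
    have h1 := hd w hw
    simp only [MulEquiv.coe_toMonoidHom, MulAut.conj_apply, hd']
    calc g * w * g⁻¹ * (g * d * g⁻¹) = g * (w * d) * g⁻¹ := by group
      _ = g * (d * w) * g⁻¹ := by rw [← h1]
      _ = _ := by group
  -- a Sylow subgroup `U` of `X` containing `W`
  have hWp' : IsPGroup p (W.subgroupOf X) := hWp.comap_subtype
  obtain ⟨U, hU⟩ := hWp'.exists_le_sylow
  have hVp' : IsPGroup p (V.subgroupOf X) := hVp.comap_subtype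
  obtain ⟨U', hU'⟩ := hVp'.exists_le_sylow
  obtain ⟨c, hc⟩ := MulAction.exists_smul_eq X U' U
  have hcV : ∀ v ∈ V, (c : G) * v * (c : G)⁻¹ ∈ (U : Subgroup X).map X.subtype := by
    intro v hv
    have hv' : (⟨v, hVX hv⟩ : X) ∈ (U' : Subgroup X) := hU' (by simpa [Subgroup.mem_subgroupOf] using hv)
    refine ⟨c * ⟨v, hVX hv⟩ * c⁻¹, ?_, by simp⟩
    rw [← hc, Sylow.coe_subgroup_smul]
    exact ⟨_, hv', rfl⟩
  have hUp : IsPGroup p ((U : Subgroup X).map X.subtype) := U.isPGroup'.map _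
  -- conjugate U into T
  obtain ⟨y, _, hy⟩ := CfsgLib.Lead.exists_conj_into_sylow T ⊤ le_top _ le_top hUp
  have hleA : W.map (MulAut.conj y⁻¹).toMonoidHom ≤ T := by
    rintro _ ⟨w, hw, rfl⟩
    have h0 : w ∈ (U : Subgroup X).map X.subtype :=
      ⟨⟨w, hWX hw⟩, hU (by simpa [Subgroup.mem_subgroupOf] using hw), rfl⟩
    simpa using hy w h0
  have h1 := hwc y⁻¹ hleA
  have hleB : W.map (MulAut.conj (y⁻¹ * (c * g))).toMonoidHom ≤ T := by
    rintro _ ⟨w, hw, rfl⟩
    have hv : g * w * g⁻¹ ∈ V := ⟨w, hw, by simp⟩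
    have h0 := hcV _ hv
    have := hy _ h0
    simpa [mul_assoc] using this
  have h2 := hwc _ hleB
  refine ⟨c * g, ?_, ?_⟩
  · rw [CfsgLib.CT.map_conj_eq_iff] at h1 h2
    have h3 := Subgroup.mul_mem _ (Subgroup.inv_mem _ h1) h2
    simpa using h3
  · have hcc : (c : G) * d' = d' * c := by
      have := c.2
      rw [Subgroup.mem_centralizer_singleton_iff] at this
      exact this
    calc (c : G) * g * d * ((c : G) * g)⁻¹ = c * d' * (c : G)⁻¹ := by rw [hd']; group
      _ = d' := by rw [hcc]; group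

end Cfsg.Agent.S1243
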