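import Cfsg.Statements.S1286
import Cfsg.Agent.Lib.H3.SignalEx

set_option autoImplicit false
open Cfsg

namespace Cfsg.Agent.S1286

/-- There exist a finite group X, an elementary abelian subgroup A of order 4 and a solvable A-signalizer functor θ on X for the prime 2 which is not complete. -/
theorem result : ∃ (X : Type) (_ : Group X) (_ : Finite X) (A : Subgroup X) (θ : X → Subgroup X), Cfsg.IsElementaryAbelian 2 A ∧ Nat.card ↥A = 4 ∧ Cfsg.IsSolvableSignalizerFunctor 2 A θ ∧ ¬ Cfsg.IsCompleteSignalizerFunctor 2 A θ := by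
  exact ⟨CfsgLib.SignalEx.G5, inferInstance, inferInstance, CfsgLib.SignalEx.A5,
    CfsgLib.SignalEx.thetaS, CfsgLib.SignalEx.elem, CfsgLib.SignalEx.card_A5,
    CfsgLib.SignalEx.functor, CfsgLib.SignalEx.not_complete⟩

end Cfsg.Agent.S1286
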