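import Cfsg.Statements.S1300

set_option autoImplicit false
open Cfsg

namespace Cfsg.Agent.S1300

/-- For a finite group G, balance in the sense of commuting involutions is the same as 1-balance for the prime 2. -/
theorem result {G : Type*} [Group G] [Finite G] : Cfsg.IsBalanced G ↔ Cfsg.IsKBalanced 2 1 G := by
  haveI : Fact (Nat.Prime 2) := ⟨Nat.prime_two⟩
  have hdelta : ∀ x : G, orderOf x = 2 →
      Cfsg.signalizerDelta 2 (Subgroup.zpowers x) = Cfsg.centralizerPPrimeCore 2 x := by
    intro x hx
    unfold Cfsg.signalizerDelta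
    apply le_antisymm
    · refine iInf_le_of_le ⟨x, Subgroup.mem_zpowers x, ?_⟩ le_rfl
      intro h
      rw [h] at hx
      simp at hx
    · refine le_iInf ?_
      rintro ⟨a, ha, ha1⟩
      -- `a` generates
      obtain ⟨k, rfl⟩ := ha
      have hk : x ^ k = x := by
        have h2 : x ^ (2 : ℤ) = 1 := by
          have := pow_orderOf_eq_one x
          rw [hx] at this
          exact_mod_cast this
        rcases Int.emod_two_eq_zero_or_one k with h | h
        · exfalso
          apply ha1
          obtain ⟨m, hm⟩ := Int.dvd_of_emod_eq_zero h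
          change x ^ k = 1
          rw [hm, zpow_mul, h2, one_zpow]
        · have : k = 2 * (k / 2) + 1 := by omega
          rw [this, zpow_add, zpow_mul, h2, one_zpow, one_mul, zpow_one]
      change _ ≤ Cfsg.centralizerPPrimeCore 2 (x ^ k)
      rw [hk]
  have hle : ∀ x : G, Cfsg.centralizerPPrimeCore 2 x ≤ Subgroup.centralizer {x} :=
    fun x => Subgroup.map_subtype_le _
  constructor
  · intro h A hA hcard b hb hc
    -- `A = ⟨a⟩`
    have hcard2 : Nat.card A = 2 := by simpa using hcard
    have : Nontrivial A := Finite.one_lt_card_iff_nontrivial.1 (by omega)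
    obtain ⟨⟨a, haA⟩, ha1⟩ := exists_ne (1 : A)
    have ha1' : a ≠ 1 := fun h => ha1 (Subtype.ext h)
    have haord : orderOf a = 2 := by
      apply orderOf_eq_prime (hA.2 a haA) ha1'
    have hAz : A = Subgroup.zpowers a := by
      symm
      apply Subgroup.eq_of_le_of_card_ge
      · rw [Subgroup.zpowers_le]; exact haA
      · rw [Nat.card_zpowers, haord, hcard2]
    rw [hAz, hdelta a haord]
    have h1 := h a b haord hb (hc a haA)
    rw [h1]
    exact inf_le_left
  · intro h x y hx hy hxy
    have key : ∀ x y : G, orderOf x = 2 → orderOf y = 2 → x * y = y * x →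
        Cfsg.centralizerPPrimeCore 2 x ⊓ Subgroup.centralizer {y} ≤
          Cfsg.centralizerPPrimeCore 2 y ⊓ Subgroup.centralizer {x} := by
      intro x y hx hy hxy
      have hA : Cfsg.IsElementaryAbelian 2 (Subgroup.zpowers x) := by
        refine ⟨inferInstance, ?_⟩
        rintro _ ⟨k, rfl⟩
        simp only
        rw [← zpow_natCast, ← zpow_mul, mul_comm, zpow_mul, zpow_natCast, ← hx, pow_orderOf_eq_one,
          one_zpow]
      have h1 := h (Subgroup.zpowers x) hA (by rw [Nat.card_zpowers, hx, pow_one]) y hy (by
        rintro _ ⟨k, rfl⟩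
        exact (Commute.zpow_left hxy k))
      rw [hdelta x hx] at h1
      exact le_inf h1 (inf_le_left.trans (hle x))
    exact le_antisymm (key x y hx hy hxy) (key y x hy hx hxy.symm)

end Cfsg.Agent.S1300
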