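import Cfsg.Statements.S1303
import Cfsg.Agent.Lib.H3.PSolv4
import Cfsg.Agent.Lib.H3.PSolv3
import Cfsg.Agent.Lib.Solv.Core

set_option autoImplicit false
open Cfsg

namespace Cfsg.Agent.S1303

/-- The group X = SL(2, 3): it is 2-constrained, O_{2'}(X) = 1, its centre A = Z(X) contains every involution of X = C_X(A), and X has a subgroup of order 3 (normalized by A) not contained in O_{2'}(X). -/
theorem result : Cfsg.IsPConstrained 2 (Matrix.SpecialLinearGroup (Fin 2) (ZMod 3)) ∧ Cfsg.pPrimeCore 2 (Matrix.SpecialLinearGroup (Fin 2) (ZMod 3)) = ⊥ ∧ (∀ t : Matrix.SpecialLinearGroup (Fin 2) (ZMod 3), orderOf t = 2 → t ∈ Subgroup.center (Matrix.SpecialLinearGroup (Fin 2) (ZMod 3))) ∧ ∃ Q : Subgroup (Matrix.SpecialLinearGroup (Fin 2) (ZMod 3)), Nat.card ↥Q = 3 ∧ ¬ (Q ≤ Cfsg.pPrimeCore 2 (Matrix.SpecialLinearGroup (Fin 2) (ZMod 3))) := by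
  classical
  haveI : Fact (Nat.Prime 2) := ⟨Nat.prime_two⟩
  have hcard : Nat.card (Matrix.SpecialLinearGroup (Fin 2) (ZMod 3)) = 24 := by
    rw [Nat.card_eq_fintype_card]
    decide +kernel
  have h1 : ∀ x : Matrix.SpecialLinearGroup (Fin 2) (ZMod 3), x ^ 3 = 1 → x ≠ 1 →
      ∃ g : Matrix.SpecialLinearGroup (Fin 2) (ZMod 3), (x * g * x⁻¹ * g⁻¹) ^ 3 ≠ 1 := by
    decide +kernel
  have h2 : ∀ t : Matrix.SpecialLinearGroup (Fin 2) (ZMod 3), t ^ 2 = 1 → t ≠ 1 →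
      ∀ g : Matrix.SpecialLinearGroup (Fin 2) (ZMod 3), g * t = t * g := by
    decide +kernel
  have h3 : ∃ x : Matrix.SpecialLinearGroup (Fin 2) (ZMod 3), x ≠ 1 ∧ x ^ 3 = 1 := by
    decide +kernel
  have h4 : ∀ x y : Matrix.SpecialLinearGroup (Fin 2) (ZMod 3), x ^ 4 = 1 → y ^ 4 = 1 → (x * y) ^ 4 = 1 := by
    decide +kernel
  have h5 : Fintype.card {x : Matrix.SpecialLinearGroup (Fin 2) (ZMod 3) // x ^ 4 = 1} = 8 := by
    decide +kernel
  let Q : Subgroup (Matrix.SpecialLinearGroup (Fin 2) (ZMod 3)) :=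
    { carrier := {x | x ^ 4 = 1}
      mul_mem' := fun {a b} ha hb => h4 a b ha hb
      one_mem' := one_pow 4
      inv_mem' := fun {a} ha => by
        change a⁻¹ ^ 4 = 1
        rw [inv_pow, show a ^ 4 = 1 from ha, inv_one] }
  haveI hQn : Q.Normal := ⟨fun x hx g => by
    change (g * x * g⁻¹) ^ 4 = 1
    rw [conj_pow, show x ^ 4 = 1 from hx]
    simp⟩
  have hQcard : Nat.card Q = 8 := by
    rw [← h5, ← Nat.card_eq_fintype_card]
    rfl
  have hquot : Nat.card (Matrix.SpecialLinearGroup (Fin 2) (ZMod 3) ⧸ Q) = 3 := by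
    have := Subgroup.card_eq_card_quotient_mul_card_subgroup Q
    rw [hcard, hQcard] at this
    omega
  have hsolv : Cfsg.IsPSolvable 2 (Matrix.SpecialLinearGroup (Fin 2) (ZMod 3)) := by
    apply CfsgLib.PSolv.ext Q
    · exact CfsgLib.PSolv.of_good (Or.inl ⟨3, by rw [hQcard]; norm_num⟩)
    · apply CfsgLib.PSolv.of_good
      right
      rw [hquot]
      norm_num
  have hcore : Cfsg.pPrimeCore 2 (Matrix.SpecialLinearGroup (Fin 2) (ZMod 3)) = ⊥ := by
    rw [eq_bot_iff]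
    intro x hx
    rw [Subgroup.mem_bot]
    by_contra hne
    have hc := CfsgLib.Solv.pPrimeCore_coprime (G := Matrix.SpecialLinearGroup (Fin 2) (ZMod 3)) 2
    have hd : Nat.card (Cfsg.pPrimeCore 2 (Matrix.SpecialLinearGroup (Fin 2) (ZMod 3))) ∣ 24 := by
      rw [← hcard]
      exact Subgroup.card_subgroup_dvd_card _
    have hd3 : Nat.card (Cfsg.pPrimeCore 2 (Matrix.SpecialLinearGroup (Fin 2) (ZMod 3))) ∣ 3 := by
      have : (24 : ℕ) = 2 ^ 3 * 3 := by norm_num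
      rw [this] at hd
      exact (Nat.Coprime.pow_right 3 hc).dvd_of_dvd_mul_left hd
    have hexp : ∀ y ∈ Cfsg.pPrimeCore 2 (Matrix.SpecialLinearGroup (Fin 2) (ZMod 3)), y ^ 3 = 1 := by
      intro y hy
      have h6 : orderOf y ∣ 3 := (Subgroup.orderOf_dvd_natCard _ hy).trans hd3
      exact orderOf_dvd_iff_pow_eq_one.1 h6
    obtain ⟨g, hg⟩ := h1 x (hexp x hx) hne
    apply hg
    apply hexp
    have h7 : x * g * x⁻¹ * g⁻¹ = x * (g * x⁻¹ * g⁻¹) := by group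
    rw [h7]
    apply Subgroup.mul_mem _ hx
    exact (CfsgLib.Solv.pPrimeCore_normal' 2).conj_mem _ (Subgroup.inv_mem _ hx) g
  refine ⟨?_, hcore, ?_, ?_⟩
  · obtain ⟨P⟩ : Nonempty (Sylow 2 ↥(Cfsg.pPrimePCore 2 (Matrix.SpecialLinearGroup (Fin 2) (ZMod 3)))) :=
      inferInstance
    exact CfsgLib.PSolv.constrained_of_centralizer P (CfsgLib.PSolv.subgroup Nat.prime_two hsolv _)
  · intro t ht
    rw [Subgroup.mem_center_iff]
    intro g
    apply h2 t _ _ g
    · have h9 := pow_orderOf_eq_one t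
      rwa [ht] at h9
    · rintro rfl
      simp at ht
  · obtain ⟨x, hx1, hx3⟩ := h3
    refine ⟨Subgroup.zpowers x, ?_, ?_⟩
    · rw [Nat.card_zpowers]
      exact orderOf_eq_prime hx3 hx1
    · rw [hcore]
      intro h
      apply hx1
      have := h (Subgroup.mem_zpowers x)
      rwa [Subgroup.mem_bot] at this

end Cfsg.Agent.S1303
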