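import Cfsg.Statements.S1304
import Cfsg.Agent.Lib.H3.Comp

set_option autoImplicit false
open Cfsg

namespace Cfsg.Agent.S1304

/-- Let X be a perfect group and α an automorphism of X with α(x) x⁻¹ central for every x. Then α is the identity. -/
theorem result {X : Type*} [Group X] (hperf : commutator X = ⊤) (α : X ≃* X) (h : ∀ x : X, α x * x⁻¹ ∈ Subgroup.center X) : ∀ x : X, α x = x := by
  exact CfsgLib.Comp.aut_eq_id_of_central hperf α h

end Cfsg.Agent.S1304
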