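import Cfsg.Statements.S1306
import Cfsg.Agent.Lib.H3.Standard

set_option autoImplicit false
open Cfsg

namespace Cfsg.Agent.S1306

/-- Let G be finite, x an involution and L ≤ C_G(x) a component of C_G(x). Suppose L is a component of C_G(y) for every involution y ∈ C_G(L), and ⁅L, g L g⁻¹⁆ ≠ 1 whenever g L g⁻¹ ≠ L. Then L is a standard subgroup of G. -/
theorem result {G : Type*} [Group G] [Finite G] (x : G) (hx : orderOf x = 2) (L : Subgroup G) (hLx : L ≤ Subgroup.centralizer ({x} : Set G)) (hL : Cfsg.IsComponent (L.subgroupOf (Subgroup.centralizer ({x} : Set G)))) (hne : ∀ y : G, orderOf y = 2 → y ∈ Subgroup.centralizer (L : Set G) → L ≤ Subgroup.centralizer ({y} : Set G) ∧ Cfsg.IsComponent (L.subgroupOf (Subgroup.centralizer ({y} : Set G)))) (hnc : ∀ g : G, L.map (MulAut.conj g).toMonoidHom ≠ L → ⁅L, L.map (MulAut.conj g).toMonoidHom⁆ ≠ ⊥) : Cfsg.IsStandardSubgroup L := by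
  classical
  -- notation
  have conj_comp : ∀ y g : G, orderOf y = 2 → y ∈ Subgroup.centralizer (L : Set G) →
      L.map (MulAut.conj g).toMonoidHom ≤ Subgroup.centralizer ({g * y * g⁻¹} : Set G) ∧
      Cfsg.IsComponent ((L.map (MulAut.conj g).toMonoidHom).subgroupOf
        (Subgroup.centralizer ({g * y * g⁻¹} : Set G))) := by
    intro y g hy hyC
    obtain ⟨h1, h2⟩ := hne y hy hyC
    have h3 := CfsgLib.Std.comp_conj h1 h2 g
    rwa [CfsgLib.Std.map_conj_centralizer_singleton] at h3
  have order_conj : ∀ y g : G, orderOf y = 2 → orderOf (g * y * g⁻¹) = 2 := by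
    intro y g hy
    rw [← hy, ← MulAut.conj_apply]
    exact MulEquiv.orderOf_eq (MulAut.conj g) y
  -- key: if `y` centralizes `L` and `L^g`, with `y` an involution, then `L^g = L`
  have key : ∀ y g : G, orderOf y = 2 → y ∈ Subgroup.centralizer (L : Set G) →
      g⁻¹ * y * g ∈ Subgroup.centralizer (L : Set G) → L.map (MulAut.conj g).toMonoidHom = L := by
    intro y g hy hy1 hy2
    have h1 := hne y hy hy1
    have h2 := conj_comp (g⁻¹ * y * g) g (by simpa using order_conj y g⁻¹ hy) hy2
    have e : g * (g⁻¹ * y * g) * g⁻¹ = y := by group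
    rw [e] at h2
    rcases CfsgLib.Std.comp_eq_or_comm h1.1 h2.1 h1.2 h2.2 with h3 | h3
    · exact h3.symm
    · by_contra hne'
      exact hnc g hne' h3
  have hxC : x ∈ Subgroup.centralizer (L : Set G) := by
    rw [Subgroup.mem_centralizer_iff]
    intro l hl
    exact (Subgroup.mem_centralizer_singleton_iff.1 (hLx hl))
  have hleN : ∀ g, g ∈ Subgroup.normalizer (L : Set G) →
      g ∈ Subgroup.normalizer (Subgroup.centralizer (L : Set G) : Set G) := by
    intro g hg
    rw [← CfsgLib.CT.map_conj_eq_iff, CfsgLib.Std.map_conj_centralizer,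
      CfsgLib.CT.map_conj_eq_iff.2 hg]
  refine ⟨?_, ⟨?_, ?_⟩, hnc, ?_⟩
  · exact (CfsgLib.Comp.quasi_subgroupOf_iff hLx).1 hL.2
  · -- even
    have h1 : (2 : ℕ) ∣ Nat.card (Subgroup.centralizer (L : Set G)) := by
      have := Subgroup.orderOf_dvd_natCard (Subgroup.centralizer (L : Set G)) hxC
      rwa [hx] at this
    exact even_iff_two_dvd.2 h1
  · intro g hg
    by_contra hodd
    rw [Nat.not_odd_iff_even, even_iff_two_dvd] at hodd
    obtain ⟨⟨y, hy⟩, hy2⟩ := @exists_prime_orderOf_dvd_card' _ _ _ 2 ⟨Nat.prime_two⟩ hodd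
    have hy3 : orderOf y = 2 := by
      rw [← hy2]
      exact (Subgroup.orderOf_mk y hy).symm
    have h1 := hy.1
    have h2 := CfsgLib.CT.mem_map_conj'.1 hy.2
    have h3 := key y g hy3 h1 h2
    apply hg
    exact hleN g (CfsgLib.CT.map_conj_eq_iff.1 h3)
  · apply le_antisymm
    · exact hleN
    · intro g hg
      rw [← CfsgLib.CT.map_conj_eq_iff]
      have h1 : g⁻¹ * x * g ∈ Subgroup.centralizer (L : Set G) := by
        have h4 : g⁻¹ ∈ Subgroup.normalizer (Subgroup.centralizer (L : Set G) : Set G) :=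
          Subgroup.inv_mem _ hg
        have := CfsgLib.CT.conj_mem_of_mem_normalizer h4 hxC
        simpa using this
      exact key x g hx hxC h1

end Cfsg.Agent.S1306
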