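import Cfsg.Statements.S1314
import Cfsg.Agent.Lib.H3.Comp2

set_option autoImplicit false
open Cfsg

namespace Cfsg.Agent.S1314

/-- Let x be an involution of a group G and L a perfect subgroup with ⁅L, x L x⁻¹⁆ = 1. Then l ↦ l (x l x⁻¹) is a group homomorphism π from L to G whose kernel is central in L and whose image lies in C_G(x); and the commutator subgroup of C_{L ⊔ xLx⁻¹}(x) equals the image of π. -/
theorem result {G : Type*} [Group G] [Finite G] (x : G) (hx : orderOf x = 2) (L : Subgroup G) (hperf : ⁅L, L⁆ = L) (hcomm : ⁅L, L.map (MulAut.conj x).toMonoidHom⁆ = ⊥) : ∃ π : ↥L →* G, (∀ l : ↥L, π l = (l : G) * (x * (l : G) * x⁻¹)) ∧ π.ker ≤ Subgroup.center ↥L ∧ π.range ≤ Subgroup.centralizer ({x} : Set G) ∧ ⁅(L ⊔ L.map (MulAut.conj x).toMonoidHom) ⊓ Subgroup.centralizer ({x} : Set G), (L ⊔ L.map (MulAut.conj x).toMonoidHom) ⊓ Subgroup.centralizer ({x} : Set G)⁆ = π.range := by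
  have hc := CfsgLib.Comp.comm_bot_iff.1 hcomm
  have hx2 : x * x = 1 := by
    have := pow_orderOf_eq_one x
    rw [hx, pow_two] at this
    exact this
  have hxi : x⁻¹ = x := inv_eq_of_mul_eq_one_left hx2
  have hxl : ∀ a : G, x * (x * a * x⁻¹) * x⁻¹ = a := by
    intro a
    rw [hxi]
    calc x * (x * a * x) * x = (x * x) * a * (x * x) := by group
      _ = a := by rw [hx2]; group
  have hmemx : ∀ a ∈ L, x * a * x⁻¹ ∈ L.map (MulAut.conj x).toMonoidHom := fun a ha => ⟨a, ha, rfl⟩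
  let π : ↥L →* G :=
    { toFun := fun l => (l : G) * (x * (l : G) * x⁻¹)
      map_one' := by simp
      map_mul' := by
        intro a b
        have h1 := hc b b.2 _ (hmemx a a.2)
        simp only [Subgroup.coe_mul]
        calc (a : G) * b * (x * (a * b) * x⁻¹)
            = (a : G) * (b * (x * a * x⁻¹)) * (x * b * x⁻¹) := by group
          _ = (a : G) * ((x * a * x⁻¹) * b) * (x * b * x⁻¹) := by rw [h1]
          _ = (a : G) * (x * a * x⁻¹) * (b * (x * b * x⁻¹)) := by group }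
  have hπ : ∀ l : ↥L, π l = (l : G) * (x * (l : G) * x⁻¹) := fun _ => rfl
  have hrange : π.range ≤ Subgroup.centralizer ({x} : Set G) := by
    rintro _ ⟨l, rfl⟩
    rw [Subgroup.mem_centralizer_singleton_iff, hπ]
    have h1 := hc l l.2 _ (hmemx l l.2)
    have h2 := hxl (l : G)
    obtain ⟨y, hy⟩ : ∃ y, y = x * (l : G) * x⁻¹ := ⟨_, rfl⟩
    rw [← hy] at h1 h2 ⊢
    have h3 : x * ((l : G) * y) = (x * l * x⁻¹) * (x * y * x⁻¹) * x := by group
    rw [h3, h2, ← hy, h1]
  refine ⟨π, hπ, ?_, hrange, ?_⟩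
  · intro l hl
    rw [MonoidHom.mem_ker, hπ] at hl
    have h1 : x * (l : G) * x⁻¹ = (l : G)⁻¹ := eq_inv_of_mul_eq_one_right hl
    rw [Subgroup.mem_center_iff]
    intro a
    apply Subtype.ext
    have h2 := hc a a.2 _ (hmemx l l.2)
    rw [h1] at h2
    have h3 : (a : G) * l = l * a := by
      have : (l : G) * ((a : G) * (l : G)⁻¹) * l = (l : G) * ((l : G)⁻¹ * a) * l := by rw [h2]
      simpa [mul_assoc] using this.symm
    exact h3
  · set Lx := L.map (MulAut.conj x).toMonoidHom with hLx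
    set C := (L ⊔ Lx) ⊓ Subgroup.centralizer ({x} : Set G) with hC
    have hrC : π.range ≤ C := by
      apply le_inf _ hrange
      rintro _ ⟨l, rfl⟩
      rw [hπ]
      exact Subgroup.mul_mem_sup l.2 (hmemx l l.2)
    apply le_antisymm
    · -- decomposition of elements of `C`
      have hdec : ∀ c ∈ C, ∃ a : ↥L, ∃ z : G, z ∈ L ∧ z ∈ Lx ∧ c = π a * z := by
        rintro c ⟨hc1, hc2⟩
        obtain ⟨a, ha, y, hy, rfl⟩ := CfsgLib.Comp.mem_sup_of_commute hc hc1
        have hcomm1 := Subgroup.mem_centralizer_singleton_iff.1 hc2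
        obtain ⟨b, hb, hyb⟩ := hy
        have hyv : y = x * b * x⁻¹ := hyb.symm
        have hxy : x * y * x⁻¹ = b := by rw [hyv]; exact hxl b
        set a' := x * a * x⁻¹ with ha'
        have ha'm : a' ∈ Lx := hmemx a ha
        have h1 : a' * b = a * y := by
          have h2 : x * (a * y) * x⁻¹ = a * y := by
            rw [mul_inv_eq_iff_eq_mul]
            exact hcomm1.symm
          rw [← h2, ha', ← hxy]
          group
        have h2 : b * a' = a' * b := hc b hb a' ha'm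
        set z := a⁻¹ * b with hz
        have hzL : z ∈ L := L.mul_mem (L.inv_mem ha) hb
        have hy2 : y = z * a' := by
          rw [hz, mul_assoc, h2, h1]
          group
        have hzLx : z ∈ Lx := by
          have : z = y * a'⁻¹ := by rw [hy2]; group
          rw [this]
          exact Lx.mul_mem (by rw [hyv]; exact hmemx b hb) (Lx.inv_mem ha'm)
        refine ⟨⟨a, ha⟩, z, hzL, hzLx, ?_⟩
        rw [hπ]
        change a * y = a * a' * z
        have hz' : z * a' = a' * z := hc z hzL a' ha'm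
        calc a * y = a * (z * a') := by rw [← hy2]
          _ = a * (a' * z) := by rw [hz']
          _ = a * a' * z := by group
      rw [Subgroup.commutator_le]
      intro c₁ hc₁ c₂ hc₂
      obtain ⟨a₁, z₁, hz₁, hz₁', rfl⟩ := hdec c₁ hc₁
      obtain ⟨a₂, z₂, hz₂, hz₂', rfl⟩ := hdec c₂ hc₂
      have hzc : ∀ z, z ∈ L → z ∈ Lx → ∀ a : ↥L, z * π a = π a * z := by
        intro z hz hz' a
        rw [hπ]
        have h1 := hc a a.2 z hz'
        have h2 := hc z hz _ (hmemx a a.2)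
        calc z * ((a : G) * (x * a * x⁻¹)) = (z * a) * (x * a * x⁻¹) := by group
          _ = (a * z) * (x * a * x⁻¹) := by rw [h1]
          _ = a * (z * (x * a * x⁻¹)) := by group
          _ = a * ((x * a * x⁻¹) * z) := by rw [h2]
          _ = (a : G) * (x * a * x⁻¹) * z := by group
      have h12 : z₁ * z₂ = z₂ * z₁ := hc z₁ hz₁ z₂ hz₂'
      have e1 := hzc z₁ hz₁ hz₁' a₂
      have e2 := hzc z₂ hz₂ hz₂' a₁
      have e3 := hzc z₁ hz₁ hz₁' a₁
      have e4 := hzc z₂ hz₂ hz₂' a₂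
      refine ⟨a₁ * a₂ * a₁⁻¹ * a₂⁻¹, ?_⟩
      change _ = π a₁ * z₁ * (π a₂ * z₂) * (π a₁ * z₁)⁻¹ * (π a₂ * z₂)⁻¹
      rw [map_mul, map_mul, map_mul, map_inv, map_inv]
      generalize π a₁ = u₁ at e2 e3 ⊢
      generalize π a₂ = u₂ at e1 e4 ⊢
      -- commuting
      have c1 : Commute z₁ u₂ := e1
      have c2 : Commute z₂ u₁ := e2
      have c3 : Commute z₁ u₁ := e3
      have c4 : Commute z₂ u₂ := e4
      have c5 : Commute z₁ z₂ := h12
      have hA : u₁ * z₁ * (u₂ * z₂) * (u₁ * z₁)⁻¹ * (u₂ * z₂)⁻¹ = u₁ * u₂ * u₁⁻¹ * u₂⁻¹ := by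
        have : u₁ * z₁ * (u₂ * z₂) = u₁ * u₂ * z₂ * z₁ := by
          rw [mul_assoc u₁ z₁, ← mul_assoc z₁, c1.eq, mul_assoc u₂, c5.eq]
          group
        rw [this, mul_inv_rev, mul_inv_rev]
        have h6 : u₁ * u₂ * z₂ * z₁ * (z₁⁻¹ * u₁⁻¹) * (z₂⁻¹ * u₂⁻¹) =
            u₁ * u₂ * (z₂ * u₁⁻¹ * z₂⁻¹) * u₂⁻¹ := by group
        rw [h6]
        have h7 : z₂ * u₁⁻¹ * z₂⁻¹ = u₁⁻¹ := by
          rw [mul_inv_eq_iff_eq_mul]
          exact (c2.inv_right).eq
        rw [h7]
      exact hA.symm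
    · have hperf' : Group.IsPerfect L := Subgroup.isPerfect_iff.2 hperf
      have h1 : π.range = ⁅π.range, π.range⁆ := by
        rw [MonoidHom.range_eq_map]
        conv_lhs => rw [← Group.isPerfect_def.1 hperf', _root_.commutator_def]
        rw [Subgroup.map_commutator]
      rw [h1]
      exact Subgroup.commutator_mono hrC hrC

end Cfsg.Agent.S1314
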