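import Cfsg.Statements.S1335
import Cfsg.Agent.Lib.H3.ConjTools

set_option autoImplicit false
open Cfsg

namespace Cfsg.Agent.S1335

/-- Let H be a subgroup of the finite group G, p a prime, k ≥ 1, P a Sylow p-subgroup of H of p-rank at least k, and suppose N_G(X) ≤ H for every subgroup X ≤ P of p-rank at least k. Then P is a Sylow p-subgroup of G. -/
theorem result {G : Type*} [Group G] [Finite G] {p : ℕ} [Fact p.Prime] (k : ℕ) (hk : 1 ≤ k) (H : Subgroup G) (P : Sylow p ↥H) (hP : ¬ Cfsg.PRankLE p (k - 1) ↥(P : Subgroup ↥H)) (hΓ : (∀ X : Subgroup G, X ≤ (P : Subgroup ↥H).map H.subtype → ¬ Cfsg.PRankLE p (k - 1) ↥X → Subgroup.normalizer (X : Set G) ≤ H)) : ∃ Q : Sylow p G, (Q : Subgroup G) = (P : Subgroup ↥H).map H.subtype := by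
  set Pt : Subgroup G := (P : Subgroup ↥H).map H.subtype with hPt
  have hPp : IsPGroup p Pt := P.isPGroup'.map _
  have hrk : ¬ Cfsg.PRankLE p (k - 1) Pt := by
    intro h
    apply hP
    intro A hA hAp
    -- transport `A` along `P ≃ Pt`
    let e : (P : Subgroup ↥H) ≃* Pt := (P : Subgroup ↥H).equivMapOfInjective H.subtype H.subtype_injective
    have h1 := h (A.map e.toMonoidHom) (by
      constructor
      constructor
      rintro ⟨_, a, ha, rfl⟩ ⟨_, b, hb, rfl⟩
      apply Subtype.ext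
      have h2 : a * b = b * a := by
        have := hA.is_comm.comm (⟨a, ha⟩ : A) ⟨b, hb⟩
        exact congrArg Subtype.val this
      change e.toMonoidHom a * e.toMonoidHom b = e.toMonoidHom b * e.toMonoidHom a
      rw [← map_mul, ← map_mul, h2]) (by
      rintro _ ⟨a, ha, rfl⟩
      rw [← map_pow, hAp a ha, map_one])
    rwa [Subgroup.card_map_of_injective e.injective] at h1
  obtain ⟨Q, hQ⟩ := hPp.exists_le_sylow
  refine ⟨Q, ?_⟩
  by_contra hne
  have hlt : Pt.subgroupOf Q < ⊤ := by
    rw [lt_top_iff_ne_top]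
    intro h
    apply hne
    rw [Subgroup.subgroupOf_eq_top] at h
    exact le_antisymm h hQ
  haveI hnil : Group.IsNilpotent Q := Q.isPGroup'.isNilpotent
  have hnc := Group.normalizerCondition_of_isNilpotent (G := Q) _ hlt
  obtain ⟨t, ht, htP⟩ := SetLike.exists_of_lt hnc
  have hz : (t : G) ∈ Subgroup.normalizer (Pt : Set G) := by
    apply CfsgLib.CT.mem_normalizer_of_conj_le
    intro a ha
    have h1 : (⟨a, hQ ha⟩ : Q) ∈ Pt.subgroupOf Q := Subgroup.mem_subgroupOf.2 ha
    have h2 := (Subgroup.mem_normalizer_iff.1 ht _).1 h1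
    exact Subgroup.mem_subgroupOf.1 h2
  have htH : (t : G) ∈ H := hΓ Pt le_rfl hrk hz
  -- `P` is maximal
  set y : ↥H := ⟨t, htH⟩ with hy
  have hyn : Subgroup.zpowers y ≤ Subgroup.normalizer ((P : Subgroup ↥H) : Set ↥H) := by
    rw [Subgroup.zpowers_le]
    rw [Subgroup.mem_normalizer_iff]
    intro a
    have key : ∀ b : ↥H, b ∈ (P : Subgroup ↥H) ↔ (b : G) ∈ Pt := by
      intro b
      constructor
      · intro hb
        exact ⟨b, hb, rfl⟩
      · rintro ⟨c, hc, hcb⟩
        have : c = b := Subtype.ext hcb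
        rwa [← this]
    rw [key, key]
    exact Subgroup.mem_normalizer_iff.1 hz a
  have hyp : IsPGroup p (Subgroup.zpowers y) := by
    obtain ⟨n, hn⟩ := Q.isPGroup' t
    apply CfsgLib.CT.isPGroup_zpowers_of_pow (k := n)
    apply Subtype.ext
    have h := congrArg Subtype.val hn
    simpa [hy] using h
  have h3 := hyp.to_sup_of_normal_right' P.isPGroup' hyn
  have h4 := P.is_maximal' h3 le_sup_right
  apply htP
  apply Subgroup.mem_subgroupOf.2
  have h5 : y ∈ (P : Subgroup ↥H) := by
    rw [← h4]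
    exact Subgroup.mem_sup_left (Subgroup.mem_zpowers y)
  exact ⟨y, h5, rfl⟩

end Cfsg.Agent.S1335
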