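import Cfsg.Statements.S1441
import Cfsg.Agent.Lib.OOL.Basic

set_option autoImplicit false
open Cfsg

namespace Cfsg.Agent.S1441

/-- Let G be a finite group, H a solvable subgroup and A a subgroup normalizing H. Suppose there is a chain H = H₀ ≥ H₁ ≥ ⋯ ≥ H_n = 1 of subgroups normal in H and normalized by A such that A acts trivially on each factor H_{i-1}/H_i (that is, [H_{i-1}, A] ≤ H_i). Then every prime dividing the index of C_A(H) in A divides the order of H. -/
theorem result {G : Type*} [Group G] [Finite G] (H A : Subgroup G) (hH : Group.IsSolvable H) (hA : (A ≤ Subgroup.normalizer (H : Set G)))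
    (n : ℕ) (c : Fin (n + 1) → Subgroup G) (hc0 : c 0 = H) (hcn : c (Fin.last n) = ⊥) (hanti : Antitone c)
    (hcN : ∀ i, H ≤ Subgroup.normalizer ((c i : Subgroup G) : Set G)) (hcA : ∀ i, A ≤ Subgroup.normalizer ((c i : Subgroup G) : Set G))
    (htriv : ∀ i : Fin n, ⁅c i.castSucc, A⁆ ≤ c i.succ) :
    ∀ p : ℕ, p.Prime → p ∣ (A ⊓ Subgroup.centralizer (H : Set G)).relIndex A → p ∣ Nat.card H := by
  intro p hp hd
  classical
  apply CfsgLib.OOL.prime_dvd_of_relIndex H A (Subgroup.centralizer (H : Set G)) ?_ p hp hd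
  intro x hx hxc
  rw [Subgroup.mem_centralizer_iff]
  intro h hh
  have h0 : h ∈ c 0 := by rw [hc0]; exact hh
  have := CfsgLib.OOL.chain_fixed H A n c hc0 hcn hanti hcA htriv x hx hxc 0 h h0
  exact (mul_inv_eq_iff_eq_mul.mp this).symm

end Cfsg.Agent.S1441
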