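import Cfsg.Statements.S1449
import Cfsg.Agent.Lib.OOL.Rank2

set_option autoImplicit false
open Cfsg

namespace Cfsg.Agent.S1449

/-- Let G be a finite group, p an odd prime, R a p-subgroup with no elementary abelian subgroup of order p ^ 3, and A a solvable subgroup of odd order normalizing R with A ∩ C_G(R) = 1. Then the derived subgroup [A, A] is a p-group. -/
theorem result {G : Type*} [Group G] [Finite G] (p : ℕ) [Fact p.Prime] (hp : p ≠ 2) (R A : Subgroup G) (hR : IsPGroup p R) (hr : Cfsg.PRankLE p 2 R)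
    (hA : (A ≤ Subgroup.normalizer (R : Set G))) (hAs : Group.IsSolvable A) (hAodd : Odd (Nat.card A)) (hfaith : A ⊓ Subgroup.centralizer (R : Set G) = ⊥) :
    IsPGroup p ↥⁅A, A⁆ := by
  classical
  rintro ⟨g, hgc⟩
  rw [← Subgroup.map_subtype_commutator] at hgc
  obtain ⟨g₀, hg₀, hgg⟩ := hgc
  haveI : Finite R := inferInstance
  haveI : Finite A := inferInstance
  obtain ⟨k, hk⟩ := (CfsgLib.OOL.rank_two_action hp hR hr (CfsgLib.OOL.conjOnP R A hA) hAodd hAs).1 g₀ hg₀
  have h1 := CfsgLib.OOL.conjOnP_pow_eq_one hA hk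
  have h2 : ((g₀ : G) ^ (p ^ k)) ∈ A ⊓ Subgroup.centralizer (R : Set G) :=
    Subgroup.mem_inf.mpr ⟨A.pow_mem g₀.2 _, h1⟩
  rw [hfaith, Subgroup.mem_bot] at h2
  refine ⟨k, Subtype.ext ?_⟩
  rw [Subgroup.coe_pow]
  show g ^ p ^ k = 1
  rw [← hgg]
  exact h2

end Cfsg.Agent.S1449
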