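import Cfsg.Statements.S1454
import Cfsg.Agent.Lib.OOL.Rank2N

set_option autoImplicit false
open Cfsg
open scoped commutatorElement

namespace Cfsg.Agent.S1454

/-- Let G be a finite group, p an odd prime, R a narrow p-subgroup and A a solvable subgroup of odd order normalizing R with A ∩ C_G(R) = 1. Then [A, A] ≤ O_p(A) and the index of O_p(A) in A is coprime to p; if R has an elementary abelian subgroup of order p ^ 3 then the order of every element of A of order coprime to p divides p − 1; and if the order of A is a prime not dividing p(p − 1), then 2·#A divides p + 1, and if in addition [R, A] = R and R is non-abelian then #R = p ^ 3. -/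
theorem result {G : Type*} [Group G] [Finite G] (p : ℕ) [Fact p.Prime] (hp : p ≠ 2) (R A : Subgroup G) (hR : IsPGroup p R) (hRn : Cfsg.IsNarrow p R)
    (hA : (A ≤ Subgroup.normalizer (R : Set G))) (hAs : Group.IsSolvable A) (hAodd : Odd (Nat.card A)) (hfaith : A ⊓ Subgroup.centralizer (R : Set G) = ⊥) :
    (commutator ↥A ≤ Cfsg.pCore p ↥A ∧ ((Cfsg.pCore p ↥A).index).Coprime p) ∧
      (¬ Cfsg.PRankLE p 2 R → ∀ a ∈ A, (orderOf a).Coprime p → orderOf a ∣ p - 1) ∧
      ((Nat.card A).Prime → ¬ Nat.card A ∣ p * (p - 1) →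
        2 * Nat.card A ∣ p + 1 ∧ (⁅R, A⁆ = R → ¬ IsMulCommutative R → Nat.card R = p ^ 3)) := by
  classical
  have hpp := (inferInstance : Fact p.Prime).out
  let θ := CfsgLib.OOL.conjOnP R A hA
  have hpow : ∀ (b : A) (n : ℕ), θ b ^ n = 1 → b ^ n = 1 := by
    intro b n h
    have h1 := CfsgLib.OOL.conjOnP_pow_eq_one hA h
    have h2 : ((b : G) ^ n) ∈ A ⊓ Subgroup.centralizer (R : Set G) :=
      Subgroup.mem_inf.mpr ⟨pow_mem b.2 n, h1⟩
    rw [hfaith, Subgroup.mem_bot] at h2
    apply Subtype.ext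
    simpa using h2
  have hinj : Function.Injective θ := by
    rw [injective_iff_map_eq_one]
    intro b hb
    have := hpow b 1 (by rw [pow_one, hb])
    rwa [pow_one] at this
  have hc : ∀ b ∈ commutator A, ∃ k, θ b ^ (p ^ k) = 1 := by
    by_cases hrk : Cfsg.PRankLE p 2 R
    · exact (CfsgLib.OOL.rank_two_action hp hR hrk θ hAodd hAs).1
    · obtain ⟨E, hE, hE2, hEmax⟩ := CfsgLib.OOL.narrow_exists_max hR hRn hrk
      exact (CfsgLib.OOL.narrow_action hp hR hrk E hE hE2 hEmax θ).1
  have hcomm : commutator A ≤ Cfsg.pCore p A := by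
    apply CfsgLib.Solv.le_pCore'
    rintro ⟨b, hb⟩
    obtain ⟨k, hk⟩ := hc b hb
    refine ⟨k, Subtype.ext ?_⟩
    simpa using hpow b _ hk
  have hpart1 : (commutator A ≤ Cfsg.pCore p A ∧ ((Cfsg.pCore p A).index).Coprime p) := by
    refine ⟨hcomm, ?_⟩
    obtain P : Sylow p A := default
    have hTP : Cfsg.pCore p A ≤ P := CfsgLib.PLocal.pCore_le_sylow P
    have hPn : (P : Subgroup A).Normal := by
      constructor
      intro x hx g
      have e : g * x * g⁻¹ = ⁅g, x⁆ * x := by
        simp only [commutatorElement_def]; group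
      rw [e]
      refine P.mul_mem ?_ hx
      apply hTP
      apply hcomm
      rw [_root_.commutator_def]
      exact Subgroup.commutator_mem_commutator trivial trivial
    have hPT : (P : Subgroup A) ≤ Cfsg.pCore p A := CfsgLib.Solv.le_pCore' _ P.2
    have hPeq : (P : Subgroup A) = Cfsg.pCore p A := le_antisymm hPT hTP
    rw [← hPeq]
    exact ((Nat.Prime.coprime_iff_not_dvd hpp).mpr P.not_dvd_index).symm
  have hpart2 : (¬ Cfsg.PRankLE p 2 R → ∀ a ∈ A, (orderOf a).Coprime p → orderOf a ∣ p - 1) := by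
    intro hrk a ha hcop
    obtain ⟨E, hE, hE2, hEmax⟩ := CfsgLib.OOL.narrow_exists_max hR hRn hrk
    have h1 := (CfsgLib.OOL.narrow_action hp hR hrk E hE hE2 hEmax θ).2 ⟨a, ha⟩ (by
      rw [orderOf_injective θ hinj, Subgroup.orderOf_mk]
      exact hcop)
    have h2 := hpow _ _ h1
    have h3 : a ^ (p - 1) = 1 := by
      have := congrArg Subtype.val h2
      simpa using this
    exact orderOf_dvd_of_pow_eq_one h3
  refine ⟨hpart1, hpart2, ?_⟩
  intro hq hq2
  haveI hqf : Fact (Nat.card A).Prime := ⟨hq⟩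
  have hqp : Nat.card A ≠ p := by
    intro h
    apply hq2
    rw [h]
    exact dvd_mul_right _ _
  have hq1 : ¬ Nat.card A ∣ p - 1 := fun h => hq2 (Dvd.dvd.mul_left h p)
  obtain ⟨a, ha⟩ := exists_prime_orderOf_dvd_card' (G := A) (Nat.card A) dvd_rfl
  have hrk : Cfsg.PRankLE p 2 R := by
    by_contra hrk
    have h1 := hpart2 hrk (a : G) a.2 (by
      rw [Subgroup.orderOf_coe, ha]
      exact (Nat.coprime_primes hq hpp).mpr hqp)
    rw [Subgroup.orderOf_coe, ha] at h1
    exact hq1 h1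
  have h2 := (CfsgLib.OOL.rank_two_action hp hR hrk θ hAodd hAs).2 a _ hq hqp (by
    rw [orderOf_injective θ hinj, ha])
  have h3 : Nat.card A ∣ p + 1 := by
    rcases (Nat.Prime.dvd_mul hq).mp h2 with h | h
    · exact absurd h hq1
    · exact h
  constructor
  · have hodd2 : (2 : ℕ).Coprime (Nat.card A) := by
      exact Nat.coprime_two_left.mpr hAodd
    have hpo : Odd p := hpp.odd_of_ne_two hp
    have h2p : 2 ∣ p + 1 := by
      obtain ⟨k, hk⟩ := hpo
      exact ⟨k + 1, by omega⟩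
    exact Nat.Coprime.mul_dvd_of_dvd_of_dvd hodd2 h2p h3
  · intro hRA hnc
    apply CfsgLib.OOL.rank2_cubed hp hq hqp hq1 θ hR hrk
    · intro b
      rw [← map_pow, pow_card_eq_one', map_one]
    · intro N hN
      have hle : ⁅R, A⁆ ≤ N.map R.subtype := by
        rw [Subgroup.commutator_le]
        intro r hr b hb
        refine ⟨_, hN ⟨b, hb⟩ ⟨r, hr⟩, ?_⟩
        have e : (((⟨r, hr⟩ : R) * (θ ⟨b, hb⟩ ⟨r, hr⟩)⁻¹ : R) : G) = r * (b * r * b⁻¹)⁻¹ := rfl
        show (((⟨r, hr⟩ : R) * (θ ⟨b, hb⟩ ⟨r, hr⟩)⁻¹ : R) : G) = ⁅r, b⁆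
        rw [e, commutatorElement_def]
        group
      rw [hRA] at hle
      rw [eq_top_iff]
      rintro ⟨r, hr⟩ -
      obtain ⟨w, hw, hw2⟩ := hle hr
      have : w = ⟨r, hr⟩ := Subtype.ext hw2
      rwa [← this]
    · intro hall
      exact hnc ⟨⟨hall⟩⟩

end Cfsg.Agent.S1454
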