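import Cfsg.Statements.S1458
import Cfsg.Agent.Lib.OOL.ZJ2

set_option autoImplicit false
open Cfsg

namespace Cfsg.Agent.S1458

/-- Let G be a solvable group of odd order, p a prime and S a Sylow p-subgroup of G. Then the subgroup generated by the centre of the Thompson subgroup of S and O_{p'}(G) is normal in G. -/
theorem result {G : Type*} [Group G] [Finite G] [Group.IsSolvable G] (hodd : Odd (Nat.card G)) (p : ℕ) [Fact p.Prime] (S : Sylow p G) :
    (Cfsg.centerThompsonOf p (S : Subgroup G) ⊔ Cfsg.pPrimeCore p G).Normal := by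
  classical
  by_cases hp : p = 2
  · subst hp
    have h2 : IsPGroup 2 (S : Subgroup G) := S.isPGroup'
    have h3 : (Nat.card (⊤ : Subgroup G)).Coprime 2 := by
      rw [Subgroup.card_top]
      exact Nat.coprime_two_right.mpr hodd
    have h1 : (S : Subgroup G) = ⊥ := by
      have := CfsgLib.PLocal.inf_eq_bot_of_p_coprime h2 h3
      rwa [inf_top_eq] at this
    have h4 : centerThompsonOf 2 (S : Subgroup G) = ⊥ := by
      rw [eq_bot_iff, ← h1]
      exact inf_le_left.trans (CfsgLib.PLocal.thompsonOf_le _)
    rw [h4, bot_sup_eq]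
    exact CfsgLib.PLocal.pPrimeCore_normal'
  · exact CfsgLib.OOL.center_thompson_sup_normal hodd hp S

end Cfsg.Agent.S1458
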