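import Cfsg.Statements.S1485
import Cfsg.Agent.Lib.Char.Clifford

set_option autoImplicit false
open Cfsg

namespace Cfsg.Agent.S1485

/-- Let H be a normal subgroup of the finite group G and θ an irreducible character of H. On H, the function induced from θ equals r times the sum of the distinct G-conjugates of θ, where r is the number of elements of G fixing θ under conjugation divided by the order of H (the index of H in the inertia group). -/
theorem result {G : Type*} [Group G] [Fintype G] (H : Subgroup G) [hN : H.Normal] (θ : H → ℂ) (hθ : Cfsg.IsIrrCharacter H θ) : (fun h : H => Cfsg.indFun H θ h) = ((Nat.card {g : G // ∀ h : H, θ ⟨g * h * g⁻¹, hN.conj_mem h h.2 g⟩ = θ h} : ℂ) / (Nat.card H : ℂ)) • ∑ᶠ ψ ∈ {ψ : H → ℂ | ∃ g : G, ψ = fun h : H => θ ⟨g * h * g⁻¹, hN.conj_mem h h.2 g⟩}, ψ := by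
  have h2 : (∑ᶠ ψ ∈ {ψ : H → ℂ | ∃ g : G, ψ = fun h : H => θ ⟨g * h * g⁻¹, hN.conj_mem h h.2 g⟩}, ψ) = ∑ ψ ∈ CfsgLib.Char.conjOrbit H θ, ψ := CfsgLib.Char.finsum_conjOrbit H θ
  rw [h2, CfsgLib.Char.res_indFun, CfsgLib.Char.sum_conjOn_eq, smul_smul]
  have h3 : (Nat.card {g : G // CfsgLib.Char.conjOn H g θ = θ}) = Nat.card {g : G // ∀ h : H, θ ⟨g * h * g⁻¹, hN.conj_mem h h.2 g⟩ = θ h} :=
    Nat.card_congr (Equiv.subtypeEquivRight fun g => funext_iff)
  rw [h3, div_eq_inv_mul]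

end Cfsg.Agent.S1485
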