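import Cfsg.Statements.S1553
import Cfsg.Agent.Lib.Golay.OctadOrbit

set_option autoImplicit false
open scoped Pointwise
open Cfsg

namespace Cfsg.Agent.S1553

/-- The stabiliser of an octad in the group of the length-24 code induces on the octad exactly its alternating group. -/
theorem result (o : Finset Cfsg.GolayPt) (ho : o ∈ Cfsg.octads) : {e : Equiv.Perm ↥o | ∃ g : Equiv.Perm Cfsg.GolayPt, g ∈ Cfsg.M24 ∧ ∃ h : (∀ x, g x ∈ o ↔ x ∈ o), g.subtypePerm h = e} = (alternatingGroup ↥o : Set (Equiv.Perm ↥o)) := by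
  ext e
  constructor
  · rintro ⟨g, hg, h, rfl⟩
    have hs : g • o = o := by
      ext q
      rw [Finset.mem_smul_finset]
      constructor
      · rintro ⟨a, ha, rfl⟩
        exact (h a).mpr ha
      · intro hq
        refine ⟨g⁻¹ q, ?_, by simp⟩
        rw [← h]
        simpa using hq
    have h1 : CfsgLib.Golay.restr o ⟨g, CfsgLib.Golay.mem_stabS.mpr ⟨hg, hs⟩⟩ ∈ (CfsgLib.Golay.restr o).range := ⟨_, rfl⟩
    rw [CfsgLib.Golay.range_restr_eq ho] at h1
    exact h1
  · intro he
    have he' : e ∈ (CfsgLib.Golay.restr o).range := by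
      rw [CfsgLib.Golay.range_restr_eq ho]; exact he
    obtain ⟨⟨g, hg⟩, rfl⟩ := he'
    exact ⟨g, (CfsgLib.Golay.mem_stabS.mp hg).1, CfsgLib.Golay.preserves_of_smul (CfsgLib.Golay.mem_stabS.mp hg).2, rfl⟩

end Cfsg.Agent.S1553
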