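import Cfsg.Statements.S1554
import Cfsg.Agent.Lib.Golay.OctadOrbit

set_option autoImplicit false
open scoped Pointwise
open Cfsg

namespace Cfsg.Agent.S1554

/-- An octad stabiliser is a split extension: the joint stabiliser of the octad and a point outside it is a complement to the pointwise stabiliser of the octad, and is isomorphic to the alternating group of degree 8. -/
theorem result (o : Finset Cfsg.GolayPt) (ho : o ∈ Cfsg.octads) (p : Cfsg.GolayPt) (hp : p ∉ o) : (Cfsg.M24 ⊓ fixingSubgroup (Equiv.Perm Cfsg.GolayPt) (o : Set Cfsg.GolayPt)) ⊓ (Cfsg.M24 ⊓ MulAction.stabilizer (Equiv.Perm Cfsg.GolayPt) o ⊓ MulAction.stabilizer (Equiv.Perm Cfsg.GolayPt) p) = ⊥ ∧ (Cfsg.M24 ⊓ fixingSubgroup (Equiv.Perm Cfsg.GolayPt) (o : Set Cfsg.GolayPt)) ⊔ (Cfsg.M24 ⊓ MulAction.stabilizer (Equiv.Perm Cfsg.GolayPt) o ⊓ MulAction.stabilizer (Equiv.Perm Cfsg.GolayPt) p) = (Cfsg.M24 ⊓ MulAction.stabilizer (Equiv.Perm Cfsg.GolayPt) o) ∧ Nonempty (↥(Cfsg.M24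 ⊓ MulAction.stabilizer (Equiv.Perm Cfsg.GolayPt) o ⊓ MulAction.stabilizer (Equiv.Perm Cfsg.GolayPt) p) ≃* alternatingGroup (Fin 8)) := by
  have hfree : ∀ g ∈ CfsgLib.Golay.fixS o, g p = p → g = 1 := fun g hg h => CfsgLib.Golay.fixS_octad_free ho hg hp h
  set W := Cfsg.M24 ⊓ MulAction.stabilizer (Equiv.Perm Cfsg.GolayPt) o ⊓ MulAction.stabilizer (Equiv.Perm Cfsg.GolayPt) p with hW
  have hWle : W ≤ CfsgLib.Golay.stabS o := inf_le_left
  have hF : Cfsg.M24 ⊓ fixingSubgroup (Equiv.Perm Cfsg.GolayPt) (o : Set Cfsg.GolayPt) = CfsgLib.Golay.fixS o := rfl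
  have hS : Cfsg.M24 ⊓ MulAction.stabilizer (Equiv.Perm Cfsg.GolayPt) o = CfsgLib.Golay.stabS o := rfl
  rw [hF, hS]
  have hcardW : Nat.card W = 20160 := by
    have h1 := CfsgLib.Golay.card_set_step (CfsgLib.Golay.stabS o) p (↑(oᶜ) : Set Cfsg.GolayPt)
      (fun g hg => by
        rw [Finset.mem_coe, Finset.mem_compl]
        intro h2
        exact hp ((CfsgLib.Golay.mem_of_smul_eq (CfsgLib.Golay.mem_stabS.mp hg).2 p).mp h2))
      (fun y hy => by
        rw [Finset.mem_coe, Finset.mem_compl] at hy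
        obtain ⟨g, hg, hgy⟩ := CfsgLib.Golay.fixS_octad_trans ho hp hy
        exact ⟨g, CfsgLib.Golay.fixS_le_stabS hg, hgy⟩)
    rw [CfsgLib.Golay.card_stabS_octad ho, Set.ncard_coe_finset, Finset.card_compl, ho.2] at h1
    have h2 : Nat.card ↥(CfsgLib.Golay.stabS o ⊓ MulAction.stabilizer (Equiv.Perm Cfsg.GolayPt) p) = Nat.card W := rfl
    rw [h2] at h1
    have h3 : Fintype.card Cfsg.GolayPt = 24 := by decide +kernel
    rw [h3] at h1
    omega
  refine ⟨?_, ?_, ?_⟩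
  · rw [eq_bot_iff]
    rintro g ⟨h1, h2⟩
    rw [Subgroup.mem_bot]
    exact hfree g h1 h2.2
  · apply le_antisymm
    · apply sup_le
      · intro g hg
        exact CfsgLib.Golay.fixS_le_stabS hg
      · exact hWle
    · intro g hg
      obtain ⟨hg1, hg2⟩ := CfsgLib.Golay.mem_stabS.mp hg
      have hy : g p ∉ o := fun h2 => hp ((CfsgLib.Golay.mem_of_smul_eq hg2 p).mp h2)
      obtain ⟨t, ht, htp⟩ := CfsgLib.Golay.fixS_octad_trans ho hp hy
      have ht2 := CfsgLib.Golay.fixS_le_stabS ht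
      have h3 : t⁻¹ * g ∈ W := by
        refine ⟨(CfsgLib.Golay.stabS o).mul_mem ((CfsgLib.Golay.stabS o).inv_mem ht2) hg, ?_⟩
        change (t⁻¹ * g) p = p
        rw [Equiv.Perm.mul_apply, Equiv.Perm.inv_eq_iff_eq, htp]
      have h4 : g = t * (t⁻¹ * g) := by group
      rw [h4]
      exact Subgroup.mul_mem_sup ht h3
  · classical
    let φ : W →* Equiv.Perm {x // x ∈ o} := (CfsgLib.Golay.restr o).comp (Subgroup.inclusion hWle)
    have hinj : Function.Injective φ := by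
      rw [injective_iff_map_eq_one]
      rintro ⟨g, hg⟩ h1
      have h2 : (⟨g, hWle hg⟩ : CfsgLib.Golay.stabS o) ∈ (CfsgLib.Golay.restr o).ker := h1
      have h3 := CfsgLib.Golay.mem_ker_restr.mp h2
      exact Subtype.ext (hfree g h3 hg.2)
    have hr : φ.range = alternatingGroup {x // x ∈ o} := by
      apply Subgroup.eq_of_le_of_card_ge
      · rw [← CfsgLib.Golay.range_restr_eq ho]
        rintro _ ⟨g, rfl⟩
        exact ⟨_, rfl⟩
      · rw [CfsgLib.Golay.card_alt_octad ho, ← Nat.card_congr (MonoidHom.ofInjective hinj).toEquiv, hcardW]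
    have hcard : Fintype.card {x // x ∈ o} = Fintype.card (Fin 8) := by
      rw [CfsgLib.Golay.card_octad_pts ho]; rfl
    exact ⟨(MonoidHom.ofInjective hinj).trans ((MulEquiv.subgroupCongr hr).trans (Equiv.altCongrHom (Fintype.equivOfCardEq hcard)))⟩

end Cfsg.Agent.S1554
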