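import Cfsg.Statements.S1555
import Cfsg.Agent.Lib.Golay.OctadOrbit

set_option autoImplicit false
open scoped Pointwise
open Cfsg

namespace Cfsg.Agent.S1555

/-- Bottom row of the Leech triangle: an octad is met in a prescribed pair of its points by exactly 16 octads and in a prescribed 4-subset by exactly 4 octads. -/
theorem result (o : Finset Cfsg.GolayPt) (ho : o ∈ Cfsg.octads) (s : Finset Cfsg.GolayPt) (hs : s ⊆ o) : (s.card = 2 → {o' : Finset Cfsg.GolayPt | o' ∈ Cfsg.octads ∧ o ∩ o' = s}.ncard = 16) ∧ (s.card = 4 → {o' : Finset Cfsg.GolayPt | o' ∈ Cfsg.octads ∧ o ∩ o' = s}.ncard = 4) := by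
  have hα : Fintype.card Cfsg.GolayPt = 24 := by decide +kernel
  have hL := CfsgLib.Steiner.hL5824 hα CfsgLib.Golay.octads_steiner ho
  have h8 : o.card = 8 := ho.2
  refine ⟨fun h2 => ?_, fun h4 => ?_⟩
  · have h := CfsgLib.Steiner.count_exact _ o s hL hs
    rw [h2, h8] at h
    exact h.trans (by decide)
  · have h := CfsgLib.Steiner.count_exact _ o s hL hs
    rw [h4, h8] at h
    exact h.trans (by decide)

end Cfsg.Agent.S1555
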