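import Cfsg.Statements.S1556
import Cfsg.Agent.Lib.Golay.OctadOrbit

set_option autoImplicit false
open scoped Pointwise
open Cfsg

namespace Cfsg.Agent.S1556

/-- Two octads meeting a fixed octad in equally many points are in the same orbit of its stabiliser. -/
theorem result (o o' o'' : Finset Cfsg.GolayPt) (ho : o ∈ Cfsg.octads) (ho' : o' ∈ Cfsg.octads) (ho'' : o'' ∈ Cfsg.octads) (h : (o ∩ o').card = (o ∩ o'').card) : ∃ g : Equiv.Perm Cfsg.GolayPt, g ∈ Cfsg.M24 ∧ g • o = o ∧ g • o' = o'' := by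
  obtain ⟨g, hg, hgx⟩ := CfsgLib.Golay.oct_orbit ho ho' ho'' h
  obtain ⟨h1, h2⟩ := CfsgLib.Golay.mem_stabS.mp hg
  exact ⟨g, h1, h2, hgx⟩

end Cfsg.Agent.S1556
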