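import Cfsg.Statements.S1560
import Cfsg.Agent.Lib.Golay.Dodecad2

set_option autoImplicit false
open scoped Pointwise
open Cfsg

namespace Cfsg.Agent.S1560

/-- Intersection numbers of dodecads: a dodecad meets every other dodecad in 0, 4, 6 or 8 points, meeting 495 of them in 4 points, 1584 in 6 points and 495 in 8 points. -/
theorem result (d : Finset Cfsg.GolayPt) (hd : d ∈ Cfsg.dodecads) : (∀ d' ∈ Cfsg.dodecads, d' ≠ d → (d ∩ d').card = 0 ∨ (d ∩ d').card = 4 ∨ (d ∩ d').card = 6 ∨ (d ∩ d').card = 8) ∧ {d' : Finset Cfsg.GolayPt | d' ∈ Cfsg.dodecads ∧ (d ∩ d').card = 4}.ncard = 495 ∧ {d' : Finset Cfsg.GolayPt | d' ∈ Cfsg.dodecads ∧ (d ∩ d').card = 6}.ncard = 1584 ∧ {d' : Finset Cfsg.GolayPt | d' ∈ Cfsg.dodecads ∧ (d ∩ d').card = 8}.ncard = 495 := by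
  refine ⟨?_, ?_⟩
  · intro d' hd' hne
    rcases CfsgLib.Golay.dodecad_inter hd hd' with h | h | h | h | h
    · exact Or.inl h
    · exact Or.inr (Or.inl h)
    · exact Or.inr (Or.inr (Or.inl h))
    · exact Or.inr (Or.inr (Or.inr h))
    · exact absurd h.symm hne
  · obtain ⟨u, hu, rfl⟩ := CfsgLib.Golay.exists_conj_Dd0 hd
    have key : ∀ k : ℕ, Set.ncard {d' : Finset Cfsg.GolayPt | d' ∈ Cfsg.dodecads ∧ ((u • CfsgLib.Golay.Dd0) ∩ d').card = k}
        = (CfsgLib.Golay.dodecadList.filter (fun c => Nat.beq (CfsgLib.Golay.pop (CfsgLib.Golay.dod0 &&& c)) k)).length := by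
      intro k
      rw [CfsgLib.Golay.ncard_transport (Q := fun x => (CfsgLib.Golay.Dd0 ∩ x).card = k) (fun g hg x hx => CfsgLib.Golay.M24_smul_dodecad hg hx) hu
        (fun x => by rw [CfsgLib.Golay.card_smul_inter])]
      rw [CfsgLib.Golay.dodecads_eq]
      refine CfsgLib.Golay.ncard_filter_list (fun c hc => CfsgLib.Golay.allCode_lt_aux c (CfsgLib.Golay.mem_dodecadList.mp hc).1)
        CfsgLib.Golay.dodecadList_nodup _ _ ?_
      intro c _
      rw [CfsgLib.Golay.card_inter_fs]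
      constructor
      · intro h; rw [h]; simp
      · intro h; exact Nat.eq_of_beq_eq_true h
    rw [key 4, key 6, key 8]
    refine ⟨?_, ?_, ?_⟩ <;> decide +kernel

end Cfsg.Agent.S1560
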