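import Cfsg.Statements.S1573
import Cfsg.Agent.Lib.Leech.Orb.R1
import Cfsg.Agent.Lib.Leech.Orb.R2
import Cfsg.Agent.Lib.Leech.Orb.R3
import Cfsg.Agent.Lib.Leech.OrbGlue

set_option autoImplicit false
open Cfsg

namespace Cfsg.Agent.S1573

open CfsgLib.Leech CfsgLib.Leech.Orb CfsgLib.Golay

/-- Census of minimal vectors by inner product with a fixed minimal vector: 4600 have customary inner product −2, 47104 have −1, and 93150 are orthogonal. -/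
theorem result (v : Cfsg.GolayPt → ℤ) (hv : v ∈ Cfsg.leechLattice) (hvn : Cfsg.sqNorm v = 32) : {w : Cfsg.GolayPt → ℤ | w ∈ Cfsg.leechLattice ∧ Cfsg.sqNorm w = 32 ∧ Cfsg.dotInt v w = -16}.ncard = 4600 ∧ {w : Cfsg.GolayPt → ℤ | w ∈ Cfsg.leechLattice ∧ Cfsg.sqNorm w = 32 ∧ Cfsg.dotInt v w = -8}.ncard = 47104 ∧ {w : Cfsg.GolayPt → ℤ | w ∈ Cfsg.leechLattice ∧ Cfsg.sqNorm w = 32 ∧ Cfsg.dotInt v w = 0}.ncard = 93150 := by
  have hv' : sqNorm (((⟨v, hv⟩ : leechLattice) : GolayPt → ℤ)) = 32 := hvn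
  obtain ⟨h, hh⟩ := trans32 ⟨v, hv⟩ lV0 hv' normV0
  have key : ∀ (R : List (ℕ × List (ℕ × ℤ) × ℤ)) (k : ℤ) (n : ℕ), R = [(V0, spV0, k)] →
      {x : GolayPt → ℤ | x ∈ leechLattice ∧ sqNorm x = 32 ∧ PrC R x}.ncard = n →
      {w : GolayPt → ℤ | w ∈ leechLattice ∧ sqNorm w = 32 ∧ dotInt v w = k}.ncard = n := by
    rintro R k n rfl hn
    rw [← ncard_sub_val (fun w => sqNorm w = 32 ∧ dotInt v w = k)]
    refine orb_count hn h _ (fun a => ?_)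
    simp only [PrC_cons, PrC_nil, and_true]
    rw [← coeV0, ← hh, dot_smul]
  exact ⟨key condsR1 _ _ rfl orbR1.1, key condsR2 _ _ rfl orbR2.1, key condsR3 _ _ rfl orbR3.1⟩

end Cfsg.Agent.S1573
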