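import Cfsg.Statements.S1575
import Cfsg.Agent.Lib.Leech.Orb.R2
import Cfsg.Agent.Lib.Leech.OrbGlue

set_option autoImplicit false
open Cfsg

namespace Cfsg.Agent.S1575

open CfsgLib.Leech CfsgLib.Leech.Orb CfsgLib.Golay

/-- The stabiliser of a minimal vector is transitive on the minimal vectors of customary inner product −1 with it. -/
theorem result (v w w' : ↥Cfsg.leechLattice) (hv : Cfsg.sqNorm (v : Cfsg.GolayPt → ℤ) = 32) (hw : Cfsg.sqNorm (w : Cfsg.GolayPt → ℤ) = 32) (hw' : Cfsg.sqNorm (w' : Cfsg.GolayPt → ℤ) = 32) (hd : Cfsg.dotInt (v : Cfsg.GolayPt → ℤ) (w : Cfsg.GolayPt → ℤ) = -8) (hd' : Cfsg.dotInt (v : Cfsg.GolayPt → ℤ) (w' : Cfsg.GolayPt → ℤ) = -8) : ∃ g : ↥Cfsg.Co0, g • v = v ∧ g • w = w' := by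
  obtain ⟨h, hh⟩ := trans32 v lV0 hv normV0
  have hP : ∀ a : leechLattice, dotInt (v : GolayPt → ℤ) (a : GolayPt → ℤ) = -8 →
      PrC condsR2 ((h • a : leechLattice) : GolayPt → ℤ) := by
    intro a ha2
    simp only [condsR2, PrC_cons, PrC_nil, and_true]
    rw [← coeV0, ← hh, dot_smul]
    exact ha2
  obtain ⟨k, hk, e⟩ := orb_trans' orbR2.2 h hw hw' (hP w hd) (hP w' hd')
  have hk0 : k • lV0 = lV0 := hk _ (by simp [bsOf, vsG2])
  exact ⟨h⁻¹ * k * h, conj_fix hh hk0, e⟩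

end Cfsg.Agent.S1575
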