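import Cfsg.Statements.S1579
import Cfsg.Agent.Lib.Leech.Orb.R4
import Cfsg.Agent.Lib.Leech.OrbGlue

set_option autoImplicit false
open Cfsg

namespace Cfsg.Agent.S1579

open CfsgLib.Leech CfsgLib.Leech.Orb CfsgLib.Golay

/-- The stabiliser of a vector of customary norm 6 is transitive on the 552 minimal vectors that complete it to a sum of two minimal vectors. -/
theorem result (u v v' : ↥Cfsg.leechLattice) (hu : Cfsg.sqNorm (u : Cfsg.GolayPt → ℤ) = 48) (hv : Cfsg.sqNorm (v : Cfsg.GolayPt → ℤ) = 32 ∧ Cfsg.sqNorm ((u - v) : Cfsg.GolayPt → ℤ) = 32) (hv' : Cfsg.sqNorm (v' : Cfsg.GolayPt → ℤ) = 32 ∧ Cfsg.sqNorm ((u - v') : Cfsg.GolayPt → ℤ) = 32) : ∃ g : ↥Cfsg.Co0, g • u = u ∧ g • v = v' := by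
  obtain ⟨h, hh⟩ := trans48 u lU0 hu normU0
  have hP : ∀ a : leechLattice, dotInt (u : GolayPt → ℤ) (a : GolayPt → ℤ) = 24 →
      PrC condsR4 ((h • a : leechLattice) : GolayPt → ℤ) := by
    intro a ha2
    simp only [condsR4, PrC_cons, PrC_nil, and_true]
    rw [← coeU0, ← hh, dot_smul]
    exact ha2
  obtain ⟨k, hk, e⟩ := orb_trans' orbR4.2 h hv.1 hv'.1 (hP v ((sub32_iff hu hv.1).mp hv.2)) (hP v' ((sub32_iff hu hv'.1).mp hv'.2))
  have hk0 : k • lU0 = lU0 := hk _ (by simp [bsOf, vsG3])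
  exact ⟨h⁻¹ * k * h, conj_fix hh hk0, e⟩

end Cfsg.Agent.S1579
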