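import Cfsg.Statements.S1580
import Cfsg.Agent.Lib.Leech.Orb.R5
import Cfsg.Agent.Lib.Leech.OrbF1
import Cfsg.Agent.Lib.Leech.OrbGlue

set_option autoImplicit false
open Cfsg

namespace Cfsg.Agent.S1580

open CfsgLib.Leech CfsgLib.Leech.Orb CfsgLib.Golay

/-- The McLaughlin configuration: for u of customary norm 6 and v minimal with u − v minimal, there are 275 further such summands x of customary inner product 2 with v, permuted transitively by the stabiliser of u and v. -/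
theorem result (u v : ↥Cfsg.leechLattice) (hu : Cfsg.sqNorm (u : Cfsg.GolayPt → ℤ) = 48) (hv : Cfsg.sqNorm (v : Cfsg.GolayPt → ℤ) = 32 ∧ Cfsg.sqNorm ((u - v) : Cfsg.GolayPt → ℤ) = 32) : {x : ↥Cfsg.leechLattice | Cfsg.sqNorm (x : Cfsg.GolayPt → ℤ) = 32 ∧ Cfsg.sqNorm ((u - x) : Cfsg.GolayPt → ℤ) = 32 ∧ Cfsg.dotInt (v : Cfsg.GolayPt → ℤ) (x : Cfsg.GolayPt → ℤ) = 16}.ncard = 275 ∧ ∀ x ∈ {x : ↥Cfsg.leechLattice | Cfsg.sqNorm (x : Cfsg.GolayPt → ℤ) = 32 ∧ Cfsg.sqNorm ((u - x) : Cfsg.GolayPt → ℤ) = 32 ∧ Cfsg.dotInt (v : Cfsg.GolayPt → ℤ) (x : Cfsg.GolayPt → ℤ) = 16}, ∀ x' ∈ {x : ↥Cfsg.leechLattice | Cfsg.sqNorm (x : Cfsg.GolayPt → ℤ) = 32 ∧ Cfsg.sqNorm ((u - x) : Cfsg.GolayPt → ℤ) = 32 ∧ Cfsg.dotInt (v : Cfsg.GolayPt → ℤ) (x : Cfsg.GolayPt → ℤ) = 16}, ∃ g : ↥Cfsg.Co0, g • u = u ∧ g • v = v ∧ g • x = x' := by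
  have hd := (sub32_iff hu hv.1).mp hv.2
  obtain ⟨h, e1, e2⟩ := frame_uv u v hu hv.1 hd
  have hP : ∀ a : leechLattice, PrC condsR5 ((h • a : leechLattice) : GolayPt → ℤ) ↔
      dotInt (u : GolayPt → ℤ) (a : GolayPt → ℤ) = 24 ∧ dotInt (v : GolayPt → ℤ) (a : GolayPt → ℤ) = 16 := by
    intro a
    simp only [condsR5, PrC_cons, PrC_nil, and_true]
    rw [← coeU0, ← coeV0, ← e1, ← e2, dot_smul, dot_smul]
  constructor
  · refine orb_count orbR5.1 h _ (fun a => ?_)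
    rw [hP]
    constructor
    · rintro ⟨h1, h2, h3⟩
      exact ⟨h1, (sub32_iff hu h1).mp h2, h3⟩
    · rintro ⟨h1, h2, h3⟩
      exact ⟨h1, (sub32_iff hu h1).mpr h2, h3⟩
  · rintro x ⟨hx1, hx2, hx3⟩ x' ⟨hx1', hx2', hx3'⟩
    obtain ⟨k, hk, e⟩ := orb_trans' orbR5.2 h hx1 hx1' ((hP x).mpr ⟨(sub32_iff hu hx1).mp hx2, hx3⟩)
      ((hP x').mpr ⟨(sub32_iff hu hx1').mp hx2', hx3'⟩)
    have hk1 : k • lU0 = lU0 := hk _ (by simp [bsOf, vsGM])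
    have hk2 : k • lV0 = lV0 := hk _ (by simp [bsOf, vsGM])
    exact ⟨h⁻¹ * k * h, conj_fix e1 hk1, conj_fix e2 hk2, e⟩

end Cfsg.Agent.S1580
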