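import Cfsg.Statements.S1581
import Cfsg.Agent.Lib.Leech.Orb.R6
import Cfsg.Agent.Lib.Leech.Orb.R7
import Cfsg.Agent.Lib.Leech.OrbF3
import Cfsg.Agent.Lib.Leech.Orb.Vals

set_option autoImplicit false
open Cfsg

namespace Cfsg.Agent.S1581

open CfsgLib.Leech CfsgLib.Leech.Orb CfsgLib.Golay

/-- The McLaughlin group acts with rank 3 and subdegrees 1, 112, 162 on its 275 points: the point stabiliser has two orbits on the remaining points, distinguished by customary inner product 1 or 2 with the fixed point. -/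
theorem result (u v x : ↥Cfsg.leechLattice) (hu : Cfsg.sqNorm (u : Cfsg.GolayPt → ℤ) = 48) (hv : Cfsg.sqNorm (v : Cfsg.GolayPt → ℤ) = 32 ∧ Cfsg.sqNorm ((u - v) : Cfsg.GolayPt → ℤ) = 32) (hx : x ∈ {x : ↥Cfsg.leechLattice | Cfsg.sqNorm (x : Cfsg.GolayPt → ℤ) = 32 ∧ Cfsg.sqNorm ((u - x) : Cfsg.GolayPt → ℤ) = 32 ∧ Cfsg.dotInt (v : Cfsg.GolayPt → ℤ) (x : Cfsg.GolayPt → ℤ) = 16}) : {y : ↥Cfsg.leechLattice | y ∈ {x : ↥Cfsg.leechLattice | Cfsg.sqNorm (x : Cfsg.GolayPt → ℤ) = 32 ∧ Cfsg.sqNorm ((u - x) : Cfsg.GolayPt → ℤ) = 32 ∧ Cfsg.dotInt (v : Cfsg.GolayPt → ℤ) (x : Cfsg.GolayPt → ℤ) = 16} ∧ Cfsg.dotInt (x : Cfsg.GolayPt → ℤ) (y : Cfsg.GolayPt → ℤ) = 8}.ncard = 112 ∧ {y : ↥Cfsg.leechLattice | y ∈ {x : ↥Cfsg.leechLattice | Cfsg.sqNorm (x : Cfsg.GolayPt → ℤ) = 32 ∧ Cfsg.sqNorm ((u - x) : Cfsg.GolayPt → ℤ) = 32 ∧ Cfsg.dotInt (v : Cfsg.GolayPt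 → ℤ) (x : Cfsg.GolayPt → ℤ) = 16} ∧ y ≠ x ∧ Cfsg.dotInt (x : Cfsg.GolayPt → ℤ) (y : Cfsg.GolayPt → ℤ) = 16}.ncard = 162 ∧ ∀ y ∈ {x : ↥Cfsg.leechLattice | Cfsg.sqNorm (x : Cfsg.GolayPt → ℤ) = 32 ∧ Cfsg.sqNorm ((u - x) : Cfsg.GolayPt → ℤ) = 32 ∧ Cfsg.dotInt (v : Cfsg.GolayPt → ℤ) (x : Cfsg.GolayPt → ℤ) = 16}, ∀ y' ∈ {x : ↥Cfsg.leechLattice | Cfsg.sqNorm (x : Cfsg.GolayPt → ℤ) = 32 ∧ Cfsg.sqNorm ((u - x) : Cfsg.GolayPt → ℤ) = 32 ∧ Cfsg.dotInt (v : Cfsg.GolayPt → ℤ) (x : Cfsg.GolayPt → ℤ) = 16}, y ≠ x → y' ≠ x → Cfsg.dotInt (x : Cfsg.GolayPt → ℤ) (y : Cfsg.GolayPt → ℤ) = Cfsg.dotInt (x : Cfsg.GolayPt → ℤ) (y' : Cfsg.GolayPt → ℤ) → ∃ g : ↥Cfsg.Co0, g • u = u ∧ g • v = v ∧ g • x = x ∧ g • y = y' := by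
  obtain ⟨hx1, hx2, hx3⟩ := hx
  have hd := (sub32_iff hu hv.1).mp hv.2
  have hdx := (sub32_iff hu hx1).mp hx2
  obtain ⟨h, e1, e2, e3⟩ := frame_uvx u v x hu hv.1 hd hx1 hdx hx3
  have hP6 : ∀ a : leechLattice, PrC condsR6 ((h • a : leechLattice) : GolayPt → ℤ) ↔
      dotInt (u : GolayPt → ℤ) (a : GolayPt → ℤ) = 24 ∧ dotInt (v : GolayPt → ℤ) (a : GolayPt → ℤ) = 16 ∧
        dotInt (x : GolayPt → ℤ) (a : GolayPt → ℤ) = 8 := by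
    intro a
    simp only [condsR6, PrC_cons, PrC_nil, and_true]
    rw [← coeU0, ← coeV0, ← coeX0, ← e1, ← e2, ← e3, dot_smul, dot_smul, dot_smul]
  have hP7 : ∀ a : leechLattice, PrC condsR7 ((h • a : leechLattice) : GolayPt → ℤ) ↔
      dotInt (u : GolayPt → ℤ) (a : GolayPt → ℤ) = 24 ∧ dotInt (v : GolayPt → ℤ) (a : GolayPt → ℤ) = 16 ∧
        dotInt (x : GolayPt → ℤ) (a : GolayPt → ℤ) = 16 := by
    intro a
    simp only [condsR7, PrC_cons, PrC_nil, and_true]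
    rw [← coeU0, ← coeV0, ← coeX0, ← e1, ← e2, ← e3, dot_smul, dot_smul, dot_smul]
  have hP5 : ∀ a : leechLattice, PrC condsR5 ((h • a : leechLattice) : GolayPt → ℤ) ↔
      dotInt (u : GolayPt → ℤ) (a : GolayPt → ℤ) = 24 ∧ dotInt (v : GolayPt → ℤ) (a : GolayPt → ℤ) = 16 := by
    intro a
    simp only [condsR5, PrC_cons, PrC_nil, and_true]
    rw [← coeU0, ← coeV0, ← e1, ← e2, dot_smul, dot_smul]
  refine ⟨?_, ?_, ?_⟩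
  · refine orb_count orbR6.1 h _ (fun a => ?_)
    rw [hP6]
    constructor
    · rintro ⟨⟨h1, h2, h3⟩, h4⟩
      exact ⟨h1, (sub32_iff hu h1).mp h2, h3, h4⟩
    · rintro ⟨h1, h2, h3, h4⟩
      exact ⟨⟨h1, (sub32_iff hu h1).mpr h2, h3⟩, h4⟩
  · refine orb_count orbR7.1 h _ (fun a => ?_)
    rw [hP7]
    constructor
    · rintro ⟨⟨h1, h2, h3⟩, _, h4⟩
      exact ⟨h1, (sub32_iff hu h1).mp h2, h3, h4⟩
    · rintro ⟨h1, h2, h3, h4⟩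
      refine ⟨⟨h1, (sub32_iff hu h1).mpr h2, h3⟩, ?_, h4⟩
      rintro rfl
      rw [dot_self, hx1] at h4
      norm_num at h4
  · rintro y ⟨hy1, hy2, hy3⟩ y' ⟨hy1', hy2', hy3'⟩ hne hne' hdd
    have hd5 := (sub32_iff hu hy1).mp hy2
    have hv5 := dot_values resR5.2.2 spX0_lt valsR5 (h • y).2 (by rw [sqNorm_smul_Co0]; exact hy1)
      ((hP5 y).mpr ⟨hd5, hy3⟩)
    rw [← coeX0, ← e3, dot_smul] at hv5
    simp only [List.mem_cons, List.not_mem_nil, or_false] at hv5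
    have hd5' := (sub32_iff hu hy1').mp hy2'
    rcases hv5 with hc | hc | hc
    · obtain ⟨k, hk, e⟩ := orb_trans' orbR6.2 h hy1 hy1' ((hP6 y).mpr ⟨hd5, hy3, hc⟩)
        ((hP6 y').mpr ⟨hd5', hy3', hdd ▸ hc⟩)
      have hk1 : k • lU0 = lU0 := hk _ (by simp [bsOf, vsGU])
      have hk2 : k • lV0 = lV0 := hk _ (by simp [bsOf, vsGU])
      have hk3 : k • lX0 = lX0 := hk _ (by simp [bsOf, vsGU])
      exact ⟨h⁻¹ * k * h, conj_fix e1 hk1, conj_fix e2 hk2, conj_fix e3 hk3, e⟩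
    · obtain ⟨k, hk, e⟩ := orb_trans' orbR7.2 h hy1 hy1' ((hP7 y).mpr ⟨hd5, hy3, hc⟩)
        ((hP7 y').mpr ⟨hd5', hy3', hdd ▸ hc⟩)
      have hk1 : k • lU0 = lU0 := hk _ (by simp [bsOf, vsGU])
      have hk2 : k • lV0 = lV0 := hk _ (by simp [bsOf, vsGU])
      have hk3 : k • lX0 = lX0 := hk _ (by simp [bsOf, vsGU])
      exact ⟨h⁻¹ * k * h, conj_fix e1 hk1, conj_fix e2 hk2, conj_fix e3 hk3, e⟩
    · exact absurd (Subtype.ext (eq_of_dot_eq_norm hx1 hy1 hc)) hne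

end Cfsg.Agent.S1581
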