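import Cfsg.Statements.S1583
import Cfsg.Agent.Lib.Leech.Orb.R9
import Cfsg.Agent.Lib.Leech.OrbF2
import Cfsg.Agent.Lib.Leech.OrbGlue

set_option autoImplicit false
open Cfsg

namespace Cfsg.Agent.S1583

open CfsgLib.Leech CfsgLib.Leech.Orb CfsgLib.Golay

/-- The Higman–Sims configuration: for two vectors of customary norm 6 with inner product −4, exactly 100 minimal vectors have customary inner products 3 and −3 with them, and the joint stabiliser permutes these transitively. -/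
theorem result (v w : ↥Cfsg.leechLattice) (hv : Cfsg.sqNorm (v : Cfsg.GolayPt → ℤ) = 48) (hw : Cfsg.sqNorm (w : Cfsg.GolayPt → ℤ) = 48) (hvw : Cfsg.dotInt (v : Cfsg.GolayPt → ℤ) (w : Cfsg.GolayPt → ℤ) = -32) : {x : ↥Cfsg.leechLattice | Cfsg.sqNorm (x : Cfsg.GolayPt → ℤ) = 32 ∧ Cfsg.dotInt (v : Cfsg.GolayPt → ℤ) (x : Cfsg.GolayPt → ℤ) = 24 ∧ Cfsg.dotInt (w : Cfsg.GolayPt → ℤ) (x : Cfsg.GolayPt → ℤ) = -24}.ncard = 100 ∧ ∀ x ∈ {x : ↥Cfsg.leechLattice | Cfsg.sqNorm (x : Cfsg.GolayPt → ℤ) = 32 ∧ Cfsg.dotInt (v : Cfsg.GolayPt → ℤ) (x : Cfsg.GolayPt → ℤ) = 24 ∧ Cfsg.dotInt (w : Cfsg.GolayPt → ℤ) (x : Cfsg.GolayPt → ℤ) = -24}, ∀ x' ∈ {x : ↥Cfsg.leechLattice | Cfsg.sqNorm (x : Cfsg.GolayPt → ℤ) = 32 ∧ Cfsg.dotInt (v : Cfsg.GolayPt → ℤ) (x : Cfsg.GolayPt → ℤ) = 24 ∧ Cfsg.dotInt (w : Cfsg.GolayPt → ℤ) (x : Cfsg.GolayPt → ℤ) = -24}, ∃ g :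 ↥Cfsg.Co0, g • v = v ∧ g • w = w ∧ g • x = x' := by
  obtain ⟨h, e1, e2⟩ := frame_hs v w hv hw hvw
  have hP : ∀ a : leechLattice, PrC condsR9 ((h • a : leechLattice) : GolayPt → ℤ) ↔
      dotInt (v : GolayPt → ℤ) (a : GolayPt → ℤ) = 24 ∧ dotInt (w : GolayPt → ℤ) (a : GolayPt → ℤ) = -24 := by
    intro a
    simp only [condsR9, PrC_cons, PrC_nil, and_true]
    rw [← coeU0, ← coeWH0, ← e1, ← e2, dot_smul, dot_smul]
  constructor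
  · refine orb_count orbR9.1 h _ (fun a => ?_)
    rw [hP]
  · rintro x ⟨hx1, hx2, hx3⟩ x' ⟨hx1', hx2', hx3'⟩
    obtain ⟨k, hk, e⟩ := orb_trans' orbR9.2 h hx1 hx1' ((hP x).mpr ⟨hx2, hx3⟩) ((hP x').mpr ⟨hx2', hx3'⟩)
    have hk1 : k • lU0 = lU0 := hk _ (by simp [bsOf, vsGH])
    have hk2 : k • lWH0 = lWH0 := hk _ (by simp [bsOf, vsGH])
    exact ⟨h⁻¹ * k * h, conj_fix e1 hk1, conj_fix e2 hk2, e⟩

end Cfsg.Agent.S1583
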