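import Cfsg.Statements.S1584
import Cfsg.Agent.Lib.Leech.Orb.R10
import Cfsg.Agent.Lib.Leech.Orb.R11
import Cfsg.Agent.Lib.Leech.OrbF5
import Cfsg.Agent.Lib.Leech.Orb.Vals

set_option autoImplicit false
open Cfsg

namespace Cfsg.Agent.S1584

open CfsgLib.Leech CfsgLib.Leech.Orb CfsgLib.Golay

/-- The Higman–Sims group acts with rank 3 and subdegrees 1, 22, 77 on its 100 points, the orbits of a point stabiliser being distinguished by customary inner product 1 with the fixed point. -/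
theorem result (v w x : ↥Cfsg.leechLattice) (hv : Cfsg.sqNorm (v : Cfsg.GolayPt → ℤ) = 48) (hw : Cfsg.sqNorm (w : Cfsg.GolayPt → ℤ) = 48) (hvw : Cfsg.dotInt (v : Cfsg.GolayPt → ℤ) (w : Cfsg.GolayPt → ℤ) = -32) (hx : x ∈ {x : ↥Cfsg.leechLattice | Cfsg.sqNorm (x : Cfsg.GolayPt → ℤ) = 32 ∧ Cfsg.dotInt (v : Cfsg.GolayPt → ℤ) (x : Cfsg.GolayPt → ℤ) = 24 ∧ Cfsg.dotInt (w : Cfsg.GolayPt → ℤ) (x : Cfsg.GolayPt → ℤ) = -24}) : {y : ↥Cfsg.leechLattice | y ∈ {x : ↥Cfsg.leechLattice | Cfsg.sqNorm (x : Cfsg.GolayPt → ℤ) = 32 ∧ Cfsg.dotInt (v : Cfsg.GolayPt → ℤ) (x : Cfsg.GolayPt → ℤ) = 24 ∧ Cfsg.dotInt (w : Cfsg.GolayPt → ℤ) (x : Cfsg.GolayPt → ℤ) = -24} ∧ Cfsg.dotInt (x : Cfsg.GolayPt → ℤ) (y : Cfsg.GolayPt → ℤ) = 8}.ncard = 22 ∧ {y : ↥Cfsg.leechLattice | y ∈ {x : ↥Cfsg.leechLattice | Cfsg.sqNorm (x : Cfsg.GolayPt → ℤ) = 32 ∧ Cfsg.dotInt (v : Cfsg.GolayPt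 → ℤ) (x : Cfsg.GolayPt → ℤ) = 24 ∧ Cfsg.dotInt (w : Cfsg.GolayPt → ℤ) (x : Cfsg.GolayPt → ℤ) = -24} ∧ y ≠ x ∧ Cfsg.dotInt (x : Cfsg.GolayPt → ℤ) (y : Cfsg.GolayPt → ℤ) ≠ 8}.ncard = 77 ∧ ∀ y ∈ {x : ↥Cfsg.leechLattice | Cfsg.sqNorm (x : Cfsg.GolayPt → ℤ) = 32 ∧ Cfsg.dotInt (v : Cfsg.GolayPt → ℤ) (x : Cfsg.GolayPt → ℤ) = 24 ∧ Cfsg.dotInt (w : Cfsg.GolayPt → ℤ) (x : Cfsg.GolayPt → ℤ) = -24}, ∀ y' ∈ {x : ↥Cfsg.leechLattice | Cfsg.sqNorm (x : Cfsg.GolayPt → ℤ) = 32 ∧ Cfsg.dotInt (v : Cfsg.GolayPt → ℤ) (x : Cfsg.GolayPt → ℤ) = 24 ∧ Cfsg.dotInt (w : Cfsg.GolayPt → ℤ) (x : Cfsg.GolayPt → ℤ) = -24}, y ≠ x → y' ≠ x → (Cfsg.dotInt (x : Cfsg.GolayPt → ℤ) (y : Cfsg.GolayPt → ℤ) = 8 ↔ Cfsg.dotInt (x : Cfsg.GolayPt → ℤ) (y' : Cfsg.GolayPt → ℤ) = 8) → ∃ g : ↥Cfsg.Co0, g • v = v ∧ g • w = w ∧ g • x = x ∧ g • y = y' := by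
  obtain ⟨hx1, hx2, hx3⟩ := hx
  obtain ⟨h, e1, e2, e3⟩ := frame_hsx v w x hv hw hvw hx1 hx2 hx3
  have hP9 : ∀ a : leechLattice, PrC condsR9 ((h • a : leechLattice) : GolayPt → ℤ) ↔
      dotInt (v : GolayPt → ℤ) (a : GolayPt → ℤ) = 24 ∧ dotInt (w : GolayPt → ℤ) (a : GolayPt → ℤ) = -24 := by
    intro a
    simp only [condsR9, PrC_cons, PrC_nil, and_true]
    rw [← coeU0, ← coeWH0, ← e1, ← e2, dot_smul, dot_smul]
  have hP10 : ∀ a : leechLattice, PrC condsR10 ((h • a : leechLattice) : GolayPt → ℤ) ↔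
      dotInt (v : GolayPt → ℤ) (a : GolayPt → ℤ) = 24 ∧ dotInt (w : GolayPt → ℤ) (a : GolayPt → ℤ) = -24 ∧
        dotInt (x : GolayPt → ℤ) (a : GolayPt → ℤ) = 8 := by
    intro a
    simp only [condsR10, PrC_cons, PrC_nil, and_true]
    rw [← coeU0, ← coeWH0, ← coeX1, ← e1, ← e2, ← e3, dot_smul, dot_smul, dot_smul]
  have hP11 : ∀ a : leechLattice, PrC condsR11 ((h • a : leechLattice) : GolayPt → ℤ) ↔
      dotInt (v : GolayPt → ℤ) (a : GolayPt → ℤ) = 24 ∧ dotInt (w : GolayPt → ℤ) (a : GolayPt → ℤ) = -24 ∧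
        dotInt (x : GolayPt → ℤ) (a : GolayPt → ℤ) = 16 := by
    intro a
    simp only [condsR11, PrC_cons, PrC_nil, and_true]
    rw [← coeU0, ← coeWH0, ← coeX1, ← e1, ← e2, ← e3, dot_smul, dot_smul, dot_smul]
  have hvals : ∀ y : leechLattice, sqNorm (y : GolayPt → ℤ) = 32 → dotInt (v : GolayPt → ℤ) (y : GolayPt → ℤ) = 24 →
      dotInt (w : GolayPt → ℤ) (y : GolayPt → ℤ) = -24 → y ≠ x →
      dotInt (x : GolayPt → ℤ) (y : GolayPt → ℤ) = 8 ∨ dotInt (x : GolayPt → ℤ) (y : GolayPt → ℤ) = 16 := by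
    intro y h1 h2 h3 hne
    have hv5 := dot_values resR9.2.2 spX1_lt valsR9 (h • y).2 (by rw [sqNorm_smul_Co0]; exact h1)
      ((hP9 y).mpr ⟨h2, h3⟩)
    rw [← coeX1, ← e3, dot_smul] at hv5
    simp only [List.mem_cons, List.not_mem_nil, or_false] at hv5
    rcases hv5 with hc | hc | hc
    · exact Or.inl hc
    · exact Or.inr hc
    · exact absurd (Subtype.ext (eq_of_dot_eq_norm hx1 h1 hc)) hne
  refine ⟨?_, ?_, ?_⟩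
  · refine orb_count orbR10.1 h _ (fun a => ?_)
    rw [hP10]
    constructor
    · rintro ⟨⟨h1, h2, h3⟩, h4⟩
      exact ⟨h1, h2, h3, h4⟩
    · rintro ⟨h1, h2, h3, h4⟩
      exact ⟨⟨h1, h2, h3⟩, h4⟩
  · refine orb_count orbR11.1 h _ (fun a => ?_)
    rw [hP11]
    constructor
    · rintro ⟨⟨h1, h2, h3⟩, hne, h4⟩
      rcases hvals a h1 h2 h3 hne with h5 | h5
      · exact absurd h5 h4
      · exact ⟨h1, h2, h3, h5⟩
    · rintro ⟨h1, h2, h3, h4⟩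
      refine ⟨⟨h1, h2, h3⟩, ?_, by rw [h4]; norm_num⟩
      rintro rfl
      rw [dot_self, hx1] at h4
      norm_num at h4
  · rintro y ⟨hy1, hy2, hy3⟩ y' ⟨hy1', hy2', hy3'⟩ hne hne' hdd
    rcases hvals y hy1 hy2 hy3 hne with hc | hc
    · obtain ⟨k, hk, e⟩ := orb_trans' orbR10.2 h hy1 hy1' ((hP10 y).mpr ⟨hy2, hy3, hc⟩)
        ((hP10 y').mpr ⟨hy2', hy3', hdd.mp hc⟩)
      have hk1 : k • lU0 = lU0 := hk _ (by simp [bsOf, vsGM22])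
      have hk2 : k • lWH0 = lWH0 := hk _ (by simp [bsOf, vsGM22])
      have hk3 : k • lX1 = lX1 := hk _ (by simp [bsOf, vsGM22])
      exact ⟨h⁻¹ * k * h, conj_fix e1 hk1, conj_fix e2 hk2, conj_fix e3 hk3, e⟩
    · have hc' : dotInt (x : GolayPt → ℤ) (y' : GolayPt → ℤ) = 16 := by
        rcases hvals y' hy1' hy2' hy3' hne' with h5 | h5
        · have := hdd.mpr h5
          rw [hc] at this
          norm_num at this
        · exact h5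
      obtain ⟨k, hk, e⟩ := orb_trans' orbR11.2 h hy1 hy1' ((hP11 y).mpr ⟨hy2, hy3, hc⟩)
        ((hP11 y').mpr ⟨hy2', hy3', hc'⟩)
      have hk1 : k • lU0 = lU0 := hk _ (by simp [bsOf, vsGM22])
      have hk2 : k • lWH0 = lWH0 := hk _ (by simp [bsOf, vsGM22])
      have hk3 : k • lX1 = lX1 := hk _ (by simp [bsOf, vsGM22])
      exact ⟨h⁻¹ * k * h, conj_fix e1 hk1, conj_fix e2 hk2, conj_fix e3 hk3, e⟩

end Cfsg.Agent.S1584
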