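import Cfsg.Statements.S1585
import Cfsg.Agent.Lib.Leech.OrbF2
import Cfsg.Agent.Lib.Leech.OrbGlue

set_option autoImplicit false
open Cfsg

namespace Cfsg.Agent.S1585

open CfsgLib.Leech CfsgLib.Leech.Orb CfsgLib.Golay

/-- Two vectors of customary norm 6 with inner product −4 are exchanged by some automorphism of the lattice. -/
theorem result (v w : ↥Cfsg.leechLattice) (hv : Cfsg.sqNorm (v : Cfsg.GolayPt → ℤ) = 48) (hw : Cfsg.sqNorm (w : Cfsg.GolayPt → ℤ) = 48) (hvw : Cfsg.dotInt (v : Cfsg.GolayPt → ℤ) (w : Cfsg.GolayPt → ℤ) = -32) : ∃ g : ↥Cfsg.Co0, g • v = w ∧ g • w = v := by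
  obtain ⟨h1, e1, e2⟩ := frame_hs v w hv hw hvw
  obtain ⟨h2, e3, e4⟩ := frame_hs w v hw hv (by rw [dot_comm]; exact hvw)
  refine ⟨h2⁻¹ * h1, ?_, ?_⟩
  · rw [mul_smul, e1, ← e3, inv_smul_smul]
  · rw [mul_smul, e2, ← e4, inv_smul_smul]

end Cfsg.Agent.S1585
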