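import Cfsg.Statements.S1595
import Cfsg.Agent.Lib.Steiner.Basic

set_option autoImplicit false
open Cfsg

namespace Cfsg.Agent.S1595

/-- Leech triangle of S(5, 6, 12): blocks meet in 0, 2, 3 or 4 points, and a block is met exactly in a given 2-, 3- or 4-subset by 3, 2, 3 blocks respectively. -/
theorem result {α : Type*} [Fintype α] [DecidableEq α] (hα : Fintype.card α = 12) {B : Set (Finset α)} (hB : Cfsg.IsSteinerSystem 5 6 B) (b : Finset α) (hb : b ∈ B) : (∀ c ∈ B, c ≠ b → (b ∩ c).card = 0 ∨ (b ∩ c).card = 2 ∨ (b ∩ c).card = 3 ∨ (b ∩ c).card = 4) ∧ ∀ s ⊆ b, (s.card = 2 → {c : Finset α | c ∈ B ∧ b ∩ c = s}.ncard = 3) ∧ (s.card = 3 → {c : Finset α | c ∈ B ∧ b ∩ c = s}.ncard = 2) ∧ (s.card = 4 → {c : Finset α | c ∈ B ∧ b ∩ c = s}.ncard = 3) := by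
  have hL := CfsgLib.Steiner.hL5612 hα hB hb
  have hcb : b.card = 6 := hB.1 b hb
  constructor
  · intro c hc hne
    have hcc : c.card = 6 := hB.1 c hc
    have hle : (b ∩ c).card ≤ 6 := by
      rw [← hcb]; exact Finset.card_le_card Finset.inter_subset_left
    have h8 : (b ∩ c).card ≠ 6 := by
      intro h
      have h1 : b ∩ c = b := Finset.eq_of_subset_of_card_le Finset.inter_subset_left (by omega)
      have h2 : b ∩ c = c := Finset.eq_of_subset_of_card_le Finset.inter_subset_right (by omega)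
      exact hne (h2.symm.trans h1)
    have h1 := CfsgLib.Steiner.inter_card_ne _ hL hc 1 (by rw [hcb]; rfl)
    have h5 := CfsgLib.Steiner.inter_card_ne _ hL hc 5 (by rw [hcb]; rfl)
    omega
  · intro s hs
    have h := CfsgLib.Steiner.count_exact _ b s hL hs
    rw [hcb] at h
    refine ⟨fun h2 => ?_, fun h3 => ?_, fun h4 => ?_⟩
    · rw [h2] at h; rw [h]; rfl
    · rw [h3] at h; rw [h]; rfl
    · rw [h4] at h; rw [h]; rfl

end Cfsg.Agent.S1595
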