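import Cfsg.Statements.S1596
import Cfsg.Agent.Lib.Golay.Quartet

set_option autoImplicit false
open scoped Pointwise
open Cfsg

namespace Cfsg.Agent.S1596

open CfsgLib.Golay

/-- A quartet of a dodecad is determined by any two of its triples: two disjoint triples uniting to a hexad extend to exactly one quartet. -/
theorem result (d : Finset Cfsg.GolayPt) (hd : d ∈ Cfsg.dodecads) (t u : Finset Cfsg.GolayPt) (ht : t.card = 3) (hu : u.card = 3) (htu : Disjoint t u) (hh : t ∪ u ∈ Cfsg.hexadsOn d) : ∃! Q : Finset (Finset Cfsg.GolayPt), Q ∈ Cfsg.quartets d ∧ t ∈ Q ∧ u ∈ Q := by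
  obtain ⟨h, hh0, rfl⟩ := exists_conj_Dd0 hd
  have hinv : h⁻¹ ∈ M24 := inv_mem hh0
  have hH : h⁻¹ • (t ∪ u) ∈ hexadsOn Dd0 := by
    have := hexadsOn_smul hinv hh
    rwa [inv_smul_smul] at this
  rw [Finset.smul_finset_union] at hH
  obtain ⟨Q0, ⟨hQ0, h1, h2⟩, hU⟩ := base_exists_unique
    (by rw [Finset.card_smul_finset]; exact ht) (by rw [Finset.card_smul_finset]; exact hu) hH
  refine ⟨h • Q0, ⟨quartets_smul hh0 hQ0, ?_, ?_⟩, ?_⟩
  · have := Finset.smul_mem_smul_finset (a := h) h1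
    rwa [smul_inv_smul] at this
  · have := Finset.smul_mem_smul_finset (a := h) h2
    rwa [smul_inv_smul] at this
  · rintro Q ⟨hQ, hQt, hQu⟩
    have h3 := hU (h⁻¹ • Q) ⟨by
      have := quartets_smul hinv hQ
      rwa [inv_smul_smul] at this, Finset.smul_mem_smul_finset hQt, Finset.smul_mem_smul_finset hQu⟩
    rw [← h3, smul_inv_smul]

end Cfsg.Agent.S1596
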