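import Cfsg.Statements.S1597
import Cfsg.Agent.Lib.Golay.Quartet

set_option autoImplicit false
open scoped Pointwise
open Cfsg

namespace Cfsg.Agent.S1597

open CfsgLib.Golay

/-- A dodecad has 220 quartets and its stabiliser is transitive on them. -/
theorem result (d : Finset Cfsg.GolayPt) (hd : d ∈ Cfsg.dodecads) : (Cfsg.quartets d).ncard = 220 ∧ ∀ Q ∈ Cfsg.quartets d, ∀ Q' ∈ Cfsg.quartets d, ∃ g : Equiv.Perm Cfsg.GolayPt, g ∈ Cfsg.M24 ∧ g • d = d ∧ g • Q = Q' := by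
  obtain ⟨h, hh, rfl⟩ := exists_conj_Dd0 hd
  have hinv : h⁻¹ ∈ M24 := inv_mem hh
  have hpull : ∀ Q ∈ quartets (h • Dd0), h⁻¹ • Q ∈ quartets Dd0 := by
    intro Q hQ
    have := quartets_smul hinv hQ
    rwa [inv_smul_smul] at this
  constructor
  · have he : quartets (h • Dd0) = (fun Q : Finset (Finset GolayPt) => h • Q) '' quartets Dd0 := by
      ext Q
      constructor
      · intro hQ
        exact ⟨h⁻¹ • Q, hpull Q hQ, smul_inv_smul h Q⟩
      · rintro ⟨Q0, hQ0, rfl⟩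
        exact quartets_smul hh hQ0
    rw [he, Set.ncard_image_of_injective _ (MulAction.injective h), quartets_Dd0_ncard]
  · intro Q hQ Q' hQ'
    obtain ⟨g, hg, hgQ⟩ := base_trans (hpull Q hQ) (hpull Q' hQ')
    refine ⟨h * g * h⁻¹, mul_mem (mul_mem hh (mem_stabS.mp hg).1) hinv, ?_, ?_⟩
    · rw [mul_smul, mul_smul, inv_smul_smul, (mem_stabS.mp hg).2]
    · rw [mul_smul, mul_smul, hgQ, smul_inv_smul]

end Cfsg.Agent.S1597
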