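import Mathlib
import Cfsg.Agent.Lib.ZStar.Main
import Cfsg.Statements.S1618
-- import your own Cfsg.Agent.* helpers here

set_option autoImplicit false
open Cfsg

namespace Cfsg.Agent.S1618

theorem mul_of_coprime_index {T : Type*} [Group T] [Finite T] (A B : Subgroup T)
    (h : Nat.Coprime A.index B.index) (t : T) : ∃ a ∈ A, ∃ b ∈ B, t = a * b := by
  classical
  let f : A ⧸ (B.subgroupOf A) → T ⧸ B :=
    Quotient.map' (fun a => (a : T)) (by
      intro a b hab
      rw [QuotientGroup.leftRel_apply] at hab ⊢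
      exact Subgroup.mem_subgroupOf.mp hab)
  have hf : Function.Injective f := by
    intro a b hab
    induction a using QuotientGroup.induction_on with
    | H a =>
      induction b using QuotientGroup.induction_on with
      | H b =>
        have h1 : ((a : T) : T ⧸ B) = ((b : T) : T ⧸ B) := hab
        rw [QuotientGroup.eq] at h1
        rw [QuotientGroup.eq]
        exact Subgroup.mem_subgroupOf.mpr h1
  have h1 : B.relIndex A * A.index = A.relIndex B * B.index := by
    have h2 := Subgroup.relIndex_mul_index (inf_le_left : A ⊓ B ≤ A)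
    have h3 := Subgroup.relIndex_mul_index (inf_le_right : A ⊓ B ≤ B)
    rw [Subgroup.inf_relIndex_left] at h2
    rw [Subgroup.inf_relIndex_right] at h3
    rw [h2, h3]
  have h4 : B.index ∣ B.relIndex A := by
    have h5 : B.index ∣ B.relIndex A * A.index := ⟨A.relIndex B, by rw [h1, mul_comm]⟩
    exact h.symm.dvd_of_dvd_mul_right h5
  have h6 : 0 < B.relIndex A := Nat.pos_of_ne_zero (Subgroup.index_ne_zero_of_finite (H := B.subgroupOf A))
  have h7 : Nat.card (T ⧸ B) ≤ Nat.card (A ⧸ (B.subgroupOf A)) := Nat.le_of_dvd h6 h4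
  have h8 : Nat.card (A ⧸ (B.subgroupOf A)) ≤ Nat.card (T ⧸ B) := Nat.card_le_card_of_injective f hf
  have hb : Function.Bijective f :=
    (Nat.bijective_iff_injective_and_card f).mpr ⟨hf, le_antisymm h8 h7⟩
  obtain ⟨q, hq⟩ := hb.2 (t : T ⧸ B)
  induction q using QuotientGroup.induction_on with
  | H a =>
    have h9 : ((a : T) : T ⧸ B) = (t : T ⧸ B) := hq
    rw [QuotientGroup.eq] at h9
    exact ⟨a, a.2, _, h9, by group⟩

theorem inv_sylow {G : Type*} [Group G] [Finite G] (K : Subgroup G) [hK : K.Normal] (x : G)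
    (hx : orderOf x = 2) (hodd : (Nat.card K).Coprime 2) (r : ℕ) [Fact r.Prime] :
    ∃ T : Sylow r K, ∀ t ∈ (T : Subgroup K),
      ((⟨x * t.1 * x⁻¹, hK.conj_mem t.1 t.2 x⟩ : K) ∈ (T : Subgroup K)) := by
  classical
  haveI : Fact (Nat.Prime 2) := ⟨Nat.prime_two⟩
  have hA : IsPGroup 2 (Subgroup.zpowers x) := by
    apply IsPGroup.of_card (n := 1)
    rw [Nat.card_zpowers, hx, pow_one]
  letI : MulDistribMulAction (Subgroup.zpowers x) K :=
    MulDistribMulAction.compHom K ((MulAut.conjNormal : G →* MulAut K).comp (Subgroup.zpowers x).subtype)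
  have hcard : ¬ 2 ∣ Nat.card (Sylow r K) := by
    let T₀ : Sylow r K := default
    have h1 : Nat.card (Sylow r K) ∣ Nat.card K := by
      have h2 := T₀.card_dvd_index
      exact h2.trans (Subgroup.index_dvd_card _)
    intro h2
    have h3 := h2.trans h1
    have h4 := Nat.dvd_gcd h3 (dvd_refl 2)
    rw [hodd.gcd_eq_one] at h4
    omega
  obtain ⟨T, hT⟩ := hA.nonempty_fixed_point_of_prime_not_dvd_card (Sylow r K) hcard
  refine ⟨T, fun t ht => ?_⟩
  have h1 := hT ⟨x, Subgroup.mem_zpowers x⟩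
  have h2 : ((⟨x, Subgroup.mem_zpowers x⟩ : Subgroup.zpowers x) • T : Sylow r K) = T := h1
  rw [← h2]
  refine ⟨t, ht, ?_⟩
  rfl

/-- A group generated by a class of involutions whose pairwise products (of distinct members) have p-power order for a fixed odd prime p has nilpotent derived subgroup. -/
theorem result {G : Type*} [Group G] [Finite G] (p : ℕ) (hp : p.Prime) (hodd : p ≠ 2) {D : Set G} (hinv : ∀ d ∈ D, orderOf d = 2) (hconj : ∃ d ∈ D, D = conjugatesOf d) (hgen : Subgroup.closure D = ⊤) (hprod : ∀ x ∈ D, ∀ y ∈ D, x ≠ y → ∃ k : ℕ, orderOf (x * y) = p ^ k) : Group.IsNilpotent ↥(commutator G) := by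
  classical
  obtain ⟨x, hxD, hD⟩ := hconj
  have hx : orderOf x = 2 := hinv x hxD
  have hxx : x * x = 1 := by rw [← sq, ← hx, pow_orderOf_eq_one]
  have hxinv : x⁻¹ = x := inv_eq_of_mul_eq_one_left hxx
  have hconjD : ∀ g : G, g * x * g⁻¹ ∈ D := by
    intro g
    rw [hD]
    exact isConj_iff.mpr ⟨g, rfl⟩
  haveI : Fact p.Prime := ⟨hp⟩
  have hcop2 : Nat.Coprime p 2 := (Nat.coprime_primes hp Nat.prime_two).mpr hodd
  have hiso : IsIsolated x := by
    intro g hc
    by_contra hne
    obtain ⟨y, hy⟩ : ∃ y, y = g * x * g⁻¹ := ⟨_, rfl⟩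
    rw [← hy] at hc hne
    have hyD : y ∈ D := hy ▸ hconjD g
    have hyy : y * y = 1 := by rw [← sq, ← hinv y hyD, pow_orderOf_eq_one]
    obtain ⟨k, hk⟩ := hprod x hxD y hyD (Ne.symm hne)
    have h1 : (x * y) ^ 2 = 1 := by
      rw [hc.mul_pow, sq, sq, hxx, hyy, one_mul]
    have h2 : p ^ k ∣ 2 := hk ▸ orderOf_dvd_of_pow_eq_one h1
    have h3 : p ^ k = 1 := Nat.Coprime.eq_one_of_dvd (hcop2.pow_left k) h2
    rw [h3, orderOf_eq_one_iff] at hk
    apply hne
    calc y = x * x * y := by rw [hxx, one_mul]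
      _ = x := by rw [mul_assoc, hk, mul_one]
  obtain ⟨K, hKd⟩ : ∃ K, K = Cfsg.pPrimeCore 2 G := ⟨_, rfl⟩
  haveI hKn : K.Normal := hKd ▸ CfsgLib.PLocal.pPrimeCore_normal'
  have hKodd : (Nat.card K).Coprime 2 := hKd ▸ CfsgLib.Solv.pPrimeCore_coprime 2
  have hxy : ∀ y ∈ D, x * y ∈ K := by
    intro y hy
    rw [hD] at hy
    obtain ⟨g, rfl⟩ := isConj_iff.mp hy
    have h1 := CfsgLib.ZS.zstar' hx hiso g
    rw [hxinv, ← hKd] at h1
    have h2 : x * (g * x * g⁻¹) = x * g * x * g⁻¹ := by group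
    rwa [h2]
  -- conjugates through square roots
  have hroot : ∀ v ∈ K, x * v * x = v⁻¹ → ∃ k ∈ K, x * v = k * x * k⁻¹ := by
    intro v hv hinvv
    have h1 : orderOf v ∣ Nat.card K := Subgroup.orderOf_dvd_natCard K hv
    have h2 : Odd (orderOf v) := by
      have h3 : Odd (Nat.card K) := Nat.Coprime.odd_of_right hKodd
      exact Odd.of_dvd_nat h3 h1
    obtain ⟨m, hm⟩ := h2
    obtain ⟨w, hw⟩ : ∃ w, w = v ^ (m + 1) := ⟨_, rfl⟩
    have hww : w * w = v := by
      rw [hw, ← pow_add]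
      have h3 : m + 1 + (m + 1) = orderOf v + 1 := by omega
      rw [h3, pow_succ, pow_orderOf_eq_one, one_mul]
    have hwK : w ∈ K := hw ▸ K.pow_mem hv _
    have hxw : x * w * x = w⁻¹ := by
      have h3 : ∀ n : ℕ, x * v ^ n * x = (v⁻¹) ^ n := by
        intro n
        induction n with
        | zero => simp [hxx]
        | succ n ih =>
          calc x * v ^ (n + 1) * x = (x * v ^ n * x) * (x * v * x) := by
                rw [pow_succ]
                calc x * (v ^ n * v) * x = x * v ^ n * 1 * v * x := by group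
                  _ = x * v ^ n * (x * x) * v * x := by rw [hxx]
                  _ = (x * v ^ n * x) * (x * v * x) := by group
            _ = (v⁻¹) ^ (n + 1) := by rw [ih, hinvv, pow_succ]
      rw [hw, h3, inv_pow]
    refine ⟨w⁻¹, K.inv_mem hwK, ?_⟩
    rw [inv_inv]
    have h3 : w⁻¹ * x = x * w := by
      rw [← hxw]
      calc x * w * x * x = x * w * (x * x) := by group
        _ = x * w := by rw [hxx, mul_one]
    rw [h3, mul_assoc, hww]
  have hDK : ∀ y ∈ D, ∃ k ∈ K, y = k * x * k⁻¹ := by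
    intro y hy
    have hyy : y⁻¹ = y := inv_eq_of_mul_eq_one_left (by rw [← sq, ← hinv y hy, pow_orderOf_eq_one])
    have h1 : x * (x * y) * x = (x * y)⁻¹ := by
      rw [mul_inv_rev, hyy, hxinv, ← mul_assoc, hxx, one_mul]
    obtain ⟨k, hk, h2⟩ := hroot _ (hxy y hy) h1
    refine ⟨k, hk, ?_⟩
    rw [← h2, ← mul_assoc, hxx, one_mul]
  -- the centraliser of x in K
  let Cx : Subgroup K := (Subgroup.centralizer ({x} : Set G)).subgroupOf K
  have hCx : ∀ k : K, k ∈ Cx ↔ x * k.1 = k.1 * x := by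
    intro k
    rw [Subgroup.mem_subgroupOf, Subgroup.mem_centralizer_iff]
    constructor
    · intro h
      exact h x rfl
    · intro h y hy
      rw [Set.mem_singleton_iff.mp hy]
      exact h
  have hq : ∀ q : ℕ, q.Prime → q ≠ p → ¬ q ∣ Cx.index := by
    intro q hqp hqne
    haveI : Fact q.Prime := ⟨hqp⟩
    obtain ⟨T, hT⟩ := inv_sylow K x hx hKodd q
    have hle : (T : Subgroup K) ≤ Cx := by
      intro t ht
      rw [hCx]
      have ht' := hT t ht
      obtain ⟨v, hv⟩ : ∃ v : K, v = t⁻¹ * ⟨x * t.1 * x⁻¹, hKn.conj_mem t.1 t.2 x⟩ := ⟨_, rfl⟩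
      have hvT : v ∈ (T : Subgroup K) := hv ▸ mul_mem (inv_mem ht) ht'
      have hv1 : (v : G) = (t : G)⁻¹ * (x * t.1 * x⁻¹) := by rw [hv]; rfl
      have hvinv : x * (v : G) * x = (v : G)⁻¹ := by
        have hv2 : (v : G) = (t : G)⁻¹ * (x * t.1 * x) := by rw [hv1, hxinv]
        calc x * (v : G) * x = x * (t : G)⁻¹ * x * t.1 * (x * x) := by rw [hv2]; group
          _ = x * (t : G)⁻¹ * x * t.1 := by rw [hxx, mul_one]
          _ = (v : G)⁻¹ := by
            rw [hv2, mul_inv_rev, inv_inv, mul_inv_rev, mul_inv_rev, hxinv]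
            group
      obtain ⟨k, hk, hk2⟩ := hroot v.1 v.2 hvinv
      have hxvD : x * v.1 ∈ D := hk2 ▸ hconjD k
      have hv1' : (v : G) = 1 := by
        by_contra hne
        have hne' : x ≠ x * v.1 := fun h => hne (by
          have : x * 1 = x * v.1 := by rw [mul_one]; exact h
          exact (mul_left_cancel this).symm)
        obtain ⟨e, he⟩ := hprod x hxD _ hxvD hne'
        rw [← mul_assoc, hxx, one_mul] at he
        obtain ⟨f, hf⟩ := T.isPGroup' ⟨v, hvT⟩
        have h3 : (v : G) ^ (q ^ f) = 1 := by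
          have := congrArg (fun s : (T : Subgroup K) => ((s : K) : G)) hf
          simpa using this
        have h4 : p ^ e ∣ q ^ f := he ▸ orderOf_dvd_of_pow_eq_one h3
        have h5 : Nat.Coprime (p ^ e) (q ^ f) :=
          Nat.Coprime.pow _ _ ((Nat.coprime_primes hp hqp).mpr (Ne.symm hqne))
        have h6 : p ^ e = 1 := Nat.Coprime.eq_one_of_dvd h5 h4
        rw [h6, orderOf_eq_one_iff] at he
        exact hne he
      rw [hv1', hxinv] at hv1
      have h7 : (t : G) * 1 = x * t.1 * x := by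
        rw [hv1]
        group
      rw [mul_one] at h7
      calc x * t.1 = x * t.1 * x * x := by rw [mul_assoc _ x x, hxx, mul_one]
        _ = t.1 * x := by rw [← h7]
    have h1 : Cx.index ∣ (T : Subgroup K).index := Subgroup.index_dvd_of_le hle
    exact fun h => T.not_dvd_index (h.trans h1)
  obtain ⟨Pk, hPk⟩ := inv_sylow K x hx hKodd p
  have hcopidx : Nat.Coprime (Pk : Subgroup K).index Cx.index := by
    apply Nat.Coprime.symm
    apply Nat.coprime_of_dvd
    intro q hqp h1 h2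
    by_cases hqe : q = p
    · rw [hqe] at h2
      exact Pk.not_dvd_index h2
    · exact hq q hqp hqe h1
  let E : Subgroup G := (Pk : Subgroup K).map K.subtype
  have hEmem : ∀ t : K, t ∈ (Pk : Subgroup K) → (t : G) ∈ E := fun t ht => ⟨t, ht, rfl⟩
  have hconjE : ∀ e ∈ E, x * e * x ∈ E := by
    rintro e ⟨t, ht, rfl⟩
    have h1 := hPk t ht
    have h2 : x * t.1 * x⁻¹ ∈ E := hEmem _ h1
    rw [hxinv] at h2
    exact h2
  have hxyE : ∀ y ∈ D, x * y ∈ E := by
    intro y hy
    obtain ⟨k, hk, rfl⟩ := hDK y hy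
    obtain ⟨u, hu, c, hc, hk2⟩ := mul_of_coprime_index (Pk : Subgroup K) Cx hcopidx ⟨k, hk⟩
    have hk3 : k = u.1 * c.1 := congrArg Subtype.val hk2
    have hcx := (hCx c).mp hc
    have hcinv : (c : G)⁻¹ * x = x * (c : G)⁻¹ := by
      rw [inv_mul_eq_iff_eq_mul, ← mul_assoc, ← hcx, mul_assoc, mul_inv_cancel, mul_one]
    have h1 : k * x * k⁻¹ = u.1 * x * (u : G)⁻¹ := by
      rw [hk3, mul_inv_rev]
      calc u.1 * c.1 * x * ((c : G)⁻¹ * (u : G)⁻¹) = u.1 * (c.1 * x) * (c : G)⁻¹ * (u : G)⁻¹ := by group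
        _ = u.1 * (x * c.1) * (c : G)⁻¹ * (u : G)⁻¹ := by rw [hcx]
        _ = _ := by group
    rw [h1]
    have h2 : x * (u.1 * x * (u : G)⁻¹) = (x * u.1 * x) * (u : G)⁻¹ := by group
    rw [h2]
    refine E.mul_mem (hconjE _ (hEmem u hu)) (E.inv_mem (hEmem u hu))
  have hall : ∀ g : G, g ∈ E ∨ x * g ∈ E := by
    intro g
    have hg : g ∈ Subgroup.closure D := by rw [hgen]; trivial
    induction hg using Subgroup.closure_induction with
    | mem y hy => exact Or.inr (hxyE y hy)
    | one => exact Or.inl E.one_mem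
    | mul a b _ _ ha hb =>
      rcases ha with ha | ha <;> rcases hb with hb | hb
      · exact Or.inl (E.mul_mem ha hb)
      · right
        have h1 : x * (a * b) = (x * a * x) * (x * b) := by
          calc x * (a * b) = x * a * 1 * b := by group
            _ = x * a * (x * x) * b := by rw [hxx]
            _ = _ := by group
        rw [h1]
        exact E.mul_mem (hconjE a ha) hb
      · right
        rw [← mul_assoc]
        exact E.mul_mem ha hb
      · left
        have h1 : a * b = (x * (x * a) * x) * (x * b) := by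
          calc a * b = (x * x) * a * (x * x) * b := by rw [hxx, one_mul, mul_one]
            _ = _ := by group
        rw [h1]
        exact E.mul_mem (hconjE _ ha) hb
    | inv a _ ha =>
      rcases ha with ha | ha
      · exact Or.inl (E.inv_mem ha)
      · right
        have h1 : x * a⁻¹ = x * (x * a)⁻¹ * x := by
          rw [mul_inv_rev]
          group
        rw [h1]
        exact hconjE _ (E.inv_mem ha)
  have hle : commutator G ≤ E := by
    rw [commutator_def, Subgroup.commutator_le]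
    intro g _ h _
    rw [commutatorElement_def]
    rcases hall g with hg | hg <;> rcases hall h with hh | hh
    · exact E.mul_mem (E.mul_mem (E.mul_mem hg hh) (E.inv_mem hg)) (E.inv_mem hh)
    · obtain ⟨e₂, he₂⟩ : ∃ e₂, e₂ = x * h := ⟨_, rfl⟩
      have hhe : h = x * e₂ := by rw [he₂, ← mul_assoc, hxx, one_mul]
      rw [← he₂] at hh
      rw [hhe, mul_inv_rev, hxinv]
      have h1 : g * (x * e₂) * g⁻¹ * (e₂⁻¹ * x) = g * (x * (e₂ * g⁻¹ * e₂⁻¹) * x) := by group
      rw [h1]
      exact E.mul_mem hg (hconjE _ (E.mul_mem (E.mul_mem hh (E.inv_mem hg)) (E.inv_mem hh)))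
    · obtain ⟨e₁, he₁⟩ : ∃ e₁, e₁ = x * g := ⟨_, rfl⟩
      have hge : g = x * e₁ := by rw [he₁, ← mul_assoc, hxx, one_mul]
      rw [← he₁] at hg
      rw [hge, mul_inv_rev, hxinv]
      have h1 : x * e₁ * h * (e₁⁻¹ * x) * h⁻¹ = (x * (e₁ * h * e₁⁻¹) * x) * h⁻¹ := by group
      rw [h1]
      exact E.mul_mem (hconjE _ (E.mul_mem (E.mul_mem hg hh) (E.inv_mem hg))) (E.inv_mem hh)
    · obtain ⟨e₁, he₁⟩ : ∃ e₁, e₁ = x * g := ⟨_, rfl⟩
      have hge : g = x * e₁ := by rw [he₁, ← mul_assoc, hxx, one_mul]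
      rw [← he₁] at hg
      obtain ⟨e₂, he₂⟩ : ∃ e₂, e₂ = x * h := ⟨_, rfl⟩
      have hhe : h = x * e₂ := by rw [he₂, ← mul_assoc, hxx, one_mul]
      rw [← he₂] at hh
      rw [hge, hhe, mul_inv_rev, mul_inv_rev, hxinv]
      have h1 : x * e₁ * (x * e₂) * (e₁⁻¹ * x) * (e₂⁻¹ * x) =
          (x * e₁ * x) * (e₂ * e₁⁻¹) * (x * e₂⁻¹ * x) := by group
      rw [h1]
      exact E.mul_mem (E.mul_mem (hconjE _ hg) (E.mul_mem hh (E.inv_mem hg))) (hconjE _ (E.inv_mem hh))
  have hEp : IsPGroup p E := Pk.isPGroup'.map K.subtype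
  exact (hEp.to_le hle).isNilpotent

end Cfsg.Agent.S1618
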