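import Cfsg.Statements.S1634
import Cfsg.Agent.Lib.Leech.Orb.R13
import Cfsg.Agent.Lib.Leech.Orb.R14
import Cfsg.Agent.Lib.Leech.Orb.R15
import Cfsg.Agent.Lib.Leech.OrbF4
import Cfsg.Agent.Lib.Leech.OrbGlue

set_option autoImplicit false
open Cfsg

namespace Cfsg.Agent.S1634

open CfsgLib.Leech CfsgLib.Leech.Orb CfsgLib.Golay

/-- The McLaughlin group acts on 2025 points (minimal vectors orthogonal to v with customary inner product 2 with w) transitively with rank 4 and subdegrees 1, 330, 462, 1232. -/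
theorem result (v w : ↥Cfsg.leechLattice) (hv : Cfsg.sqNorm (v : Cfsg.GolayPt → ℤ) = 32) (hw : Cfsg.sqNorm (w : Cfsg.GolayPt → ℤ) = 32) (hvw : Cfsg.dotInt (v : Cfsg.GolayPt → ℤ) (w : Cfsg.GolayPt → ℤ) = -8) : {x : ↥Cfsg.leechLattice | Cfsg.sqNorm (x : Cfsg.GolayPt → ℤ) = 32 ∧ Cfsg.dotInt (v : Cfsg.GolayPt → ℤ) (x : Cfsg.GolayPt → ℤ) = 0 ∧ Cfsg.dotInt (w : Cfsg.GolayPt → ℤ) (x : Cfsg.GolayPt → ℤ) = 16}.ncard = 2025 ∧ (∀ x ∈ {x : ↥Cfsg.leechLattice | Cfsg.sqNorm (x : Cfsg.GolayPt → ℤ) = 32 ∧ Cfsg.dotInt (v : Cfsg.GolayPt → ℤ) (x : Cfsg.GolayPt → ℤ) = 0 ∧ Cfsg.dotInt (w : Cfsg.GolayPt → ℤ) (x : Cfsg.GolayPt → ℤ) = 16}, ∀ x' ∈ {x : ↥Cfsg.leechLattice | Cfsg.sqNorm (x : Cfsg.GolayPt → ℤ) = 32 ∧ Cfsg.dotInt (v : Cfsg.GolayPt → ℤ) (x : Cfsg.GolayPt → ℤ) = 0 ∧ Cfsg.dotInt (w : Cfsg.GolayPt → ℤ)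 (x : Cfsg.GolayPt → ℤ) = 16}, ∃ g : ↥Cfsg.Co0, g • v = v ∧ g • w = w ∧ g • x = x') ∧ ∀ x ∈ {x : ↥Cfsg.leechLattice | Cfsg.sqNorm (x : Cfsg.GolayPt → ℤ) = 32 ∧ Cfsg.dotInt (v : Cfsg.GolayPt → ℤ) (x : Cfsg.GolayPt → ℤ) = 0 ∧ Cfsg.dotInt (w : Cfsg.GolayPt → ℤ) (x : Cfsg.GolayPt → ℤ) = 16}, ∃ y₁ ∈ {x : ↥Cfsg.leechLattice | Cfsg.sqNorm (x : Cfsg.GolayPt → ℤ) = 32 ∧ Cfsg.dotInt (v : Cfsg.GolayPt → ℤ) (x : Cfsg.GolayPt → ℤ) = 0 ∧ Cfsg.dotInt (w : Cfsg.GolayPt → ℤ) (x : Cfsg.GolayPt → ℤ) = 16}, ∃ y₂ ∈ {x : ↥Cfsg.leechLattice | Cfsg.sqNorm (x : Cfsg.GolayPt → ℤ) = 32 ∧ Cfsg.dotInt (v : Cfsg.GolayPt → ℤ) (x : Cfsg.GolayPt → ℤ) = 0 ∧ Cfsg.dotInt (w : Cfsg.GolayPt → ℤ) (x : Cfsg.GolayPt → ℤ) = 16}, ∃ y₃ ∈ {x : ↥Cfsg.leechLattice | Cfsg.sqNorm (x : Cfsg.GolayPt → ℤ) = 32 ∧ Cfsg.dotInt (v : Cfsg.GolayPt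 → ℤ) (x : Cfsg.GolayPt → ℤ) = 0 ∧ Cfsg.dotInt (w : Cfsg.GolayPt → ℤ) (x : Cfsg.GolayPt → ℤ) = 16}, (MulAction.orbit ↥(MulAction.stabilizer ↥Cfsg.Co0 v ⊓ MulAction.stabilizer ↥Cfsg.Co0 w ⊓ MulAction.stabilizer ↥Cfsg.Co0 x) y₁).ncard = 330 ∧ (MulAction.orbit ↥(MulAction.stabilizer ↥Cfsg.Co0 v ⊓ MulAction.stabilizer ↥Cfsg.Co0 w ⊓ MulAction.stabilizer ↥Cfsg.Co0 x) y₂).ncard = 462 ∧ (MulAction.orbit ↥(MulAction.stabilizer ↥Cfsg.Co0 v ⊓ MulAction.stabilizer ↥Cfsg.Co0 w ⊓ MulAction.stabilizer ↥Cfsg.Co0 x) y₃).ncard = 1232 := by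
  obtain ⟨h0, a1, a2⟩ := frame_vw v w hv hw hvw
  have hP0 : ∀ a : leechLattice, PrC condsR12 ((h0 • a : leechLattice) : GolayPt → ℤ) ↔
      dotInt (v : GolayPt → ℤ) (a : GolayPt → ℤ) = 0 ∧ dotInt (w : GolayPt → ℤ) (a : GolayPt → ℤ) = 16 := by
    intro a
    simp only [condsR12, PrC_cons, PrC_nil, and_true]
    rw [← coeV0, ← coeW0, ← a1, ← a2, dot_smul, dot_smul]
  refine ⟨?_, ?_, ?_⟩
  · refine orb_count orbR12.1 h0 _ (fun a => ?_)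
    rw [hP0]
  · rintro x ⟨hx1, hx2, hx3⟩ x' ⟨hx1', hx2', hx3'⟩
    obtain ⟨k, hk, e⟩ := orb_trans' orbR12.2 h0 hx1 hx1' ((hP0 x).mpr ⟨hx2, hx3⟩) ((hP0 x').mpr ⟨hx2', hx3'⟩)
    have hk1 : k • lV0 = lV0 := hk _ (by simp [bsOf, vsGM])
    have hk2 : k • lW0 = lW0 := hk _ (by simp [bsOf, vsGM])
    exact ⟨h0⁻¹ * k * h0, conj_fix a1 hk1, conj_fix a2 hk2, e⟩
  · rintro x ⟨hx1, hx2, hx3⟩
    obtain ⟨h, e1, e2, e3⟩ := frame_vwx v w x hv hw hvw hx1 hx2 hx3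
    let S : Subgroup ↥Co0 := MulAction.stabilizer ↥Co0 v ⊓ MulAction.stabilizer ↥Co0 w ⊓ MulAction.stabilizer ↥Co0 x
    have hSfix : ∀ k : ↥Co0, FixL (bsOf vsGMX) k → h⁻¹ * k * h ∈ S := by
      intro k hk
      have hk1 : k • lV0 = lV0 := hk _ (by simp [bsOf, vsGMX])
      have hk2 : k • lW0 = lW0 := hk _ (by simp [bsOf, vsGMX])
      have hk3 : k • lX20 = lX20 := hk _ (by simp [bsOf, vsGMX])
      exact ⟨⟨conj_fix e1 hk1, conj_fix e2 hk2⟩, conj_fix e3 hk3⟩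
    have hInv : ∀ c : ℤ, ∀ g ∈ S, ∀ a ∈ {a : leechLattice | sqNorm (a : GolayPt → ℤ) = 32 ∧
        dotInt (v : GolayPt → ℤ) (a : GolayPt → ℤ) = 0 ∧ dotInt (w : GolayPt → ℤ) (a : GolayPt → ℤ) = 16 ∧
        dotInt (x : GolayPt → ℤ) (a : GolayPt → ℤ) = c},
        g • a ∈ {a : leechLattice | sqNorm (a : GolayPt → ℤ) = 32 ∧
        dotInt (v : GolayPt → ℤ) (a : GolayPt → ℤ) = 0 ∧ dotInt (w : GolayPt → ℤ) (a : GolayPt → ℤ) = 16 ∧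
        dotInt (x : GolayPt → ℤ) (a : GolayPt → ℤ) = c} := by
      rintro c g ⟨⟨hg1, hg2⟩, hg3⟩ a ⟨h1, h2, h3, h4⟩
      refine ⟨by rw [sqNorm_smul_Co0]; exact h1, ?_, ?_, ?_⟩
      · rw [dot_fix hg1]; exact h2
      · rw [dot_fix hg2]; exact h3
      · rw [dot_fix hg3]; exact h4
    have hO : ∀ (R : List (ℕ × List (ℕ × ℤ) × ℤ)) (c : ℤ), R = [(V0, spV0, 0), (W0, spW0, 16), (X20, spX20, c)] → ∀ a : leechLattice,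
        a ∈ {a : leechLattice | sqNorm (a : GolayPt → ℤ) = 32 ∧
        dotInt (v : GolayPt → ℤ) (a : GolayPt → ℤ) = 0 ∧ dotInt (w : GolayPt → ℤ) (a : GolayPt → ℤ) = 16 ∧
        dotInt (x : GolayPt → ℤ) (a : GolayPt → ℤ) = c} ↔
        (sqNorm (a : GolayPt → ℤ) = 32 ∧ PrC R ((h • a : leechLattice) : GolayPt → ℤ)) := by
      rintro R c rfl a
      simp only [PrC_cons, PrC_nil, and_true]
      rw [← coeV0, ← coeW0, ← coeX20, ← e1, ← e2, ← e3, dot_smul, dot_smul, dot_smul]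
      rfl
    obtain ⟨y1, hm1, hn1, -⟩ := sub_orbit orbR13.1 orbR13.2 h S _ (hO condsR13 0 rfl) hSfix (hInv _) (by norm_num)
    obtain ⟨y2, hm2, hn2, -⟩ := sub_orbit orbR15.1 orbR15.2 h S _ (hO condsR15 16 rfl) hSfix (hInv _) (by norm_num)
    obtain ⟨y3, hm3, hn3, -⟩ := sub_orbit orbR14.1 orbR14.2 h S _ (hO condsR14 8 rfl) hSfix (hInv _) (by norm_num)
    exact ⟨y1, ⟨hm1.1, hm1.2.1, hm1.2.2.1⟩, y2, ⟨hm2.1, hm2.2.1, hm2.2.2.1⟩, y3, ⟨hm3.1, hm3.2.1, hm3.2.2.1⟩, hn1, hn2, hn3⟩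

end Cfsg.Agent.S1634
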