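import Cfsg.Statements.S1637
import Mathlib
import Cfsg.Agent.Lib.Golay.Leader
import Cfsg.Agent.Lib.Golay.Sextet

set_option autoImplicit false
open Cfsg

namespace Cfsg.Agent.S1637

/-- The punctured length-23 code is a perfect 3-error-correcting code: each word of length 23 is within distance 3 of exactly one codeword. -/
theorem result (u : ZMod 23 → ZMod 2) : ∃! c : ZMod 23 → ZMod 2, c ∈ {u : ZMod 23 → ZMod 2 | ∃ w ∈ Cfsg.golayCode, ∀ x : ZMod 23, u x = w (some x)} ∧ hammingDist u c ≤ 3 := by
  classical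
  open CfsgLib.Golay in
  rw [punct_set_eq]
  -- extend `u` by zero
  let w : Cfsg.GolayPt → ZMod 2 := fun p => match p with
    | some x => u x
    | none => 0
  set m := mask (support₂ w) with hm
  have hmlt : m < 2 ^ 24 := mask_lt _
  have hw : w = word m := (word_support_eq w).symm
  have hu : u = punct m := by
    ext x
    show w (some x) = word m (some x)
    rw [← hw]
  have hdist : ∀ a c : ℕ, m ^^^ a = c → hammingDist u (punct c) = pop (a &&& lowMask) := by
    intro a c h
    rw [hammingDist_eq_hammingNorm, ← hammingNorm_punct, hu, ← h]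
    congr 1
    ext x
    have h2 : ∀ p q : ZMod 2, -p + (p + q) = q := by decide
    rw [punct_xor]
    exact h2 _ _
  have hfslow : ∀ a : ℕ, pop (a &&& lowMask) ≤ pop a := by
    intro a
    rw [← card_fs, ← card_fs, fs_low]
    exact Finset.card_le_card Finset.sdiff_subset
  have hcore : ∃ c, c ∈ allCode ∧ hammingDist u (punct c) ≤ 3 := by
    obtain ⟨v₀, hv₀, hv₀4, hcode⟩ := exists_leader _ m rfl hmlt
    by_cases h3 : pop v₀ ≤ 3
    · refine ⟨_, hcode, ?_⟩
      rw [hdist v₀ _ rfl]
      exact (hfslow v₀).trans h3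
    · have hv4 : pop v₀ = 4 := by omega
      have hTc : (fs v₀).card = 4 := by rw [card_fs, hv4]
      obtain ⟨t, ht, hnt⟩ := sextet_cover (sextOf_mem hTc) none
      -- `t` is in the sextet
      have h4 : mask t ^^^ v₀ ∈ allCode := by
        rcases mem_sextOf.1 ht with rfl | ⟨o, ho, hTo, rfl⟩
        · rw [mask_fs hv₀, Nat.xor_self]; exact zero_mem_allCode
        · obtain ⟨c, hc, hc8, rfl⟩ := (mem_octads_iff o).1 ho
          have h1 : fs (mask (fs c \ fs v₀) ^^^ v₀) = fs c := by
            rw [fs_xor, fs_mask]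
            have hd : Disjoint (fs c \ fs v₀) (fs v₀) := Finset.sdiff_disjoint
            rw [hd.symmDiff_eq_sup, Finset.sup_eq_union, Finset.sdiff_union_of_subset hTo]
          have h2 : mask (fs c \ fs v₀) ^^^ v₀ = c :=
            eq_of_fs_eq (xor_lt24 (mask_lt _) hv₀) (lt_of_mem_allCode hc) h1
          rw [h2]; exact hc
      have hc5 : t.card = 4 := (sextOf_mem hTc).2.1 t ht
      have h5 : m ^^^ mask t ∈ allCode := by
        have h6 := xor_mem_allCode hcode (by rw [Nat.xor_comm]; exact h4 : v₀ ^^^ mask t ∈ allCode)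
        have h7 : (m ^^^ v₀) ^^^ (v₀ ^^^ mask t) = m ^^^ mask t := by
          rw [Nat.xor_assoc, CfsgLib.Golay.xor_cancel_left]
        rwa [h7] at h6
      refine ⟨_, h5, ?_⟩
      rw [hdist (mask t) _ rfl, ← card_fs, fs_low, fs_mask, Finset.card_sdiff_of_subset (by simpa using hnt), hc5]
      simp
  obtain ⟨c, hc, hcd⟩ := hcore
  refine ⟨punct c, ⟨⟨c, hc, rfl⟩, hcd⟩, ?_⟩
  rintro _ ⟨⟨c', hc', rfl⟩, hcd'⟩
  have h6 := hammingDist_triangle (punct c') u (punct c)
  rw [hammingDist_comm (punct c') u] at h6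
  have h7 : hammingDist (punct c') (punct c) ≤ 6 := by omega
  rw [hammingDist_eq_hammingNorm] at h7
  have h8 : -punct c' + punct c = punct (c' ^^^ c) := by
    rw [punct_xor]
    ext x
    have h2 : ∀ p q : ZMod 2, -p + q = p + q := by decide
    exact h2 _ _
  rw [h8, hammingNorm_punct] at h7
  rcases low_pos _ (xor_mem_allCode hc' hc) with h9 | h9
  · rw [xor_eq_zero' h9]
  · omega

end Cfsg.Agent.S1637
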