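import Cfsg.Statements.S1640
import Cfsg.Agent.Lib.Leech.Orb.R8
import Cfsg.Agent.Lib.Leech.OrbGlue

set_option autoImplicit false
open Cfsg

namespace Cfsg.Agent.S1640

open CfsgLib.Leech CfsgLib.Leech.Orb CfsgLib.Golay

/-- The stabiliser of a vector of customary norm 6 is transitive on the 11178 minimal vectors of customary inner product −2 with it. -/
theorem result (u : ↥Cfsg.leechLattice) (hu : Cfsg.sqNorm (u : Cfsg.GolayPt → ℤ) = 48) : {x : ↥Cfsg.leechLattice | Cfsg.sqNorm (x : Cfsg.GolayPt → ℤ) = 32 ∧ Cfsg.dotInt (u : Cfsg.GolayPt → ℤ) (x : Cfsg.GolayPt → ℤ) = -16}.ncard = 11178 ∧ ∀ x ∈ {x : ↥Cfsg.leechLattice | Cfsg.sqNorm (x : Cfsg.GolayPt → ℤ) = 32 ∧ Cfsg.dotInt (u : Cfsg.GolayPt → ℤ) (x : Cfsg.GolayPt → ℤ) = -16}, ∀ x' ∈ {x : ↥Cfsg.leechLattice | Cfsg.sqNorm (x : Cfsg.GolayPt → ℤ) = 32 ∧ Cfsg.dotInt (u : Cfsg.GolayPt → ℤ) (x : Cfsg.GolayPt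 → ℤ) = -16}, ∃ g : ↥Cfsg.Co0, g • u = u ∧ g • x = x' := by
  obtain ⟨h, hh⟩ := trans48 u lU0 hu normU0
  have hP : ∀ a : leechLattice, PrC condsR8 ((h • a : leechLattice) : GolayPt → ℤ) ↔
      dotInt (u : GolayPt → ℤ) (a : GolayPt → ℤ) = -16 := by
    intro a
    simp only [condsR8, PrC_cons, PrC_nil, and_true]
    rw [← coeU0, ← hh, dot_smul]
  constructor
  · refine orb_count orbR8.1 h _ (fun a => ?_)
    rw [hP]
  · rintro x ⟨hx1, hx2⟩ x' ⟨hx1', hx2'⟩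
    obtain ⟨k, hk, e⟩ := orb_trans' orbR8.2 h hx1 hx1' ((hP x).mpr hx2) ((hP x').mpr hx2')
    have hk1 : k • lU0 = lU0 := hk _ (by simp [bsOf, vsG3])
    exact ⟨h⁻¹ * k * h, conj_fix hh hk1, e⟩

end Cfsg.Agent.S1640
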