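import Cfsg.Statements.S1641
import Cfsg.Agent.Lib.Leech.Orb.R16
import Cfsg.Agent.Lib.Leech.Orb.R17
import Cfsg.Agent.Lib.Leech.Orb.R18
import Cfsg.Agent.Lib.Leech.Orb.R19
import Cfsg.Agent.Lib.Leech.OrbF2
import Cfsg.Agent.Lib.Leech.Orb.Vals

set_option autoImplicit false
open Cfsg

namespace Cfsg.Agent.S1641

open CfsgLib.Leech CfsgLib.Leech.Orb CfsgLib.Golay

/-- The third Conway group acts on the 11178 cosets of the Higman–Sims group with rank 5 and subdegrees 1, 352, 1100, 4125, 5600. -/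
theorem result (u x : ↥Cfsg.leechLattice) (hu : Cfsg.sqNorm (u : Cfsg.GolayPt → ℤ) = 48) (hx : x ∈ {x : ↥Cfsg.leechLattice | Cfsg.sqNorm (x : Cfsg.GolayPt → ℤ) = 32 ∧ Cfsg.dotInt (u : Cfsg.GolayPt → ℤ) (x : Cfsg.GolayPt → ℤ) = -16}) : ∃ y₁ ∈ {x : ↥Cfsg.leechLattice | Cfsg.sqNorm (x : Cfsg.GolayPt → ℤ) = 32 ∧ Cfsg.dotInt (u : Cfsg.GolayPt → ℤ) (x : Cfsg.GolayPt → ℤ) = -16}, ∃ y₂ ∈ {x : ↥Cfsg.leechLattice | Cfsg.sqNorm (x : Cfsg.GolayPt → ℤ) = 32 ∧ Cfsg.dotInt (u : Cfsg.GolayPt → ℤ) (x : Cfsg.GolayPt → ℤ) = -16}, ∃ y₃ ∈ {x : ↥Cfsg.leechLattice | Cfsg.sqNorm (x : Cfsg.GolayPt → ℤ) = 32 ∧ Cfsg.dotInt (u : Cfsg.GolayPt → ℤ) (x : Cfsg.GolayPt → ℤ) = -16}, ∃ y₄ ∈ {x : ↥Cfsg.leechLattice | Cfsg.sqNorm (x : Cfsg.GolayPt → ℤ) = 32 ∧ Cfsg.dotInt (u : Cfsg.GolayPt → ℤ) (x : Cfsg.GolayPt → ℤ) = -16}, (MulAction.orbit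 ↥(MulAction.stabilizer ↥Cfsg.Co0 u ⊓ MulAction.stabilizer ↥Cfsg.Co0 x) y₁).ncard = 352 ∧ (MulAction.orbit ↥(MulAction.stabilizer ↥Cfsg.Co0 u ⊓ MulAction.stabilizer ↥Cfsg.Co0 x) y₂).ncard = 1100 ∧ (MulAction.orbit ↥(MulAction.stabilizer ↥Cfsg.Co0 u ⊓ MulAction.stabilizer ↥Cfsg.Co0 x) y₃).ncard = 4125 ∧ (MulAction.orbit ↥(MulAction.stabilizer ↥Cfsg.Co0 u ⊓ MulAction.stabilizer ↥Cfsg.Co0 x) y₄).ncard = 5600 ∧ {x : ↥Cfsg.leechLattice | Cfsg.sqNorm (x : Cfsg.GolayPt → ℤ) = 32 ∧ Cfsg.dotInt (u : Cfsg.GolayPt → ℤ) (x : Cfsg.GolayPt → ℤ) = -16} = {x} ∪ MulAction.orbit ↥(MulAction.stabilizer ↥Cfsg.Co0 u ⊓ MulAction.stabilizer ↥Cfsg.Co0 x) y₁ ∪ MulAction.orbit ↥(MulAction.stabilizer ↥Cfsg.Co0 u ⊓ MulAction.stabilizer ↥Cfsg.Co0 x) y₂ ∪ MulAction.orbit ↥(MulAction.stabilizer ↥Cfsg.Co0 u ⊓ MulAction.stabilizer ↥Cfsg.Co0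 x) y₃ ∪ MulAction.orbit ↥(MulAction.stabilizer ↥Cfsg.Co0 u ⊓ MulAction.stabilizer ↥Cfsg.Co0 x) y₄ := by
  obtain ⟨hx1, hx2⟩ := hx
  obtain ⟨h, e1, e2⟩ := frame_ux u x hu hx1 hx2
  let S : Subgroup ↥Co0 := MulAction.stabilizer ↥Co0 u ⊓ MulAction.stabilizer ↥Co0 x
  have hSfix : ∀ k : ↥Co0, FixL (bsOf vsGH) k → h⁻¹ * k * h ∈ S := by
    intro k hk
    have hk1 : k • lU0 = lU0 := hk _ (by simp [bsOf, vsGH])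
    have hk2 : k • lMT0 = lMT0 := hk _ (by simp [bsOf, vsGH])
    exact ⟨conj_fix e1 hk1, conj_fix e2 hk2⟩
  have hInv : ∀ c : ℤ, ∀ g ∈ S, ∀ a ∈ {a : leechLattice | sqNorm (a : GolayPt → ℤ) = 32 ∧
      dotInt (u : GolayPt → ℤ) (a : GolayPt → ℤ) = -16 ∧ dotInt (x : GolayPt → ℤ) (a : GolayPt → ℤ) = c},
      g • a ∈ {a : leechLattice | sqNorm (a : GolayPt → ℤ) = 32 ∧
      dotInt (u : GolayPt → ℤ) (a : GolayPt → ℤ) = -16 ∧ dotInt (x : GolayPt → ℤ) (a : GolayPt → ℤ) = c} := by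
    rintro c g ⟨hg1, hg2⟩ a ⟨h1, h2, h3⟩
    refine ⟨by rw [sqNorm_smul_Co0]; exact h1, ?_, ?_⟩
    · rw [dot_fix hg1]; exact h2
    · rw [dot_fix hg2]; exact h3
  have hO : ∀ (R : List (ℕ × List (ℕ × ℤ) × ℤ)) (c : ℤ), R = [(U0, spU0, -16), (MT0, spMT0, c)] → ∀ a : leechLattice,
      a ∈ {a : leechLattice | sqNorm (a : GolayPt → ℤ) = 32 ∧
      dotInt (u : GolayPt → ℤ) (a : GolayPt → ℤ) = -16 ∧ dotInt (x : GolayPt → ℤ) (a : GolayPt → ℤ) = c} ↔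
      (sqNorm (a : GolayPt → ℤ) = 32 ∧ PrC R ((h • a : leechLattice) : GolayPt → ℤ)) := by
    rintro R c rfl a
    simp only [PrC_cons, PrC_nil, and_true]
    rw [← coeU0, ← coeMT0, ← e1, ← e2, dot_smul, dot_smul]
    rfl
  obtain ⟨y1, hm1, hn1, he1⟩ := sub_orbit orbR16.1 orbR16.2 h S _ (hO condsR16 (-8) rfl) hSfix (hInv _) (by norm_num)
  obtain ⟨y2, hm2, hn2, he2⟩ := sub_orbit orbR19.1 orbR19.2 h S _ (hO condsR19 16 rfl) hSfix (hInv _) (by norm_num)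
  obtain ⟨y3, hm3, hn3, he3⟩ := sub_orbit orbR17.1 orbR17.2 h S _ (hO condsR17 0 rfl) hSfix (hInv _) (by norm_num)
  obtain ⟨y4, hm4, hn4, he4⟩ := sub_orbit orbR18.1 orbR18.2 h S _ (hO condsR18 8 rfl) hSfix (hInv _) (by norm_num)
  refine ⟨y1, ⟨hm1.1, hm1.2.1⟩, y2, ⟨hm2.1, hm2.2.1⟩, y3, ⟨hm3.1, hm3.2.1⟩, y4, ⟨hm4.1, hm4.2.1⟩, hn1, hn2, hn3, hn4, ?_⟩
  rw [he1, he2, he3, he4]
  ext z
  constructor
  · rintro ⟨hz1, hz2⟩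
    have hP8 : PrC condsR8 ((h • z : leechLattice) : GolayPt → ℤ) := by
      simp only [condsR8, PrC_cons, PrC_nil, and_true]
      rw [← coeU0, ← e1, dot_smul]
      exact hz2
    have hv5 := dot_values resR8.2.2 spMT0_lt valsR8 (h • z).2 (by rw [sqNorm_smul_Co0]; exact hz1) hP8
    rw [← coeMT0, ← e2, dot_smul] at hv5
    simp only [List.mem_cons, List.not_mem_nil, or_false] at hv5
    rcases hv5 with hc | hc | hc | hc | hc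
    · exact Or.inl (Or.inl (Or.inl (Or.inr ⟨hz1, hz2, hc⟩)))
    · exact Or.inl (Or.inl (Or.inr ⟨hz1, hz2, hc⟩))
    · exact Or.inl (Or.inr ⟨hz1, hz2, hc⟩)
    · exact Or.inr ⟨hz1, hz2, hc⟩
    · exact Or.inl (Or.inl (Or.inl (Or.inl (Subtype.ext (eq_of_dot_eq_norm hx1 hz1 hc)))))
  · rintro (((( hz | hz) | hz) | hz) | hz)
    · rw [hz]; exact ⟨hx1, hx2⟩
    · exact ⟨hz.1, hz.2.1⟩
    · exact ⟨hz.1, hz.2.1⟩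
    · exact ⟨hz.1, hz.2.1⟩
    · exact ⟨hz.1, hz.2.1⟩

end Cfsg.Agent.S1641
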