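import Cfsg.Statements.S1642
import Cfsg.Agent.Lib.Leech.OrbInv
import Cfsg.Agent.Lib.Leech.OrbF2
import Cfsg.Agent.Lib.Leech.OrbGlue

set_option autoImplicit false
open Cfsg

namespace Cfsg.Agent.S1642

open CfsgLib.Leech CfsgLib.Leech.Orb CfsgLib.Golay

/-- Some involution of the Higman–Sims group acts without fixed points on its 100 points. -/
theorem result (v w : ↥Cfsg.leechLattice) (hv : Cfsg.sqNorm (v : Cfsg.GolayPt → ℤ) = 48) (hw : Cfsg.sqNorm (w : Cfsg.GolayPt → ℤ) = 48) (hvw : Cfsg.dotInt (v : Cfsg.GolayPt → ℤ) (w : Cfsg.GolayPt → ℤ) = -32) : ∃ g : ↥Cfsg.Co0, g • v = v ∧ g • w = w ∧ orderOf g = 2 ∧ ∀ x ∈ {x : ↥Cfsg.leechLattice | Cfsg.sqNorm (x : Cfsg.GolayPt → ℤ) = 32 ∧ Cfsg.dotInt (v : Cfsg.GolayPt → ℤ) (x : Cfsg.GolayPt → ℤ) = 24 ∧ Cfsg.dotInt (w : Cfsg.GolayPt → ℤ) (x : Cfsg.GolayPt → ℤ) = -24}, g • x ≠ x := by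
  obtain ⟨h, e1, e2⟩ := frame_hs v w hv hw hvw
  have hk1 : g0I • lU0 = lU0 := g0I_fix _ (by simp [bsOf, vsI])
  have hk2 : g0I • lWH0 = lWH0 := g0I_fix _ (by simp [bsOf, vsI])
  have hP : ∀ a : leechLattice, PrC condsR9 ((h • a : leechLattice) : GolayPt → ℤ) ↔
      dotInt (v : GolayPt → ℤ) (a : GolayPt → ℤ) = 24 ∧ dotInt (w : GolayPt → ℤ) (a : GolayPt → ℤ) = -24 := by
    intro a
    simp only [condsR9, PrC_cons, PrC_nil, and_true]
    rw [← coeU0, ← coeWH0, ← e1, ← e2, dot_smul, dot_smul]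
  refine ⟨h⁻¹ * g0I * h, conj_fix e1 hk1, conj_fix e2 hk2, ?_, ?_⟩
  · haveI : Fact (Nat.Prime 2) := ⟨Nat.prime_two⟩
    apply orderOf_eq_prime
    · have : (h⁻¹ * g0I * h) ^ 2 = h⁻¹ * (g0I * g0I) * h := by
        rw [pow_two]
        simp only [mul_assoc, mul_inv_cancel_left]
      rw [this, g0I_sq]
      simp
    · intro he
      apply g0I_ne_one
      have : g0I = h * (h⁻¹ * g0I * h) * h⁻¹ := by group
      rw [this, he]
      group
  · rintro x ⟨hx1, hx2, hx3⟩ he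
    refine g0I_noFix (y := h • x) (by rw [sqNorm_smul_Co0]; exact hx1) ((hP x).mpr ⟨hx2, hx3⟩) ?_
    have h3 : (h⁻¹ * g0I * h) • x = x := he
    rw [mul_smul, mul_smul] at h3
    conv_rhs => rw [← h3]
    rw [smul_inv_smul]

end Cfsg.Agent.S1642
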