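import Cfsg.Statements.S1691


set_option autoImplicit false
open Cfsg

namespace Cfsg.Agent.S1691


open Cfsg.Spor in
theorem rel_mem {r : FreeGroup Fi24.Gen} (h : r ∈ coxRelators Fi24.edges) : (PresentedGroup.mk (coxRelators Fi24.edges ∪ {r | r ∈ Fi24.extra}) r : Fi24) = 1 :=
  PresentedGroup.one_of_mem (Or.inl h)

open Cfsg.Spor in
/-- The generators of the presented group. -/
def gg (x : Fi24.Gen) : Fi24 := PresentedGroup.of x

open Cfsg.Spor in
theorem gg_sq (x : Fi24.Gen) : gg x * gg x = 1 := by
  have hx : x ∈ coxNodes Fi24.edges := by cases x <;> decide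
  have h := rel_mem (r := (FreeGroup.of x * FreeGroup.of x) ^ coxLabel Fi24.edges x x) ⟨x, hx, x, hx, rfl⟩
  have e : coxLabel Fi24.edges x x = 1 := by cases x <;> decide
  rw [e, pow_one, map_mul] at h
  exact h

open Cfsg.Spor in
theorem gg_edge {x y : Fi24.Gen} (hne : coxLabel Fi24.edges x y = 3) (hx : x ∈ coxNodes Fi24.edges) (hy : y ∈ coxNodes Fi24.edges) :
    (gg x * gg y) ^ 3 = 1 := by
  have h := rel_mem (r := (FreeGroup.of x * FreeGroup.of y) ^ coxLabel Fi24.edges x y) ⟨x, hx, y, hy, rfl⟩
  rw [hne, map_pow, map_mul] at h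
  exact h

open Cfsg.Spor in
theorem ab_edge {x y : Fi24.Gen} (hne : coxLabel Fi24.edges x y = 3) (hx : x ∈ coxNodes Fi24.edges) (hy : y ∈ coxNodes Fi24.edges) :
    Abelianization.of (gg x) = Abelianization.of (gg y) := by
  have h := congrArg Abelianization.of (gg_edge hne hx hy)
  have h1 := congrArg Abelianization.of (gg_sq x)
  have h2 := congrArg Abelianization.of (gg_sq y)
  simp only [map_pow, map_mul, map_one] at h h1 h2
  generalize Abelianization.of (gg x) = a at *
  generalize Abelianization.of (gg y) = b at *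
  have ha3 : a ^ 3 = a := by rw [pow_succ, pow_two, h1, one_mul]
  have hb3 : b ^ 3 = b := by rw [pow_succ, pow_two, h2, one_mul]
  have h3 : a * b = 1 := by
    rw [mul_pow, ha3, hb3] at h
    exact h
  calc a = a * (b * b) := by rw [h2, mul_one]
    _ = (a * b) * b := by rw [mul_assoc]
    _ = b := by rw [h3, one_mul]

open Cfsg.Spor in
theorem ab_all (x : Fi24.Gen) : Abelianization.of (gg x) = Abelianization.of (gg Fi24.Gen.a) := by
  have e : ∀ {u v : Fi24.Gen}, coxLabel Fi24.edges u v = 3 → u ∈ coxNodes Fi24.edges → v ∈ coxNodes Fi24.edges →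
      Abelianization.of (gg u) = Abelianization.of (gg v) := fun h1 h2 h3 => ab_edge h1 h2 h3
  have lk := e (u := .l) (v := .k) (by decide) (by decide) (by decide)
  have ka := e (u := .k) (v := .a) (by decide) (by decide) (by decide)
  have ab := e (u := .a) (v := .b) (by decide) (by decide) (by decide)
  have bc := e (u := .b) (v := .c) (by decide) (by decide) (by decide)
  have cd := e (u := .c) (v := .d) (by decide) (by decide) (by decide)
  have de := e (u := .d) (v := .e) (by decide) (by decide) (by decide)
  have dh := e (u := .d) (v := .h) (by decide) (by decide) (by decide)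
  have ef := e (u := .e) (v := .f) (by decide) (by decide) (by decide)
  have fg := e (u := .f) (v := .g) (by decide) (by decide) (by decide)
  have gj := e (u := .g) (v := .j) (by decide) (by decide) (by decide)
  have hi := e (u := .h) (v := .i) (by decide) (by decide) (by decide)
  cases x
  · rw [lk, ka]
  · rw [ka]
  · rfl
  · rw [← ab]
  · rw [← bc, ← ab]
  · rw [← cd, ← bc, ← ab]
  · rw [← de, ← cd, ← bc, ← ab]
  · rw [← ef, ← de, ← cd, ← bc, ← ab]
  · rw [← fg, ← ef, ← de, ← cd, ← bc, ← ab]
  · rw [← gj, ← fg, ← ef, ← de, ← cd, ← bc, ← ab]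
  · rw [← dh, ← cd, ← bc, ← ab]
  · rw [← hi, ← dh, ← cd, ← bc, ← ab]

open Cfsg.Spor in
/-- The sign homomorphism. -/
noncomputable def sgn : Fi24 →* ℤˣ :=
  PresentedGroup.toGroup (f := fun _ => (-1 : ℤˣ)) (by
    intro r hr
    rcases hr with ⟨x, -, y, -, rfl⟩ | hr
    · simp
    · simp only [Fi24.extra, Set.mem_ofPred_eq, List.mem_cons, List.not_mem_nil, or_false] at hr
      rcases hr with rfl | rfl
      · first | (simp; done) | (simp; decide)
      · first | (simp; done) | (simp; decide))

open Cfsg.Spor in
theorem sgn_gg (x : Fi24.Gen) : sgn (gg x) = -1 := by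
  simp [sgn, gg]

open Cfsg.Spor in
theorem ab_cases (b : Fi24) : Abelianization.of b = 1 ∨ Abelianization.of b = Abelianization.of (gg Fi24.Gen.a) := by
  have h1 := congrArg Abelianization.of (gg_sq Fi24.Gen.a)
  simp only [map_mul, map_one] at h1
  have hcl : Subgroup.closure (Set.range (PresentedGroup.of (rels := coxRelators Fi24.edges ∪ {r | r ∈ Fi24.extra}))) = ⊤ :=
    PresentedGroup.closure_range_of _
  have hb : b ∈ Subgroup.closure (Set.range (PresentedGroup.of (rels := coxRelators Fi24.edges ∪ {r | r ∈ Fi24.extra}))) := by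
    rw [hcl]; trivial
  induction hb using Subgroup.closure_induction with
  | mem x hx =>
    obtain ⟨y, rfl⟩ := hx
    right
    exact ab_all y
  | one => left; simp
  | mul u v _ _ hu hv =>
    rw [map_mul]
    rcases hu with hu | hu <;> rcases hv with hv | hv <;> rw [hu, hv]
    · left; simp
    · right; simp
    · right; simp
    · left; exact h1
  | inv u _ hu =>
    rw [map_inv]
    rcases hu with hu | hu <;> rw [hu]
    · left; simp
    · right
      exact inv_eq_of_mul_eq_one_left h1


/-- The commutator subgroup of the presented group Fi₂₄ has index 2 (the presented group is Fi₂₄′:2 with Fi₂₄′ its derived subgroup). -/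
theorem result : (commutator Cfsg.Spor.Fi24).index = 2 := by
  open Cfsg.Spor in
  rw [Subgroup.index_eq_two_iff]
  refine ⟨gg Fi24.Gen.a, fun b => ?_⟩
  have key : ∀ c : Fi24, c ∈ commutator Fi24 ↔ Abelianization.of c = 1 := by
    intro c
    exact (QuotientGroup.eq_one_iff c).symm
  have hsq := congrArg Abelianization.of (gg_sq Fi24.Gen.a)
  simp only [map_mul, map_one] at hsq
  have hna : Abelianization.of (gg Fi24.Gen.a) ≠ 1 := by
    intro h
    have h2 : gg Fi24.Gen.a ∈ commutator Fi24 := (key _).mpr h
    have h3 : commutator Fi24 ≤ sgn.ker := by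
      rw [commutator_eq_closure]
      rw [Subgroup.closure_le]
      rintro _ ⟨x, y, rfl⟩
      rw [SetLike.mem_coe, MonoidHom.mem_ker, commutatorElement_def]
      simp only [map_mul, map_inv]
      rw [mul_comm (sgn x) (sgn y)]
      simp only [Int.units_inv_eq_self]
      rw [mul_assoc (sgn y), Int.units_mul_self, mul_one, Int.units_mul_self]
    have h4 := h3 h2
    rw [MonoidHom.mem_ker, sgn_gg] at h4
    exact absurd h4 (by decide)
  rw [key, key, map_mul]
  rcases ab_cases b with h | h
  · rw [h, one_mul]
    exact Or.inr ⟨rfl, hna⟩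
  · rw [h]
    exact Or.inl ⟨hsq, hna⟩

end Cfsg.Agent.S1691
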