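import Cfsg.Statements.S1753

set_option autoImplicit false
universe u
open Cfsg

namespace Cfsg.Agent.S1753

/-- Let K be any property of groups. (1) If G is a minimal counterexample relative to K — a finite non-abelian simple group not satisfying K such that every finite non-abelian simple group of smaller order satisfies K — then every proper subgroup of G is a K-group (all its non-abelian simple sections satisfy K), since such sections have smaller order than G. (2) Consequently (induction on the order), if every finite non-abelian simple group all of whose proper subgroups are K-groups satisfies K, then every finite non-abelian simple group satisfies K. -/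
theorem result (K : ∀ (X : Type u) [Group X], Prop) :
    (∀ (G : Type u) [Group G], Cfsg.IsMinCounterexampleWith K G → Cfsg.IsKProperWith K G) ∧
      ((∀ (X : Type u) [Group X] [Finite X], IsSimpleGroup X → ¬ IsMulCommutative X → Cfsg.IsKProperWith K X → K X) →
        ∀ (G : Type u) [Group G] [Finite G], IsSimpleGroup G → ¬ IsMulCommutative G → K G) := by

  classical
  refine ⟨?_, ?_⟩
  · rintro G _ ⟨hfin, hs, hnc, hnK, hmin⟩ H hH S N _ hsimple hnab
    have hcard : Nat.card (S ⧸ N) < Nat.card G := by
      have h1 : Nat.card (S ⧸ N) ≤ Nat.card S := by
        rw [← Subgroup.index_eq_card]
        exact Nat.le_of_dvd Nat.card_pos N.index_dvd_card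
      have h2 : Nat.card S ≤ Nat.card H := Subgroup.card_le_card_group S
      have h3 : Nat.card H < Nat.card G := by
        by_contra hc
        exact hH (H.eq_top_of_le_card (not_lt.1 hc))
      omega
    exact hmin _ hsimple hnab hcard
  · intro hall G _ _ hs hnc
    induction' hn : Nat.card G using Nat.strong_induction_on with n ih generalizing G
    by_contra hK
    refine hK (hall G hs hnc ?_)
    rintro H hH S N _ hsimple hnab
    have hcard : Nat.card (S ⧸ N) < Nat.card G := by
      have h1 : Nat.card (S ⧸ N) ≤ Nat.card S := by
        rw [← Subgroup.index_eq_card]
        exact Nat.le_of_dvd Nat.card_pos N.index_dvd_card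
      have h2 : Nat.card S ≤ Nat.card H := Subgroup.card_le_card_group S
      have h3 : Nat.card H < Nat.card G := by
        by_contra hc
        exact hH (H.eq_top_of_le_card (not_lt.1 hc))
      omega
    exact ih _ (hn ▸ hcard) _ hsimple hnab rfl

end Cfsg.Agent.S1753
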