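import Cfsg.Statements.S1754
import Cfsg.Agent.Lib.H3.Comp

set_option autoImplicit false
open Cfsg

namespace Cfsg.Agent.S1754

/-- Let A be a standard subgroup of the finite group G (A quasisimple, C_G(A) tightly embedded of even order, A commuting elementwise with no other conjugate of itself, and N_G(A) = N_G(C_G(A))), and let t be an involution of G centralizing A. Then the centralizer of t lies in the normalizer of A; in particular A, viewed inside C_G(t), is a component of C_G(t). -/
theorem result {G : Type*} [Group G] [Finite G]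
    (A : Subgroup G) (hA : Cfsg.IsStandardSubgroup A) (t : G) (ht : orderOf t = 2) (htA : t ∈ Subgroup.centralizer (A : Set G)) :
    Subgroup.centralizer ({t} : Set G) ≤ Subgroup.normalizer (A : Set G) ∧
      Cfsg.IsComponent (A.subgroupOf (Subgroup.centralizer ({t} : Set G))) := by

  classical
  obtain ⟨hq, ⟨hev, hTE⟩, hcc, hnorm⟩ := hA
  have hle : Subgroup.centralizer ({t} : Set G) ≤ Subgroup.normalizer (A : Set G) := by
    intro g hg
    rw [hnorm]
    by_contra hgN
    have hodd := hTE g hgN
    have htK : t ∈ Subgroup.centralizer (A : Set G) ⊓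
        (Subgroup.centralizer (A : Set G)).map (MulAut.conj g).toMonoidHom := by
      refine Subgroup.mem_inf.2 ⟨htA, ⟨t, htA, ?_⟩⟩
      have := Subgroup.mem_centralizer_singleton_iff.1 hg
      simp only [MulEquiv.toMonoidHom_eq_coe, MonoidHom.coe_coe, MulAut.conj_apply]
      rw [this]; group
    have h2 : 2 ∣ Nat.card ↥(Subgroup.centralizer (A : Set G) ⊓
        (Subgroup.centralizer (A : Set G)).map (MulAut.conj g).toMonoidHom) := by
      have := orderOf_dvd_natCard (⟨t, htK⟩ : ↥(Subgroup.centralizer (A : Set G) ⊓
        (Subgroup.centralizer (A : Set G)).map (MulAut.conj g).toMonoidHom))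
      rwa [Subgroup.orderOf_mk, ht] at this
    obtain ⟨m, hm⟩ := hodd
    omega
  refine ⟨hle, ?_⟩
  have hAC : A ≤ Subgroup.centralizer ({t} : Set G) := by
    intro a ha
    rw [Subgroup.mem_centralizer_singleton_iff]
    exact (Subgroup.mem_centralizer_iff.1 htA a ha)
  refine ⟨?_, CfsgLib.Comp.quasi_of_mulEquiv (Subgroup.subgroupOfEquivOfLe hAC).symm hq⟩
  apply Subgroup.Normal.isSubnormal
  refine ⟨?_⟩
  intro n hn c
  rw [Subgroup.mem_subgroupOf] at hn ⊢
  exact (Subgroup.mem_normalizer_iff.1 (hle c.2) n).1 hn

end Cfsg.Agent.S1754
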