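import Cfsg.Statements.S1755
import Cfsg.Agent.Lib.H3.Comp2

set_option autoImplicit false
open Cfsg

namespace Cfsg.Agent.S1755

open Subgroup

theorem eq_of_two_of_cyclic {A : Type*} [Group A] [IsCyclic A] [Finite A] {a b : A}
    (ha : orderOf a = 2) (hb : orderOf b = 2) : a = b := by
  classical
  have : Fintype A := Fintype.ofFinite A
  have hd : 2 ∣ Fintype.card A := by
    rw [← ha, ← Nat.card_eq_fintype_card]
    exact orderOf_dvd_natCard a
  have h := IsCyclic.card_orderOf_eq_totient hd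
  have h2 : Nat.totient 2 = 1 := by decide
  rw [h2] at h
  have h3 := Finset.card_le_one.1 (le_of_eq h)
  exact h3 a (by simpa using ha) b (by simpa using hb)

theorem ord_two {A : Type*} [Group A] {a : A} (h2 : a ^ 2 = 1) (h1 : a ≠ 1) : orderOf a = 2 :=
  orderOf_eq_prime h2 h1

theorem exists_pow_invol {X : Type*} [Group X] (y : X) (n : ℕ) (hy : y ^ (2 ^ n) = 1) (h1 : y ≠ 1) :
    ∃ k : ℕ, (y ^ k) ^ 2 = 1 ∧ y ^ k ≠ 1 := by
  induction n generalizing y with
  | zero => exact absurd (by simpa using hy) h1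
  | succ n ih =>
    by_cases h2 : y ^ 2 = 1
    · exact ⟨1, by simpa using h2, by simpa using h1⟩
    · obtain ⟨k, hk1, hk2⟩ := ih (y ^ 2) (by rw [← pow_mul, ← pow_succ']; exact hy) h2
      exact ⟨2 * k, by rwa [pow_mul], by rwa [pow_mul]⟩

theorem key {C : Type*} [Group C] [Finite C] (Q : Subgroup C) (hQ : Cfsg.IsOfSymplecticType ↥Q)
    (B : Subgroup ↥Q) (hBc : B.Characteristic) (hBa : IsMulCommutative ↥B) (z₁ : ↥Q)
    (hz₁c : ∀ q : ↥Q, q * z₁ = z₁ * q) (hz₁ : orderOf z₁ = 2) :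
    ∀ u ∈ B, orderOf u = 2 → u = z₁ := by
  classical
  haveI hBcyc : IsCyclic ↥B := hQ.2 B hBc hBa
  haveI hBn : B.Normal := Subgroup.normal_of_characteristic B
  intro u hu hu2
  have hucentral : u ∈ center ↥Q := by
    rw [mem_center_iff]
    intro q
    have h1 : q * u * q⁻¹ ∈ B := hBn.conj_mem u hu q
    have h2 : orderOf (q * u * q⁻¹) = 2 := by
      have := MulEquiv.orderOf_eq (MulAut.conj q) u
      simpa [hu2] using this
    have h3 : (⟨q * u * q⁻¹, h1⟩ : ↥B) = ⟨u, hu⟩ :=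
      eq_of_two_of_cyclic (by rw [Subgroup.orderOf_mk]; exact h2) (by rw [Subgroup.orderOf_mk]; exact hu2)
    have h4 : q * u * q⁻¹ = u := congrArg Subtype.val h3
    have := congrArg (· * q) h4
    simpa using this
  have hzcentral : z₁ ∈ center ↥Q := by
    rw [mem_center_iff]
    intro q
    exact hz₁c q
  haveI hcyc : IsCyclic ↥(center ↥Q) := hQ.2 (center ↥Q) inferInstance inferInstance
  have h5 : (⟨u, hucentral⟩ : ↥(center ↥Q)) = ⟨z₁, hzcentral⟩ :=
    eq_of_two_of_cyclic (by rw [Subgroup.orderOf_mk]; exact hu2) (by rw [Subgroup.orderOf_mk]; exact hz₁)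
  exact congrArg Subtype.val h5

theorem generic {G : Type*} [Group G] [Finite G] (z : G) (hz : orderOf z = 2)
    (Q : Subgroup ↥(Subgroup.centralizer ({z} : Set G))) (hQn : Q.Normal)
    (hz₀Q : (⟨z, mem_centralizer_singleton_iff.2 rfl⟩ : ↥(Subgroup.centralizer ({z} : Set G))) ∈ Q)
    (hQ : Cfsg.IsOfSymplecticType ↥Q)
    (B : Subgroup ↥Q) (hBc : B.Characteristic) (hBa : IsMulCommutative ↥B) (g : G) :
    ((B.map Q.subtype).map (Subgroup.centralizer ({z} : Set G)).subtype).map (MulAut.conj g).toMonoidHom =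
        (B.map Q.subtype).map (Subgroup.centralizer ({z} : Set G)).subtype ∨
      ((B.map Q.subtype).map (Subgroup.centralizer ({z} : Set G)).subtype).map (MulAut.conj g).toMonoidHom ⊓
        (B.map Q.subtype).map (Subgroup.centralizer ({z} : Set G)).subtype = ⊥ := by
  classical
  obtain ⟨B₀, hB₀⟩ : ∃ B₀, B₀ = (B.map Q.subtype).map (Subgroup.centralizer ({z} : Set G)).subtype := ⟨_, rfl⟩
  rw [← hB₀]
  let z₁ : ↥Q := ⟨⟨z, mem_centralizer_singleton_iff.2 rfl⟩, hz₀Q⟩
  have hz₁o : orderOf z₁ = 2 := by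
    rw [Subgroup.orderOf_mk, Subgroup.orderOf_mk]; exact hz
  have hz₁c : ∀ q : ↥Q, q * z₁ = z₁ * q := by
    rintro ⟨⟨q, hq⟩, hq'⟩
    apply Subtype.ext
    apply Subtype.ext
    exact mem_centralizer_singleton_iff.1 hq
  have hkey := key Q hQ B hBc hBa z₁ hz₁c hz₁o
  -- involutions in B₀ equal z
  have hinvol : ∀ w ∈ B₀, w ^ 2 = 1 → w ≠ 1 → w = z := by
    intro w hw hw2 hw1
    rw [hB₀] at hw
    obtain ⟨c, ⟨u, hu, rfl⟩, rfl⟩ := hw
    have h1 : orderOf u = 2 := by
      apply orderOf_eq_prime _ _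
      · apply Subtype.ext
        apply Subtype.ext
        simpa using hw2
      · rintro rfl
        exact hw1 (by simp)
    have h2 := hkey u hu h1
    rw [h2]
    rfl
  have hpow : ∀ w ∈ B₀, w ≠ 1 → ∃ k : ℕ, (w ^ k) ^ 2 = 1 ∧ w ^ k ≠ 1 := by
    intro w hw hw1
    rw [hB₀] at hw
    obtain ⟨c, ⟨u, hu, rfl⟩, rfl⟩ := hw
    obtain ⟨n, hn⟩ := hQ.1 u
    have hn' : (((u : ↥(Subgroup.centralizer ({z} : Set G))) : G)) ^ (2 ^ n) = 1 := by
      have := congrArg (fun x : ↥Q => ((x : ↥(Subgroup.centralizer ({z} : Set G))) : G)) hn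
      simpa using this
    exact exists_pow_invol _ n hn' hw1
  by_cases hg : B₀.map (MulAut.conj g).toMonoidHom = B₀
  · exact Or.inl hg
  right
  rw [eq_bot_iff]
  intro x hx
  rw [mem_bot]
  by_contra hne
  obtain ⟨hx1, hx2⟩ := mem_inf.1 hx
  obtain ⟨k, hk1, hk2⟩ := hpow x hx2 hne
  have hw : x ^ k = z := hinvol _ (B₀.pow_mem hx2 k) hk1 hk2
  have hx1' : x ^ k ∈ B₀.map (MulAut.conj g).toMonoidHom := Subgroup.pow_mem _ hx1 k
  obtain ⟨b, hb, hbx⟩ := hx1'
  have hbx' : g * b * g⁻¹ = x ^ k := hbx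
  have hb2 : b ^ 2 = 1 := by
    have h1 : (g * b * g⁻¹) ^ 2 = 1 := by rw [hbx']; exact hk1
    rw [conj_pow] at h1
    have := congrArg (fun y => g⁻¹ * y * g) h1
    simpa [mul_assoc] using this
  have hb1 : b ≠ 1 := by
    rintro rfl
    apply hk2
    rw [← hbx']; simp
  have hbz := hinvol b hb hb2 hb1
  rw [hbz, hw] at hbx'
  -- so g centralizes z
  have hgC : g ∈ Subgroup.centralizer ({z} : Set G) := by
    rw [mem_centralizer_singleton_iff]
    have := congrArg (· * g) hbx'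
    simpa using this
  apply hg
  apply Subgroup.eq_of_le_of_card_ge
  · rintro _ ⟨y, hy, rfl⟩
    rw [hB₀] at hy ⊢
    obtain ⟨c, ⟨u, hu, rfl⟩, rfl⟩ := hy
    haveI := hQn
    have hu' : (MulAut.conjNormal (⟨g, hgC⟩ : ↥(Subgroup.centralizer ({z} : Set G))) : MulAut ↥Q) u ∈ B := by
      have h1 := hBc.fixed (MulAut.conjNormal (⟨g, hgC⟩ : ↥(Subgroup.centralizer ({z} : Set G))) : MulAut ↥Q)
      have h2 : u ∈ B.comap (MulAut.conjNormal (⟨g, hgC⟩ : ↥(Subgroup.centralizer ({z} : Set G))) : MulAut ↥Q).toMonoidHom := by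
        rw [h1]; exact hu
      exact h2
    refine ⟨_, ⟨_, hu', rfl⟩, ?_⟩
    simp [MulAut.conjNormal_apply]
  · rw [Subgroup.card_map_of_injective (MulAut.conj g).injective]

/-- Let G be a finite group and let z be an involution of G such that Q, the generalized Fitting subgroup of the centralizer C of z, is a 2-group of symplectic type (every characteristic abelian subgroup of Q is cyclic). Let B be a characteristic abelian subgroup of Q, viewed as a subgroup of G. Then for every g in G, the conjugate of B by g either equals B or meets B trivially. -/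
theorem result {G : Type*} [Group G] [Finite G] (z : G) (hz : orderOf z = 2) (hQ : Cfsg.IsOfSymplecticType ↥(Cfsg.generalizedFittingSubgroup ↥(Subgroup.centralizer ({z} : Set G))))
    (B : Subgroup ↥(Cfsg.generalizedFittingSubgroup ↥(Subgroup.centralizer ({z} : Set G)))) (hBc : B.Characteristic) (hBa : IsMulCommutative ↥B) (g : G) :
    ((B.map (Cfsg.generalizedFittingSubgroup ↥(Subgroup.centralizer ({z} : Set G))).subtype).map (Subgroup.centralizer ({z} : Set G)).subtype).map (MulAut.conj g).toMonoidHom =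
        (B.map (Cfsg.generalizedFittingSubgroup ↥(Subgroup.centralizer ({z} : Set G))).subtype).map (Subgroup.centralizer ({z} : Set G)).subtype ∨
      ((B.map (Cfsg.generalizedFittingSubgroup ↥(Subgroup.centralizer ({z} : Set G))).subtype).map (Subgroup.centralizer ({z} : Set G)).subtype).map (MulAut.conj g).toMonoidHom ⊓
        (B.map (Cfsg.generalizedFittingSubgroup ↥(Subgroup.centralizer ({z} : Set G))).subtype).map (Subgroup.centralizer ({z} : Set G)).subtype = ⊥ := by
  refine generic z hz _ inferInstance ?_ hQ B hBc hBa g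
  -- z lies in the Fitting subgroup of its centralizer
  obtain ⟨z₀, hz₀⟩ : ∃ z₀ : ↥(Subgroup.centralizer ({z} : Set G)), z₀ = ⟨z, mem_centralizer_singleton_iff.2 rfl⟩ := ⟨_, rfl⟩
  rw [← hz₀]
  have hc : ∀ c : ↥(Subgroup.centralizer ({z} : Set G)), c * z₀ = z₀ * c := by
    rintro ⟨c, hc⟩
    rw [hz₀]
    apply Subtype.ext
    exact mem_centralizer_singleton_iff.1 hc
  haveI hn : (zpowers z₀).Normal := by
    refine ⟨?_⟩
    rintro _ ⟨k, rfl⟩ c
    refine ⟨k, ?_⟩
    have : c * z₀ * c⁻¹ = z₀ := by rw [hc c]; group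
    show z₀ ^ k = c * z₀ ^ k * c⁻¹
    rw [← conj_zpow, this]
  have hnil : Group.IsNilpotent ↥(zpowers z₀) := by
    apply CfsgLib.Comp.nilpotent_of_forall_comm
    rintro ⟨_, a, rfl⟩ ⟨_, b, rfl⟩
    apply Subtype.ext
    show z₀ ^ a * z₀ ^ b = z₀ ^ b * z₀ ^ a
    exact zpow_mul_comm z₀ a b
  have := CfsgLib.Solv.le_fittingSubgroup' (zpowers z₀) hnil
  exact (le_sup_right : Cfsg.fittingSubgroup ↥(Subgroup.centralizer ({z} : Set G)) ≤
    Cfsg.generalizedFittingSubgroup ↥(Subgroup.centralizer ({z} : Set G))) (this (mem_zpowers z₀))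

end Cfsg.Agent.S1755
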