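import Cfsg.Statements.S1757

set_option autoImplicit false
open Cfsg

namespace Cfsg.Agent.S1757

/-- Let p be a prime and A, B p-subgroups of the finite group G, each of which meets every conjugate of itself other than itself trivially. Suppose the order of A is at most that of B, A and B intersect trivially, and B normalizes A. Then A and B commute elementwise. -/
theorem result {G : Type*} [Group G] [Finite G] (p : ℕ) [Fact p.Prime] (A B : Subgroup G)
    (hA : IsPGroup p ↥A) (hB : IsPGroup p ↥B)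
    (hAti : ∀ g : G, A.map (MulAut.conj g).toMonoidHom = A ∨ A.map (MulAut.conj g).toMonoidHom ⊓ A = ⊥)
    (hBti : ∀ g : G, B.map (MulAut.conj g).toMonoidHom = B ∨ B.map (MulAut.conj g).toMonoidHom ⊓ B = ⊥)
    (hle : Nat.card ↥A ≤ Nat.card ↥B) (hAB : A ⊓ B = ⊥) (hN : B ≤ Subgroup.normalizer (A : Set G)) : ⁅A, B⁆ = ⊥ := by

  classical
  rw [Subgroup.commutator_eq_bot_iff_le_centralizer]
  by_contra hne
  obtain ⟨A₀, hA₀⟩ : ∃ A₀ : Subgroup G, A₀ = A ⊓ Subgroup.centralizer (B : Set G) := ⟨_, rfl⟩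
  have hA₀A : A₀ ≤ A := by rw [hA₀]; exact inf_le_left
  have hBnA₀ : B ≤ Subgroup.normalizer (A₀ : Set G) := by
    intro b hb
    rw [Subgroup.mem_normalizer_iff]
    intro x
    have hcomm : ∀ y ∈ A₀, b * y = y * b := by
      intro y hy
      rw [hA₀] at hy
      exact ((Subgroup.mem_centralizer_iff.1 hy.2) b hb)
    constructor
    · intro hx
      rw [hcomm x hx]; simpa using hx
    · intro hx
      have := hcomm _ hx
      have e : x = b * x * b⁻¹ := by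
        have h2 : b * (b * x * b⁻¹) = (b * x * b⁻¹) * b := this
        have h3 : b * x * b⁻¹ = b * (b * x * b⁻¹) * b⁻¹ := by
          rw [h2]; simp
        have h4 : b * (b * x * b⁻¹) * b⁻¹ = b * (b * x * b⁻¹ * b⁻¹) := by group
        rw [h4] at h3
        have h5 := mul_left_cancel (a := b) (b := x * b⁻¹) (c := b * x * b⁻¹ * b⁻¹) (by
          calc b * (x * b⁻¹) = b * x * b⁻¹ := by group
            _ = _ := h3)
        have h6 := mul_right_cancel (b := b⁻¹) h5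
        exact h6
      rw [e]; exact hx
  have hMA : ∀ a ∈ A, a ∈ A₀ ⊔ B → a ∈ A₀ := by
    intro a ha hm
    have hm' : a ∈ ((A₀ ⊔ B : Subgroup G) : Set G) := hm
    rw [Subgroup.coe_mul_of_right_le_normalizer_left A₀ B hBnA₀] at hm'
    obtain ⟨a₀, ha₀, b, hb, rfl⟩ := Set.mem_mul.1 hm'
    have hbA : b ∈ A := by
      have : b = a₀⁻¹ * (a₀ * b) := by group
      rw [this]; exact A.mul_mem (A.inv_mem (hA₀A ha₀)) ha
    have hb1 : b = 1 := by
      have : b ∈ A ⊓ B := ⟨hbA, hb⟩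
      rw [hAB] at this; simpa using this
    rw [hb1, mul_one]; exact ha₀
  have hnA : A₀ ≠ A := by
    intro h
    apply hne
    rw [← h, hA₀] 
    intro y hy
    exact hy.2
  have hLp : IsPGroup p ↥(A ⊔ B) := hA.to_sup_of_normal_left' hB hN
  haveI hnil : Group.IsNilpotent ↥(A ⊔ B) := hLp.isNilpotent
  have hle1 : A₀ ⊔ B ≤ A ⊔ B := sup_le_sup_right hA₀A B
  have hM'top : (A₀ ⊔ B).subgroupOf (A ⊔ B) < ⊤ := by
    rw [lt_top_iff_ne_top]
    intro htop
    apply hnA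
    apply le_antisymm hA₀A
    intro a ha
    apply hMA a ha
    have h1 : (⟨a, (le_sup_left : A ≤ A ⊔ B) ha⟩ : ↥(A ⊔ B)) ∈ (A₀ ⊔ B).subgroupOf (A ⊔ B) := by
      rw [htop]; trivial
    simpa [Subgroup.mem_subgroupOf] using h1
  have hcond := Group.normalizerCondition_of_isNilpotent (G := ↥(A ⊔ B)) _ hM'top
  obtain ⟨x, hxN, hxM⟩ := SetLike.exists_of_lt hcond
  have hx : (x : G) ∈ ((A ⊔ B : Subgroup G) : Set G) := x.2
  rw [Subgroup.coe_mul_of_right_le_normalizer_left A B hN] at hx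
  obtain ⟨a, ha, b, hb, hxab⟩ := Set.mem_mul.1 hx
  have hbM : b ∈ A₀ ⊔ B := (le_sup_right : B ≤ A₀ ⊔ B) hb
  have haA₀ : a ∉ A₀ := by
    intro hh
    apply hxM
    rw [Subgroup.mem_subgroupOf, ← hxab]
    exact (A₀ ⊔ B).mul_mem ((le_sup_left : A₀ ≤ A₀ ⊔ B) hh) hbM
  have hxnorm : ∀ m ∈ A₀ ⊔ B, (x : G)⁻¹ * m * x ∈ A₀ ⊔ B := by
    intro m hm
    have h1 := (Subgroup.mem_normalizer_iff''.1 hxN) ⟨m, hle1 hm⟩
    rw [Subgroup.mem_subgroupOf, Subgroup.mem_subgroupOf] at h1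
    exact h1.1 hm
  have hcM : ∀ m ∈ A₀ ⊔ B, a * m * a⁻¹ ∈ A₀ ⊔ B ∨ True := fun _ _ => Or.inr trivial
  have hainv : ∀ b' ∈ B, a⁻¹ * b' * a ∈ A₀ ⊔ B := by
    intro b' hb'
    -- a = x b⁻¹
    have e : a⁻¹ * b' * a = b * ((x : G)⁻¹ * b' * x) * b⁻¹ := by
      rw [← hxab]; group
    rw [e]
    exact (A₀ ⊔ B).mul_mem ((A₀ ⊔ B).mul_mem hbM (hxnorm _ ((le_sup_right : B ≤ A₀ ⊔ B) hb'))) ((A₀ ⊔ B).inv_mem hbM)
  have hc : ∀ b' ∈ B, a⁻¹ * b' * a * b'⁻¹ ∈ A₀ := by
    intro b' hb'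
    apply hMA
    · have hh := (Subgroup.mem_normalizer_iff.1 (hN hb') a).1 ha
      have e : a⁻¹ * b' * a * b'⁻¹ = a⁻¹ * (b' * a * b'⁻¹) := by group
      rw [e]; exact A.mul_mem (A.inv_mem ha) hh
    · exact (A₀ ⊔ B).mul_mem (hainv b' hb') ((le_sup_right : B ≤ A₀ ⊔ B) (B.inv_mem hb'))
  -- a does not normalize B
  have hnB : B.map (MulAut.conj a).toMonoidHom ≠ B := by
    intro hh
    apply haA₀
    rw [hA₀]
    refine Subgroup.mem_inf.2 ⟨ha, Subgroup.mem_centralizer_iff.2 ?_⟩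
    intro b' hb'
    have h1 : a * b' * a⁻¹ ∈ B := by
      rw [← hh]
      exact ⟨b', hb', by simp⟩
    have h2 : b' * a * b'⁻¹ ∈ A := (Subgroup.mem_normalizer_iff.1 (hN hb') a).1 ha
    have h3 : a * b' * a⁻¹ * b'⁻¹ ∈ B := B.mul_mem h1 (B.inv_mem hb')
    have h4 : a * b' * a⁻¹ * b'⁻¹ ∈ A := by
      have e : a * b' * a⁻¹ * b'⁻¹ = a * (b' * a * b'⁻¹)⁻¹ := by group
      rw [e]; exact A.mul_mem ha (A.inv_mem h2)
    have h5 : a * b' * a⁻¹ * b'⁻¹ ∈ A ⊓ B := ⟨h4, h3⟩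
    rw [hAB] at h5
    have h6 : a * b' * a⁻¹ * b'⁻¹ = 1 := by simpa using h5
    have h7 : a * b' * a⁻¹ = b' := by
      have := congrArg (· * b') h6
      simpa using this
    have h8 : a * b' = b' * a := by
      have := congrArg (· * a) h7
      simpa using this
    exact h8.symm
  have hti := (hBti a).resolve_left hnB
  let f : ↥B → ↥A₀ := fun b' => ⟨a⁻¹ * b' * a * (b' : G)⁻¹, hc b' b'.2⟩
  have hf : Function.Injective f := by
    rintro ⟨u, hu⟩ ⟨v, hv⟩ huv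
    have h1 : a⁻¹ * u * a * u⁻¹ = a⁻¹ * v * a * v⁻¹ := congrArg Subtype.val huv
    have h2 : u * a * u⁻¹ = v * a * v⁻¹ := by
      have := congrArg (a * ·) h1
      simpa [mul_assoc] using this
    -- y = v⁻¹ u commutes with a
    have h3 : a * (v⁻¹ * u) * a⁻¹ = v⁻¹ * u := by
      have h4 : (v⁻¹ * u) * a = a * (v⁻¹ * u) := by
        have h5 : u * a = v * a * v⁻¹ * u := by
          rw [← h2]; group
        calc (v⁻¹ * u) * a = v⁻¹ * (u * a) := by group
          _ = v⁻¹ * (v * a * v⁻¹ * u) := by rw [h5]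
          _ = _ := by group
      rw [← h4]; group
    have h6 : v⁻¹ * u ∈ B.map (MulAut.conj a).toMonoidHom ⊓ B := by
      refine ⟨⟨v⁻¹ * u, B.mul_mem (B.inv_mem hv) hu, ?_⟩, B.mul_mem (B.inv_mem hv) hu⟩
      simpa using h3
    rw [hti] at h6
    have h7 : v⁻¹ * u = 1 := by simpa using h6
    have h8 : u = v := by
      have := congrArg (v * ·) h7
      simpa using this
    exact Subtype.ext h8
  have hcard : Nat.card B ≤ Nat.card A₀ := Nat.card_le_card_of_injective f hf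
  apply hnA
  apply Subgroup.eq_of_le_of_card_ge hA₀A
  omega

end Cfsg.Agent.S1757
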