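import Cfsg.Statements.S1780

set_option autoImplicit false
open Cfsg

namespace Cfsg.Agent.S1780

/-- Let A be a finite abelian 2-group and t an automorphism of A whose order is a power of 2. If every element of A fixed by t² is fixed by t, then t fixes every element of A. -/
theorem result {A : Type*} [CommGroup A] [Finite A]
    (hA : IsPGroup 2 A) (t : MulAut A) (ht : ∃ k : ℕ, orderOf t = 2 ^ k) (hC : ∀ a : A, t (t a) = a → t a = a) :
    ∀ a : A, t a = a := by

  obtain ⟨k, hk⟩ := ht
  have hV : ∀ (j : ℕ) (x : A), x ^ 2 = 1 → (t ^ (2 ^ j)) x = x → t x = x := by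
    intro j
    induction j with
    | zero => intro x _ h; simpa using h
    | succ j ih =>
      intro x hx hs
      obtain ⟨s, hsdef⟩ : ∃ s : MulAut A, s = t ^ (2 ^ j) := ⟨_, rfl⟩
      have hss : s (s x) = x := by
        have : t ^ (2 ^ (j + 1)) = s * s := by rw [hsdef, pow_succ, pow_mul, pow_two]
        rw [this] at hs
        simpa [MulAut.mul_apply] using hs
      have hst : ∀ y, s (t y) = t (s y) := by
        intro y
        have : s * t = t * s := by
          rw [hsdef]; exact (Commute.pow_left (Commute.refl t) _).eq
        exact congrArg (fun f : MulAut A => f y) this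
      have hxi : x⁻¹ = x := by
        rw [inv_eq_iff_mul_eq_one, ← pow_two]; exact hx
      have hsx : (s x) ^ 2 = 1 := by rw [← map_pow, hx, map_one]
      have hsxi : (s x)⁻¹ = s x := by
        rw [inv_eq_iff_mul_eq_one, ← pow_two]; exact hsx
      have htx : (t x) ^ 2 = 1 := by rw [← map_pow, hx, map_one]
      have htxi : (t x)⁻¹ = t x := by
        rw [inv_eq_iff_mul_eq_one, ← pow_two]; exact htx
      -- y = s x * x is fixed by s, hence by t
      have hy2 : (s x * x) ^ 2 = 1 := by rw [mul_pow, hsx, hx, one_mul]
      have hy : t (s x * x) = s x * x := by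
        apply ih _ hy2
        rw [← hsdef, map_mul, hss, mul_comm]
      -- z = t x * x is fixed by s
      have hz2 : (t x * x) ^ 2 = 1 := by rw [mul_pow, htx, hx, one_mul]
      have hz : (t ^ (2 ^ j)) (t x * x) = t x * x := by
        rw [← hsdef, map_mul, hst]
        rw [map_mul] at hy
        -- t (s x) * t x = s x * x
        have h1 : t (s x) = s x * x * (t x)⁻¹ := by rw [← hy]; simp
        rw [h1, htxi]
        calc s x * x * t x * s x = (s x * s x) * (t x * x) := by
              simp [mul_comm, mul_left_comm, mul_assoc]
          _ = t x * x := by rw [← pow_two, hsx, one_mul]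
      have hz' : t (t x * x) = t x * x := ih _ hz2 hz
      rw [map_mul] at hz'
      -- t t x * t x = t x * x
      have hfin : t (t x) = x := by
        have h1 : t (t x) = t x * x * (t x)⁻¹ := by rw [← hz']; simp
        rw [h1]; simp [mul_comm, mul_left_comm, mul_assoc]
      exact hC x hfin
  have hbase : ∀ x : A, x ^ 2 = 1 → t x = x := by
    intro x hx
    apply hV k x hx
    rw [← hk, pow_orderOf_eq_one]; rfl
  have hall : ∀ (n : ℕ) (a : A), a ^ (2 ^ n) = 1 → t a = a := by
    intro n
    induction n with
    | zero => intro a ha; have : a = 1 := by simpa using ha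
              rw [this, map_one]
    | succ n ih =>
      intro a ha
      have h2 : t (a ^ 2) = a ^ 2 := by
        apply ih
        rw [← pow_mul, ← pow_succ']; exact ha
      have hx2 : (t a * a⁻¹) ^ 2 = 1 := by
        rw [mul_pow, inv_pow, ← map_pow, h2]; simp
      have hx := hbase _ hx2
      apply hC
      rw [map_mul, map_inv] at hx
      have h3 : t (t a) = t a * a⁻¹ * t a := by rw [← hx]; simp
      rw [h3]
      rw [map_pow, pow_two, pow_two] at h2
      have : t a * a⁻¹ * t a = (t a * t a) * a⁻¹ := by
        simp [mul_comm, mul_left_comm, mul_assoc]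
      rw [this, h2]; simp
  intro a
  obtain ⟨n, hn⟩ := hA a
  exact hall n a hn

end Cfsg.Agent.S1780
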