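import Cfsg.Statements.S1781
import Cfsg.Agent.S1757
import Cfsg.Agent.S1780

set_option autoImplicit false
open Cfsg

namespace Cfsg.Agent.S1781

/-- Let A be an abelian 2-subgroup of the finite group G such that every conjugate of A equals A or meets A trivially, and let g ∈ G with g A g⁻¹ ≠ A. Then either the subgroup of those elements of A that normalize g A g⁻¹ is an elementary abelian 2-group, or A and g A g⁻¹ commute elementwise. -/
theorem result {G : Type*} [Group G] [Finite G] (A : Subgroup G)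
    (hA2 : IsPGroup 2 ↥A) (hAa : IsMulCommutative ↥A)
    (hti : ∀ h : G, A.map (MulAut.conj h).toMonoidHom = A ∨ A.map (MulAut.conj h).toMonoidHom ⊓ A = ⊥)
    (g : G) (hg : A.map (MulAut.conj g).toMonoidHom ≠ A) :
    Cfsg.IsElementaryAbelian 2 (A ⊓ Subgroup.normalizer ((A.map (MulAut.conj g).toMonoidHom : Subgroup G) : Set G)) ∨
      ⁅A, A.map (MulAut.conj g).toMonoidHom⁆ = ⊥ := by

  classical
  by_cases hall : ∀ a ∈ A ⊓ Subgroup.normalizer ((A.map (MulAut.conj g).toMonoidHom : Subgroup G) : Set G), a ^ 2 = 1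
  · left
    refine ⟨⟨⟨?_⟩⟩, hall⟩
    rintro ⟨u, hu⟩ ⟨v, hv⟩
    have := hAa.is_comm.comm ⟨u, hu.1⟩ ⟨v, hv.1⟩
    have h : u * v = v * u := congrArg Subtype.val this
    exact Subtype.ext h
  right
  push Not at hall
  obtain ⟨x, hx, hx2⟩ := hall
  obtain ⟨hxA, hxN⟩ := Subgroup.mem_inf.1 hx
  obtain ⟨B, hBdef⟩ : ∃ B : Subgroup G, B = A.map (MulAut.conj g).toMonoidHom := ⟨_, rfl⟩
  rw [← hBdef] at hxN hg ⊢
  have hAB : A ⊓ B = ⊥ := by
    have := (hti g).resolve_left (by rw [← hBdef]; exact hg)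
    rw [← hBdef, inf_comm] at this
    exact this
  have hcomm : ∀ u ∈ A, ∀ v ∈ A, u * v = v * u := by
    intro u hu v hv
    have := hAa.is_comm.comm ⟨u, hu⟩ ⟨v, hv⟩
    exact congrArg Subtype.val this
  have hBmem : ∀ y, y ∈ B ↔ g⁻¹ * y * g ∈ A := by
    intro y
    rw [hBdef]
    constructor
    · rintro ⟨a, ha, rfl⟩
      simpa [mul_assoc] using ha
    · intro h
      exact ⟨_, h, by simp [mul_assoc]⟩
  have hB2 : IsPGroup 2 ↥B := by
    rintro ⟨y, hy⟩
    obtain ⟨n, hn⟩ := hA2 ⟨_, (hBmem y).1 hy⟩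
    refine ⟨n, Subtype.ext ?_⟩
    have h1 : (g⁻¹ * y * g) ^ (2 ^ n) = 1 := congrArg Subtype.val hn
    have h2 : (g⁻¹ * y * g) ^ (2 ^ n) = g⁻¹ * y ^ (2 ^ n) * g := by
      have := conj_pow (a := g⁻¹) (b := y) (i := 2 ^ n)
      simpa using this
    rw [h2] at h1
    have h3 : y ^ (2 ^ n) = 1 := by
      have := congrArg (fun z => g * z * g⁻¹) h1
      simpa [mul_assoc] using this
    simpa using h3
  have hBcomm : ∀ u ∈ B, ∀ v ∈ B, u * v = v * u := by
    intro u hu v hv
    have := hcomm _ ((hBmem u).1 hu) _ ((hBmem v).1 hv)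
    have h2 := congrArg (fun z => g * z * g⁻¹) this
    simpa [mul_assoc] using h2
  have hAnorm : ∀ y ∈ B, y * x ^ 2 * y⁻¹ = x ^ 2 ∨ True := fun _ _ => Or.inr trivial
  -- conjugating by an element moving no nontrivial element of A normalizes A
  have hfixA : ∀ (y z : G), z ∈ A → z ≠ 1 → y * z * y⁻¹ = z → ∀ a ∈ A, y * a * y⁻¹ ∈ A := by
    intro y z hz hz1 hyz a ha
    have hh : A.map (MulAut.conj y).toMonoidHom = A := by
      refine (hti y).resolve_right ?_
      intro hbot
      apply hz1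
      have : z ∈ A.map (MulAut.conj y).toMonoidHom ⊓ A :=
        Subgroup.mem_inf.2 ⟨⟨z, hz, by simpa using hyz⟩, hz⟩
      rw [hbot] at this
      simpa using this
    rw [← hh]
    exact ⟨a, ha, by simp⟩
  -- the action of x on B
  have hxB : ∀ y ∈ B, x * y * x⁻¹ ∈ B := fun y hy => (Subgroup.mem_normalizer_iff.1 hxN y).1 hy
  have hxB' : ∀ y ∈ B, x⁻¹ * y * x ∈ B := by
    intro y hy
    have := (Subgroup.mem_normalizer_iff.1 ((Subgroup.normalizer (B : Set G)).inv_mem hxN) y).1 hy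
    simpa using this
  letI instC : CommGroup ↥B :=
    { (inferInstance : Group ↥B) with
      mul_comm := fun u v => Subtype.ext (hBcomm _ u.2 _ v.2) }
  let t : MulAut ↥B :=
    { toFun := fun y => ⟨x * y * x⁻¹, hxB y y.2⟩
      invFun := fun y => ⟨x⁻¹ * y * x, hxB' y y.2⟩
      left_inv := by intro y; apply Subtype.ext; simp [mul_assoc]
      right_inv := by intro y; apply Subtype.ext; simp [mul_assoc]
      map_mul' := by
        intro u v
        apply Subtype.ext
        show x * ((u : G) * v) * x⁻¹ = (x * u * x⁻¹) * (x * v * x⁻¹)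
        group }
  have ht : ∀ (n : ℕ) (y : ↥B), (((t ^ n) y : ↥B) : G) = x ^ n * y * (x ^ n)⁻¹ := by
    intro n
    induction n with
    | zero => intro y; simp
    | succ n ih =>
      intro y
      rw [pow_succ, MulAut.mul_apply, ih]
      show x ^ n * (x * y * x⁻¹) * (x ^ n)⁻¹ = _
      rw [pow_succ]; group
  obtain ⟨n, hn⟩ := hA2 ⟨x, hxA⟩
  have hxn : x ^ (2 ^ n) = 1 := congrArg Subtype.val hn
  have htord : ∃ k : ℕ, orderOf t = 2 ^ k := by
    have h1 : t ^ (2 ^ n) = 1 := by
      ext y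
      rw [ht, hxn]; simp
    obtain ⟨k, _, hk⟩ := (Nat.dvd_prime_pow Nat.prime_two).1 (orderOf_dvd_of_pow_eq_one h1)
    exact ⟨k, hk⟩
  have hfix : ∀ y : ↥B, t y = y := by
    refine Cfsg.Agent.S1780.result (A := ↥B) hB2 t htord ?_
    rintro ⟨y, hy⟩ hyy
    have h1 : x * (x * y * x⁻¹) * x⁻¹ = y := congrArg Subtype.val hyy
    have h2 : y * x ^ 2 * y⁻¹ = x ^ 2 := by
      have h3 : x ^ 2 * y = y * x ^ 2 := by
        calc x ^ 2 * y = (x * (x * y * x⁻¹) * x⁻¹) * x ^ 2 := by rw [pow_two]; group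
          _ = y * x ^ 2 := by rw [h1]
      rw [← h3]; group
    have h4 := hfixA y (x ^ 2) (A.pow_mem hxA 2) hx2 h2
    apply Subtype.ext
    show x * y * x⁻¹ = y
    have h5 : x * y * x⁻¹ * y⁻¹ ∈ B := B.mul_mem (hxB y hy) (B.inv_mem hy)
    have h6 : x * y * x⁻¹ * y⁻¹ ∈ A := by
      have e : x * y * x⁻¹ * y⁻¹ = x * (y * x⁻¹ * y⁻¹) := by group
      rw [e]; exact A.mul_mem hxA (h4 _ (A.inv_mem hxA))
    have h7 : x * y * x⁻¹ * y⁻¹ ∈ A ⊓ B := ⟨h6, h5⟩
    rw [hAB] at h7
    have h8 : x * y * x⁻¹ * y⁻¹ = 1 := by simpa using h7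
    have := congrArg (· * y) h8
    simpa using this
  have hx1 : x ≠ 1 := by
    rintro rfl
    simp at hx2
  have hN : B ≤ Subgroup.normalizer (A : Set G) := by
    intro y hy
    rw [Subgroup.mem_normalizer_iff]
    have hyx : y * x * y⁻¹ = x := by
      have h1 : x * y * x⁻¹ = y := congrArg Subtype.val (hfix ⟨y, hy⟩)
      have h2 : x * y = y * x := by
        have := congrArg (· * x) h1
        simpa using this
      rw [← h2]; group
    have hyx' : y⁻¹ * x * y⁻¹⁻¹ = x := by
      rw [inv_inv]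
      conv_lhs => rw [← hyx]
      group
    intro a
    constructor
    · exact hfixA y x hxA hx1 hyx a
    · intro ha
      have := hfixA y⁻¹ x hxA hx1 hyx' _ ha
      have e : y⁻¹ * (y * a * y⁻¹) * y⁻¹⁻¹ = a := by group
      rwa [e] at this
  have hBti : ∀ h : G, B.map (MulAut.conj h).toMonoidHom = B ∨ B.map (MulAut.conj h).toMonoidHom ⊓ B = ⊥ := by
    intro h
    have hmap : ∀ (u : G) (C : Subgroup G) , (C.map (MulAut.conj u).toMonoidHom) =
        C.map (MulAut.conj u).toMonoidHom := fun _ _ => rfl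
    have hcomp : ∀ (u v : G) (C : Subgroup G), (C.map (MulAut.conj u).toMonoidHom).map (MulAut.conj v).toMonoidHom
        = C.map (MulAut.conj (v * u)).toMonoidHom := by
      intro u v C
      rw [Subgroup.map_map]
      congr 1
      ext z
      simp [mul_assoc]
    rcases hti (g⁻¹ * h * g) with h1 | h1
    · left
      have h2 := congrArg (fun C : Subgroup G => C.map (MulAut.conj g).toMonoidHom) h1
      rw [hcomp] at h2
      rw [hBdef, hcomp]
      rw [← hBdef] at h2 ⊢
      rw [← h2]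
      congr 2
      group
    · right
      have h2 := congrArg (fun C : Subgroup G => C.map (MulAut.conj g).toMonoidHom) h1
      rw [Subgroup.map_inf_eq _ _ _ ((MulAut.conj g).injective), hcomp] at h2
      rw [hBdef, hcomp]
      rw [← hBdef] at h2 ⊢
      have e : g * (g⁻¹ * h * g) = h * g := by group
      rw [e] at h2
      simpa using h2
  have hle : Nat.card ↥A ≤ Nat.card ↥B := by
    rw [hBdef]
    exact le_of_eq (Subgroup.card_map_of_injective (MulAut.conj g).injective).symm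
  exact Cfsg.Agent.S1757.result 2 A B hA2 hB2 hti hBti hle hAB hN

end Cfsg.Agent.S1781
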