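import Cfsg.Statements.S1782
import Cfsg.Agent.S1757
import Cfsg.Agent.Lib.Solv.PGroup

set_option autoImplicit false
open Cfsg

namespace Cfsg.Agent.S1782

section core
variable {S : Type*} [Group S] [Finite S]

/-- In the pair `(R, T)`, an element of `T` outside `N(R)` has square one, if some `r ∈ R` moves `T` but `r²` does not. -/
theorem step_A (R T : Subgroup S)
    (hTti : ∀ s : S, T.map (MulAut.conj s).toMonoidHom = T ∨ T.map (MulAut.conj s).toMonoidHom ⊓ T = ⊥)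
    (hCR : ∀ t ∈ T, t ∉ Subgroup.normalizer (R : Set S) → ∀ x ∈ R, ∀ y ∈ R, (t * x * t⁻¹) * y = y * (t * x * t⁻¹))
    (hCT : ∀ r ∈ R, r ∉ Subgroup.normalizer (T : Set S) → ∀ x ∈ T, ∀ y ∈ T, (r * x * r⁻¹) * y = y * (r * x * r⁻¹))
    (t : S) (ht : t ∈ T) (htN : t ∉ Subgroup.normalizer (R : Set S))
    (r : S) (hr : r ∈ R) (hrN : r ∉ Subgroup.normalizer (T : Set S))
    (hr2 : r ^ 2 ∈ Subgroup.normalizer (T : Set S)) : t ^ 2 = 1 := by
  -- t₁ = r t r⁻¹ commutes with t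
  have h1 : (r * t * r⁻¹) * t = t * (r * t * r⁻¹) := hCT r hr hrN t ht t ht
  -- y = t⁻¹ r t commutes with r
  have htiN : t⁻¹ ∉ Subgroup.normalizer (R : Set S) := fun h => htN (by simpa using (Subgroup.normalizer (R : Set S)).inv_mem h)
  have h2 : (t⁻¹ * r * t⁻¹⁻¹) * r = r * (t⁻¹ * r * t⁻¹⁻¹) := hCR t⁻¹ (T.inv_mem ht) htiN r hr r hr
  rw [inv_inv] at h2
  obtain ⟨s, hs⟩ : ∃ s, s = t⁻¹ * (r * t * r⁻¹) := ⟨_, rfl⟩
  have ht1 : r * t * r⁻¹ = t * s := by rw [hs]; group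
  -- s is fixed by r
  have hsr : r * s * r⁻¹ = s := by
    rw [hs]
    have e1 : r * (t⁻¹ * (r * t * r⁻¹)) * r⁻¹ = (r * (t⁻¹ * r * t)) * r⁻¹ * r⁻¹ := by group
    rw [e1, ← h2]; group
  have hts : t * s = s * t := by
    have : t * (t * s) = (t * s) * t := by rw [← ht1]; exact h1.symm
    have h3 : t * s = s * t := by
      have h4 : t * (t * s) = t * (s * t) := by rw [this]; group
      exact mul_left_cancel h4
    exact h3
  -- r² t r⁻² = t s²
  have hr2t : r ^ 2 * t * (r ^ 2)⁻¹ = t * s ^ 2 := by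
    calc r ^ 2 * t * (r ^ 2)⁻¹ = r * (r * t * r⁻¹) * r⁻¹ := by rw [pow_two]; group
      _ = r * (t * s) * r⁻¹ := by rw [ht1]
      _ = (r * t * r⁻¹) * (r * s * r⁻¹) := by group
      _ = t * s * s := by rw [ht1, hsr]
      _ = t * s ^ 2 := by rw [pow_two]; group
  have hs2 : s ^ 2 ∈ T := by
    have h5 : r ^ 2 * t * (r ^ 2)⁻¹ ∈ T := (Subgroup.mem_normalizer_iff.1 hr2 t).1 ht
    rw [hr2t] at h5
    have : s ^ 2 = t⁻¹ * (t * s ^ 2) := by group
    rw [this]; exact T.mul_mem (T.inv_mem ht) h5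
  -- (r t r⁻¹)² ∈ T ∩ T^r
  have hsq : (r * t * r⁻¹) ^ 2 = t ^ 2 * s ^ 2 := by
    rw [ht1, pow_two, pow_two, pow_two]
    calc t * s * (t * s) = t * (s * t) * s := by group
      _ = t * (t * s) * s := by rw [hts]
      _ = _ := by group
  have hnm : T.map (MulAut.conj r).toMonoidHom ≠ T := by
    intro h
    exact hrN (Subgroup.mem_normalizer_iff_map_conj_eq.2 h) 
  have hti := (hTti r).resolve_left hnm
  have hmem : (r * t * r⁻¹) ^ 2 ∈ T.map (MulAut.conj r).toMonoidHom ⊓ T := by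
    refine Subgroup.mem_inf.2 ⟨?_, ?_⟩
    · exact Subgroup.pow_mem _ (Subgroup.mem_map.2 ⟨t, ht, by simp⟩) 2
    · rw [hsq]; exact T.mul_mem (T.pow_mem ht 2) hs2
  rw [hti] at hmem
  have h6 : (r * t * r⁻¹) ^ 2 = 1 := by simpa using hmem
  rw [conj_pow] at h6
  have := congrArg (fun z => r⁻¹ * z * r) h6
  simpa [mul_assoc] using this

theorem exists_sq_mem (N : Subgroup S) (hS : IsPGroup 2 S) (r : S) (hr : r ∉ N) :
    ∃ k : ℕ, r ^ k ∉ N ∧ (r ^ k) ^ 2 ∈ N := by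
  obtain ⟨n, hn⟩ := hS r
  induction n generalizing r with
  | zero =>
    exact absurd (by simpa [hn] using (N.one_mem)) (by
      have : r = 1 := by simpa using hn
      rw [this] at hr
      exact fun _ => hr N.one_mem)
  | succ n ih =>
    by_cases h2 : r ^ 2 ∈ N
    · exact ⟨1, by simpa using hr, by simpa using h2⟩
    · obtain ⟨k, hk1, hk2⟩ := ih (r ^ 2) h2 (by rw [← pow_mul, ← pow_succ']; exact hn)
      exact ⟨2 * k, by rwa [pow_mul], by rwa [pow_mul]⟩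

theorem exists_order_four (hS : IsPGroup 2 S) (m : S) (hm : m ^ 2 ≠ 1) :
    ∃ k : ℕ, (m ^ k) ^ 2 ≠ 1 ∧ (m ^ k) ^ 4 = 1 := by
  obtain ⟨n, hn⟩ := hS m
  induction n generalizing m with
  | zero =>
    have : m = 1 := by simpa using hn
    rw [this] at hm
    simp at hm
  | succ n ih =>
    by_cases h4 : m ^ 4 = 1
    · exact ⟨1, by simpa using hm, by simpa using h4⟩
    · have h2 : (m ^ 2) ^ 2 ≠ 1 := by
        rw [← pow_mul]; exact h4
      obtain ⟨k, hk1, hk2⟩ := ih (m ^ 2) h2 (by rw [← pow_mul, ← pow_succ']; exact hn)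
      exact ⟨2 * k, by rwa [pow_mul], by rwa [pow_mul]⟩

theorem core (hS : IsPGroup 2 S) (R T : Subgroup S)
    (hRT : R ⊓ T = ⊥) (hcard : Nat.card R = Nat.card T)
    (hRti : ∀ s : S, R.map (MulAut.conj s).toMonoidHom = R ∨ R.map (MulAut.conj s).toMonoidHom ⊓ R = ⊥)
    (hTti : ∀ s : S, T.map (MulAut.conj s).toMonoidHom = T ∨ T.map (MulAut.conj s).toMonoidHom ⊓ T = ⊥)
    (hCR : ∀ t ∈ T, t ∉ Subgroup.normalizer (R : Set S) → ∀ x ∈ R, ∀ y ∈ R, (t * x * t⁻¹) * y = y * (t * x * t⁻¹))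
    (hCT : ∀ r ∈ R, r ∉ Subgroup.normalizer (T : Set S) → ∀ x ∈ T, ∀ y ∈ T, (r * x * r⁻¹) * y = y * (r * x * r⁻¹))
    (hm : ∃ m ∈ T, m ^ 2 ≠ 1) : ⁅R, T⁆ = ⊥ := by
  classical
  have hPR : IsPGroup 2 ↥R := IsPGroup.to_subgroup hS R 
  have hPT : IsPGroup 2 ↥T := IsPGroup.to_subgroup hS T
  by_cases hTN : T ≤ Subgroup.normalizer (R : Set S)
  · exact Cfsg.Agent.S1757.result 2 R T hPR hPT hRti hTti hcard.le hRT hTN
  by_cases hRN : R ≤ Subgroup.normalizer (T : Set S)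
  · rw [Subgroup.commutator_comm]
    exact Cfsg.Agent.S1757.result 2 T R hPT hPR hTti hRti hcard.ge (by rwa [inf_comm]) hRN
  exfalso
  obtain ⟨t, ht, htN⟩ := Set.not_subset.1 hTN
  obtain ⟨r, hr, hrN⟩ := Set.not_subset.1 hRN
  have hC : ∀ t' ∈ T, t' ∉ Subgroup.normalizer (R : Set S) → t' ^ 2 = 1 := by
    intro t' ht' htN'
    obtain ⟨k, hk1, hk2⟩ := exists_sq_mem (Subgroup.normalizer (T : Set S)) hS r hrN
    exact step_A R T hTti hCR hCT t' ht' htN' (r ^ k) (R.pow_mem hr k) hk1 hk2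
  obtain ⟨m₀, hm₀, hm₀2⟩ := hm
  obtain ⟨k, hk1, hk2⟩ := exists_order_four hS m₀ hm₀2
  obtain ⟨m, hmdef⟩ : ∃ m, m = m₀ ^ k := ⟨_, rfl⟩
  rw [← hmdef] at hk1 hk2
  have hmT : m ∈ T := hmdef ▸ T.pow_mem hm₀ k
  have hmN : m ∈ Subgroup.normalizer (R : Set S) := by
    by_contra h
    exact hk1 (hC m hmT h)
  have htm : t * m ∉ Subgroup.normalizer (R : Set S) := by
    intro h
    apply htN
    have : t = (t * m) * m⁻¹ := by group
    rw [this]
    exact (Subgroup.normalizer (R : Set S)).mul_mem h ((Subgroup.normalizer (R : Set S)).inv_mem hmN)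
  have h1 := hC _ (T.mul_mem ht hmT) htm
  have h2 := hC t ht htN
  have htinv : t⁻¹ = t := by
    rw [inv_eq_iff_mul_eq_one, ← pow_two]; exact h2
  have htm' : t * m * t⁻¹ = m⁻¹ := by
    rw [htinv]
    rw [pow_two] at h1
    have : t * m * t * m = 1 := by rw [← h1]; group
    exact eq_inv_of_mul_eq_one_left this
  obtain ⟨m', hm'⟩ : ∃ m', m' = r * m * r⁻¹ := ⟨_, rfl⟩
  have hmm' : m' * m = m * m' := by rw [hm']; exact hCT r hr hrN m hmT m hmT
  have htm'c : t * m' * t⁻¹ = m' := by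
    have : m' * t = t * m' := by rw [hm']; exact hCT r hr hrN m hmT t ht
    rw [← this]; group
  obtain ⟨b, hb⟩ : ∃ b, b = m * m'⁻¹ := ⟨_, rfl⟩
  have hbR : b ∈ R := by
    have e : b = (m * r * m⁻¹) * r⁻¹ := by rw [hb, hm']; group
    rw [e]
    exact R.mul_mem ((Subgroup.mem_normalizer_iff.1 hmN r).1 hr) (R.inv_mem hr)
  have hconj : t * b * t⁻¹ = m⁻¹ * m'⁻¹ := by
    have e : t * b * t⁻¹ = (t * m * t⁻¹) * (t * m' * t⁻¹)⁻¹ := by rw [hb]; group
    rw [e, htm', htm'c]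
  have hmm'inv : m'⁻¹ * m = m * m'⁻¹ := by
    have := hmm'
    calc m'⁻¹ * m = m'⁻¹ * (m * m') * m'⁻¹ := by group
      _ = m'⁻¹ * (m' * m) * m'⁻¹ := by rw [hmm']
      _ = _ := by group
  have hm2 : m⁻¹ ^ 2 = m ^ 2 := by
    have : m ^ 4 = 1 := hk2
    rw [inv_pow, inv_eq_iff_mul_eq_one, ← pow_add]; exact this
  have hb2 : b ^ 2 = m ^ 2 * (m'⁻¹) ^ 2 := by
    rw [hb, pow_two, pow_two, pow_two]
    calc m * m'⁻¹ * (m * m'⁻¹) = m * (m'⁻¹ * m) * m'⁻¹ := by group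
      _ = m * (m * m'⁻¹) * m'⁻¹ := by rw [hmm'inv]
      _ = _ := by group
  have hc2 : (t * b * t⁻¹) ^ 2 = m ^ 2 * (m'⁻¹) ^ 2 := by
    rw [hconj, ← hm2, pow_two, pow_two, pow_two]
    have hmm'ii : m'⁻¹ * m⁻¹ = m⁻¹ * m'⁻¹ := by
      rw [← mul_inv_rev, ← mul_inv_rev, hmm']
    calc m⁻¹ * m'⁻¹ * (m⁻¹ * m'⁻¹) = m⁻¹ * (m'⁻¹ * m⁻¹) * m'⁻¹ := by group
      _ = m⁻¹ * (m⁻¹ * m'⁻¹) * m'⁻¹ := by rw [hmm'ii]
      _ = _ := by group
  have hRne : R.map (MulAut.conj t).toMonoidHom ≠ R := fun h =>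
    htN (Subgroup.mem_normalizer_iff_map_conj_eq.2 h)
  have hRi := (hRti t).resolve_left hRne
  have hmem : b ^ 2 ∈ R.map (MulAut.conj t).toMonoidHom ⊓ R := by
    refine Subgroup.mem_inf.2 ⟨?_, R.pow_mem hbR 2⟩
    rw [hb2, ← hc2]
    exact Subgroup.pow_mem _ (Subgroup.mem_map.2 ⟨b, hbR, by simp⟩) 2
  rw [hRi] at hmem
  have hb1 : b ^ 2 = 1 := by simpa using hmem
  rw [hb2, inv_pow, mul_inv_eq_one] at hb1
  -- m² = m'² ∈ T ∩ T^r
  have hTne : T.map (MulAut.conj r).toMonoidHom ≠ T := fun h =>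
    hrN (Subgroup.mem_normalizer_iff_map_conj_eq.2 h)
  have hTi := (hTti r).resolve_left hTne
  have hmem2 : m ^ 2 ∈ T.map (MulAut.conj r).toMonoidHom ⊓ T := by
    refine Subgroup.mem_inf.2 ⟨?_, T.pow_mem hmT 2⟩
    rw [hb1]
    exact Subgroup.pow_mem _ (Subgroup.mem_map.2 ⟨m, hmT, by simp [hm']⟩) 2
  rw [hTi] at hmem2
  exact hk1 (by simpa using hmem2)

end core

theorem exists_normal_above {S : Type*} [Group S] [Finite S] (L A : Subgroup S) (hL : IsPGroup 2 ↥L)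
    (hAL : A ≤ L) (hne : A ≠ L) :
    ∃ M : Subgroup S, M ≤ L ∧ A ≤ M ∧ M ≠ L ∧ ∀ l ∈ L, ∀ x ∈ M, l * x * l⁻¹ ∈ M := by
  haveI hnil : Group.IsNilpotent ↥L := hL.isNilpotent
  have hA' : A.subgroupOf L ≠ ⊤ := by
    intro h
    apply hne
    apply le_antisymm hAL
    intro x hx
    have : (⟨x, hx⟩ : ↥L) ∈ A.subgroupOf L := by rw [h]; trivial
    simpa [Subgroup.mem_subgroupOf] using this
  obtain ⟨M', hM', hAM'⟩ := (eq_top_or_exists_le_coatom (A.subgroupOf L)).resolve_left hA'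
  have hn : M'.Normal := Subgroup.NormalizerCondition.normal_of_coatom M' (Group.normalizerCondition_of_isNilpotent) hM'
  refine ⟨M'.map L.subtype, ?_, ?_, ?_, ?_⟩
  · rintro _ ⟨x, _, rfl⟩
    exact x.2
  · intro x hx
    exact ⟨⟨x, hAL hx⟩, hAM' (by simpa [Subgroup.mem_subgroupOf] using hx), rfl⟩
  · intro h
    apply hM'.1
    rw [eq_top_iff]
    intro x _
    have : (x : S) ∈ M'.map L.subtype := by rw [h]; exact x.2
    obtain ⟨y, hy, hyx⟩ := this
    have : y = x := Subtype.ext hyx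
    rwa [← this]
  · rintro l hl _ ⟨x, hx, rfl⟩
    refine ⟨⟨l, hl⟩ * x * ⟨l, hl⟩⁻¹, hn.conj_mem x hx ⟨l, hl⟩, ?_⟩
    simp

/-- Let S be a finite 2-group and Δ a set of subgroups of S closed under conjugation by S, all of the same order, each with nontrivial Frattini subgroup, and such that two distinct members of Δ meet trivially. Then any two distinct members of Δ commute elementwise. -/
theorem result {S : Type*} [Group S] [Finite S] (hS : IsPGroup 2 S)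
    (Δ : Set (Subgroup S)) (hinv : ∀ s : S, ∀ R ∈ Δ, R.map (MulAut.conj s).toMonoidHom ∈ Δ)
    (hΦ : ∀ R ∈ Δ, frattini ↥R ≠ ⊥) (hord : ∀ R ∈ Δ, ∀ T ∈ Δ, Nat.card ↥R = Nat.card ↥T)
    (hti : ∀ R ∈ Δ, ∀ T ∈ Δ, R = T ∨ R ⊓ T = ⊥) :
    ∀ R ∈ Δ, ∀ T ∈ Δ, R ≠ T → ⁅R, T⁆ = ⊥ := by
  classical
  have hm : ∀ R ∈ Δ, ∃ m ∈ R, m ^ 2 ≠ 1 := by
    intro R hR
    by_contra hall
    push Not at hall
    apply hΦ R hR
    have hPR : IsPGroup 2 ↥R := IsPGroup.to_subgroup hS R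
    have hsq : ∀ x : ↥R, x ^ 2 = 1 := fun x => Subtype.ext (by simpa using hall x x.2)
    refine le_bot_iff.1 (CfsgLib.Solv.frattini_le_of_commutator_pow hPR ⊥ ?_ ?_)
    · rw [commutator_def, Subgroup.commutator_le]
      intro x _ y _
      have hinvs : ∀ z : ↥R, z⁻¹ = z := fun z => by
        rw [inv_eq_iff_mul_eq_one, ← pow_two]; exact hsq z
      rw [Subgroup.mem_bot, commutatorElement_def, hinvs, hinvs]
      have h2 := hsq (x * y * x * y)
      have h3 := hsq (x * y)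
      rw [pow_two] at h3
      have : x * y * x * y = x * y * (x * y) := by group
      rw [this, h3]
    · intro x
      rw [hsq x]; exact Subgroup.one_mem _
  have main : ∀ (n : ℕ) (R T : Subgroup S), R ∈ Δ → T ∈ Δ → R ≠ T → Nat.card ↥(R ⊔ T) = n → ⁅R, T⁆ = ⊥ := by
    intro n
    induction n using Nat.strong_induction_on with
    | _ n ih =>
      have key : ∀ (A B : Subgroup S), A ∈ Δ → B ∈ Δ → A ≠ B → Nat.card ↥(A ⊔ B) = n →
          ∀ t ∈ B, t ∉ Subgroup.normalizer (A : Set S) → ∀ x ∈ A, ∀ y ∈ A,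
            (t * x * t⁻¹) * y = y * (t * x * t⁻¹) := by
        intro A B hA hB hne hcard t ht htN x hx y hy
        have hL : IsPGroup 2 ↥(A ⊔ B) := IsPGroup.to_subgroup hS _
        have hAB : A ⊓ B = ⊥ := (hti A hA B hB).resolve_left hne
        have hAne : A ≠ A ⊔ B := by
          intro h
          obtain ⟨m, hmB, hm2⟩ := hm B hB
          have h1 : m ∈ A ⊓ B := ⟨by rw [h]; exact (le_sup_right : B ≤ A ⊔ B) hmB, hmB⟩
          rw [hAB] at h1
          have : m = 1 := by simpa using h1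
          rw [this] at hm2
          simp at hm2
        obtain ⟨M, hML, hAM, hMne, hMn⟩ := exists_normal_above (A ⊔ B) A hL le_sup_left hAne
        have htL : t ∈ A ⊔ B := (le_sup_right : B ≤ A ⊔ B) ht
        have hAt : A.map (MulAut.conj t).toMonoidHom ≤ M := by
          rintro _ ⟨a, ha, rfl⟩
          exact hMn t htL a (hAM ha)
        have hsupM : A.map (MulAut.conj t).toMonoidHom ⊔ A ≤ M := sup_le hAt hAM
        have hlt : Nat.card ↥(A.map (MulAut.conj t).toMonoidHom ⊔ A) < n := by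
          have h1 : Nat.card ↥(A.map (MulAut.conj t).toMonoidHom ⊔ A) ≤ Nat.card M :=
            Subgroup.card_le_of_le hsupM
          have h2 : Nat.card M < Nat.card ↥(A ⊔ B) := by
            by_contra hc
            exact hMne (Subgroup.eq_of_le_of_card_ge hML (not_lt.1 hc))
          omega
        have hne2 : A.map (MulAut.conj t).toMonoidHom ≠ A := fun h =>
          htN (Subgroup.mem_normalizer_iff_map_conj_eq.2 h)
        have hc := ih _ hlt _ A (hinv t A hA) hA hne2 rfl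
        rw [Subgroup.commutator_eq_bot_iff_le_centralizer] at hc
        have hmem : t * x * t⁻¹ ∈ A.map (MulAut.conj t).toMonoidHom :=
          Subgroup.mem_map.2 ⟨x, hx, by simp⟩
        exact (Subgroup.mem_centralizer_iff.1 (hc hmem) y hy).symm
      intro R T hR hT hne hcard
      refine core hS R T ((hti R hR T hT).resolve_left hne) (hord R hR T hT) ?_ ?_ ?_ ?_ (hm T hT)
      · intro s
        exact hti _ (hinv s R hR) R hR
      · intro s
        exact hti _ (hinv s T hT) T hT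
      · exact key R T hR hT hne hcard
      · exact key T R hT hR hne.symm (by rw [sup_comm]; exact hcard)
  intro R hR T hT hne
  exact main _ R T hR hT hne rfl

end Cfsg.Agent.S1782
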