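import Cfsg.Statements.S1785
import Cfsg.Agent.Lib.H3.FourConn

set_option autoImplicit false
open Cfsg

namespace Cfsg.Agent.S1785

/-- Let X be a finite 2-group having a normal elementary abelian subgroup of order at least 32. Then (a) for any two elementary abelian subgroups A, B of X of order 8 there is a chain A = A₁, A₂, …, Aₙ = B of elementary abelian subgroups of order 8 in which consecutive members commute elementwise; and (b) every elementary abelian subgroup of X of order 4 is contained in an elementary abelian subgroup of order 8. -/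
theorem result {X : Type*} [Group X] [Finite X]
    (hX : IsPGroup 2 X) (E : Subgroup X) [E.Normal] (hE : Cfsg.IsElementaryAbelian 2 E) (hE32 : 32 ≤ Nat.card ↥E) :
    (∀ A B : Subgroup X, Cfsg.IsElementaryAbelian 2 A → Nat.card ↥A = 8 → Cfsg.IsElementaryAbelian 2 B → Nat.card ↥B = 8 →
        Relation.ReflTransGen
          (fun C D : Subgroup X => Cfsg.IsElementaryAbelian 2 C ∧ Nat.card ↥C = 8 ∧ Cfsg.IsElementaryAbelian 2 D ∧ Nat.card ↥D = 8 ∧ ⁅C, D⁆ = ⊥)
          A B) ∧
      (∀ V : Subgroup X, Cfsg.IsElementaryAbelian 2 V → Nat.card ↥V = 4 →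
        ∃ A : Subgroup X, V ≤ A ∧ Cfsg.IsElementaryAbelian 2 A ∧ Nat.card ↥A = 8) := by
  classical
  haveI : Fact (Nat.Prime 2) := ⟨Nat.prime_two⟩
  refine ⟨fun A B hA hAc hB hBc => ?_, fun V hV hVc => CfsgLib.FourConn.four_in_eight hX E hE hE32 hV hVc⟩
  obtain ⟨F, -, hFE, hFc⟩ := CfsgLib.FourConn.exists_between (A := ⊥) (a := 0) (W := E) (b := 3) bot_le
    (hX.to_subgroup _) (by simp) (by omega) (by norm_num)
  have hFc' : Nat.card F = 8 := by rw [hFc]; norm_num
  have h1 := CfsgLib.FourConn.eight_chain hX E hE hE32 hFE hFc' hA hAc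
  have h2 := CfsgLib.FourConn.eight_chain hX E hE hE32 hFE hFc' hB hBc
  refine h1.trans (CfsgLib.FourConn.rtg_symm ?_ h2)
  rintro C D ⟨h3, h4, h5, h6, h7⟩
  refine ⟨h5, h6, h3, h4, ?_⟩
  rw [Subgroup.commutator_comm]
  exact h7

end Cfsg.Agent.S1785
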