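import Cfsg.Statements.S1966
import Cfsg.Agent.Lib.H3.CT1

set_option autoImplicit false
open Cfsg

namespace Cfsg.Agent.S1966

/-- Let p be a prime, G a finite group with Sylow p-subgroup S and 𝓕 a conjugation family for S in G. Then the members of 𝓕 containing O_p(G) still form a conjugation family for S in G. -/
theorem result {G : Type*} [Group G] [Finite G] {p : ℕ} [Fact p.Prime] (S : Sylow p G) (𝓕 : Set (Subgroup G)) (h : Cfsg.IsConjugationFamily 𝓕 (S : Subgroup G)) : Cfsg.IsConjugationFamily {T : Subgroup G | T ∈ 𝓕 ∧ Cfsg.pCore p G ≤ T} (S : Subgroup G) := by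
  classical
  obtain ⟨h1, h2⟩ := h
  refine ⟨fun T hT => h1 T hT.1, ?_⟩
  intro A g hA hAS hAg
  set O := Cfsg.pCore p G with hO
  have hOn : O.Normal := CfsgLib.Solv.pCore_normal' p
  have hOp : IsPGroup p O := CfsgLib.Solv.pCore_isPGroup p
  have hOS : O ≤ (S : Subgroup G) := CfsgLib.CT1.le_of_normal_sylow' S hOn hOp
  have hconjO : ∀ (y : G), ∀ o ∈ O, ∃ o' ∈ O, y⁻¹ * o' * y = o := by
    intro y o ho
    refine ⟨y * o * y⁻¹, hOn.conj_mem o ho y, by group⟩
  obtain ⟨n, T, x, hprod, hT, hx, h0, hstep⟩ := h2 (A ∪ (O : Set G)) g (hA.mono Set.subset_union_left)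
    (Set.union_subset hAS hOS) (by
      rintro _ ⟨a, ha | ha, rfl⟩
      · exact hAg ⟨a, ha, rfl⟩
      · apply hOS
        have := hOn.conj_mem a ha g⁻¹
        simpa using this)
  refine ⟨n, T, x, hprod, ?_, hx, ?_, ?_⟩
  · intro i
    refine ⟨hT i, ?_⟩
    obtain ⟨j, hj⟩ := i
    cases j with
    | zero =>
      have := h0 hj
      exact fun o ho => this (Or.inr ho)
    | succ j =>
      have := hstep ⟨j, by omega⟩ hj
      intro o ho
      obtain ⟨o', ho', he⟩ := hconjO _ o ho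
      apply this
      exact ⟨o', Or.inr ho', he⟩
  · intro hn a ha
    exact h0 hn (Or.inl ha)
  · rintro i hi _ ⟨a, ha, rfl⟩
    exact hstep i hi ⟨a, Or.inl ha, rfl⟩

end Cfsg.Agent.S1966
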