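import Cfsg.Statements.S1967
import Cfsg.Agent.Lib.H3.CT1

set_option autoImplicit false
open Cfsg

namespace Cfsg.Agent.S1967

/-- Let p be a prime, G a finite group with Sylow p-subgroup S and W a conjugacy functor for p on G. Then W controls strong fusion in G if and only if, whenever T ≤ S and g ∈ G satisfy gTg⁻¹ ≤ S, one can write g = n c with n ∈ N_G(W(S)) and c ∈ C_G(T). -/
theorem result {G : Type*} [Group G] [Finite G] {p : ℕ} [Fact p.Prime] (S : Sylow p G) (W : Subgroup G → Subgroup G) (hW : Cfsg.IsConjugacyFunctor p W) : Cfsg.ControlsStrongFusionIn p W ⊤ ↔ ∀ (T : Subgroup G) (g : G), T ≤ (S : Subgroup G) → T.map (MulAut.conj g).toMonoidHom ≤ (S : Subgroup G) → ∃ n ∈ Subgroup.normalizer ((W (S : Subgroup G) : Subgroup G) : Set G), ∃ c ∈ Subgroup.centralizer (T : Set G), g = n * c := by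
  classical
  have hSp : IsPGroup p (S : Subgroup G) := S.isPGroup'
  constructor
  · rintro ⟨T₀, -, hT₀p, hT₀i, hctl⟩ T g hT hg
    -- `T₀` is Sylow
    have hT₀i' : ¬ p ∣ T₀.index := by
      rw [Subgroup.relIndex_top_right] at hT₀i
      exact hT₀i
    let Q : Sylow p G := hT₀p.toSylow hT₀i'
    obtain ⟨b, hb⟩ := MulAction.exists_smul_eq G Q S
    have hbmem : ∀ y, y ∈ (S : Subgroup G) ↔ b⁻¹ * y * b ∈ T₀ := by
      intro y
      rw [← hb, CfsgLib.Trans.mem_sylow_smul]
      rfl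
    have hSmap : (S : Subgroup G) = T₀.map (CfsgLib.CT1.cj b) := by
      ext y
      rw [hbmem]
      exact CfsgLib.CT.mem_map_conj'.symm
    obtain ⟨x, hx, hxA⟩ := hctl ((fun t => b⁻¹ * t * b) '' (T : Set G)) (b⁻¹ * g * b) (Subgroup.mem_top _)
      (by
        rintro _ ⟨t, ht, rfl⟩
        exact (hbmem t).1 (hT ht))
      (by
        rintro _ ⟨_, ⟨t, ht, rfl⟩, rfl⟩
        have h1 : g * t * g⁻¹ ∈ (S : Subgroup G) := hg ⟨t, ht, rfl⟩
        have h2 := (hbmem _).1 h1
        have h3 : b⁻¹ * g * b * (b⁻¹ * t * b) * (b⁻¹ * g * b)⁻¹ = b⁻¹ * (g * t * g⁻¹) * b := by group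
        change b⁻¹ * g * b * (b⁻¹ * t * b) * (b⁻¹ * g * b)⁻¹ ∈ T₀
        rw [h3]
        exact h2)
    have hxN : x ∈ Subgroup.normalizer ((W T₀ : Subgroup G) : Set G) := hx.2
    have hWS : W (S : Subgroup G) = (W T₀).map (CfsgLib.CT1.cj b) := by
      rw [hSmap]
      exact CfsgLib.CT1.functor_cj hW hT₀p b
    refine ⟨b * x * b⁻¹, ?_, (b * x * b⁻¹)⁻¹ * g, ?_, by group⟩
    · rw [hWS, CfsgLib.CT1.normalizer_cj]
      exact ⟨x, hxN, rfl⟩
    · rw [Subgroup.mem_centralizer_iff]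
      intro t ht
      have h1 := hxA (b⁻¹ * t * b) ⟨t, ht, rfl⟩
      have h2 : g * t * g⁻¹ = (b * x * b⁻¹) * t * (b * x * b⁻¹)⁻¹ := by
        apply mul_left_cancel (a := b⁻¹)
        apply mul_right_cancel (b := b)
        calc b⁻¹ * (g * t * g⁻¹) * b = (b⁻¹ * g * b) * (b⁻¹ * t * b) * (b⁻¹ * g * b)⁻¹ := by group
          _ = x * (b⁻¹ * t * b) * x⁻¹ := h1.symm
          _ = _ := by group
      have h3 : (b * x * b⁻¹)⁻¹ * g * t = t * ((b * x * b⁻¹)⁻¹ * g) := by
        set n := b * x * b⁻¹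
        have h4 : g * t = n * t * n⁻¹ * g := by
          rw [← h2]; group
        calc n⁻¹ * g * t = n⁻¹ * (g * t) := by group
          _ = n⁻¹ * (n * t * n⁻¹ * g) := by rw [h4]
          _ = t * (n⁻¹ * g) := by group
      exact h3.symm
  · intro h
    refine ⟨S, le_top, hSp, ?_, ?_⟩
    · rw [Subgroup.relIndex_top_right]
      exact S.not_dvd_index
    · intro A g _ hA hAg
      set T := Subgroup.closure A with hT
      have hTS : T ≤ (S : Subgroup G) := (Subgroup.closure_le _).2 hA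
      have hgT : T.map (MulAut.conj g).toMonoidHom ≤ (S : Subgroup G) := by
        rw [Subgroup.map_le_iff_le_comap, hT, Subgroup.closure_le]
        intro a ha
        exact hAg ⟨a, ha, rfl⟩
      obtain ⟨n, hn, c, hc, rfl⟩ := h T g hTS hgT
      refine ⟨n, ⟨Subgroup.mem_top _, hn⟩, ?_⟩
      intro a ha
      have h1 := Subgroup.mem_centralizer_iff.1 hc a (Subgroup.subset_closure ha)
      have h2 : c * a * c⁻¹ = a := by rw [← h1]; group
      calc n * a * n⁻¹ = n * (c * a * c⁻¹) * n⁻¹ := by rw [h2]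
        _ = n * c * a * (n * c)⁻¹ := by group

end Cfsg.Agent.S1967
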