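import Cfsg.Statements.S1968
import Cfsg.Agent.Lib.H3.ConjFam5

set_option autoImplicit false
open Cfsg

namespace Cfsg.Agent.S1968

/-- Let p be a prime, G a finite group with Sylow p-subgroup S and W a conjugacy functor for p on G with Z(P) ≤ W(P) for every p-subgroup P. Let A be a subgroup of Z(S) normalized by N_G(W(S)) that is not weakly closed in S with respect to G. Then there is a subgroup T of S, well placed in S with respect to W, such that: A ≤ T; N_G(W(N_S(T))) normalizes A; N_S(T) is a Sylow p-subgroup of N_G(T); A ≤ Z(N_S(T)); and A is not weakly closed in N_S(T) with respect to N_G(T), that is, some N_G(T)-conjugate of A other than A lies in N_S(T). -/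
theorem result {G : Type*} [Group G] [Finite G] {p : ℕ} [Fact p.Prime] (S : Sylow p G) (W : Subgroup G → Subgroup G) (hW : Cfsg.IsConjugacyFunctor p W) (hWZ : ∀ P : Subgroup G, IsPGroup p ↥P → P ⊓ Subgroup.centralizer (P : Set G) ≤ W P) (A : Subgroup G) (hAZ : A ≤ (S : Subgroup G) ⊓ Subgroup.centralizer ((S : Subgroup G) : Set G)) (hAN : Subgroup.normalizer ((W (S : Subgroup G) : Subgroup G) : Set G) ≤ Subgroup.normalizer ((A : Subgroup G) : Set G)) (hnwc : ¬ Cfsg.IsWeaklyClosed A (S : Subgroup G)) : ∃ T : Subgroup G, Cfsg.IsWellPlaced p W (S : Subgroup G) T ∧ A ≤ T ∧ Subgroup.normalizer ((W ((S : Subgroup G) ⊓ Subgroup.normalizer ((T : Subgroup G) : Set G)) : Subgroup G) : Set G) ≤ Subgroup.normalizer ((A : Subgroup G) : Set G) ∧ ¬ p ∣ ((S : Subgroup G) ⊓ Subgroup.normalizer ((T : Subgroup G) : Set G)).relIndex (Subgroup.normalizer ((T : Subgroup G) : Set G)) ∧ A ≤ Subgroup.centralizer (((S : Subgroup G) ⊓ Subgroup.normalizer ((T : Subgroup G) : Set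 G) : Subgroup G) : Set G) ∧ ∃ g ∈ Subgroup.normalizer ((T : Subgroup G) : Set G), A.map (MulAut.conj g).toMonoidHom ≤ (S : Subgroup G) ⊓ Subgroup.normalizer ((T : Subgroup G) : Set G) ∧ A.map (MulAut.conj g).toMonoidHom ≠ A := by
  classical
  have hpS : IsPGroup p (S : Subgroup G) := S.isPGroup'
  -- the first nontrivial step of a chain
  set 𝓕 : Set (Subgroup G) := {T | Cfsg.IsWellPlaced p W (S : Subgroup G) T} with h𝓕
  have hstep : ∀ {B : Set G} {g : G}, CfsgLib.ConjFam.Ch 𝓕 B g → CfsgLib.ConjFam.rc g B ≠ B →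
      ∃ T ∈ 𝓕, ∃ x ∈ Subgroup.normalizer (T : Set G), B ⊆ T ∧ CfsgLib.ConjFam.rc x B ≠ B := by
    intro B g hch
    induction hch with
    | nil A =>
      intro h
      exact absurd (CfsgLib.ConjFam.rc_one A) h
    | @cons B T x g hT hx hB _ ih =>
      intro hne
      by_cases hxB : CfsgLib.ConjFam.rc x B = B
      · rw [hxB] at ih
        apply ih
        rw [CfsgLib.ConjFam.rc_mul, hxB] at hne
        exact hne
      · exact ⟨T, hT, x, hx, hB, hxB⟩
  have hAS : A ≤ (S : Subgroup G) := le_trans hAZ inf_le_left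
  -- the negation of weak closure
  have hex : ∃ g : G, A.map (MulAut.conj g).toMonoidHom ≤ (S : Subgroup G) ∧
      A.map (MulAut.conj g).toMonoidHom ≠ A := by
    by_contra hcon
    push Not at hcon
    exact hnwc ⟨hAS, hcon⟩
  obtain ⟨g, hg1, hg2⟩ := hex
  have hch := CfsgLib.ConjFam.chain_wellPlaced S hW A hAS g⁻¹ (by
    rw [CfsgLib.ConjFam.rc_coe, inv_inv]
    exact hg1)
  have hne : CfsgLib.ConjFam.rc g⁻¹ (A : Set G) ≠ A := by
    rw [CfsgLib.ConjFam.rc_coe, inv_inv]
    intro h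
    exact hg2 (SetLike.coe_injective h)
  obtain ⟨T₀, hT₀, x₀, hx₀, hAT₀, hxne₀⟩ := hstep hch hne
  -- maximal choice
  let 𝓣 : Set (Subgroup G) := {T | T ∈ 𝓕 ∧ A ≤ T ∧ ∃ x ∈ Subgroup.normalizer (T : Set G),
    A.map (MulAut.conj x).toMonoidHom ≠ A}
  have h𝓣ne : 𝓣.Nonempty := by
    refine ⟨T₀, hT₀, hAT₀, x₀⁻¹, Subgroup.inv_mem _ hx₀, ?_⟩
    intro h
    apply hxne₀
    rw [CfsgLib.ConjFam.rc_coe]
    rw [show CfsgLib.CT1.cj x₀⁻¹ = (MulAut.conj x₀⁻¹).toMonoidHom from rfl, h]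
  obtain ⟨T, hT𝓣, hTmax⟩ := Set.exists_max_image 𝓣
    (fun T => Nat.card ((S : Subgroup G) ⊓ Subgroup.normalizer (T : Set G) : Subgroup G))
    (Set.toFinite _) h𝓣ne
  obtain ⟨hTwp, hAT, x, hx, hxne⟩ := hT𝓣
  have hTS : T ≤ (S : Subgroup G) := hTwp.1
  set P := (S : Subgroup G) ⊓ Subgroup.normalizer (T : Set G) with hP
  have hPp : IsPGroup p P := hpS.to_le inf_le_left
  have hTP : T ≤ P := le_inf hTS Subgroup.le_normalizer
  have hxT : A.map (MulAut.conj x).toMonoidHom ≤ T := by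
    rintro _ ⟨a, ha, rfl⟩
    exact (Subgroup.mem_normalizer_iff.1 hx a).1 (hAT ha)
  have hACP : A ≤ Subgroup.centralizer (P : Set G) := by
    intro a ha
    rw [Subgroup.mem_centralizer_iff]
    intro y hy
    have h1 := Subgroup.mem_centralizer_iff.1 (hAZ ha).2 y hy.1
    exact h1
  refine ⟨T, hTwp, hAT, ?_, hTwp.2 0, hACP, x, hx, le_trans hxT hTP, hxne⟩
  -- the normalizer of `W P`
  change Subgroup.normalizer ((W P : Subgroup G) : Set G) ≤ Subgroup.normalizer ((A : Subgroup G) : Set G)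
  by_cases hPS : P = (S : Subgroup G)
  · rw [hPS]
    exact hAN
  · have hlt : P < (S : Subgroup G) := lt_of_le_of_ne inf_le_left hPS
    have hN := CfsgLib.Solv.lt_inf_normalizer_of_pgroup hpS hlt
    set V := W P with hV
    have hwp1 : Cfsg.IsWellPlaced p W (S : Subgroup G) V := CfsgLib.ConjFam.wellPlaced_succ hW hTwp
    have hAZP : A ≤ P ⊓ Subgroup.centralizer (P : Set G) := le_inf (le_trans hAT hTP) hACP
    have hAV : A ≤ V := le_trans hAZP (hWZ P hPp)
    have hle1 : (S : Subgroup G) ⊓ Subgroup.normalizer (P : Set G) ≤ (S : Subgroup G) ⊓ Subgroup.normalizer (V : Set G) :=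
      inf_le_inf_left _ (CfsgLib.ConjFam.normalizer_le_normalizer_functor hW hPp)
    have hcard : Nat.card P < Nat.card ((S : Subgroup G) ⊓ Subgroup.normalizer (V : Set G) : Subgroup G) :=
      CfsgLib.ConjFam.card_lt_of_lt (lt_of_lt_of_le hN hle1)
    intro y hy
    by_contra hyA
    have hyne : A.map (MulAut.conj y).toMonoidHom ≠ A := by
      intro h
      exact hyA (CfsgLib.CT.map_conj_eq_iff.1 h)
    have := hTmax V ⟨hwp1, hAV, y, hy, hyne⟩
    exact absurd this (not_le.2 hcard)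

end Cfsg.Agent.S1968
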