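import Cfsg.Statements.S1978
import Cfsg.Agent.Lib.H3.KSeq

set_option autoImplicit false
open Cfsg

namespace Cfsg.Agent.S1978

/-- Let P be a finite p-group. Each of the two K-infinity subgroups of P contains its own centralizer in P, which in turn contains Z(P); in particular both are nontrivial when P is. -/
theorem result {P : Type*} [Group P] [Finite P] {p : ℕ} [Fact p.Prime] (hP : IsPGroup p P) : Subgroup.centralizer (Cfsg.kInfLower P : Set P) ≤ Cfsg.kInfLower P ∧ Subgroup.center P ≤ Subgroup.centralizer (Cfsg.kInfLower P : Set P) ∧ Subgroup.centralizer (Cfsg.kInfUpper P : Set P) ≤ Cfsg.kInfUpper P ∧ Subgroup.center P ≤ Subgroup.centralizer (Cfsg.kInfUpper P : Set P) := by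
  have hcen : ∀ X : Subgroup P, Subgroup.center P ≤ Subgroup.centralizer (X : Set P) := by
    intro X z hz
    rw [Subgroup.mem_centralizer_iff]
    intro x _
    exact (Subgroup.mem_center_iff.1 hz) x
  refine ⟨?_, hcen _, ?_, hcen _⟩
  · have h1 : Cfsg.kSeqEven P 0 ≤ Cfsg.kInfLower P := le_iSup (Cfsg.kSeqEven P) 0
    exact (Subgroup.centralizer_le h1).trans ((CfsgLib.KSeq.even_self_centr hP 0).trans h1)
  · obtain ⟨N, hN⟩ := CfsgLib.KSeq.exists_stable (P := P)
    have h2 := (hN (N + 1) (by omega)).2
    rw [← h2]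
    exact CfsgLib.KSeq.odd_succ_self_centr hP N

end Cfsg.Agent.S1978
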