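import Cfsg.Statements.S2007
import Cfsg.Agent.Lib.Trans.Basic

set_option autoImplicit false
open Cfsg

namespace Cfsg.Agent.S2007

/-- Let p be a prime, G a finite group with Sylow p-subgroup S, and T a normal subgroup of S containing C_S(T). If N_G(T)/C_G(T) is a p-group (every element of N_G(T) of order prime to p centralizes T), then N_G(T) has a normal p-complement. -/
theorem result {G : Type*} [Group G] [Finite G] {p : ℕ} [Fact p.Prime] (S : Sylow p G) (T : Subgroup G) (hTS : T ≤ (S : Subgroup G)) (hTn : (S : Subgroup G) ≤ Subgroup.normalizer ((T : Subgroup G) : Set G)) (hC : (S : Subgroup G) ⊓ Subgroup.centralizer ((T : Subgroup G) : Set G) ≤ T) (hN : ∀ g ∈ Subgroup.normalizer ((T : Subgroup G) : Set G), (orderOf g).Coprime p → g ∈ Subgroup.centralizer ((T : Subgroup G) : Set G)) : Cfsg.HasNormalPComplement p ↥(Subgroup.normalizer ((T : Subgroup G) : Set G)) := by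
  set N : Subgroup G := Subgroup.normalizer ((T : Subgroup G) : Set G) with hNdef
  set K : Subgroup N := Cfsg.pResidual p N with hK
  have hKn : K.Normal := CfsgLib.Tr.pResidual_normal p N
  have hA : ∀ x : N, x ∈ K → (x : G) ∈ Subgroup.centralizer ((T : Subgroup G) : Set G) := by
    intro x hx
    have hle : K ≤ (Subgroup.centralizer ((T : Subgroup G) : Set G)).comap N.subtype := by
      rw [hK, Cfsg.pResidual, Subgroup.closure_le]
      intro g hg
      exact hN (g : G) g.2 (by
        have : orderOf (g : G) = orderOf g := Subgroup.orderOf_coe g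
        rw [this]
        exact hg)
    exact hle hx
  let Sn : Sylow p N := S.subtype hTn
  have hB : ∀ x : N, x ∈ K → (∃ k, x ^ p ^ k = 1) → ∀ w : N, w ∈ K → x * w = w * x := by
    intro x hx ⟨k, hk⟩ w hw
    have hzp : IsPGroup p (Subgroup.zpowers x) := CfsgLib.CT.isPGroup_zpowers_of_pow hk
    obtain ⟨c, _, hc⟩ := CfsgLib.Lead.exists_conj_into_sylow Sn ⊤ le_top (Subgroup.zpowers x) le_top hzp
    have h1 := hc x (Subgroup.mem_zpowers x)
    have h2 : c⁻¹ * x * c ∈ K := by
      have := hKn.conj_mem x hx c⁻¹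
      simpa using this
    have h3 : ((c⁻¹ * x * c : N) : G) ∈ (S : Subgroup G) := by
      have h0 := h1
      rw [Sylow.coe_subtype] at h0
      exact Subgroup.mem_subgroupOf.1 h0
    have h4 : ((c⁻¹ * x * c : N) : G) ∈ T := hC ⟨h3, hA _ h2⟩
    have h5 : c⁻¹ * w * c ∈ K := by
      have := hKn.conj_mem w hw c⁻¹
      simpa using this
    have h6 := (Subgroup.mem_centralizer_iff.1 (hA _ h5)) _ h4
    have h7 : (c⁻¹ * x * c) * (c⁻¹ * w * c) = (c⁻¹ * w * c) * (c⁻¹ * x * c) := Subtype.ext h6
    have h8 : c⁻¹ * (x * w) * c = c⁻¹ * (w * x) * c := by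
      calc c⁻¹ * (x * w) * c = (c⁻¹ * x * c) * (c⁻¹ * w * c) := by group
        _ = (c⁻¹ * w * c) * (c⁻¹ * x * c) := h7
        _ = _ := by group
    simpa using h8
  have hC2 : Cfsg.pResidual p K = ⊤ := by
    have h1 : ∀ y : N, ∀ hy : y ∈ K, (⟨y, hy⟩ : K) ∈ Cfsg.pResidual p K := by
      intro y hy
      have hy' : y ∈ Subgroup.closure {g : N | Nat.Coprime (orderOf g) p} := hy
      induction hy' using Subgroup.closure_induction with
      | mem g hg =>
        apply Subgroup.subset_closure
        show Nat.Coprime (orderOf (⟨g, hy⟩ : K)) p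
        rw [Subgroup.orderOf_mk]
        exact hg
      | one => exact Subgroup.one_mem _
      | mul a b ha hb ih1 ih2 =>
        exact Subgroup.mul_mem _ (ih1 (Subgroup.subset_closure ha |> fun _ => ha)) (ih2 hb)
      | inv a ha ih => exact Subgroup.inv_mem _ (ih ha)
    exact top_unique fun x _ => h1 x.1 x.2
  let P : Sylow p K := default
  have hPc : Subgroup.normalizer ((P : Subgroup K) : Set K) ≤ Subgroup.centralizer ((P : Subgroup K) : Set K) := by
    intro n _
    rw [Subgroup.mem_centralizer_iff]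
    intro h hh
    obtain ⟨k, hk⟩ := CfsgLib.CT.pow_eq_one_of_mem_pgroup P.2 hh
    have h1 : ((h : K) : N) ^ p ^ k = 1 := by
      have := congrArg Subtype.val hk
      simpa using this
    have h2 := hB (h : K) h.2 ⟨k, h1⟩ (n : K) n.2
    exact Subtype.ext h2
  obtain ⟨L, hLn, hLc, j, hj⟩ := (CfsgLib.Trans.hasNormalPComplement_iff (p := p) (G := K)).1
    (CfsgLib.Trans.hasNormalPComplement_of_le_centralizer P hPc)
  have hLt : L = ⊤ := by
    have h1 := CfsgLib.Trans.pResidual_le_of_index (p := p) L hj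
    rw [hC2] at h1
    exact top_unique h1
  have hKc : (Nat.card K).Coprime p := by
    rw [hLt] at hLc
    have h2 : Nat.card (⊤ : Subgroup K) = Nat.card K := Subgroup.card_top
    rwa [h2] at hLc
  have hqp : IsPGroup p (N ⧸ K) := CfsgLib.Tr.isPGroup_quotient_pResidual p le_rfl
  obtain ⟨k, hk⟩ := IsPGroup.iff_card.1 hqp
  exact (CfsgLib.Trans.hasNormalPComplement_iff (p := p) (G := N)).2
    ⟨K, hKn, hKc, k, by rw [Subgroup.index_eq_card]; exact hk⟩

end Cfsg.Agent.S2007
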