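import Cfsg.Statements.S2008
import Cfsg.Agent.Lib.H3.FpfKlein

set_option autoImplicit false
open Cfsg

namespace Cfsg.Agent.S2008

/-- Let H be a finite group and z an involution such that every proper normal subgroup of H meets the centralizer of z trivially, and suppose z lies in a Klein four-subgroup E of H all three of whose involutions are conjugate to z in H. Then H has no non-trivial abelian normal subgroup. -/
theorem result {H : Type*} [Group H] [Finite H] (z : H) (hz : orderOf z = 2) (hN : ∀ N : Subgroup H, N.Normal → N ≠ ⊤ → N ⊓ Subgroup.centralizer ({z} : Set H) = ⊥) (E : Subgroup H) (hE : IsKleinFour ↥E) (hzE : z ∈ E) (hc : ∀ e ∈ E, e ≠ 1 → IsConj z e) (N : Subgroup H) [N.Normal] (hab : IsMulCommutative ↥N) : N = ⊥ := by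
  have hz1 : z ≠ 1 := by
    intro h
    rw [h, orderOf_one] at hz
    omega
  by_cases hNt : N = ⊤
  · exfalso
    obtain ⟨t, ht, ht1, htz⟩ := CfsgLib.FpfKlein.exists_third hE hzE
    obtain ⟨g, hg⟩ := isConj_iff.1 (hc t ht ht1)
    apply htz
    have hcomm : ∀ a b : H, a * b = b * a := by
      intro a b
      have h1 : a ∈ N := by rw [hNt]; trivial
      have h2 : b ∈ N := by rw [hNt]; trivial
      exact congrArg Subtype.val (mul_comm' (⟨a, h1⟩ : N) ⟨b, h2⟩)
    rw [← hg, hcomm g z, mul_inv_cancel_right]
  · exact CfsgLib.FpfKlein.normal_eq_bot z hN E hE hzE hz1 hc N hNt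

end Cfsg.Agent.S2008
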