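import Cfsg.Statements.S2121
import Cfsg.Agent.Lib.Chev.OutAll

set_option autoImplicit false
open Cfsg

namespace Cfsg.Agent.S2121

/-- Outer automorphisms of the Chevalley groups of type G₂: over a field with q = p^f (p prime) ≥ 3 elements, the outer automorphism group of G₂(q) has order f when p ≠ 3 and 2f when p = 3 (field automorphisms, and in characteristic 3 also the exceptional graph automorphism). -/
theorem result {F : Type*} [Field F] [Fintype F] (p f : ℕ) [Fact p.Prime] [CharP F p] (hF : Fintype.card F = p ^ f) (hq : 3 ≤ p ^ f) : Nat.card (Cfsg.Out ↥(Cfsg.Lie.chevG2.group F)) = (if p = 3 then 2 * f else f) := by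
  open CfsgLib.Chev in
  have hH := Nat.card_pos (α := ↥(Cfsg.Lie.chevG2.diagonalSubgroup F))
  have hU : Nat.card Fˣ = p ^ f - 1 := by rw [Nat.card_units, Nat.card_eq_fintype_card, hF]
  have h := outMainG2 (F := F)
  have ht := TG2.card_torus (F := F)
  have hgal := card_gal (F := F) p f hF
  have hc : ∏ m, (Nat.card Fˣ).gcd (fG2 m) = 1 := by
    show ∏ m : Fin 2, (Nat.card Fˣ).gcd (([1, 1] : List ℕ).getD m 0) = _
    simp [Fin.prod_univ_succ]
  rw [hc, mul_one] at ht
  rw [← ht, hgal] at h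
  have hP : Nat.card {π : Equiv.Perm (Fin Cfsg.Lie.chevG2.rank) | π = 1 ∨ (((3 : ℕ) : F) = 0 ∧ π = sG2)} = if p = 3 then 2 else 1 := by
    by_cases hp : p = 3
    · subst hp
      have h20 : ((3 : ℕ) : F) = 0 := CharP.cast_eq_zero F 3
      have e : {π : Equiv.Perm (Fin Cfsg.Lie.chevG2.rank) | π = 1 ∨ (((3 : ℕ) : F) = 0 ∧ π = sG2)} = {1, sG2} := by
        ext π
        simp only [Set.mem_setOf_eq, h20, true_and, Set.mem_insert_iff, Set.mem_singleton_iff]
      have hne : (1 : Equiv.Perm (Fin Cfsg.Lie.chevG2.rank)) ≠ sG2 := listPerm_ne_one (n := Cfsg.Lie.chevG2.rank) (L := [1, 0]) ⟨0, by decide, by decide⟩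
      rw [e, Nat.card_coe_set_eq, Set.ncard_pair hne]
      rfl
    · have h20 : ((3 : ℕ) : F) ≠ 0 := by
        intro h1
        have h2 := (CharP.cast_eq_zero_iff F p 3).1 h1
        exact hp ((Nat.prime_dvd_prime_iff_eq (Fact.out) Nat.prime_three).1 h2)
      have e : {π : Equiv.Perm (Fin Cfsg.Lie.chevG2.rank) | π = 1 ∨ (((3 : ℕ) : F) = 0 ∧ π = sG2)} = {1} := by
        ext π
        simp only [Set.mem_setOf_eq, h20, false_and, or_false, Set.mem_singleton_iff]
      rw [e, Nat.card_coe_set_eq, Set.ncard_singleton, if_neg hp]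
  rw [hP] at h
  apply Nat.eq_of_mul_eq_mul_right hH
  rw [h]
  split_ifs <;> ring

end Cfsg.Agent.S2121
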