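import Cfsg.Statements.S2122
import Cfsg.Agent.Lib.Chev.OutAll

set_option autoImplicit false
open Cfsg

namespace Cfsg.Agent.S2122

/-- Outer automorphisms of the Chevalley groups of type F₄: over a field with q = p^f (p prime) elements, the outer automorphism group of F₄(q) has order gcd(2, p) · f (field automorphisms, and in characteristic 2 also the exceptional graph automorphism). -/
theorem result {F : Type*} [Field F] [Fintype F] (p f : ℕ) [Fact p.Prime] [CharP F p] (hF : Fintype.card F = p ^ f) : Nat.card (Cfsg.Out ↥(Cfsg.Lie.chevF4.group F)) = Nat.gcd 2 p * f := by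
  open CfsgLib.Chev in
  have hH := Nat.card_pos (α := ↥(Cfsg.Lie.chevF4.diagonalSubgroup F))
  have hU : Nat.card Fˣ = p ^ f - 1 := by rw [Nat.card_units, Nat.card_eq_fintype_card, hF]
  have h := outMainF4 (F := F)
  have ht := TF4.card_torus (F := F)
  have hgal := card_gal (F := F) p f hF
  have hc : ∏ m, (Nat.card Fˣ).gcd (fF4 m) = 1 := by
    show ∏ m : Fin 4, (Nat.card Fˣ).gcd (([1, 1, 1, 1] : List ℕ).getD m 0) = _
    simp [Fin.prod_univ_succ]
  rw [hc, mul_one] at ht
  rw [← ht, hgal] at h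
  have hP : Nat.card {π : Equiv.Perm (Fin Cfsg.Lie.chevF4.rank) | π = 1 ∨ ((2 : F) = 0 ∧ π = sF4)} = Nat.gcd 2 p := by
    by_cases hp : p = 2
    · subst hp
      have h20 : (2 : F) = 0 := CharTwo.two_eq_zero
      have e : {π : Equiv.Perm (Fin Cfsg.Lie.chevF4.rank) | π = 1 ∨ ((2 : F) = 0 ∧ π = sF4)} = {1, sF4} := by
        ext π
        simp [h20]
      have hne : (1 : Equiv.Perm (Fin Cfsg.Lie.chevF4.rank)) ≠ sF4 := listPerm_ne_one (n := Cfsg.Lie.chevF4.rank) (L := [3, 2, 1, 0]) ⟨0, by decide, by decide⟩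
      rw [e, Nat.card_coe_set_eq, Set.ncard_pair hne]
      rfl
    · have h20 : (2 : F) ≠ 0 := by
        intro h0
        have h1 : ((2 : ℕ) : F) = 0 := by exact_mod_cast h0
        have h2 := (CharP.cast_eq_zero_iff F p 2).1 h1
        exact hp ((Nat.prime_dvd_prime_iff_eq (Fact.out) Nat.prime_two).1 h2)
      have e : {π : Equiv.Perm (Fin Cfsg.Lie.chevF4.rank) | π = 1 ∨ ((2 : F) = 0 ∧ π = sF4)} = {1} := by
        ext π
        simp [h20]
      rw [e, Nat.card_coe_set_eq, Set.ncard_singleton]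
      exact Eq.symm ((Nat.coprime_primes Nat.prime_two Fact.out).2 (Ne.symm hp))
  rw [hP] at h
  apply Nat.eq_of_mul_eq_mul_right hH
  rw [h]
  ring

end Cfsg.Agent.S2122
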