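import Cfsg.Statements.S2124
import Cfsg.Agent.Lib.Chev.OutAll

set_option autoImplicit false
open Cfsg

namespace Cfsg.Agent.S2124

/-- Outer automorphisms of the (adjoint, simple) Chevalley groups of type E₇: over a field with q = p^f (p prime) elements, the outer automorphism group of E₇(q) has order gcd(2, q − 1) · f (diagonal and field automorphisms). -/
theorem result {F : Type*} [Field F] [Fintype F] (p f : ℕ) [Fact p.Prime] [CharP F p] (hF : Fintype.card F = p ^ f) : Nat.card (Cfsg.Out ↥(Cfsg.Lie.chevE7.group F)) = Nat.gcd 2 (p ^ f - 1) * f := by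
  open CfsgLib.Chev in
  have hH := Nat.card_pos (α := ↥(Cfsg.Lie.chevE7.diagonalSubgroup F))
  have hU : Nat.card Fˣ = p ^ f - 1 := by rw [Nat.card_units, Nat.card_eq_fintype_card, hF]
  have h := outMainE7 (F := F)
  have ht := TE7.card_torus (F := F)
  have hgal := card_gal (F := F) p f hF
  have hc : ∏ m, (Nat.card Fˣ).gcd (fE7 m) = Nat.gcd 2 (p ^ f - 1) := by
    rw [hU]
    show ∏ m : Fin 7, (p ^ f - 1).gcd (([1, 1, 1, 1, 1, 1, 2] : List ℕ).getD m 0) = _
    simp [Fin.prod_univ_succ, Nat.gcd_comm]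
  rw [hc] at ht
  rw [← ht, hgal] at h
  apply Nat.eq_of_mul_eq_mul_right hH
  rw [h]
  ring

end Cfsg.Agent.S2124
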