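import Cfsg.Statements.S2125
import Cfsg.Agent.Lib.Chev.OutAll

set_option autoImplicit false
open Cfsg

namespace Cfsg.Agent.S2125

/-- Outer automorphisms of the Chevalley groups of type E₈: over a field with p^f elements, p prime, the outer automorphism group of E₈(p^f) has order f (field automorphisms only). -/
theorem result {F : Type*} [Field F] [Fintype F] (p f : ℕ) [Fact p.Prime] [CharP F p] (hF : Fintype.card F = p ^ f) : Nat.card (Cfsg.Out ↥(Cfsg.Lie.chevE8.group F)) = f := by
  open CfsgLib.Chev in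
  have hH := Nat.card_pos (α := ↥(Cfsg.Lie.chevE8.diagonalSubgroup F))
  have hU : Nat.card Fˣ = p ^ f - 1 := by rw [Nat.card_units, Nat.card_eq_fintype_card, hF]
  have h := outMainE8 (F := F)
  have ht := TE8.card_torus (F := F)
  have hgal := card_gal (F := F) p f hF
  have hc : ∏ m, (Nat.card Fˣ).gcd (fE8 m) = 1 := by
    show ∏ m : Fin 8, (Nat.card Fˣ).gcd (([1, 1, 1, 1, 1, 1, 1, 1] : List ℕ).getD m 0) = _
    simp [Fin.prod_univ_succ]
  rw [hc, mul_one] at ht
  rw [← ht, hgal] at h
  exact Nat.eq_of_mul_eq_mul_right hH (by rw [h, mul_comm])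

end Cfsg.Agent.S2125
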