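import Cfsg.Statements.S2159
import Cfsg.Agent.Lib.Chev.OutTypes

set_option autoImplicit false
open Cfsg

namespace Cfsg.Agent.S2159

/-- Structure of the outer automorphism group of the Chevalley group `G` of type G₂, B₂, D₄, F₄, E₆, E₇ or E₈ over a finite field. Let `D̄` be the image in `Out(G)` of the subgroup generated by the diagonal automorphisms and `F̄` the image of the subgroup generated by the field automorphisms. Then `D̄` is a normal abelian subgroup of `Out(G)`, `F̄` is cyclic, `D̄F̄` is a normal subgroup, and the quotient of `Out(G)` by `D̄F̄` is trivial, of order 2, or non-abelian of order 6 (so isomorphic to the symmetric group on three letters): its index is 1 or 2, or it is 6 with the commutator subgroup of `Out(G)` not inside `D̄F̄`. -/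
theorem result {F : Type*} [Field F] [Finite F] (D : Cfsg.Lie.ChevalleyDatum) (hD : D ∈ [Cfsg.Lie.chevG2, Cfsg.Lie.chevB2, Cfsg.Lie.chevD4, Cfsg.Lie.chevF4, Cfsg.Lie.chevE6, Cfsg.Lie.chevE7, Cfsg.Lie.chevE8])
    (Dbar Fbar : Subgroup (Cfsg.Out ↥(D.group F)))
    (hDbar : Dbar = (Subgroup.closure {φ : MulAut ↥(D.group F) | D.IsDiagonalAut φ}).map (QuotientGroup.mk' (Cfsg.Inn ↥(D.group F))))
    (hFbar : Fbar = (Subgroup.closure {φ : MulAut ↥(D.group F) | D.IsFieldAut φ}).map (QuotientGroup.mk' (Cfsg.Inn ↥(D.group F)))) :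
    Dbar.Normal ∧ IsMulCommutative ↥Dbar ∧ IsCyclic ↥Fbar ∧ (Dbar ⊔ Fbar).Normal ∧
      ((Dbar ⊔ Fbar).index = 1 ∨ (Dbar ⊔ Fbar).index = 2 ∨
        ((Dbar ⊔ Fbar).index = 6 ∧ ¬ commutator (Cfsg.Out ↥(D.group F)) ≤ Dbar ⊔ Fbar)) := by
  open CfsgLib.Chev in
  simp only [List.mem_cons, List.not_mem_nil, or_false] at hD
  rcases hD with rfl | rfl | rfl | rfl | rfl | rfl | rfl
  · obtain ⟨h1, h2, h3, ϖ, hk, hr⟩ := TG2.extra.out_structure TG2.good (F := F) TG2.braid TG2.long TG2.chainStep (PsetG2 F) hexG2 hallG2 Dbar Fbar hDbar hFbar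
    obtain ⟨h4, h5⟩ := out_final Dbar Fbar ϖ hk hr
    refine ⟨h1, h2, h3, h4, ?_⟩
    rw [h5]
    rcases card_pset2 (((3 : ℕ) : F) = 0) sG2 (listPerm_ne_one (n := Cfsg.Lie.chevG2.rank) (L := [1, 0]) ⟨0, by decide, by decide⟩) with h | h
    · exact Or.inl h
    · exact Or.inr (Or.inl h)
  · obtain ⟨h1, h2, h3, ϖ, hk, hr⟩ := TB2.extra.out_structure TB2.good (F := F) TB2.braid TB2.long TB2.chainStep (PsetB2 F) hexB2 hallB2 Dbar Fbar hDbar hFbar
    obtain ⟨h4, h5⟩ := out_final Dbar Fbar ϖ hk hr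
    refine ⟨h1, h2, h3, h4, ?_⟩
    rw [h5]
    rcases card_pset2 ((2 : F) = 0) sB2 (listPerm_ne_one (n := Cfsg.Lie.chevB2.rank) (L := [1, 0]) ⟨0, by decide, by decide⟩) with h | h
    · exact Or.inl h
    · exact Or.inr (Or.inl h)
  · obtain ⟨h1, h2, h3, ϖ, hk, hr⟩ := TD4.extra.out_structure TD4.good (F := F) TD4.braid TD4.long TD4.chainStep PsetD4 hexD4 hallD4 Dbar Fbar hDbar hFbar
    obtain ⟨h4, h5⟩ := out_final Dbar Fbar ϖ hk hr
    refine ⟨h1, h2, h3, h4, Or.inr (Or.inr ⟨?_, ?_⟩)⟩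
    · rw [h5]
      exact card_psetD4
    · intro hcomm
      obtain ⟨y₁, e₁⟩ := (hr aD4).2 aD4_mem
      obtain ⟨y₂, e₂⟩ := (hr bD4).2 bD4_mem
      have hm : y₁ * y₂ * y₁⁻¹ * y₂⁻¹ ∈ commutator (Cfsg.Out ↥(Cfsg.Lie.chevD4.group F)) := by
        rw [commutator_def]
        exact Subgroup.commutator_mem_commutator (Subgroup.mem_top _) (Subgroup.mem_top _)
      have h6 := hcomm hm
      rw [← hk, MonoidHom.mem_ker, map_mul, map_mul, map_mul, map_inv, map_inv] at h6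
      have e₁' : ϖ y₁ = aD4 := e₁
      have e₂' : ϖ y₂ = bD4 := e₂
      rw [e₁', e₂'] at h6
      apply aD4_bD4
      have h7 : aD4 * bD4 * aD4⁻¹ * bD4⁻¹ * bD4 * aD4 = bD4 * aD4 := by rw [h6, one_mul]
      simpa using h7
  · obtain ⟨h1, h2, h3, ϖ, hk, hr⟩ := TF4.extra.out_structure TF4.good (F := F) TF4.braid TF4.long TF4.chainStep (PsetF4 F) hexF4 hallF4 Dbar Fbar hDbar hFbar
    obtain ⟨h4, h5⟩ := out_final Dbar Fbar ϖ hk hr
    refine ⟨h1, h2, h3, h4, ?_⟩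
    rw [h5]
    rcases card_pset2 ((2 : F) = 0) sF4 (listPerm_ne_one (n := Cfsg.Lie.chevF4.rank) (L := [3, 2, 1, 0]) ⟨0, by decide, by decide⟩) with h | h
    · exact Or.inl h
    · exact Or.inr (Or.inl h)
  · obtain ⟨h1, h2, h3, ϖ, hk, hr⟩ := TE6.extra.out_structure TE6.good (F := F) TE6.braid TE6.long TE6.chainStep (PsetE6 F) hexE6 hallE6 Dbar Fbar hDbar hFbar
    obtain ⟨h4, h5⟩ := out_final Dbar Fbar ϖ hk hr
    refine ⟨h1, h2, h3, h4, Or.inr (Or.inl ?_)⟩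
    rw [h5]
    have hne : (1 : Equiv.Perm (Fin Cfsg.Lie.chevE6.rank)) ≠ sE6 := listPerm_ne_one (n := Cfsg.Lie.chevE6.rank) (L := [5, 1, 4, 3, 2, 0]) ⟨0, by decide, by decide⟩
    unfold PsetE6
    rw [Nat.card_coe_set_eq, Set.ncard_pair hne]
  · obtain ⟨h1, h2, h3, ϖ, hk, hr⟩ := TE7.extra.out_structure TE7.good (F := F) TE7.braid TE7.long TE7.chainStep (PsetE7 F) hexE7 hallE7 Dbar Fbar hDbar hFbar
    obtain ⟨h4, h5⟩ := out_final Dbar Fbar ϖ hk hr
    refine ⟨h1, h2, h3, h4, Or.inl ?_⟩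
    rw [h5]
    unfold PsetE7
    rw [Nat.card_coe_set_eq, Set.ncard_singleton]
  · obtain ⟨h1, h2, h3, ϖ, hk, hr⟩ := TE8.extra.out_structure TE8.good (F := F) TE8.braid TE8.long TE8.chainStep (PsetE8 F) hexE8 hallE8 Dbar Fbar hDbar hFbar
    obtain ⟨h4, h5⟩ := out_final Dbar Fbar ϖ hk hr
    refine ⟨h1, h2, h3, h4, Or.inl ?_⟩
    rw [h5]
    unfold PsetE8
    rw [Nat.card_coe_set_eq, Set.ncard_singleton]

end Cfsg.Agent.S2159
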