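import Cfsg.Statements.S2161
import Cfsg.Agent.Lib.Chev.GraphRoot
import Cfsg.Agent.Lib.Chev.AllL

set_option autoImplicit false
open Cfsg

namespace Cfsg.Agent.S2161

open Cfsg.Lie Cfsg.Lie.ChevalleyDatum CfsgLib.Chev in
set_option maxRecDepth 100000 in
theorem tD4 : ∀ π : Equiv.Perm (Fin chevD4.rank), (∀ i j : Fin chevD4.rank, i ≠ j → chevD4.bonds (π i) (π j) = chevD4.bonds i j) →
    (∀ r < chevD4.nroots, chevD4.permRoot π r < chevD4.nroots) ∧
    (∀ i : Fin chevD4.rank, chevD4.permRoot π (chevD4.simple i) = chevD4.simple (π i)) ∧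
    (∀ i : Fin chevD4.rank, ∀ r < chevD4.nroots, chevD4.permRoot π (TD4.cert.pi i r) = TD4.cert.pi (π i) (chevD4.permRoot π r)) := by
  decide +kernel

open Cfsg.Lie Cfsg.Lie.ChevalleyDatum CfsgLib.Chev in
set_option maxRecDepth 100000 in
theorem tE6 : ∀ π : Equiv.Perm (Fin chevE6.rank), (∀ i j : Fin chevE6.rank, i ≠ j → chevE6.bonds (π i) (π j) = chevE6.bonds i j) →
    (∀ r < chevE6.nroots, chevE6.permRoot π r < chevE6.nroots) ∧
    (∀ i : Fin chevE6.rank, chevE6.permRoot π (chevE6.simple i) = chevE6.simple (π i)) ∧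
    (∀ i : Fin chevE6.rank, ∀ r < chevE6.nroots, chevE6.permRoot π (TE6.cert.pi i r) = TE6.cert.pi (π i) (chevE6.permRoot π r)) := by
  decide +kernel

/-- For the Chevalley groups of types D₄ and E₆ (one root length) over any field: if `π` is a symmetry of the Dynkin diagram and `φ` is an automorphism sending `x_{p_i}(t)` to `x_{p_{π i}}(t)` and `x_{-p_i}(t)` to `x_{-p_{π i}}(t)` for every fundamental root `p_i`, then for every root `r` there is a sign `ε = ±1` with `φ(x_r(t)) = x_{π·r}(ε t)` for all `t`, where `π·r` is the root whose coefficients are those of `r` permuted by `π`. -/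
theorem result {F : Type*} [Field F] (D : Cfsg.Lie.ChevalleyDatum) (hD : D ∈ [Cfsg.Lie.chevD4, Cfsg.Lie.chevE6])
    (π : Equiv.Perm (Fin D.rank)) (hπ : D.IsDiagramSymmetry π) (φ : ↥(D.group F) ≃* ↥(D.group F))
    (hφ : ∀ (g : ↥(D.group F)) (i : Fin D.rank) (t : F),
      (((g : GL D.Idx F) : Matrix D.Idx D.Idx F) = D.x F (D.simple i) t →
        ((φ g : GL D.Idx F) : Matrix D.Idx D.Idx F) = D.x F (D.simple (π i)) t) ∧
      (((g : GL D.Idx F) : Matrix D.Idx D.Idx F) = D.x F (D.neg (D.simple i)) t →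
        ((φ g : GL D.Idx F) : Matrix D.Idx D.Idx F) = D.x F (D.neg (D.simple (π i))) t))
    (r : ℕ) (hr : r < D.nroots) :
    ∃ ε : F, (ε = 1 ∨ ε = -1) ∧ ∀ (g : ↥(D.group F)) (t : F),
      ((g : GL D.Idx F) : Matrix D.Idx D.Idx F) = D.x F r t →
        ((φ g : GL D.Idx F) : Matrix D.Idx D.Idx F) = D.x F (D.permRoot π r) (ε * t) := by
  simp only [List.mem_cons, List.not_mem_nil, or_false] at hD
  rcases hD with rfl | rfl
  · obtain ⟨h1, h2, h3⟩ := tD4 π hπ
    exact CfsgLib.Chev.TD4.good.graph_root_elem π φ hφ h1 h2 h3 (b := 0) ⟨0, by decide⟩ (L := [1, 3, 2, 1, 0]) (by decide +kernel) (by decide +kernel) (by decide +kernel) r hr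
  · obtain ⟨h1, h2, h3⟩ := tE6 π hπ
    exact CfsgLib.Chev.TE6.good.graph_root_elem π φ hφ h1 h2 h3 (b := 0) ⟨0, by decide⟩ (L := [1, 3, 4, 5, 2, 3, 4, 1, 3, 2, 0]) (by decide +kernel) (by decide +kernel) (by decide +kernel) r hr

end Cfsg.Agent.S2161
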