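import Cfsg.Statements.S2298
import Cfsg.Agent.Lib.H9.GL2Char

set_option autoImplicit false
open Cfsg

namespace Cfsg.Agent.S2298

/-- Over a finite field F with q elements, every irreducible complex character of GL₂ has degree 1, q − 1, q or q + 1; and when q ≥ 3 (so that these four numbers are distinct) there are exactly q − 1 irreducible characters of degree 1, exactly q − 1 of degree q, exactly (q − 1)(q − 2)/2 of degree q + 1 and exactly q(q − 1)/2 of degree q − 1. -/
theorem result {F : Type*} [Field F] [Fintype F] :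
    (∀ χ : Matrix.GeneralLinearGroup (Fin 2) F → ℂ, Cfsg.IsIrrCharacter (Matrix.GeneralLinearGroup (Fin 2) F) χ →
      χ 1 = 1 ∨ χ 1 = (Fintype.card F : ℂ) - 1 ∨ χ 1 = (Fintype.card F : ℂ) ∨ χ 1 = (Fintype.card F : ℂ) + 1) ∧
    (3 ≤ Fintype.card F →
      Nat.card {χ : Cfsg.IrrCharacter (Matrix.GeneralLinearGroup (Fin 2) F) // (χ : Matrix.GeneralLinearGroup (Fin 2) F → ℂ) 1 = 1} = Fintype.card F - 1 ∧
      Nat.card {χ : Cfsg.IrrCharacter (Matrix.GeneralLinearGroup (Fin 2) F) // (χ : Matrix.GeneralLinearGroup (Fin 2) F → ℂ) 1 = (Fintype.card F : ℂ)} = Fintype.card F - 1 ∧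
      Nat.card {χ : Cfsg.IrrCharacter (Matrix.GeneralLinearGroup (Fin 2) F) // (χ : Matrix.GeneralLinearGroup (Fin 2) F → ℂ) 1 = (Fintype.card F : ℂ) + 1} = (Fintype.card F - 1) * (Fintype.card F - 2) / 2 ∧
      Nat.card {χ : Cfsg.IrrCharacter (Matrix.GeneralLinearGroup (Fin 2) F) // (χ : Matrix.GeneralLinearGroup (Fin 2) F → ℂ) 1 = (Fintype.card F : ℂ) - 1} = Fintype.card F * (Fintype.card F - 1) / 2) := by
  classical
  letI : Fintype (Matrix.GeneralLinearGroup (Fin 2) F) := Fintype.ofFinite _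
  open CfsgLib.H9.BorelChar in
  refine ⟨?_, ?_⟩
  · intro χ hχ
    rcases classify' hχ with h | h | h | h
    · exact Or.inl (deg_P1 h)
    · exact Or.inr (Or.inr (Or.inl (deg_P2 h)))
    · exact Or.inr (Or.inr (Or.inr (deg_P3 h)))
    · exact Or.inr (Or.inl (deg_PC hχ h))
  · intro hq
    have hc3 := card_P3 (F := F)
    have hc := GL2_main (F := F).2
    have h1 := card_P1 (F := F)
    have h2 := card_P2 (F := F)
    have hdeg := fun χ : Cfsg.IrrCharacter (Matrix.GeneralLinearGroup (Fin 2) F) => deg_iff hq χ.2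
    refine ⟨?_, ?_, ?_, ?_⟩
    · rw [natCard_filter _ (fun χ => P1 χ.1) (fun χ => (hdeg χ).1), h1]
    · rw [natCard_filter _ (fun χ => P2 χ.1) (fun χ => (hdeg χ).2.1), h2]
    · rw [natCard_filter _ (fun χ => P3 χ.1) (fun χ => (hdeg χ).2.2.1)]
      generalize (Finset.univ.filter fun χ : Cfsg.IrrCharacter (Matrix.GeneralLinearGroup (Fin 2) F) => P3 χ.1).card = c3 at hc3 hc ⊢
      generalize (Finset.univ.filter fun χ : Cfsg.IrrCharacter (Matrix.GeneralLinearGroup (Fin 2) F) => PC χ.1).card = cC at hc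
      obtain ⟨k, hk⟩ : ∃ k, Fintype.card F = k + 2 := ⟨Fintype.card F - 2, by omega⟩
      rw [hk] at hc3 hc ⊢
      simp only [Nat.add_sub_cancel, show k + 2 - 1 = k + 1 by omega] at hc3 hc ⊢
      symm
      apply Nat.div_eq_of_eq_mul_right (by norm_num)
      nlinarith
    · have e4 := natCard_filter (ι := Cfsg.IrrCharacter (Matrix.GeneralLinearGroup (Fin 2) F)) (fun χ => χ.1 1 = (Fintype.card F : ℂ) - 1) (fun χ => PC χ.1) (fun χ => (hdeg χ).2.2.2)
      refine e4.trans ?_
      generalize (Finset.univ.filter fun χ : Cfsg.IrrCharacter (Matrix.GeneralLinearGroup (Fin 2) F) => P3 χ.1).card = c3 at hc3 hc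
      generalize (Finset.univ.filter fun χ : Cfsg.IrrCharacter (Matrix.GeneralLinearGroup (Fin 2) F) => PC χ.1).card = cC at hc ⊢
      obtain ⟨k, hk⟩ : ∃ k, Fintype.card F = k + 2 := ⟨Fintype.card F - 2, by omega⟩
      rw [hk] at hc3 hc ⊢
      simp only [Nat.add_sub_cancel, show k + 2 - 1 = k + 1 by omega] at hc3 hc ⊢
      symm
      apply Nat.div_eq_of_eq_mul_right (by norm_num)
      nlinarith

end Cfsg.Agent.S2298
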