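import Cfsg.Statements.S2299
import Cfsg.Agent.Lib.H9.SL2Odd

set_option autoImplicit false
open Cfsg

namespace Cfsg.Agent.S2299

/-- Over a finite field F with q elements, q odd, every irreducible complex character of SL₂ has degree 1, q, q + 1, q − 1, (q + 1)/2 or (q − 1)/2; and when q ≥ 5 (so that these six numbers are distinct) there are exactly one irreducible character of degree 1, one of degree q, (q − 3)/2 of degree q + 1, (q − 1)/2 of degree q − 1, two of degree (q + 1)/2 and two of degree (q − 1)/2. -/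
theorem result {F : Type*} [Field F] [Fintype F] (hodd : Odd (Fintype.card F)) :
    (∀ χ : Matrix.SpecialLinearGroup (Fin 2) F → ℂ, Cfsg.IsIrrCharacter (Matrix.SpecialLinearGroup (Fin 2) F) χ →
      χ 1 = 1 ∨ χ 1 = (Fintype.card F : ℂ) ∨ χ 1 = (Fintype.card F : ℂ) + 1 ∨ χ 1 = (Fintype.card F : ℂ) - 1 ∨
        χ 1 = (((Fintype.card F + 1) / 2 : ℕ) : ℂ) ∨ χ 1 = (((Fintype.card F - 1) / 2 : ℕ) : ℂ)) ∧
    (5 ≤ Fintype.card F →
      Nat.card {χ : Cfsg.IrrCharacter (Matrix.SpecialLinearGroup (Fin 2) F) // (χ : Matrix.SpecialLinearGroup (Fin 2) F → ℂ) 1 = 1} = 1 ∧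
      Nat.card {χ : Cfsg.IrrCharacter (Matrix.SpecialLinearGroup (Fin 2) F) // (χ : Matrix.SpecialLinearGroup (Fin 2) F → ℂ) 1 = (Fintype.card F : ℂ)} = 1 ∧
      Nat.card {χ : Cfsg.IrrCharacter (Matrix.SpecialLinearGroup (Fin 2) F) // (χ : Matrix.SpecialLinearGroup (Fin 2) F → ℂ) 1 = (Fintype.card F : ℂ) + 1} = (Fintype.card F - 3) / 2 ∧
      Nat.card {χ : Cfsg.IrrCharacter (Matrix.SpecialLinearGroup (Fin 2) F) // (χ : Matrix.SpecialLinearGroup (Fin 2) F → ℂ) 1 = (Fintype.card F : ℂ) - 1} = (Fintype.card F - 1) / 2 ∧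
      Nat.card {χ : Cfsg.IrrCharacter (Matrix.SpecialLinearGroup (Fin 2) F) // (χ : Matrix.SpecialLinearGroup (Fin 2) F → ℂ) 1 = (((Fintype.card F + 1) / 2 : ℕ) : ℂ)} = 2 ∧
      Nat.card {χ : Cfsg.IrrCharacter (Matrix.SpecialLinearGroup (Fin 2) F) // (χ : Matrix.SpecialLinearGroup (Fin 2) F → ℂ) 1 = (((Fintype.card F - 1) / 2 : ℕ) : ℂ)} = 2) := by
  classical
  letI : Fintype (Matrix.GeneralLinearGroup (Fin 2) F) := Fintype.ofFinite _
  letI : Fintype (Matrix.SpecialLinearGroup (Fin 2) F) := Fintype.ofFinite _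
  obtain ⟨n, hn⟩ := hodd
  have hodd' : Odd (Fintype.card F) := ⟨n, hn⟩
  have h1 : (Fintype.card F + 1) / 2 = n + 1 := by omega
  have h2 : (Fintype.card F - 1) / 2 = n := by omega
  open CfsgLib.H9.BorelChar in
  have hmain := SL2O_main (F := F) hodd' n hn
  open CfsgLib.H9.BorelChar in
  refine ⟨?_, ?_⟩
  · intro χ hχ
    rw [h1, h2]
    rcases classifyO hodd' hχ with h | h | h | h | h
    · left; rw [h]; rfl
    · right; left; rw [h]; exact StS_one_val
    · right; right; right; right; left
      exact hmain.2.2 χ hχ h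
    · right; right; left
      exact deg_O3 h
    · have := hmain.1 ⟨χ, hχ⟩ h
      rcases this with h3 | h3
      · right; right; right; right; right
        exact h3
      · right; right; right; left
        refine Eq.trans h3 ?_
        rw [hn]
        push_cast
        ring
  · intro hq
    have hn2 : 2 ≤ n := by omega
    have hdeg := fun (χ : Cfsg.IrrCharacter (Matrix.SpecialLinearGroup (Fin 2) F)) => χ.2.isCharacter.map_one
    have htype := fun (χ : Cfsg.IrrCharacter (Matrix.SpecialLinearGroup (Fin 2) F)) (d : ℕ) (hd : χ.1 1 = d) =>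
      type_of_deg hodd' n hn hn2 χ.2 d hd
    have hc1 : (Finset.univ.filter fun χ : Cfsg.IrrCharacter (Matrix.SpecialLinearGroup (Fin 2) F) => χ.1 = oneS).card = 1 := by
      rw [Finset.card_eq_one]
      refine ⟨⟨oneS, oneS_isIrr⟩, ?_⟩
      ext χ
      rw [Finset.mem_filter]
      simp [Subtype.ext_iff]
    have hc2 : (Finset.univ.filter fun χ : Cfsg.IrrCharacter (Matrix.SpecialLinearGroup (Fin 2) F) => χ.1 = StS).card = 1 := by
      rw [Finset.card_eq_one]
      refine ⟨⟨StS, isIrr_StS⟩, ?_⟩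
      ext χ
      rw [Finset.mem_filter]
      simp [Subtype.ext_iff]
    rw [h1, h2]
    obtain ⟨-, ⟨hcA, hcB, hcO, hcD⟩, hDd⟩ := hmain
    refine ⟨?_, ?_, ?_, ?_, ?_, ?_⟩
    · have e := natCard_filter (ι := Cfsg.IrrCharacter (Matrix.SpecialLinearGroup (Fin 2) F)) (fun χ => χ.1 1 = 1) (fun χ => χ.1 = oneS) (fun χ => by
        constructor
        · intro h
          exact (htype χ 1 (by simpa using h)).1 rfl
        · intro h
          rw [h]
          rfl)
      exact e.trans hc1
    · have e := natCard_filter (ι := Cfsg.IrrCharacter (Matrix.SpecialLinearGroup (Fin 2) F)) (fun χ => χ.1 1 = (Fintype.card F : ℂ)) (fun χ => χ.1 = StS) (fun χ => by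
        constructor
        · intro h
          exact (htype χ (2 * n + 1) (by rw [h, hn])).2.1 rfl
        · intro h
          rw [h]
          exact StS_one_val)
      exact e.trans hc2
    · have e := natCard_filter (ι := Cfsg.IrrCharacter (Matrix.SpecialLinearGroup (Fin 2) F)) (fun χ => χ.1 1 = (Fintype.card F : ℂ) + 1) (fun χ => O3 χ.1) (fun χ => by
        constructor
        · intro h
          exact (htype χ (2 * n + 2) (by rw [h, hn]; push_cast; ring)).2.2.1 rfl
        · intro h
          exact deg_O3 h)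
      refine e.trans ?_
      generalize (Finset.univ.filter fun χ : Cfsg.IrrCharacter (Matrix.SpecialLinearGroup (Fin 2) F) => O3 χ.1).card = c at hcO ⊢
      omega
    · have e := natCard_filter (ι := Cfsg.IrrCharacter (Matrix.SpecialLinearGroup (Fin 2) F)) (fun χ => χ.1 1 = (Fintype.card F : ℂ) - 1) (fun χ => PCS χ.1 ∧ χ.1 1 = ((2 * n : ℕ) : ℂ)) (fun χ => by
        have hq2 : (Fintype.card F : ℂ) - 1 = ((2 * n : ℕ) : ℂ) := by rw [hn]; push_cast; ring
        rw [hq2]
        constructor
        · intro h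
          exact ⟨(htype χ (2 * n) h).2.2.2.2.1 rfl, h⟩
        · intro h
          exact h.2)
      refine e.trans ?_
      refine Eq.trans ?_ hcB
      congr
    · have e := natCard_filter (ι := Cfsg.IrrCharacter (Matrix.SpecialLinearGroup (Fin 2) F)) (fun χ => χ.1 1 = ((n + 1 : ℕ) : ℂ)) (fun χ => D2 χ.1) (fun χ => by
        constructor
        · intro h
          exact (htype χ (n + 1) h).2.2.2.1 rfl
        · intro h
          exact hDd χ.1 χ.2 h)
      refine e.trans ?_
      refine Eq.trans ?_ hcD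
      congr
    · have e := natCard_filter (ι := Cfsg.IrrCharacter (Matrix.SpecialLinearGroup (Fin 2) F)) (fun χ => χ.1 1 = (n : ℂ)) (fun χ => PCS χ.1 ∧ χ.1 1 = (n : ℂ)) (fun χ => by
        constructor
        · intro h
          exact ⟨(htype χ n h).2.2.2.2.2 rfl, h⟩
        · intro h
          exact h.2)
      refine e.trans ?_
      refine Eq.trans ?_ hcA
      congr

end Cfsg.Agent.S2299
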