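import Cfsg.Statements.S2300
import Cfsg.Agent.Lib.H9.SL2Even

set_option autoImplicit false
open Cfsg

namespace Cfsg.Agent.S2300

/-- Over a finite field F with q elements, q even, every irreducible complex character of SL₂ has degree 1, q − 1, q or q + 1; and when q ≥ 4 (so that these four numbers are distinct) there are exactly one irreducible character of degree 1, one of degree q, (q − 2)/2 of degree q + 1 and q/2 of degree q − 1. -/
theorem result {F : Type*} [Field F] [Fintype F] [CharP F 2] :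
    (∀ χ : Matrix.SpecialLinearGroup (Fin 2) F → ℂ, Cfsg.IsIrrCharacter (Matrix.SpecialLinearGroup (Fin 2) F) χ →
      χ 1 = 1 ∨ χ 1 = (Fintype.card F : ℂ) - 1 ∨ χ 1 = (Fintype.card F : ℂ) ∨ χ 1 = (Fintype.card F : ℂ) + 1) ∧
    (4 ≤ Fintype.card F →
      Nat.card {χ : Cfsg.IrrCharacter (Matrix.SpecialLinearGroup (Fin 2) F) // (χ : Matrix.SpecialLinearGroup (Fin 2) F → ℂ) 1 = 1} = 1 ∧
      Nat.card {χ : Cfsg.IrrCharacter (Matrix.SpecialLinearGroup (Fin 2) F) // (χ : Matrix.SpecialLinearGroup (Fin 2) F → ℂ) 1 = (Fintype.card F : ℂ)} = 1 ∧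
      Nat.card {χ : Cfsg.IrrCharacter (Matrix.SpecialLinearGroup (Fin 2) F) // (χ : Matrix.SpecialLinearGroup (Fin 2) F → ℂ) 1 = (Fintype.card F : ℂ) + 1} = (Fintype.card F - 2) / 2 ∧
      Nat.card {χ : Cfsg.IrrCharacter (Matrix.SpecialLinearGroup (Fin 2) F) // (χ : Matrix.SpecialLinearGroup (Fin 2) F → ℂ) 1 = (Fintype.card F : ℂ) - 1} = Fintype.card F / 2) := by
  classical
  letI : Fintype (Matrix.GeneralLinearGroup (Fin 2) F) := Fintype.ofFinite _
  letI : Fintype (Matrix.SpecialLinearGroup (Fin 2) F) := Fintype.ofFinite _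
  open CfsgLib.H9.BorelChar in
  refine ⟨?_, ?_⟩
  · intro χ hχ
    rcases classifyE hχ with h | h | h | h
    · left; rw [h]; rfl
    · right; right; left; rw [h]; exact StS_one_val
    · right; right; right
      obtain ⟨α, -, rfl⟩ := h
      exact RS_one_val α
    · right; left
      exact SL2E_main.1 ⟨χ, hχ⟩ h
  · intro hq
    have hc3 := card_E3 (F := F)
    have hc := SL2E_main (F := F).2
    have hdeg := fun χ : Cfsg.IrrCharacter (Matrix.SpecialLinearGroup (Fin 2) F) => deg_iffE (by omega) χ.2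
    have hc1 : (Finset.univ.filter fun χ : Cfsg.IrrCharacter (Matrix.SpecialLinearGroup (Fin 2) F) => χ.1 = oneS).card = 1 := by
      rw [Finset.card_eq_one]
      refine ⟨⟨oneS, oneS_isIrr⟩, ?_⟩
      ext χ
      rw [Finset.mem_filter]
      simp [Subtype.ext_iff]
    have hc2 : (Finset.univ.filter fun χ : Cfsg.IrrCharacter (Matrix.SpecialLinearGroup (Fin 2) F) => χ.1 = StS).card = 1 := by
      rw [Finset.card_eq_one]
      refine ⟨⟨StS, isIrr_StS⟩, ?_⟩
      ext χ
      rw [Finset.mem_filter]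
      simp [Subtype.ext_iff]
    refine ⟨?_, ?_, ?_, ?_⟩
    · have e := natCard_filter (ι := Cfsg.IrrCharacter (Matrix.SpecialLinearGroup (Fin 2) F)) (fun χ => χ.1 1 = 1) (fun χ => χ.1 = oneS) (fun χ => (hdeg χ).1)
      exact e.trans hc1
    · have e := natCard_filter (ι := Cfsg.IrrCharacter (Matrix.SpecialLinearGroup (Fin 2) F)) (fun χ => χ.1 1 = (Fintype.card F : ℂ)) (fun χ => χ.1 = StS) (fun χ => (hdeg χ).2.1)
      exact e.trans hc2
    · have e := natCard_filter (ι := Cfsg.IrrCharacter (Matrix.SpecialLinearGroup (Fin 2) F)) (fun χ => χ.1 1 = (Fintype.card F : ℂ) + 1) (fun χ => E3 χ.1) (fun χ => (hdeg χ).2.2.1)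
      refine e.trans ?_
      generalize (Finset.univ.filter fun χ : Cfsg.IrrCharacter (Matrix.SpecialLinearGroup (Fin 2) F) => E3 χ.1).card = c3 at hc3 hc ⊢
      omega
    · have e := natCard_filter (ι := Cfsg.IrrCharacter (Matrix.SpecialLinearGroup (Fin 2) F)) (fun χ => χ.1 1 = (Fintype.card F : ℂ) - 1) (fun χ => PCS χ.1) (fun χ => (hdeg χ).2.2.2)
      refine e.trans ?_
      generalize (Finset.univ.filter fun χ : Cfsg.IrrCharacter (Matrix.SpecialLinearGroup (Fin 2) F) => E3 χ.1).card = c3 at hc3 hc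
      generalize (Finset.univ.filter fun χ : Cfsg.IrrCharacter (Matrix.SpecialLinearGroup (Fin 2) F) => PCS χ.1).card = cC at hc ⊢
      omega

end Cfsg.Agent.S2300
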