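import Cfsg.Statements.S2301
import Cfsg.Agent.Lib.H9.SL2Cl

set_option autoImplicit false
open Cfsg

namespace Cfsg.Agent.S2301

open CfsgLib.H9.SL2Cl

/-- Over a finite field with q elements of odd characteristic p, the elements of order p of SL₂ (the non-identity unipotent elements) fall into exactly two conjugacy classes, each of size (q² − 1)/2; two upper unitriangular matrices with non-zero off-diagonal entries b and b′ are conjugate exactly when bb′ is a square. -/
theorem result {F : Type*} [Field F] [Fintype F] (p : ℕ) [Fact p.Prime] [CharP F p] (hp : p ≠ 2) :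
    Nat.card {C : ConjClasses (Matrix.SpecialLinearGroup (Fin 2) F) // ∃ g : Matrix.SpecialLinearGroup (Fin 2) F, orderOf g = p ∧ ConjClasses.mk g = C} = 2 ∧
    (∀ g : Matrix.SpecialLinearGroup (Fin 2) F, orderOf g = p → Nat.card (ConjClasses.mk g).carrier = (Fintype.card F ^ 2 - 1) / 2) ∧
    ∀ g h : Matrix.SpecialLinearGroup (Fin 2) F, (g : Matrix (Fin 2) (Fin 2) F) 0 0 = 1 → (g : Matrix (Fin 2) (Fin 2) F) 1 1 = 1 → (g : Matrix (Fin 2) (Fin 2) F) 1 0 = 0 → (g : Matrix (Fin 2) (Fin 2) F) 0 1 ≠ 0 →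
      (h : Matrix (Fin 2) (Fin 2) F) 0 0 = 1 → (h : Matrix (Fin 2) (Fin 2) F) 1 1 = 1 → (h : Matrix (Fin 2) (Fin 2) F) 1 0 = 0 → (h : Matrix (Fin 2) (Fin 2) F) 0 1 ≠ 0 →
      (IsConj g h ↔ IsSquare ((g : Matrix (Fin 2) (Fin 2) F) 0 1 * (h : Matrix (Fin 2) (Fin 2) F) 0 1)) := by
  classical
  have hp' : p.Prime := Fact.out
  have h2 : ringChar F ≠ 2 := by
    rw [ringChar.eq F p]
    exact hp
  have hne2 : (2 : F) ≠ 0 := Ring.two_ne_zero h2
  have hm1 : (-1 : F) ≠ 1 := by
    intro h
    apply hne2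
    linear_combination -h
  -- a nonsquare
  obtain ⟨ν, hν⟩ := FiniteField.exists_nonsquare h2
  have hν0 : ν ≠ 0 := by
    rintro rfl
    exact hν (IsSquare.zero)
  have hsqprod : ∀ b : F, b ≠ 0 → ¬ IsSquare b → IsSquare (b * ν) := by
    intro b hb hbs
    have h3 : quadraticChar F (b * ν) = 1 := by
      rw [map_mul, (quadraticChar_neg_one_iff_not_isSquare).mpr hbs, (quadraticChar_neg_one_iff_not_isSquare).mpr hν]
      norm_num
    exact (quadraticChar_one_iff_isSquare (mul_ne_zero hb hν0)).mp h3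
  have h1sq : ∀ b : F, IsSquare b → IsSquare (b * 1) := by
    intro b hb
    rwa [mul_one]
  refine ⟨?_, ?_, ?_⟩
  · rw [Nat.card_eq_two_iff]
    refine ⟨⟨ConjClasses.mk (U 1), U 1, orderOf_U p one_ne_zero, rfl⟩,
      ⟨ConjClasses.mk (U ν), U ν, orderOf_U p hν0, rfl⟩, ?_, ?_⟩
    · intro h
      have h3 := congrArg Subtype.val h
      simp only at h3
      rw [ConjClasses.mk_eq_mk_iff_isConj, isConj_U_iff one_ne_zero hν0, one_mul] at h3
      exact hν h3
    · ext ⟨C, g, hg, hC⟩
      simp only [Set.mem_insert_iff, Set.mem_singleton_iff, Set.mem_univ, iff_true, Subtype.mk.injEq]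
      obtain ⟨b, hb, hgb⟩ := exists_conj_U_of_order p g hg
      by_cases hbs : IsSquare b
      · left
        rw [← hC, ConjClasses.mk_eq_mk_iff_isConj]
        exact hgb.trans ((isConj_U_iff hb one_ne_zero).mpr (h1sq b hbs))
      · right
        rw [← hC, ConjClasses.mk_eq_mk_iff_isConj]
        exact hgb.trans ((isConj_U_iff hb hν0).mpr (hsqprod b hb hbs))
  · intro g hg
    obtain ⟨b, hb, hgb⟩ := exists_conj_U_of_order p g hg
    have htwo : Nat.card {a : F // a ^ 2 = 1} = 2 := by
      rw [Nat.card_eq_two_iff]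
      refine ⟨⟨1, one_pow 2⟩, ⟨-1, by ring⟩, ?_, ?_⟩
      · intro h
        exact hm1 (congrArg Subtype.val h).symm
      · ext ⟨a, ha⟩
        simp only [Set.mem_insert_iff, Set.mem_singleton_iff, Set.mem_univ, iff_true, Subtype.mk.injEq]
        have : (a - 1) * (a + 1) = 0 := by linear_combination ha
        rcases mul_eq_zero.mp this with h | h
        · left; exact sub_eq_zero.mp h
        · right; exact eq_neg_of_add_eq_zero_left h
    have hq : 0 < Fintype.card F := Fintype.card_pos
    have hc : Nat.card (Subgroup.centralizer ({g} : Set (SL2 F))) = 2 * Fintype.card F := by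
      rw [card_centralizer_of_isConj hgb, card_centralizer_U hb, htwo, Nat.card_eq_fintype_card]
    have hodd : Odd (Fintype.card F) := Nat.odd_iff.mpr (FiniteField.odd_card_of_char_ne_two h2)
    have hsq1 : 2 ∣ Fintype.card F ^ 2 - 1 := by
      obtain ⟨k, hk⟩ := hodd
      rw [hk]
      have : (2 * k + 1) ^ 2 - 1 = 2 * (2 * k ^ 2 + 2 * k) := by
        have : (2 * k + 1) ^ 2 = 2 * (2 * k ^ 2 + 2 * k) + 1 := by ring
        omega
      rw [this]
      exact dvd_mul_right _ _
    apply card_carrier_eq hc (by omega)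
    rw [CfsgLib.ClassGeo.card_SL2]
    obtain ⟨m, hm⟩ := hsq1
    rw [hm, Nat.mul_div_cancel_left _ (by norm_num : 0 < 2)]
    ring
  · intro g h h00 h11 h10 h01 h00' h11' h10' h01'
    have hg : g = U (g.1 0 1) := by
      apply sl_ext <;> simp [U, h00, h11, h10]
    have hh : h = U (h.1 0 1) := by
      apply sl_ext <;> simp [U, h00', h11', h10']
    conv_lhs => rw [hg, hh]
    exact isConj_U_iff h01 h01'

end Cfsg.Agent.S2301
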