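import Cfsg.Statements.S2302
import Cfsg.Agent.Lib.H9.SL2Cl

set_option autoImplicit false
open Cfsg

namespace Cfsg.Agent.S2302

open CfsgLib.H9.SL2Cl

/-- Over a finite field with q elements of characteristic 2, the involutions of SL₂ (the non-identity unipotent elements) form a single conjugacy class, of size q² − 1. -/
theorem result {F : Type*} [Field F] [Fintype F] [CharP F 2] (g h : Matrix.SpecialLinearGroup (Fin 2) F) (hg : orderOf g = 2) (hh : orderOf h = 2) :
    IsConj g h ∧ Nat.card (ConjClasses.mk g).carrier = Fintype.card F ^ 2 - 1 := by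
  haveI : Fact (Nat.Prime 2) := ⟨Nat.prime_two⟩
  obtain ⟨b, hb, hgb⟩ := exists_conj_U_of_order 2 g hg
  obtain ⟨b', hb', hhb⟩ := exists_conj_U_of_order 2 h hh
  have hsq : ∀ a : F, IsSquare a := FiniteField.isSquare_of_char_two (ringChar.eq F 2)
  refine ⟨hgb.trans (((isConj_U_iff hb hb').mpr (hsq _)).trans hhb.symm), ?_⟩
  have hq : 0 < Fintype.card F := Fintype.card_pos
  have huniq : Nat.card {a : F // a ^ 2 = 1} = 1 := by
    rw [Nat.card_eq_one_iff_unique]
    refine ⟨⟨?_⟩, ⟨⟨1, one_pow 2⟩⟩⟩
    have key : ∀ a : F, a ^ 2 = 1 → a = 1 := by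
      intro a ha
      have h1 : (a - 1) ^ 2 = 0 := by
        rw [sub_pow_char a 1, ha]
        simp
      exact sub_eq_zero.mp (pow_eq_zero_iff two_ne_zero |>.mp h1)
    intro x y
    apply Subtype.ext
    rw [key _ x.2, key _ y.2]
  have hc : Nat.card (Subgroup.centralizer ({g} : Set (SL2 F))) = Fintype.card F := by
    rw [card_centralizer_of_isConj hgb, card_centralizer_U hb, huniq, one_mul, Nat.card_eq_fintype_card]
  apply card_carrier_eq hc hq
  rw [CfsgLib.ClassGeo.card_SL2, mul_comm]

end Cfsg.Agent.S2302
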