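import Cfsg.Statements.S2303
import Cfsg.Agent.Lib.H9.GL2Cl

set_option autoImplicit false
open Cfsg

namespace Cfsg.Agent.S2303

/-- Over a finite field with q elements: a diagonal element of GL₂ with two distinct diagonal entries has centralizer of order (q − 1)² (so q(q + 1) conjugates), and an element of GL₂ with no eigenvector in F² has centralizer of order q² − 1 (so q(q − 1) conjugates). -/
theorem result {F : Type*} [Field F] [Fintype F] (g : Matrix.GeneralLinearGroup (Fin 2) F) :
    ((g : Matrix (Fin 2) (Fin 2) F) 0 1 = 0 → (g : Matrix (Fin 2) (Fin 2) F) 1 0 = 0 → (g : Matrix (Fin 2) (Fin 2) F) 0 0 ≠ (g : Matrix (Fin 2) (Fin 2) F) 1 1 →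
      Nat.card (Subgroup.centralizer ({g} : Set (Matrix.GeneralLinearGroup (Fin 2) F))) = (Fintype.card F - 1) ^ 2) ∧
    ((∀ (c : F) (v : Fin 2 → F), v ≠ 0 → (g : Matrix (Fin 2) (Fin 2) F).mulVec v ≠ c • v) →
      Nat.card (Subgroup.centralizer ({g} : Set (Matrix.GeneralLinearGroup (Fin 2) F))) = Fintype.card F ^ 2 - 1) := by
  classical
  open CfsgLib.H9.SL2Cl in
  constructor
  · intro hb hc had
    have hcomm : ∀ x : GL2 F, x * g = g * x ↔ x.1 0 1 = 0 ∧ x.1 1 0 = 0 := by
      intro x
      constructor
      · intro h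
        have h01 := congrArg (fun z : GL2 F => z.1 0 1) h
        have h10 := congrArg (fun z : GL2 F => z.1 1 0) h
        simp only [gmul_01, gmul_10, hb, hc] at h01 h10
        have had' : g.1 1 1 - g.1 0 0 ≠ 0 := sub_ne_zero.mpr (Ne.symm had)
        constructor
        · have : x.1 0 1 * (g.1 1 1 - g.1 0 0) = 0 := by linear_combination h01
          exact (mul_eq_zero.mp this).resolve_right had'
        · have : x.1 1 0 * (g.1 1 1 - g.1 0 0) = 0 := by linear_combination -h10
          exact (mul_eq_zero.mp this).resolve_right had'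
      · rintro ⟨h1, h2⟩
        apply gl_ext <;> simp [gmul_00, gmul_01, gmul_10, gmul_11, hb, hc, h1, h2] <;> ring
    have hcard : Nat.card (Subgroup.centralizer ({g} : Set (GL2 F))) = Nat.card (Fˣ × Fˣ) := by
      symm
      apply Nat.card_congr
      refine ⟨fun x => ⟨mkG (x.1 : F) 0 0 (x.2 : F) (by simp), ?_⟩, fun y => (Units.mk0 (y.1.1 0 0) ?_, Units.mk0 (y.1.1 1 1) ?_), ?_, ?_⟩
      · rw [Subgroup.mem_centralizer_singleton_iff, hcomm]
        simp
      · have h := y.2
        rw [Subgroup.mem_centralizer_singleton_iff, hcomm] at h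
        intro h0
        apply dt_ne y.1
        simp [dt, h0, h.1]
      · have h := y.2
        rw [Subgroup.mem_centralizer_singleton_iff, hcomm] at h
        intro h0
        apply dt_ne y.1
        simp [dt, h0, h.1]
      · rintro ⟨a, b⟩
        ext <;> simp
      · rintro ⟨y, hy⟩
        have h := hy
        rw [Subgroup.mem_centralizer_singleton_iff, hcomm] at h
        apply Subtype.ext
        apply gl_ext <;> simp [h.1, h.2]
    rw [hcard, Nat.card_prod, Nat.card_eq_fintype_card, Fintype.card_units, sq]
  · intro hno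
    -- the lower left entry is not zero
    have hvec : ∀ (c : F) (v : Fin 2 → F), v ≠ 0 → ¬ (g.1 0 0 * v 0 + g.1 0 1 * v 1 = c * v 0 ∧ g.1 1 0 * v 0 + g.1 1 1 * v 1 = c * v 1) := by
      intro c v hv h
      apply hno c v hv
      funext i
      fin_cases i
      · simpa [Matrix.mulVec, dotProduct, Fin.sum_univ_two] using h.1
      · simpa [Matrix.mulVec, dotProduct, Fin.sum_univ_two] using h.2
    have hc : g.1 1 0 ≠ 0 := by
      intro h
      refine hvec (g.1 0 0) ![1, 0] ?_ ?_
      · intro h0
        have := congrFun h0 0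
        simp at this
      · simp [h]
    -- the norm form does not vanish
    have hN : ∀ x y : F, (x, y) ≠ (0, 0) →
        (x + y * g.1 0 0) * (x + y * g.1 1 1) - (y * g.1 0 1) * (y * g.1 1 0) ≠ 0 := by
      intro x y hxy h0
      by_cases hy : y = 0
      · subst hy
        have hx : x = 0 := by simpa using h0
        exact hxy (by rw [hx])
      · -- an eigenvector
        set τ := - x / y with hτ
        have hx : x = - τ * y := by
          rw [hτ]; field_simp
        have hroot : τ ^ 2 - (g.1 0 0 + g.1 1 1) * τ + (g.1 0 0 * g.1 1 1 - g.1 0 1 * g.1 1 0) = 0 := by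
          have h1 : y ^ 2 * (τ ^ 2 - (g.1 0 0 + g.1 1 1) * τ + (g.1 0 0 * g.1 1 1 - g.1 0 1 * g.1 1 0)) = 0 := by
            rw [hx] at h0
            linear_combination h0
          exact (mul_eq_zero.mp h1).resolve_left (pow_ne_zero 2 hy)
        refine hvec τ ![τ - g.1 1 1, g.1 1 0] ?_ ?_
        · intro h1
          have := congrFun h1 1
          simp at this
          exact hc this
        · simp
          constructor
          · linear_combination -hroot
          · ring
    -- the centraliser
    have hcomm : ∀ x : GL2 F, x * g = g * x ↔ ∃ u v : F, x.1 0 0 = u + v * g.1 0 0 ∧ x.1 0 1 = v * g.1 0 1 ∧ x.1 1 0 = v * g.1 1 0 ∧ x.1 1 1 = u + v * g.1 1 1 := by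
      intro x
      constructor
      · intro h
        have h00 := congrArg (fun z : GL2 F => z.1 0 0) h
        have h10 := congrArg (fun z : GL2 F => z.1 1 0) h
        simp only [gmul_00, gmul_10] at h00 h10
        refine ⟨x.1 0 0 - (x.1 1 0 / g.1 1 0) * g.1 0 0, x.1 1 0 / g.1 1 0, by ring, ?_, by field_simp, ?_⟩
        · field_simp
          linear_combination h00
        · field_simp
          linear_combination h10
      · rintro ⟨u, v, h1, h2, h3, h4⟩
        apply gl_ext <;> simp only [gmul_00, gmul_01, gmul_10, gmul_11, h1, h2, h3, h4] <;> ring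
    let T := {p : F × F // p ≠ (0, 0)}
    have hT : Nat.card T = Fintype.card F ^ 2 - 1 := by
      rw [Nat.card_eq_fintype_card, Fintype.card_subtype_compl]
      simp [sq]
    rw [← hT]
    symm
    apply Nat.card_congr
    refine ⟨fun p => ⟨mkG (p.1.1 + p.1.2 * g.1 0 0) (p.1.2 * g.1 0 1) (p.1.2 * g.1 1 0) (p.1.1 + p.1.2 * g.1 1 1) (hN _ _ p.2), ?_⟩, fun y => ⟨(y.1.1 0 0 - (y.1.1 1 0 / g.1 1 0) * g.1 0 0, y.1.1 1 0 / g.1 1 0), ?_⟩, ?_, ?_⟩
    · rw [Subgroup.mem_centralizer_singleton_iff, hcomm]
      exact ⟨p.1.1, p.1.2, rfl, rfl, rfl, rfl⟩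
    · intro h0
      have h1 := congrArg Prod.fst h0
      have h2 := congrArg Prod.snd h0
      simp only [Prod.fst_zero, Prod.snd_zero] at h1 h2
      have hy := y.2
      rw [Subgroup.mem_centralizer_singleton_iff, hcomm] at hy
      obtain ⟨u, v, e1, e2, e3, e4⟩ := hy
      have hv : v = 0 := by
        rw [e3] at h2
        field_simp at h2
        exact h2
      have hu : u = 0 := by
        rw [e1, e3, hv] at h1
        simpa using h1
      apply dt_ne y.1
      simp [dt, e1, e2, e3, e4, hv, hu]
    · rintro ⟨⟨u, v⟩, huv⟩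
      apply Subtype.ext
      simp only [mkG_00, mkG_10]
      ext
      · simp only
        field_simp
        ring
      · simp only
        field_simp
    · rintro ⟨y, hy⟩
      have h := hy
      rw [Subgroup.mem_centralizer_singleton_iff, hcomm] at h
      obtain ⟨u, v, e1, e2, e3, e4⟩ := h
      apply Subtype.ext
      apply gl_ext
      · simp only [mkG_00]
        field_simp
        ring
      · simp only [mkG_01, e3]
        field_simp
        rw [e2]
      · simp only [mkG_10]
        field_simp
      · simp only [mkG_11, e1, e3, e4]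
        field_simp
        ring

end Cfsg.Agent.S2303
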