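import Cfsg.Statements.S2308
import Cfsg.Agent.Lib.H9.BorelChar
import Cfsg.Agent.Lib.Char.Misc5

set_option autoImplicit false
open Cfsg

namespace Cfsg.Agent.S2308

/-- Values of the permutation character of GL₂ over a finite field F with q elements on the cosets of its upper triangular subgroup (equivalently, the number of lines of F² that an element maps to themselves): q + 1 at a scalar matrix, 2 at a diagonal matrix with two different diagonal entries, 0 at an element with no eigenvector in F², and 1 at an upper triangular matrix with equal diagonal entries and non-zero upper right entry. -/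
theorem result {F : Type*} [Field F] [Fintype F] (g : Matrix.GeneralLinearGroup (Fin 2) F) :
    ((∃ a : F, (g : Matrix (Fin 2) (Fin 2) F) = a • (1 : Matrix (Fin 2) (Fin 2) F)) → Cfsg.fixedPointCharacter (Cfsg.upperTriangularGL 2 F) g = Fintype.card F + 1) ∧
    ((g : Matrix (Fin 2) (Fin 2) F) 0 1 = 0 → (g : Matrix (Fin 2) (Fin 2) F) 1 0 = 0 → (g : Matrix (Fin 2) (Fin 2) F) 0 0 ≠ (g : Matrix (Fin 2) (Fin 2) F) 1 1 →
      Cfsg.fixedPointCharacter (Cfsg.upperTriangularGL 2 F) g = 2) ∧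
    ((∀ (c : F) (v : Fin 2 → F), v ≠ 0 → (g : Matrix (Fin 2) (Fin 2) F).mulVec v ≠ c • v) → Cfsg.fixedPointCharacter (Cfsg.upperTriangularGL 2 F) g = 0) ∧
    ((g : Matrix (Fin 2) (Fin 2) F) 1 0 = 0 → (g : Matrix (Fin 2) (Fin 2) F) 0 0 = (g : Matrix (Fin 2) (Fin 2) F) 1 1 → (g : Matrix (Fin 2) (Fin 2) F) 0 1 ≠ 0 →
      Cfsg.fixedPointCharacter (Cfsg.upperTriangularGL 2 F) g = 1) := by
  classical
  letI : Fintype (Matrix.GeneralLinearGroup (Fin 2) F) := Fintype.ofFinite _
  have hth : (fun _ : Cfsg.upperTriangularGL 2 F => (1 : ℂ)) = CfsgLib.H9.BorelChar.th 1 1 := by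
    funext b
    have h0 := CfsgLib.H9.BorelChar.ne_of_dt_zero (CfsgLib.H9.BorelChar.mem_B.mp b.2)
    simp only [CfsgLib.H9.BorelChar.th]
    rw [MulChar.one_apply (IsUnit.mk0 _ h0.1), MulChar.one_apply (IsUnit.mk0 _ h0.2), mul_one]
  have hP : Cfsg.fixedPointCharacter (Cfsg.upperTriangularGL 2 F) g = CfsgLib.H9.BorelChar.val 1 1 g := by
    rw [← CfsgLib.H9.BorelChar.indFun_GL, ← hth]
    exact (CfsgLib.Char.indFun_one_eq_perm _ g).symm
  have hone : ∀ x : F, x ≠ 0 → (1 : MulChar F ℂ) x = 1 := fun x hx => MulChar.one_apply (IsUnit.mk0 _ hx)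
  refine ⟨?_, ?_, ?_, ?_⟩
  · rintro ⟨a, ha⟩
    have h10 : g.1 1 0 = 0 := by simp [ha]
    have h01 : g.1 0 1 = 0 := by simp [ha]
    have h00 : g.1 0 0 = g.1 1 1 := by simp [ha]
    rw [hP, CfsgLib.H9.BorelChar.val_scalar 1 1 h10 h01 h00]
    have h0 := CfsgLib.H9.BorelChar.ne_of_dt_zero h10
    rw [hone _ h0.1, mul_one, mul_one]
  · intro h01 h10 hne
    rw [hP, CfsgLib.H9.BorelChar.val_regular 1 1 h10 hne]
    have h0 := CfsgLib.H9.BorelChar.ne_of_dt_zero h10
    rw [hone _ h0.1, hone _ h0.2]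
    norm_num
  · intro h
    rw [hP]
    exact CfsgLib.H9.BorelChar.val_elliptic 1 1 h
  · intro h10 h00 h01
    rw [hP, CfsgLib.H9.BorelChar.val_unip 1 1 h10 h01 h00]
    have h0 := CfsgLib.H9.BorelChar.ne_of_dt_zero h10
    rw [hone _ h0.1, mul_one]

end Cfsg.Agent.S2308
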