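import Cfsg.Statements.S2310
import Cfsg.Agent.Lib.H9.GL2Char

set_option autoImplicit false
open Cfsg

namespace Cfsg.Agent.S2310

/-- Over a finite field F with q ≥ 3 elements, let u be the upper unitriangular matrix of GL₂ with off-diagonal entry 1. An irreducible complex character χ of GL₂ takes at u the value 1 if χ has degree 1 or q + 1, the value −1 if χ has degree q − 1, and the value 0 if χ has degree q. -/
theorem result {F : Type*} [Field F] [Fintype F] (hq : 3 ≤ Fintype.card F) (χ : Matrix.GeneralLinearGroup (Fin 2) F → ℂ) (hχ : Cfsg.IsIrrCharacter (Matrix.GeneralLinearGroup (Fin 2) F) χ)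
    (u : Matrix.GeneralLinearGroup (Fin 2) F) (hu : (u : Matrix (Fin 2) (Fin 2) F) = !![1, 1; 0, 1]) :
    (χ 1 = 1 → χ u = 1) ∧ (χ 1 = (Fintype.card F : ℂ) + 1 → χ u = 1) ∧
    (χ 1 = (Fintype.card F : ℂ) - 1 → χ u = -1) ∧ (χ 1 = (Fintype.card F : ℂ) → χ u = 0) := by
  classical
  letI : Fintype (Matrix.GeneralLinearGroup (Fin 2) F) := Fintype.ofFinite _
  open CfsgLib.H9.BorelChar in
  have hu' : u = uG 1 := by
    apply CfsgLib.H9.SL2Cl.gl_ext
    · simp [hu, uG]
    · simp [hu, uG]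
    · simp [hu, uG]
    · simp [hu, uG]
  open CfsgLib.H9.BorelChar in
  have hv : ∀ α β : MulChar F ℂ, R α β u = 1 := by
    intro α β
    rw [R, indFun_GL, hu', val_unip α β (by simp [uG]) (by simp [uG]) (by simp [uG])]
    simp [uG]
  open CfsgLib.H9.BorelChar in
  have hL : ∀ α : MulChar F ℂ, Lc α u = 1 := by
    intro α
    rw [hu']
    simp [Lc, CfsgLib.H9.SL2Cl.dt, uG]
  have hdeg := CfsgLib.H9.BorelChar.deg_iff hq hχ
  open CfsgLib.H9.BorelChar in
  refine ⟨?_, ?_, ?_, ?_⟩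
  · intro h
    obtain ⟨γ, rfl⟩ := hdeg.1.mp h
    exact hL γ
  · intro h
    obtain ⟨α, β, -, rfl⟩ := hdeg.2.2.1.mp h
    exact hv α β
  · intro h
    have h1 := cusp_sum_u hχ (hdeg.2.2.2.mp h)
    rw [h, ← hu'] at h1
    have h2 : ((Fintype.card F : ℂ) - 1) * (χ u + 1) = 0 := by linear_combination h1
    have h3 := (mul_eq_zero.mp h2).resolve_left q_sub_one_ne
    linear_combination h3
  · intro h
    obtain ⟨γ, rfl⟩ := hdeg.2.1.mp h
    simp only [St, Pi.sub_apply, hv, hL, sub_self]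

end Cfsg.Agent.S2310
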