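import Cfsg.Statements.S2320
import Cfsg.Agent.Lib.H9.GL2Char

set_option autoImplicit false
open Cfsg

namespace Cfsg.Agent.S2320

/-- Over a finite field F with q elements, every irreducible complex character of GL₂ of degree q takes a value of absolute value 1 at every diagonal matrix with two different diagonal entries and at every element with no eigenvector in F². -/
theorem result {F : Type*} [Field F] [Fintype F] (χ : Matrix.GeneralLinearGroup (Fin 2) F → ℂ) (hχ : Cfsg.IsIrrCharacter (Matrix.GeneralLinearGroup (Fin 2) F) χ) (hdeg : χ 1 = (Fintype.card F : ℂ)) (g : Matrix.GeneralLinearGroup (Fin 2) F) :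
    ((g : Matrix (Fin 2) (Fin 2) F) 0 1 = 0 → (g : Matrix (Fin 2) (Fin 2) F) 1 0 = 0 → (g : Matrix (Fin 2) (Fin 2) F) 0 0 ≠ (g : Matrix (Fin 2) (Fin 2) F) 1 1 → ‖χ g‖ = 1) ∧
    ((∀ (c : F) (v : Fin 2 → F), v ≠ 0 → (g : Matrix (Fin 2) (Fin 2) F).mulVec v ≠ c • v) → ‖χ g‖ = 1) := by
  classical
  letI : Fintype (Matrix.GeneralLinearGroup (Fin 2) F) := Fintype.ofFinite _
  open CfsgLib.H9.BorelChar in
  obtain ⟨γ, rfl⟩ := P2_of_deg hχ hdeg
  open CfsgLib.H9.BorelChar in
  refine ⟨?_, ?_⟩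
  · intro h01 h10 hne
    rw [St_apply, val_regular γ γ h10 hne, Lc_of_upper γ h10]
    have h0 := ne_of_dt_zero h10
    have : γ (g.1 0 0) * γ (g.1 1 1) + γ (g.1 1 1) * γ (g.1 0 0) - γ (g.1 0 0) * γ (g.1 1 1) =
        γ (g.1 0 0) * γ (g.1 1 1) := by ring
    rw [this, norm_mul, norm_char γ h0.1, norm_char γ h0.2, one_mul]
  · intro h
    rw [St_apply, val_elliptic γ γ h, zero_sub, norm_neg, Lc_norm]

end Cfsg.Agent.S2320
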