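import Cfsg.Statements.S2323
import Cfsg.Agent.Lib.H9.SL2Vals

set_option autoImplicit false
open Cfsg

namespace Cfsg.Agent.S2323

/-- Over a finite field F with q ≥ 4 elements, let u be the upper unitriangular matrix of SL₂ with off-diagonal entry 1. An irreducible complex character of SL₂ takes at u the value 1 if its degree is q + 1 and the value −1 if its degree is q − 1. -/
theorem result {F : Type*} [Field F] [Fintype F] (hq : 4 ≤ Fintype.card F) (χ : Matrix.SpecialLinearGroup (Fin 2) F → ℂ) (hχ : Cfsg.IsIrrCharacter (Matrix.SpecialLinearGroup (Fin 2) F) χ)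
    (u : Matrix.SpecialLinearGroup (Fin 2) F) (hu : (u : Matrix (Fin 2) (Fin 2) F) = !![1, 1; 0, 1]) :
    (χ 1 = (Fintype.card F : ℂ) + 1 → χ u = 1) ∧ (χ 1 = (Fintype.card F : ℂ) - 1 → χ u = -1) := by
  classical
  letI : Fintype (Matrix.SpecialLinearGroup (Fin 2) F) := Fintype.ofFinite _
  have h00 : u.1 0 0 = 1 := by rw [show u.1 = !![1, 1; 0, 1] from hu]; rfl
  have h01 : u.1 0 1 = 1 := by rw [show u.1 = !![1, 1; 0, 1] from hu]; rfl
  have h10 : u.1 1 0 = 0 := by rw [show u.1 = !![1, 1; 0, 1] from hu]; rfl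
  have h11 : u.1 1 1 = 1 := by rw [show u.1 = !![1, 1; 0, 1] from hu]; rfl
  refine ⟨fun h => ?_, fun h => ?_⟩
  · obtain ⟨α, -, rfl⟩ := CfsgLib.H9.BorelChar.O3_of_deg hχ h
    exact CfsgLib.H9.BorelChar.RS_U_one α h00 h01 h10 h11
  · exact CfsgLib.H9.BorelChar.PCS_U_one hχ (CfsgLib.H9.BorelChar.PCS_of_deg hq hχ h) h h00 h01 h10 h11

end Cfsg.Agent.S2323
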