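import Cfsg.Statements.S2329
import Cfsg.Agent.Lib.H9.GL2Cl

set_option autoImplicit false
open Cfsg

namespace Cfsg.Agent.S2329

/-- Over a finite field of characteristic p, any two elements of order p of GL₂ are conjugate: there is a single conjugacy class of non-identity unipotent elements. -/
theorem result {F : Type*} [Field F] [Fintype F] (p : ℕ) [Fact p.Prime] [CharP F p] (g h : Matrix.GeneralLinearGroup (Fin 2) F)
    (hg : orderOf g = p) (hh : orderOf h = p) : IsConj g h := by
  classical
  have hp : p.Prime := Fact.out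
  -- every element of order `p` is conjugate to `U 1`
  have key : ∀ x : Matrix.GeneralLinearGroup (Fin 2) F, orderOf x = p →
      IsConj x (Matrix.SpecialLinearGroup.toGL (CfsgLib.H9.SL2Cl.U (1 : F))) := by
    intro x hx
    have hxp : x ^ p = 1 := by rw [← hx]; exact pow_orderOf_eq_one x
    have hdet : (x : Matrix (Fin 2) (Fin 2) F).det = 1 := by
      have h1 : (x : Matrix (Fin 2) (Fin 2) F) ^ p = 1 := by
        have := congrArg Units.val hxp
        simpa using this
      have h2 : (x : Matrix (Fin 2) (Fin 2) F).det ^ p = 1 := by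
        rw [← Matrix.det_pow, h1, Matrix.det_one]
      have h3 : ((x : Matrix (Fin 2) (Fin 2) F).det - 1) ^ p = 0 := by
        rw [sub_pow_char, h2, one_pow, sub_self]
      exact sub_eq_zero.mp (pow_eq_zero_iff hp.ne_zero |>.mp h3)
    let y : CfsgLib.H9.SL2Cl.SL2 F := ⟨x, hdet⟩
    have hy : Matrix.SpecialLinearGroup.toGL y = x := Units.ext rfl
    have hyo : orderOf y = p := by
      have hinj : Function.Injective (Matrix.SpecialLinearGroup.toGL (n := Fin 2) (R := F)) :=
        Matrix.SpecialLinearGroup.toGL_injective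
      rw [← hx, ← hy]
      exact (orderOf_injective _ hinj y).symm
    obtain ⟨b, hb, hyb⟩ := CfsgLib.H9.SL2Cl.exists_conj_U_of_order p y hyo
    have h1 := CfsgLib.H9.SL2Cl.isConj_toGL hyb
    rw [hy] at h1
    refine h1.trans ?_
    -- `U b` and `U 1` are conjugate in `GL₂`
    refine CfsgLib.H9.SL2Cl.isConj_of_mul_eq (c := CfsgLib.H9.SL2Cl.mkG 1 0 0 b (by simpa using hb)) ?_
    apply CfsgLib.H9.SL2Cl.gl_ext <;>
      simp [CfsgLib.H9.SL2Cl.gmul_00, CfsgLib.H9.SL2Cl.gmul_01, CfsgLib.H9.SL2Cl.gmul_10,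
        CfsgLib.H9.SL2Cl.gmul_11, CfsgLib.H9.SL2Cl.toGL_val, CfsgLib.H9.SL2Cl.U]
  exact (key g hg).trans (key h hh).symm

end Cfsg.Agent.S2329
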