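import Cfsg.Statements.S2417
import Cfsg.Agent.Lib.Chev.Gen
import Cfsg.Agent.Lib.Chev.AllL

set_option autoImplicit false
open scoped MatrixGroups
open Cfsg

namespace Cfsg.Agent.S2417

/-- In the characteristics with an exceptional graph symmetry — type B₂ or F₄ in characteristic 2 (field of more than two elements for B₂) and type G₂ in characteristic 3 — the Chevalley group lies in the subgroup generated by its monomial subgroup `N` and the two fundamental root subgroups `X_a`, `X_b` of a short root `a` and a long root `b` joined in the Dynkin diagram. -/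
theorem result {K : Type*} [Field K] [Finite K] (e : Cfsg.Lie.ChevalleyDatum × ℕ)
    (he : e ∈ [(Cfsg.Lie.chevB2, 2), (Cfsg.Lie.chevF4, 2), (Cfsg.Lie.chevG2, 3)]) [CharP K e.2]
    (hK : e.1 = Cfsg.Lie.chevB2 → ∃ x : K, x ≠ 0 ∧ x ≠ 1)
    (i j : ℕ) (hi : i < e.1.rank) (hj : j < e.1.rank) (hshort : e.1.isLong (e.1.simple i) = false)
    (hlong : e.1.isLong (e.1.simple j) = true) (hbond : e.1.bonds i j ≠ 0) :
    e.1.group K ≤ e.1.monomialSubgroup K ⊔ e.1.rootSubgroup K (e.1.simple i) ⊔ e.1.rootSubgroup K (e.1.simple j) := by
  obtain ⟨D, n⟩ := e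
  simp only [List.mem_cons, List.not_mem_nil, or_false, Prod.mk.injEq] at he
  rcases he with ⟨rfl, rfl⟩ | ⟨rfl, rfl⟩ | ⟨rfl, rfl⟩
  · have hi' : i < 2 := hi
    have hj' : j < 2 := hj
    interval_cases i <;> interval_cases j
    · exact absurd hlong (by decide +kernel)
    · exact CfsgLib.Chev.TB2.good.gen3' (p := 5) (q := 4) (b := 1) (b' := 0) (L := [1, 0]) (L' := [0, 1]) (by decide +kernel) (by decide +kernel) (by decide +kernel) (by decide +kernel) (by decide +kernel) (by decide +kernel) (by decide +kernel)
    · exact absurd hshort (by decide +kernel)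
    · exact absurd hshort (by decide +kernel)
  · have hi' : i < 4 := hi
    have hj' : j < 4 := hj
    interval_cases i <;> interval_cases j
    · exact absurd hlong (by decide +kernel)
    · exact absurd hlong (by decide +kernel)
    · exact CfsgLib.Chev.TF4.good.gen3' (p := 33) (q := 25) (b := 3) (b' := 0) (L := [0, 1, 2, 3, 1, 2, 1, 0]) (L' := [3, 2, 1, 2, 3, 0, 1, 2]) (by decide +kernel) (by decide +kernel) (by decide +kernel) (by decide +kernel) (by decide +kernel) (by decide +kernel) (by decide +kernel)
    · exact CfsgLib.Chev.TF4.good.gen3' (p := 33) (q := 24) (b := 3) (b' := 0) (L := [0, 1, 2, 3, 1, 2, 1, 0]) (L' := [3, 2, 1, 2, 0, 1, 2, 3]) (by decide +kernel) (by decide +kernel) (by decide +kernel) (by decide +kernel) (by decide +kernel) (by decide +kernel) (by decide +kernel)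
    · exact absurd hlong (by decide +kernel)
    · exact absurd hlong (by decide +kernel)
    · exact CfsgLib.Chev.TF4.good.gen3' (p := 27) (q := 25) (b := 3) (b' := 0) (L := [0, 1, 2, 3, 1, 2, 0, 1]) (L' := [3, 2, 1, 2, 3, 0, 1, 2]) (by decide +kernel) (by decide +kernel) (by decide +kernel) (by decide +kernel) (by decide +kernel) (by decide +kernel) (by decide +kernel)
    · exact CfsgLib.Chev.TF4.good.gen3' (p := 27) (q := 24) (b := 3) (b' := 0) (L := [0, 1, 2, 3, 1, 2, 0, 1]) (L' := [3, 2, 1, 2, 0, 1, 2, 3]) (by decide +kernel) (by decide +kernel) (by decide +kernel) (by decide +kernel) (by decide +kernel) (by decide +kernel) (by decide +kernel)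
    · exact absurd hshort (by decide +kernel)
    · exact absurd hshort (by decide +kernel)
    · exact absurd hshort (by decide +kernel)
    · exact absurd hshort (by decide +kernel)
    · exact absurd hshort (by decide +kernel)
    · exact absurd hshort (by decide +kernel)
    · exact absurd hshort (by decide +kernel)
    · exact absurd hshort (by decide +kernel)
  · have hi' : i < 2 := hi
    have hj' : j < 2 := hj
    interval_cases i <;> interval_cases j
    · exact absurd hlong (by decide +kernel)
    · exact CfsgLib.Chev.TG2.good.gen3' (p := 7) (q := 6) (b := 2) (b' := 0) (L := [0, 1, 0]) (L' := [1, 0, 1]) (by decide +kernel) (by decide +kernel) (by decide +kernel) (by decide +kernel) (by decide +kernel) (by decide +kernel) (by decide +kernel)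
    · exact absurd hshort (by decide +kernel)
    · exact absurd hshort (by decide +kernel)

end Cfsg.Agent.S2417
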