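import Cfsg.Statements.S2433
import Cfsg.Agent.Lib.H9.BorelChar

set_option autoImplicit false
open Cfsg

namespace Cfsg.Agent.S2433

/-- Let F be a finite field with q elements, q odd, α a multiplicative character of F, and R(α) the function on SL₂ induced from the linear character b ↦ α(b₁₁) of the upper triangular subgroup. Then R(α) takes the value α(a) + α(a⁻¹) at a diagonal element with entries a, a⁻¹, a² ≠ 1; the value 0 at every element with no eigenvector in F²; the value α(ε) at an upper triangular element with both diagonal entries ε and non-zero upper right entry; and the value (q + 1)α(ε) at the scalar element ε (ε = ±1). -/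
theorem result {F : Type*} [Field F] [Fintype F] [DecidableEq F] (hodd : Odd (Fintype.card F)) (α : MulChar F ℂ) (g : Matrix.SpecialLinearGroup (Fin 2) F) :
    ((g : Matrix (Fin 2) (Fin 2) F) 0 1 = 0 → (g : Matrix (Fin 2) (Fin 2) F) 1 0 = 0 → (g : Matrix (Fin 2) (Fin 2) F) 0 0 ^ 2 ≠ 1 →
      (Cfsg.indFun ((Cfsg.upperTriangularGL 2 F).comap Matrix.SpecialLinearGroup.toGL) (fun b => α (((b : Matrix.SpecialLinearGroup (Fin 2) F) : Matrix (Fin 2) (Fin 2) F) 0 0))) g = α ((g : Matrix (Fin 2) (Fin 2) F) 0 0) + α ((g : Matrix (Fin 2) (Fin 2) F) 1 1)) ∧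
    ((∀ (c : F) (v : Fin 2 → F), v ≠ 0 → (g : Matrix (Fin 2) (Fin 2) F).mulVec v ≠ c • v) → (Cfsg.indFun ((Cfsg.upperTriangularGL 2 F).comap Matrix.SpecialLinearGroup.toGL) (fun b => α (((b : Matrix.SpecialLinearGroup (Fin 2) F) : Matrix (Fin 2) (Fin 2) F) 0 0))) g = 0) ∧
    ((g : Matrix (Fin 2) (Fin 2) F) 1 0 = 0 → (g : Matrix (Fin 2) (Fin 2) F) 0 0 = (g : Matrix (Fin 2) (Fin 2) F) 1 1 → (g : Matrix (Fin 2) (Fin 2) F) 0 1 ≠ 0 →
      (Cfsg.indFun ((Cfsg.upperTriangularGL 2 F).comap Matrix.SpecialLinearGroup.toGL) (fun b => α (((b : Matrix.SpecialLinearGroup (Fin 2) F) : Matrix (Fin 2) (Fin 2) F) 0 0))) g = α ((g : Matrix (Fin 2) (Fin 2) F) 0 0)) ∧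
    ((g : Matrix (Fin 2) (Fin 2) F) 0 1 = 0 → (g : Matrix (Fin 2) (Fin 2) F) 1 0 = 0 → (g : Matrix (Fin 2) (Fin 2) F) 0 0 = (g : Matrix (Fin 2) (Fin 2) F) 1 1 →
      (Cfsg.indFun ((Cfsg.upperTriangularGL 2 F).comap Matrix.SpecialLinearGroup.toGL) (fun b => α (((b : Matrix.SpecialLinearGroup (Fin 2) F) : Matrix (Fin 2) (Fin 2) F) 0 0))) g = ((Fintype.card F : ℂ) + 1) * α ((g : Matrix (Fin 2) (Fin 2) F) 0 0)) := by
  classical
  have hR : ∀ g : Matrix.SpecialLinearGroup (Fin 2) F, (Cfsg.indFun ((Cfsg.upperTriangularGL 2 F).comap Matrix.SpecialLinearGroup.toGL) (fun b => α (((b : Matrix.SpecialLinearGroup (Fin 2) F) : Matrix (Fin 2) (Fin 2) F) 0 0))) g = CfsgLib.H9.BorelChar.val α 1 (Matrix.SpecialLinearGroup.toGL g) :=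
    fun g => CfsgLib.H9.BorelChar.indFun_SL α g
  have hdet := CfsgLib.H9.SL2Cl.det_eq g
  have hone : ∀ x : F, x ≠ 0 → (1 : MulChar F ℂ) x = 1 := fun x hx => MulChar.one_apply (IsUnit.mk0 _ hx)
  refine ⟨?_, ?_, ?_, ?_⟩
  · intro h01 h10 h2
    rw [hR]
    have h10' : (Matrix.SpecialLinearGroup.toGL g).1 1 0 = 0 := h10
    have hne : (Matrix.SpecialLinearGroup.toGL g).1 0 0 ≠ (Matrix.SpecialLinearGroup.toGL g).1 1 1 := by
      intro hh
      have hh' : g.1 0 0 = g.1 1 1 := hh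
      apply h2
      rw [h10] at hdet
      rw [pow_two]
      nth_rewrite 2 [hh']
      linear_combination hdet
    rw [CfsgLib.H9.BorelChar.val_regular α 1 h10' hne]
    have h0 := CfsgLib.H9.BorelChar.ne_of_dt_zero h10'
    rw [hone _ h0.1, hone _ h0.2, mul_one, mul_one]
    rfl
  · intro h
    rw [hR]
    exact CfsgLib.H9.BorelChar.val_elliptic α 1 h
  · intro h10 hd h01
    rw [hR]
    have h10' : (Matrix.SpecialLinearGroup.toGL g).1 1 0 = 0 := h10
    rw [CfsgLib.H9.BorelChar.val_unip α 1 h10' h01 hd]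
    have h0 := CfsgLib.H9.BorelChar.ne_of_dt_zero h10'
    rw [hone _ h0.1, mul_one]
    rfl
  · intro h01 h10 hd
    rw [hR]
    have h10' : (Matrix.SpecialLinearGroup.toGL g).1 1 0 = 0 := h10
    rw [CfsgLib.H9.BorelChar.val_scalar α 1 h10' h01 hd]
    have h0 := CfsgLib.H9.BorelChar.ne_of_dt_zero h10'
    rw [hone _ h0.1, mul_one]
    rfl

end Cfsg.Agent.S2433
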