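import Cfsg.Statements.S2541

set_option autoImplicit false
open Cfsg

namespace Cfsg.Agent.S2541

/-- Let F be a field with 9 elements. The symmetric group S_6 is not isomorphic to PGL_2(F) (although both have index-2 subgroups isomorphic to A_6). -/
theorem result {F : Type*} [Field F] [Fintype F] (hF : Fintype.card F = 9) : ¬ Nonempty (Equiv.Perm (Fin 6) ≃* Matrix.ProjGenLinGroup (Fin 2) F) := by
  classical
  have perm6 : ∀ σ : Equiv.Perm (Fin 6), σ ^ 8 = 1 → σ ^ 4 = 1 := by
    set_option maxRecDepth 100000 in decide +kernel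
  rintro ⟨e⟩
  obtain ⟨ζ, hζ⟩ := IsCyclic.exists_generator (α := Fˣ)
  have hord : orderOf ζ = 8 := by
    rw [orderOf_eq_card_of_forall_mem_zpowers hζ, Nat.card_units, Nat.card_eq_fintype_card, hF]
  have hζ8 : (ζ : F) ^ 8 = 1 := by
    have := pow_orderOf_eq_one ζ
    rw [hord] at this
    have h2 := congrArg Units.val this
    simpa using h2
  have hζ4 : (ζ : F) ^ 4 ≠ 1 := by
    intro h
    have h2 : ζ ^ 4 = 1 := Units.ext (by simpa using h)
    have h3 := orderOf_dvd_of_pow_eq_one h2
    rw [hord] at h3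
    norm_num at h3
  let d : GL (Fin 2) F := Matrix.GeneralLinearGroup.mkOfDetNeZero (Matrix.diagonal ![(ζ : F), 1]) (by simp [Matrix.det_diagonal, Fin.prod_univ_two])
  have hd : ∀ n : ℕ, ((d ^ n : GL (Fin 2) F) : Matrix (Fin 2) (Fin 2) F) = Matrix.diagonal ![(ζ : F) ^ n, 1] := by
    intro n
    rw [Units.val_pow_eq_pow_val]
    show (Matrix.diagonal ![(ζ : F), 1]) ^ n = _
    rw [Matrix.diagonal_pow]
    congr 1
    ext i
    fin_cases i <;> simp
  let x : Matrix.ProjGenLinGroup (Fin 2) F := Matrix.ProjGenLinGroup.mk d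
  have hx8 : x ^ 8 = 1 := by
    have h1 : d ^ 8 = 1 := by
      apply Units.ext
      rw [hd, hζ8]
      ext i j
      fin_cases i <;> fin_cases j <;> simp
    show Matrix.ProjGenLinGroup.mk d ^ 8 = 1
    rw [← map_pow, h1, map_one]
  have hx4 : x ^ 4 ≠ 1 := by
    intro h
    have h1 : Matrix.ProjGenLinGroup.mk (d ^ 4) = 1 := by
      rw [map_pow]
      exact h
    have h2 : d ^ 4 ∈ Subgroup.center (GL (Fin 2) F) := by
      rw [← Matrix.ProjGenLinGroup.ker_mk]
      exact h1
    obtain ⟨a, ha⟩ := Matrix.GeneralLinearGroup.mem_center_iff_val_mem_range_scalar.mp h2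
    rw [hd] at ha
    have h00 := congrFun (congrFun ha 0) 0
    have h11 := congrFun (congrFun ha 1) 1
    simp at h00 h11
    exact hζ4 (h00.symm.trans h11)
  have h3 := perm6 (e.symm x) (by rw [← map_pow, hx8, map_one])
  apply hx4
  have h4 := congrArg e h3
  rw [map_pow, map_one, MulEquiv.apply_symm_apply] at h4
  exact h4

end Cfsg.Agent.S2541
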