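import Cfsg.Statements.S2552
import Cfsg.Agent.Lib.H9.LinTools

set_option autoImplicit false
open Cfsg

namespace Cfsg.Agent.S2552

/-- Let F be a finite field and n ≥ 1. For every k, the special linear group SL_n(F) acts transitively on the set of k-dimensional subspaces of F^n: any two subspaces of the same dimension are carried onto each other by some matrix of determinant 1. -/
theorem result {F : Type*} [Field F] [Fintype F] (n : ℕ) (hn : 1 ≤ n) (U₁ U₂ : Submodule F (Fin n → F)) (h : Module.finrank F U₁ = Module.finrank F U₂) : ∃ g : Matrix.SpecialLinearGroup (Fin n) F, U₁.map ((Matrix.SpecialLinearGroup.toLin' g : (Fin n → F) ≃ₗ[F] (Fin n → F)) : (Fin n → F) →ₗ[F] (Fin n → F)) = U₂ := by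
  classical
  by_cases hU : U₂ = ⊥
  · subst hU
    have h1 : U₁ = ⊥ := by
      rw [← Submodule.finrank_eq_zero, h]
      simp
    subst h1
    refine ⟨1, ?_⟩
    simp
  obtain ⟨v, hv, hv0⟩ := Submodule.exists_mem_ne_zero_of_ne_bot hU
  obtain ⟨i, hi⟩ : ∃ i, v i ≠ 0 := by
    by_contra hh
    push Not at hh
    exact hv0 (funext hh)
  obtain ⟨e, he⟩ := CfsgLib.H9.LinTools.exists_equiv U₁ U₂ h
  set A : Matrix (Fin n) (Fin n) F := LinearMap.toMatrix' (e : (Fin n → F) →ₗ[F] (Fin n → F)) with hA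
  have hdet : A.det ≠ 0 := by
    rw [hA, LinearMap.det_toMatrix']
    exact (LinearEquiv.isUnit_det' e).ne_zero
  let φ : Fin n → F := fun j => if j = i then (v i)⁻¹ else 0
  have hφ : φ ⬝ᵥ v = 1 := by
    simp [φ, dotProduct, hi]
  let c : F := A.det⁻¹ - 1
  let H : Matrix (Fin n) (Fin n) F := 1 + Matrix.vecMulVec (c • v) φ
  have hH : H.det = A.det⁻¹ := by
    have h1 := Matrix.det_one_add_replicateCol_mul_replicateRow (ι := Unit) (c • v) φ
    rw [← Matrix.vecMulVec_eq] at h1
    simp only [H]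
    rw [h1, dotProduct_smul, hφ]
    simp [c]
  have hHv : ∀ x : Fin n → F, H.mulVec x = x + (c * (φ ⬝ᵥ x)) • v := by
    intro x
    simp only [H, Matrix.add_mulVec, Matrix.one_mulVec, Matrix.vecMulVec_mulVec]
    congr 1
    ext j
    simp [mul_comm, mul_assoc, mul_left_comm]
  have hdetg : (H * A).det = 1 := by
    rw [Matrix.det_mul, hH, inv_mul_cancel₀ hdet]
  let g : Matrix.SpecialLinearGroup (Fin n) F := ⟨H * A, hdetg⟩
  refine ⟨g, ?_⟩
  apply Submodule.eq_of_le_of_finrank_eq
  · rintro _ ⟨x, hx, rfl⟩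
    have h1 : (A.mulVec x) = e x := by
      rw [hA]
      simp
    have h2 : ((Matrix.SpecialLinearGroup.toLin' g : (Fin n → F) ≃ₗ[F] (Fin n → F)) : (Fin n → F) →ₗ[F] (Fin n → F)) x = H.mulVec (A.mulVec x) := by
      show ((H * A).mulVec x) = _
      rw [Matrix.mulVec_mulVec]
    rw [h2, h1, hHv]
    exact U₂.add_mem (he x hx) (U₂.smul_mem _ hv)
  · rw [LinearEquiv.finrank_map_eq, h]

end Cfsg.Agent.S2552
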