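import Mathlib
import Cfsg.Agent.Lib.ClassGeo.PermMod2
import Cfsg.Agent.Lib.ClassGeo.OIndex
import Cfsg.Statements.S2565
-- import your own Cfsg.Agent.* helpers here

set_option autoImplicit false
open Cfsg

namespace Cfsg.Agent.S2565

/-- The commutator subgroup of the full orthogonal group of the plus-type form Σ xᵢyᵢ in dimension 6 over the field of two elements (the group Ω⁺₆(2), of index 2) is isomorphic to the alternating group of degree 8. -/
theorem result :
    (Cfsg.Omega (ZMod 2) (Cfsg.quadFormPlus 3 (ZMod 2))).index = 2 ∧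
    Nonempty (↥(Cfsg.Omega (ZMod 2) (Cfsg.quadFormPlus 3 (ZMod 2))) ≃* alternatingGroup (Fin 8)) := by
  classical
  have hF : Fintype.card (ZMod 2) = 2 := ZMod.card 2
  obtain ⟨e⟩ := CfsgLib.ClassGeo.PermMod.plus_iso hF
  have h8 : 5 ≤ Nat.card (Fin 8) := by simp
  have hcomm : commutator (Equiv.Perm (Fin 8)) = alternatingGroup (Fin 8) := alternatingGroup.commutator_perm_eq h8
  have hmap : (Cfsg.Omega (ZMod 2) (Cfsg.quadFormPlus 3 (ZMod 2))).map (e : _ →* Equiv.Perm (Fin 8)) = alternatingGroup (Fin 8) := by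
    rw [Cfsg.Omega, commutator_def, Subgroup.map_commutator, Subgroup.map_top_of_surjective _ e.surjective, ← commutator_def, hcomm]
  refine ⟨?_, ⟨(Subgroup.equivMapOfInjective _ _ e.injective).trans (MulEquiv.subgroupCongr hmap)⟩⟩
  exact CfsgLib.ClassGeo.Orth.omega_index_even (F := ZMod 2) (by decide) (by simp) (CfsgLib.ClassGeo.Orth.mkQ (CfsgLib.ClassGeo.Orth.quadFormPlus_nondeg (F := ZMod 2) 3)) (CfsgLib.ClassGeo.Orth.mkQ_nondeg _) (Or.inr (by simp))

end Cfsg.Agent.S2565
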