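import Mathlib
import Cfsg.Agent.S0299
import Cfsg.Agent.S0250
import Cfsg.Statements.S2566
-- import your own Cfsg.Agent.* helpers here

set_option autoImplicit false
open Cfsg

namespace Cfsg.Agent.S2566

open Matrix CfsgLib.ClassGeo CfsgLib.ClassGeo.Orth CfsgLib.ClassGeo.OLow Cfsg.Agent.S0299

local notation "F₂" => ZMod 2
local notation "QQ" => mkQ (quadFormPlus_nondeg (F := ZMod 2) 2)

theorem φ4_mulVec (g : SpecialLinearGroup (Fin 2) F₂ × SpecialLinearGroup (Fin 2) F₂) (v : I4 → F₂) :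
    phi (QQ) (φ4 F₂ g) v = a4 (g.1 : Matrix (Fin 2) (Fin 2) F₂) (g.2 : Matrix (Fin 2) (Fin 2) F₂) v := by
  change ((φ4 F₂ g : GL I4 F₂) : Matrix I4 I4 F₂) *ᵥ v = _
  exact glLin_symm_mulVec _ v

/-- transposition in coordinates -/
def trL : (I4 → F₂) →ₗ[F₂] (I4 → F₂) where
  toFun v := crd4 (mat4 v)ᵀ
  map_add' v w := by
    funext c
    rcases c with c | c <;> fin_cases c <;> simp [crd4, mat4] <;> ring
  map_smul' c v := by
    funext d
    rcases d with d | d <;> fin_cases d <;> simp [crd4, mat4]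

theorem trL_apply (v : I4 → F₂) : trL v = crd4 (mat4 v)ᵀ := rfl

theorem trL_trL (v : I4 → F₂) : trL (trL v) = v := by
  rw [trL_apply, trL_apply, mat_crd4, Matrix.transpose_transpose, crd_mat4]

/-- transposition as an automorphism -/
def trE : (I4 → F₂) ≃ₗ[F₂] (I4 → F₂) :=
  LinearEquiv.ofInvolutive trL trL_trL

theorem trE_apply (v : I4 → F₂) : trE v = crd4 (mat4 v)ᵀ := rfl

theorem trE_mem : trE ∈ quadIsomGroup (QQ) := by
  intro v
  change Cfsg.quadFormPlus 2 F₂ (trE v) = Cfsg.quadFormPlus 2 F₂ v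
  rw [← det_mat4, ← det_mat4, trE_apply, mat_crd4, Matrix.det_transpose]

/-- the isometry given by transposition -/
noncomputable def tIso : ↥(Cfsg.isometryGroup F₂ ⇑(QQ)) :=
  (isoEquiv (QQ)).symm ⟨trE, trE_mem⟩

theorem phi_tIso : phi (QQ) tIso = trE := by
  have := (isoEquiv (QQ)).apply_symm_apply ⟨trE, trE_mem⟩
  exact congrArg Subtype.val this

theorem tIso_sq : tIso * tIso = 1 := by
  apply phi_injective (Q := QQ)
  rw [map_mul, phi_tIso, map_one]
  ext1 v
  exact trL_trL v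

/-- the map `φ4`, in terms of the form `QQ`. -/
noncomputable def f4 : SpecialLinearGroup (Fin 2) F₂ × SpecialLinearGroup (Fin 2) F₂ →* ↥(Cfsg.isometryGroup F₂ ⇑(QQ)) := φ4 F₂

theorem f4_mulVec (g : SpecialLinearGroup (Fin 2) F₂ × SpecialLinearGroup (Fin 2) F₂) (v : I4 → F₂) :
    phi (QQ) (f4 g) v = a4 (g.1 : Matrix (Fin 2) (Fin 2) F₂) (g.2 : Matrix (Fin 2) (Fin 2) F₂) v :=
  φ4_mulVec g v

/-- the partner of `g` under transposition. -/
noncomputable def hOf (g : SpecialLinearGroup (Fin 2) F₂) : SpecialLinearGroup (Fin 2) F₂ :=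
  ⟨(g : Matrix (Fin 2) (Fin 2) F₂)ᵀ.adjugate, by
    rw [Matrix.det_adjugate, Matrix.det_transpose, g.2]
    simp⟩

theorem conj_tIso (g : SpecialLinearGroup (Fin 2) F₂) :
    tIso * f4 (g, 1) * tIso⁻¹ = f4 (1, hOf g) := by
  have hinv : tIso⁻¹ = tIso := inv_eq_of_mul_eq_one_left tIso_sq
  rw [hinv]
  apply phi_injective (Q := QQ)
  rw [map_mul, map_mul, phi_tIso]
  ext1 v
  change trE (phi (QQ) (f4 (g, 1)) (trE v)) = phi (QQ) (f4 (1, hOf g)) v
  rw [f4_mulVec, f4_mulVec]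
  simp only [trE_apply, a4_apply, mat_crd4, Matrix.SpecialLinearGroup.coe_one, Matrix.adjugate_one, Matrix.mul_one, Matrix.one_mul]
  congr 1
  have e : ((hOf g : SpecialLinearGroup (Fin 2) F₂) : Matrix (Fin 2) (Fin 2) F₂).adjugate = (g : Matrix (Fin 2) (Fin 2) F₂)ᵀ := by
    show Matrix.adjugate (Matrix.adjugate _) = _
    rw [Matrix.adjugate_fin_two, Matrix.adjugate_fin_two]
    ext i j
    fin_cases i <;> fin_cases j <;> simp
  rw [e, Matrix.transpose_mul, Matrix.transpose_transpose]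

/-- `tIso`, in terms of the statement's form. -/
noncomputable def tIso' : ↥(Cfsg.isometryGroup F₂ (Cfsg.quadFormPlus 2 F₂)) := tIso

theorem conj_tIso' (g : SpecialLinearGroup (Fin 2) F₂) :
    tIso' * φ4 F₂ (g, 1) * tIso'⁻¹ = φ4 F₂ (1, hOf g) := conj_tIso g

/-- The full orthogonal group of the plus-type form x₁y₁ + x₂y₂ in dimension 4 over the field of two elements has order 72 and is isomorphic to the wreath product of the symmetric group of degree 3 by a group of order 2: it has a normal subgroup isomorphic to the direct product of two symmetric groups of degree 3, of index 2, whose two direct factors are interchanged by conjugation by some element. -/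
theorem result :
    Nat.card ↥(Cfsg.isometryGroup (ZMod 2) (Cfsg.quadFormPlus 2 (ZMod 2))) = 72 ∧
    ∃ (A B : Subgroup ↥(Cfsg.isometryGroup (ZMod 2) (Cfsg.quadFormPlus 2 (ZMod 2)))),
      Nonempty (↥A ≃* Equiv.Perm (Fin 3)) ∧ Nonempty (↥B ≃* Equiv.Perm (Fin 3)) ∧ A ⊓ B = ⊥ ∧ (∀ a ∈ A, ∀ b ∈ B, a * b = b * a) ∧
      (A ⊔ B).index = 2 ∧ ∃ g : ↥(Cfsg.isometryGroup (ZMod 2) (Cfsg.quadFormPlus 2 (ZMod 2))), A.map (MulAut.conj g).toMonoidHom = B := by
  classical
  have hF : Fintype.card F₂ = 2 := ZMod.card 2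
  have hO : Nat.card ↥(Cfsg.isometryGroup F₂ (Cfsg.quadFormPlus 2 F₂)) = 72 := by
    rw [card_isometry_eq, card_isom_plus 1]
    simp [Nat.card_eq_fintype_card, hF]
  have hker : (φ4 F₂).ker = ⊥ := ker_bot4 (by decide)
  have hinj : Function.Injective (φ4 F₂) := (MonoidHom.ker_eq_bot_iff _).mp hker
  have hSL : Nat.card (SpecialLinearGroup (Fin 2) F₂) = 6 := by
    rw [card_SL2 hF]
    norm_num
  obtain ⟨eS⟩ := Cfsg.Agent.S0250.result hF
  let iA : SpecialLinearGroup (Fin 2) F₂ →* ↥(Cfsg.isometryGroup F₂ (Cfsg.quadFormPlus 2 F₂)) := (φ4 F₂).comp (MonoidHom.inl _ _)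
  let iB : SpecialLinearGroup (Fin 2) F₂ →* ↥(Cfsg.isometryGroup F₂ (Cfsg.quadFormPlus 2 F₂)) := (φ4 F₂).comp (MonoidHom.inr _ _)
  have hiA : Function.Injective iA := fun a b h => by
    have := hinj h
    exact congrArg Prod.fst this
  have hiB : Function.Injective iB := fun a b h => by
    have := hinj h
    exact congrArg Prod.snd this
  have hcA : Nat.card iA.range = 6 := by
    rw [← Nat.card_congr (MonoidHom.ofInjective hiA).toEquiv, hSL]
  have hcB : Nat.card iB.range = 6 := by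
    rw [← Nat.card_congr (MonoidHom.ofInjective hiB).toEquiv, hSL]
  refine ⟨hO, iA.range, iB.range, ⟨(MonoidHom.ofInjective hiA).symm.trans eS⟩, ⟨(MonoidHom.ofInjective hiB).symm.trans eS⟩, ?_, ?_, ?_, tIso', ?_⟩
  · rw [eq_bot_iff]
    rintro x ⟨⟨a, rfl⟩, ⟨b, hb⟩⟩
    have h1 : ((1 : SpecialLinearGroup (Fin 2) F₂), b) = (a, 1) := hinj hb
    have h2 : a = 1 := (congrArg Prod.fst h1).symm
    rw [h2, map_one, Subgroup.mem_bot]
  · rintro _ ⟨a, rfl⟩ _ ⟨b, rfl⟩
    show φ4 F₂ (a, 1) * φ4 F₂ (1, b) = φ4 F₂ (1, b) * φ4 F₂ (a, 1)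
    rw [← map_mul, ← map_mul]
    simp
  · have hsup : iA.range ⊔ iB.range = (φ4 F₂).range := by
      apply le_antisymm
      · rw [sup_le_iff]
        constructor
        · rintro _ ⟨a, rfl⟩
          exact ⟨_, rfl⟩
        · rintro _ ⟨a, rfl⟩
          exact ⟨_, rfl⟩
      · rintro _ ⟨⟨a, b⟩, rfl⟩
        have : ((a, b) : SpecialLinearGroup (Fin 2) F₂ × SpecialLinearGroup (Fin 2) F₂) = (a, 1) * (1, b) := by simp
        rw [this, map_mul]
        exact Subgroup.mul_mem _ (Subgroup.mem_sup_left ⟨a, rfl⟩) (Subgroup.mem_sup_right ⟨b, rfl⟩)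
    rw [hsup]
    have hc : Nat.card (φ4 F₂).range = 36 := by
      rw [← Nat.card_congr (MonoidHom.ofInjective hinj).toEquiv, Nat.card_prod, hSL]
    have h3 := Subgroup.card_mul_index (φ4 F₂).range
    rw [hc, hO] at h3
    omega
  · have hle : iA.range.map (MulAut.conj tIso').toMonoidHom ≤ iB.range := by
      rintro _ ⟨_, ⟨a, rfl⟩, rfl⟩
      refine ⟨hOf a, ?_⟩
      exact (conj_tIso' a).symm
    apply Subgroup.eq_of_le_of_card_ge hle
    rw [hcB, Subgroup.card_map_of_injective (MulAut.conj tIso').injective, hcA]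

end Cfsg.Agent.S2566
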