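import Cfsg.Statements.S2567

set_option autoImplicit false
open Cfsg

namespace Cfsg.Agent.S2567

/-- Lifting elements of prime order from PGL to GL: let F be a finite field with q elements, r a prime not dividing q − 1, and x an element of order r in GL_n(F) modulo its centre (the scalar matrices). Then x has exactly one preimage in GL_n(F) of order r. -/
theorem result {F : Type*} [Field F] [Fintype F] {q n r : ℕ} (hF : Fintype.card F = q) (hr : r.Prime) (hdiv : ¬ r ∣ q - 1) (x : GL (Fin n) F ⧸ Subgroup.center (GL (Fin n) F)) (hx : orderOf x = r) : ∃! g : GL (Fin n) F, (QuotientGroup.mk g : GL (Fin n) F ⧸ Subgroup.center (GL (Fin n) F)) = x ∧ orderOf g = r := by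
  classical
  obtain ⟨g₀, hg₀⟩ := QuotientGroup.mk_surjective x
  subst hg₀
  set Z := Subgroup.center (GL (Fin n) F) with hZ
  have hcard : Nat.card Z ∣ q - 1 := by
    have h1 : Nat.card Fˣ = q - 1 := by rw [Nat.card_units, Nat.card_eq_fintype_card, hF]
    rw [hZ, Matrix.GeneralLinearGroup.center_eq_range_scalar, ← h1]
    exact Subgroup.card_range_dvd _
  have hcop : (Nat.card Z).Coprime r := by
    refine Nat.Coprime.symm ((Nat.Prime.coprime_iff_not_dvd hr).mpr fun h => hdiv (h.trans hcard))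
  have h1 : g₀ ^ r ∈ Z := by
    have h2 : ((g₀ ^ r : GL (Fin n) F) : GL (Fin n) F ⧸ Z) = 1 := by
      rw [QuotientGroup.mk_pow]
      subst hx
      exact pow_orderOf_eq_one _
    exact (QuotientGroup.eq_one_iff _).mp h2
  obtain ⟨s, hs⟩ := (powCoprime hcop).surjective (⟨g₀ ^ r, h1⟩ : Z)⁻¹
  rw [powCoprime_apply] at hs
  have hs2 : ((s : GL (Fin n) F)) ^ r * g₀ ^ r = 1 := by
    have := congrArg Subtype.val hs
    simp only [Subgroup.coe_pow, Subgroup.coe_inv] at this
    rw [this]
    simp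
  have hscomm : ∀ y : GL (Fin n) F, (s : GL (Fin n) F) * y = y * s := fun y =>
    (Subgroup.mem_center_iff.mp s.2 y).symm
  have hmk : ∀ y : GL (Fin n) F, (QuotientGroup.mk (y * s) : GL (Fin n) F ⧸ Z) = QuotientGroup.mk y := by
    intro y
    rw [QuotientGroup.mk_mul, (QuotientGroup.eq_one_iff _).mpr s.2, mul_one]
  have hx1 : (QuotientGroup.mk g₀ : GL (Fin n) F ⧸ Z) ≠ 1 := by
    intro h
    rw [h, orderOf_one] at hx
    exact hr.one_lt.ne hx
  haveI : Fact r.Prime := ⟨hr⟩
  refine ⟨g₀ * s, ⟨hmk g₀, ?_⟩, ?_⟩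
  · apply orderOf_eq_prime
    · rw [(show Commute g₀ (s : GL (Fin n) F) from (hscomm g₀).symm).mul_pow]
      rw [(show Commute (g₀ ^ r) ((s : GL (Fin n) F) ^ r) from Commute.pow_pow (hscomm g₀).symm r r).eq]
      exact hs2
    · intro h
      apply hx1
      rw [← hmk g₀, h]
      rfl
  · rintro g' ⟨hg', hg'2⟩
    have h3 : (g₀ * s)⁻¹ * g' ∈ Z := by
      rw [← QuotientGroup.eq]
      rw [hmk, hg']
    set t : Z := ⟨(g₀ * s)⁻¹ * g', h3⟩ with ht
    have h4 : g' = (g₀ * s) * t := by
      show g' = (g₀ * s) * ((g₀ * s)⁻¹ * g')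
      rw [mul_inv_cancel_left]
    have h5 : (g₀ * s) ^ r = 1 := by
      rw [(show Commute g₀ (s : GL (Fin n) F) from (hscomm g₀).symm).mul_pow]
      rw [(show Commute (g₀ ^ r) ((s : GL (Fin n) F) ^ r) from Commute.pow_pow (hscomm g₀).symm r r).eq]
      exact hs2
    have h6 : ((t : GL (Fin n) F)) ^ r = 1 := by
      have h7 : g' ^ r = 1 := by
        rw [← hg'2]
        exact pow_orderOf_eq_one g'
      rw [h4] at h7
      rw [(show Commute (g₀ * s) (t : GL (Fin n) F) from (Subgroup.mem_center_iff.mp t.2 _)).mul_pow, h5, one_mul] at h7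
      exact h7
    have h7 : t ^ r = 1 := Subtype.ext h6
    have h8 : t = 1 := by
      apply (powCoprime hcop).injective
      rw [powCoprime_apply, powCoprime_apply, h7, one_pow]
    rw [h4, h8]
    simp

end Cfsg.Agent.S2567
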