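import Cfsg.Statements.S2599

set_option autoImplicit false
open Cfsg

open Matrix

namespace Cfsg.Agent.S2599

/-- An irreducible invariant subspace of a semisimple isometry is non-degenerate or totally singular: let Q be a quadratic form on F^n (F finite of characteristic p) with non-degenerate polar form f, x an isometry of Q of order prime to p, and U a non-zero x-invariant subspace containing no x-invariant subspace other than 0 and U. Then U meets its f-orthogonal trivially, or Q vanishes on U, or p = 2, U is a line spanned by a non-singular vector and x fixes U pointwise. -/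
theorem result {F : Type*} [Field F] [Fintype F] {p : ℕ} [Fact p.Prime] [CharP F p] {n : ℕ} (Q : QuadraticForm F (Fin n → F)) (hQ : (QuadraticMap.polarBilin Q).Nondegenerate) (x : ↥(Cfsg.isometryGroup F ⇑Q)) (hx : (orderOf x).Coprime p) (U : Submodule F (Fin n → F)) (hU0 : U ≠ ⊥) (hUx : ∀ u ∈ U, ((x : Matrix.GeneralLinearGroup (Fin n) F) : Matrix (Fin n) (Fin n) F).mulVec u ∈ U) (hirr : ∀ W : Submodule F (Fin n → F), W ≤ U → (∀ w ∈ W, ((x : Matrix.GeneralLinearGroup (Fin n) F) : Matrix (Fin n) (Fin n) F).mulVec w ∈ W) → W = ⊥ ∨ W = U) : U ⊓ LinearMap.BilinForm.orthogonal (QuadraticMap.polarBilin Q) U = ⊥ ∨ (∀ u ∈ U, Q u = 0) ∨ (p = 2 ∧ Module.finrank F U = 1 ∧ (∃ u ∈ U, Q u ≠ 0) ∧ ∀ u ∈ U, ((x : Matrix.GeneralLinearGroup (Fin n) F) : Matrix (Fin n) (Fin n) F).mulVec u = u) := by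
  classical
  set M : Matrix (Fin n) (Fin n) F := ((x : Matrix.GeneralLinearGroup (Fin n) F) : Matrix (Fin n) (Fin n) F) with hM
  set T : (Fin n → F) →ₗ[F] (Fin n → F) := Matrix.mulVecLin M with hT
  have hTv : ∀ v, T v = M *ᵥ v := fun v => rfl
  have hiso : ∀ v, Q (T v) = Q v := by
    intro v
    exact x.2 v 0
  set B := QuadraticMap.polarBilin Q with hB
  have hBT : ∀ v w, B (T v) (T w) = B v w := by
    intro v w
    simp only [hB, QuadraticMap.polarBilin_apply_apply, QuadraticMap.polar]
    rw [← map_add, hiso, hiso, hiso]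
  have hTinj : Function.Injective T := by
    intro a b hab
    have h1 := congrArg (fun v => (((x : Matrix.GeneralLinearGroup (Fin n) F)⁻¹ : Matrix.GeneralLinearGroup (Fin n) F) : Matrix (Fin n) (Fin n) F) *ᵥ v) hab
    simp only [hTv, hM, Matrix.mulVec_mulVec] at h1
    rw [← Units.val_mul] at h1
    simpa using h1
  -- `T` restricted to `U` is surjective
  have hTsurj : ∀ n' ∈ U, ∃ u ∈ U, T u = n' := by
    intro n' hn'
    let R : U →ₗ[F] U := T.restrict hUx
    have hRinj : Function.Injective R := by
      intro a b hab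
      apply Subtype.ext
      apply hTinj
      exact congrArg Subtype.val hab
    have hRsurj := LinearMap.injective_iff_surjective.mp hRinj
    obtain ⟨u, hu⟩ := hRsurj ⟨n', hn'⟩
    exact ⟨u.1, u.2, congrArg Subtype.val hu⟩
  -- first reduction
  set W := U ⊓ LinearMap.BilinForm.orthogonal B U with hW
  have hWinv : ∀ w ∈ W, M *ᵥ w ∈ W := by
    intro w hw
    obtain ⟨hw1, hw2⟩ := Submodule.mem_inf.mp hw
    refine Submodule.mem_inf.mpr ⟨hUx w hw1, ?_⟩
    rw [LinearMap.BilinForm.mem_orthogonal_iff]
    intro u hu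
    obtain ⟨u', hu', rfl⟩ := hTsurj u hu
    show B (T u') (T w) = 0
    rw [hBT]
    exact (LinearMap.BilinForm.mem_orthogonal_iff.mp hw2) u' hu'
  rcases hirr W inf_le_left hWinv with h | h
  · exact Or.inl h
  right
  have hBU : ∀ u ∈ U, ∀ v ∈ U, B u v = 0 := by
    intro u hu v hv
    have hv2 : v ∈ W := by
      rw [h]
      exact hv
    exact (LinearMap.BilinForm.mem_orthogonal_iff.mp (Submodule.mem_inf.mp hv2).2) u hu
  have hpol : ∀ u v, B u v = Q (u + v) - Q u - Q v := fun u v => rfl
  by_cases hp : p = 2
  · subst hp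
    have h2 : (2 : F) = 0 := by
      have := CharP.cast_eq_zero F 2
      exact_mod_cast this
    have hneg : ∀ a : F, -a = a := by
      intro a
      have : a + a = 0 := by
        have h1 : a + a = 2 * a := by ring
        rw [h1, h2, zero_mul]
      exact neg_eq_of_add_eq_zero_left this
    have hadd : ∀ u ∈ U, ∀ v ∈ U, Q (u + v) = Q u + Q v := by
      intro u hu v hv
      have := hBU u hu v hv
      rw [hpol] at this
      linear_combination this
    let Z : Submodule F (Fin n → F) :=
      { carrier := {u | u ∈ U ∧ Q u = 0}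
        add_mem' := by
          rintro a b ⟨ha, ha2⟩ ⟨hb, hb2⟩
          exact ⟨U.add_mem ha hb, by rw [hadd a ha b hb, ha2, hb2, add_zero]⟩
        zero_mem' := ⟨U.zero_mem, by simp⟩
        smul_mem' := by
          rintro c a ⟨ha, ha2⟩
          exact ⟨U.smul_mem c ha, by rw [QuadraticMap.map_smul, ha2]; simp⟩ }
    have hZ : ∀ u, u ∈ Z ↔ u ∈ U ∧ Q u = 0 := fun u => Iff.rfl
    have hZinv : ∀ w ∈ Z, M *ᵥ w ∈ Z := by
      rintro w ⟨hw, hw2⟩
      refine ⟨hUx w hw, ?_⟩
      have := hiso w
      rw [hTv] at this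
      rw [this, hw2]
    rcases hirr Z (fun u hu => hu.1) hZinv with hZ0 | hZU
    · -- `Q` is injective on `U`
      right
      have hinjQ : ∀ u ∈ U, ∀ v ∈ U, Q u = Q v → u = v := by
        intro u hu v hv huv
        have h3 : u + -v ∈ Z := by
          refine ⟨U.add_mem hu (U.neg_mem hv), ?_⟩
          rw [hadd u hu _ (U.neg_mem hv), QuadraticMap.map_neg, huv]
          linear_combination (Q v) * h2
        rw [hZ0, Submodule.mem_bot] at h3
        exact eq_of_sub_eq_zero (by rw [sub_eq_add_neg]; exact h3)
      obtain ⟨u₀, hu₀, hu₀0⟩ := Submodule.exists_mem_ne_zero_of_ne_bot hU0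
      have hQu₀ : Q u₀ ≠ 0 := by
        intro h3
        have h4 : u₀ ∈ Z := ⟨hu₀, h3⟩
        rw [hZ0, Submodule.mem_bot] at h4
        exact hu₀0 h4
      have hchar : ringChar F = 2 := ringChar.eq F 2
      have hspan : U = Submodule.span F {u₀} := by
        apply le_antisymm
        · intro v hv
          obtain ⟨r, hr⟩ := FiniteField.isSquare_of_char_two hchar (Q v / Q u₀)
          have h3 : v = r • u₀ := by
            apply hinjQ v hv _ (U.smul_mem r hu₀)
            rw [QuadraticMap.map_smul, ← hr]
            simp only [smul_eq_mul]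
            field_simp
          rw [h3]
          exact Submodule.smul_mem _ _ (Submodule.mem_span_singleton_self u₀)
        · rw [Submodule.span_singleton_le_iff_mem]
          exact hu₀
      refine ⟨rfl, ?_, ⟨u₀, hu₀, hQu₀⟩, ?_⟩
      · rw [hspan]
        exact finrank_span_singleton hu₀0
      · intro u hu
        apply hinjQ _ (hUx u hu) u hu
        exact hiso u
    · left
      intro u hu
      have : u ∈ Z := by
        rw [hZU]
        exact hu
      exact this.2
  · left
    intro u hu
    have h2 : (2 : F) ≠ 0 := by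
      intro h
      have h3 : ((2 : ℕ) : F) = 0 := by exact_mod_cast h
      rw [CharP.cast_eq_zero_iff F p] at h3
      have := (Nat.prime_dvd_prime_iff_eq (Fact.out) Nat.prime_two).mp h3
      exact hp this
    have h3 := hBU u hu u hu
    rw [hpol] at h3
    have h4 : u + u = (2 : F) • u := by
      rw [two_smul]
    rw [h4, QuadraticMap.map_smul] at h3
    have h5 : (2 : F) * Q u = 0 := by
      simp only [smul_eq_mul] at h3
      linear_combination h3
    exact (mul_eq_zero.mp h5).resolve_left h2

end Cfsg.Agent.S2599
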