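import Mathlib
import Cfsg.Agent.Lib.ClassGeo.OSpin
import Cfsg.Statements.S2610
-- import your own Cfsg.Agent.* helpers here

set_option autoImplicit false
open Cfsg

namespace Cfsg.Agent.S2610

/-- For a quadratic form Q on F^n with non-degenerate polar form, F finite of odd order and n ≥ 2 even, the isometry −1 lies in Ω (the commutator subgroup of the orthogonal group) if and only if the discriminant of Q (the determinant of the Gram matrix of its polar form) is a square. -/
theorem result {F : Type*} [Field F] [Fintype F] (h2 : (2 : F) ≠ 0) {n : ℕ} (hn : 2 ≤ n) (he : Even n) (Q : QuadraticForm F (Fin n → F)) (hQ : (QuadraticMap.polarBilin Q).Nondegenerate) : (∃ g : ↥(Cfsg.isometryGroup F ⇑Q), g ∈ Cfsg.Omega F ⇑Q ∧ ((g : Matrix.GeneralLinearGroup (Fin n) F) : Matrix (Fin n) (Fin n) F) = -1) ↔ IsSquare (Matrix.of (fun i j : Fin n => QuadraticMap.polar ⇑Q (Pi.single i 1) (Pi.single j 1))).det := by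
  classical
  have hn' : 2 ≤ Fintype.card (Fin n) := by simpa using hn
  have key := CfsgLib.ClassGeo.Orth.exists_neg_omega_iff (Q := Q) h2 hn' hQ
  refine key.trans ?_
  have hne : (CfsgLib.ClassGeo.Orth.polGram Q).det ≠ 0 := by
    have h3 := CfsgLib.ClassGeo.Orth.wTheta_sq_eq_one hQ (CfsgLib.ClassGeo.Orth.negE_mem (Q := Q))
    rw [CfsgLib.ClassGeo.Orth.wTheta_negE h2 hQ (Pi.basisFun F (Fin n))] at h3
    intro h0
    have e : (Matrix.of fun i j => QuadraticMap.polar (⇑Q) (Pi.basisFun F (Fin n) i) (Pi.basisFun F (Fin n) j)) = CfsgLib.ClassGeo.Orth.polGram Q := by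
      ext i j
      simp [CfsgLib.ClassGeo.Orth.polGram]
    rw [e, h0] at h3
    simp at h3
  have hc : Fintype.card (Fin n) = n := Fintype.card_fin n
  rw [hc, he.neg_one_pow]
  obtain ⟨k, hk⟩ := he
  have e2 : (2 : F) ^ n = (2 ^ k) ^ 2 := by rw [hk, ← pow_mul]; congr 1; ring
  rw [e2, map_mul, quadraticChar_sq_one' (pow_ne_zero _ h2), one_mul, quadraticChar_one_iff_isSquare hne]
  simp only [true_and]
  rfl

end Cfsg.Agent.S2610
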