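import Mathlib
import Cfsg.Agent.Lib.ClassGeo.OSpin4
import Cfsg.Statements.S2612
-- import your own Cfsg.Agent.* helpers here

set_option autoImplicit false
open Cfsg

namespace Cfsg.Agent.S2612

/-- For the hyperbolic quadratic form Σ x_i y_i on F^(2m) (F finite, m ≥ 1, excluding m = 2 over the field of two elements), Ω⁺_2m(F) (the commutator subgroup of the orthogonal group) contains an element interchanging the two complementary maximal totally singular subspaces {y = 0} and {x = 0} if and only if m is even (dimension divisible by 4). -/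
theorem result {F : Type*} [Field F] [Fintype F] {m : ℕ} (hm : 1 ≤ m) (h : Fintype.card F ≠ 2 ∨ m ≠ 2) : (∃ g : ↥(Cfsg.isometryGroup F (Cfsg.quadFormPlus m F)), g ∈ Cfsg.Omega F (Cfsg.quadFormPlus m F) ∧ (∀ v : Fin m ⊕ Fin m → F, (∀ i, v (Sum.inr i) = 0) → ∀ i, (((g : Matrix.GeneralLinearGroup (Fin m ⊕ Fin m) F) : Matrix (Fin m ⊕ Fin m) (Fin m ⊕ Fin m) F).mulVec v) (Sum.inl i) = 0) ∧ (∀ v : Fin m ⊕ Fin m → F, (∀ i, v (Sum.inl i) = 0) → ∀ i, (((g : Matrix.GeneralLinearGroup (Fin m ⊕ Fin m) F) : Matrix (Fin m ⊕ Fin m) (Fin m ⊕ Fin m) F).mulVec v) (Sum.inr i) = 0)) ↔ Even m := by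
  classical
  have hQ := CfsgLib.ClassGeo.Orth.mkQ_nondeg (CfsgLib.ClassGeo.Orth.quadFormPlus_nondeg (F := F) m)
  have hc : Fintype.card (Fin m ⊕ Fin m) = 2 * m := by simp; ring
  have hn : 2 ≤ Fintype.card (Fin m ⊕ Fin m) := by rw [hc]; omega
  have h' : Fintype.card F ≠ 2 ∨ Fintype.card (Fin m ⊕ Fin m) ≠ 4 := by
    rcases h with h | h
    · exact Or.inl h
    · right
      rw [hc]
      omega
  constructor
  · rintro ⟨g, hg, h1, h3⟩
    have hA := CfsgLib.ClassGeo.OSpin.maxTS_U0 (F := F) m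
    have hmem : CfsgLib.ClassGeo.Orth.phi (CfsgLib.ClassGeo.Orth.mkQ (CfsgLib.ClassGeo.Orth.quadFormPlus_nondeg (F := F) m)) g ∈ ⁅CfsgLib.ClassGeo.quadIsomGroup (CfsgLib.ClassGeo.Orth.mkQ (CfsgLib.ClassGeo.Orth.quadFormPlus_nondeg (F := F) m)), CfsgLib.ClassGeo.quadIsomGroup (CfsgLib.ClassGeo.Orth.mkQ (CfsgLib.ClassGeo.Orth.quadFormPlus_nondeg (F := F) m))⁆ := by
      rw [← CfsgLib.ClassGeo.Orth.map_phi_commutator]
      exact ⟨g, hg, rfl⟩
    have key := CfsgLib.ClassGeo.Orth.even_of_comm hQ hA hmem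
    rw [CfsgLib.ClassGeo.OSpin.finrank_U0] at key
    have e : (CfsgLib.ClassGeo.OSpin.U0 F m ⊓ (CfsgLib.ClassGeo.OSpin.U0 F m).map ((CfsgLib.ClassGeo.Orth.phi (CfsgLib.ClassGeo.Orth.mkQ (CfsgLib.ClassGeo.Orth.quadFormPlus_nondeg (F := F) m)) g : (Fin m ⊕ Fin m → F) ≃ₗ[F] (Fin m ⊕ Fin m → F)) : (Fin m ⊕ Fin m → F) →ₗ[F] (Fin m ⊕ Fin m → F))) = ⊥ := by
      rw [eq_bot_iff]
      rintro x ⟨hx1, a, ha, rfl⟩
      rw [Submodule.mem_bot]
      ext k
      rcases k with k | k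
      · exact h1 a (CfsgLib.ClassGeo.OSpin.mem_U0.mp ha) k
      · exact CfsgLib.ClassGeo.OSpin.mem_U0.mp hx1 k
    rw [e] at key
    simpa using key
  · intro hev
    obtain ⟨vs, h1, h2, h3, h4⟩ := CfsgLib.ClassGeo.OSpin.exists_swap_list (F := F) m le_rfl
    have hmat := CfsgLib.ClassGeo.OSpin.mat_listIso (Q := CfsgLib.ClassGeo.Orth.mkQ (CfsgLib.ClassGeo.Orth.quadFormPlus_nondeg (F := F) m)) vs h1
    refine ⟨CfsgLib.ClassGeo.OSpin.listIso vs h1, (CfsgLib.ClassGeo.OSpin.list_criterion hn hQ h' _ vs h1 hmat).mpr ⟨by rwa [h2], by rw [h3, hev.neg_one_pow]; exact IsSquare.one⟩, ?_, ?_⟩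
    · intro v hv i
      rw [hmat, h4]
      simp [hv]
    · intro v hv i
      rw [hmat, h4]
      simp [hv]

end Cfsg.Agent.S2612
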