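import Mathlib
import Cfsg.Agent.Lib.ClassGeo.OSpin
import Cfsg.Statements.S2613
-- import your own Cfsg.Agent.* helpers here

set_option autoImplicit false
open Cfsg

namespace Cfsg.Agent.S2613

/-- For the hyperbolic form Σ x_j y_j on F^(2m), F finite with q elements, q odd, and 1 ≤ i ≤ m: the involution negating the first i hyperbolic pairs (x_j, y_j ↦ −x_j, −y_j for j < i) and fixing the rest lies in Ω⁺_2m(q) (commutator subgroup of the orthogonal group) if and only if q^i ≡ 1 (mod 4); its (−1)-eigenspace is a hyperbolic 2i-space. -/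
theorem result {F : Type*} [Field F] [Fintype F] {q : ℕ} (hF : Fintype.card F = q) (hq : Odd q) {m : ℕ} (i : ℕ) (hi : 1 ≤ i) (him : i ≤ m) : (∃ g : ↥(Cfsg.isometryGroup F (Cfsg.quadFormPlus m F)), g ∈ Cfsg.Omega F (Cfsg.quadFormPlus m F) ∧ ((g : Matrix.GeneralLinearGroup (Fin m ⊕ Fin m) F) : Matrix (Fin m ⊕ Fin m) (Fin m ⊕ Fin m) F) = Matrix.diagonal (fun k : Fin m ⊕ Fin m => if (Sum.elim (fun j : Fin m => (j : ℕ)) (fun j : Fin m => (j : ℕ)) k) < i then (-1 : F) else 1)) ↔ q ^ i % 4 = 1 := by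
  classical
  have hi' : 1 ≤ m := by omega
  have key := CfsgLib.ClassGeo.OSpin.diag_omega_iff (Q := CfsgLib.ClassGeo.Orth.mkQ (CfsgLib.ClassGeo.Orth.quadFormPlus_nondeg (F := F) m)) hF hq (by simp; omega) (CfsgLib.ClassGeo.Orth.mkQ_nondeg _)
    (Sum.elim (fun j : Fin m => (j : ℕ)) (fun j : Fin m => (j : ℕ))) m ?_ i him
  · exact key
  · intro j hj
    refine ⟨Sum.inl ⟨j, hj⟩, Sum.inr ⟨j, hj⟩, CfsgLib.ClassGeo.OSpin.hyp_plus m _, rfl, rfl, ?_⟩
    rintro (k | k) hk
    · left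
      simp only [Sum.elim_inl] at hk
      exact congrArg Sum.inl (Fin.ext hk)
    · right
      simp only [Sum.elim_inr] at hk
      exact congrArg Sum.inr (Fin.ext hk)

end Cfsg.Agent.S2613
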