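import Mathlib
import Cfsg.Agent.Lib.ClassGeo.OSpin
import Cfsg.Statements.S2615
-- import your own Cfsg.Agent.* helpers here

set_option autoImplicit false
open Cfsg

namespace Cfsg.Agent.S2615

/-- For an elliptic form Σ_(j<m−1) x_j y_j + (z₁² + a z₁z₂ + b z₂²) (anisotropic binary part) on F^(2m), F finite with q elements, q odd, and 1 ≤ i ≤ m − 1: the involution negating the first i hyperbolic pairs and fixing the rest lies in Ω⁻_2m(q) (commutator subgroup of the orthogonal group) if and only if q^i ≡ 1 (mod 4). -/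
theorem result {F : Type*} [Field F] [Fintype F] {q : ℕ} (hF : Fintype.card F = q) (hq : Odd q) {m : ℕ} (a b : F) (hab : ∀ z₁ z₂ : F, z₁ ^ 2 + a * z₁ * z₂ + b * z₂ ^ 2 = 0 → z₁ = 0 ∧ z₂ = 0) (i : ℕ) (hi : 1 ≤ i) (him : i + 1 ≤ m) : (∃ g : ↥(Cfsg.isometryGroup F (Cfsg.quadFormMinus (m - 1) F a b)), g ∈ Cfsg.Omega F (Cfsg.quadFormMinus (m - 1) F a b) ∧ ((g : Matrix.GeneralLinearGroup ((Fin (m - 1) ⊕ Fin (m - 1)) ⊕ Fin 2) F) : Matrix ((Fin (m - 1) ⊕ Fin (m - 1)) ⊕ Fin 2) ((Fin (m - 1) ⊕ Fin (m - 1)) ⊕ Fin 2) F) = Matrix.diagonal (fun k : (Fin (m - 1) ⊕ Fin (m - 1)) ⊕ Fin 2 => if (Sum.elim (Sum.elim (fun j : Fin (m - 1) => (j : ℕ)) (fun j : Fin (m - 1) => (j : ℕ))) (fun _ : Fin 2 => i) k) < i then (-1 : F) else 1)) ↔ q ^ i % 4 = 1 := by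
  classical
  have key := CfsgLib.ClassGeo.OSpin.diag_omega_iff (Q := CfsgLib.ClassGeo.Orth.mkQ (CfsgLib.ClassGeo.Orth.quadFormMinus_nondeg (F := F) (m - 1) a b hab)) hF hq (by simp) (CfsgLib.ClassGeo.Orth.mkQ_nondeg _)
    (Sum.elim (Sum.elim (fun j : Fin (m - 1) => (j : ℕ)) (fun j : Fin (m - 1) => (j : ℕ))) (fun _ : Fin 2 => i)) i ?_ i le_rfl
  · exact key
  · intro j hj
    have hjm : j < m - 1 := by omega
    refine ⟨Sum.inl (Sum.inl ⟨j, hjm⟩), Sum.inl (Sum.inr ⟨j, hjm⟩), CfsgLib.ClassGeo.OSpin.hyp_minus (m - 1) a b hab _, rfl, rfl, ?_⟩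
    rintro ((k | k) | k) hk
    · left
      simp only [Sum.elim_inl] at hk
      exact congrArg (fun z => Sum.inl (Sum.inl z)) (Fin.ext hk)
    · right
      simp only [Sum.elim_inl, Sum.elim_inr] at hk
      exact congrArg (fun z => Sum.inl (Sum.inr z)) (Fin.ext hk)
    · simp only [Sum.elim_inr] at hk
      omega

end Cfsg.Agent.S2615
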