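import Cfsg.Statements.S2617
import Cfsg.Agent.Lib.H9.QuadWitt

set_option autoImplicit false
open Cfsg

namespace Cfsg.Agent.S2617

/-- The two standard quadratic forms of even dimension 2m over a finite field are not isometric: there is no linear isomorphism carrying the elliptic form Σ_(i<m−1) x_i y_i + z₁² + z₁z₂ + ζ z₂² (t² + t + ζ without roots) to the hyperbolic form Σ_(i<m) x_i y_i (they have different Witt index). -/
theorem result {F : Type*} [Field F] [Finite F] {m : ℕ} (hm : 1 ≤ m) (ζ : F) (hζ : ∀ t : F, t ^ 2 + t + ζ ≠ 0) (g : (Fin m ⊕ Fin m → F) ≃ₗ[F] ((Fin (m - 1) ⊕ Fin (m - 1)) ⊕ Fin 2 → F)) : ¬ (∀ v : Fin m ⊕ Fin m → F, Cfsg.quadFormMinus (m - 1) F 1 ζ (g v) = Cfsg.quadFormPlus m F v) := by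
  apply CfsgLib.H9.QuadWitt.main hm 1 ζ _ g
  intro z₁ z₂ h
  by_cases h2 : z₂ = 0
  · subst h2
    refine ⟨?_, rfl⟩
    have : z₁ ^ 2 = 0 := by simpa using h
    exact pow_eq_zero_iff (two_ne_zero) |>.mp this
  · exfalso
    apply hζ (z₁ / z₂)
    field_simp
    linear_combination h

end Cfsg.Agent.S2617
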