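import Cfsg.Statements.S2619

set_option autoImplicit false
open Cfsg

namespace Cfsg.Agent.S2619

/-- Over a finite field of characteristic two, given an alternating bilinear form B on a finite-dimensional space, a basis (v_i) and scalars (λ_i), there is exactly one quadratic form whose polar form is B and whose value at each v_i is λ_i. -/
theorem result {F V ι : Type*} [Field F] [Finite F] [CharP F 2] [AddCommGroup V] [Module F V] [Fintype ι] (b : Module.Basis ι F V) (B : LinearMap.BilinForm F V) (hB : B.IsAlt) (c : ι → F) : ∃! Q : QuadraticForm F V, QuadraticMap.polarBilin Q = B ∧ ∀ i, Q (b i) = c i := by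
  classical
  have h2 : (2 : F) = 0 := by
    have := CharP.cast_eq_zero F 2
    exact_mod_cast this
  have hneg : ∀ x : F, -x = x := by
    intro x
    have : x + x = 0 := by
      have h1 : x + x = 2 * x := by ring
      rw [h1, h2, zero_mul]
    exact neg_eq_of_add_eq_zero_left this
  have hsymm : ∀ x y, B x y = B y x := by
    intro x y
    have h1 := hB (x + y)
    simp only [map_add, LinearMap.add_apply, hB x, hB y, zero_add, add_zero] at h1
    have h3 := neg_eq_of_add_eq_zero_right h1
    rw [← h3, hneg]
  let e := Fintype.equivFin ι
  let M : Matrix ι ι F := fun i j => if e i < e j then B (b i) (b j) else if i = j then c i else 0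
  let A : LinearMap.BilinForm F V := Matrix.toBilin b M
  have hA : ∀ i j, A (b i) (b j) = M i j := by
    intro i j
    have h1 : LinearMap.BilinForm.toMatrix b A = M := LinearMap.BilinForm.toMatrix_toBilin b M
    rw [← h1, LinearMap.BilinForm.toMatrix_apply]
  let Q : QuadraticForm F V := LinearMap.BilinMap.toQuadraticMap A
  have hQ : ∀ v, Q v = A v v := fun v => rfl
  have hpol : QuadraticMap.polarBilin Q = B := by
    refine b.ext fun i => b.ext fun j => ?_
    rw [QuadraticMap.polarBilin_apply_apply, LinearMap.BilinMap.polar_toQuadraticMap, hA, hA]
    simp only [M]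
    rcases lt_trichotomy (e i) (e j) with h | h | h
    · rw [if_pos h, if_neg (not_lt.mpr h.le), if_neg (fun hh : j = i => by
        rw [hh] at h
        exact lt_irrefl _ h), add_zero]
    · have hij : i = j := e.injective (Fin.ext (by rw [h]))
      subst hij
      simp only [lt_irrefl, if_false, if_true]
      rw [hB (b i)]
      linear_combination (c i) * h2
    · rw [if_neg (not_lt.mpr h.le), if_pos h, if_neg (fun hh : i = j => by
        rw [hh] at h
        exact lt_irrefl _ h), zero_add, hsymm]
  have hval : ∀ i, Q (b i) = c i := by
    intro i
    rw [hQ, hA]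
    simp [M]
  refine ⟨Q, ⟨hpol, hval⟩, ?_⟩
  rintro Q' ⟨hpol', hval'⟩
  let D : QuadraticForm F V := Q' - Q
  have hadd : ∀ x y, D (x + y) = D x + D y := by
    intro x y
    have h1 := congrArg (fun T : LinearMap.BilinForm F V => T x y) (hpol'.trans hpol.symm)
    simp only [QuadraticMap.polarBilin_apply_apply, QuadraticMap.polar] at h1
    simp only [D, sub_apply]
    linear_combination h1
  have h0 : ∀ v, D v = 0 := by
    intro v
    have hv : v ∈ Submodule.span F (Set.range b) := by
      rw [b.span_eq]
      exact Submodule.mem_top
    induction hv using Submodule.span_induction with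
    | mem x hx =>
      obtain ⟨i, rfl⟩ := hx
      simp only [D, sub_apply, hval, hval', sub_self]
    | zero => simp
    | add x y _ _ hx hy => rw [hadd, hx, hy, add_zero]
    | smul r x _ hx =>
      rw [QuadraticMap.map_smul, hx]
      simp
  ext v
  have := h0 v
  simp only [D, sub_apply] at this
  exact sub_eq_zero.mp this

end Cfsg.Agent.S2619
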