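import Cfsg.Statements.S2625

set_option autoImplicit false
open Cfsg

namespace Cfsg.Agent.S2625

/-- For a quadratic form Q on F^n with non-degenerate polar form, F finite and n odd (so |F| is odd), the multiplier of any similarity is a square: if g is an invertible linear map with Q(g v) = c·Q(v) for all v then c is a square. -/
theorem result {F : Type*} [Field F] [Fintype F] {n : ℕ} (hn : Odd n) (Q : QuadraticForm F (Fin n → F)) (hQ : (QuadraticMap.polarBilin Q).Nondegenerate) (g : (Fin n → F) ≃ₗ[F] (Fin n → F)) (c : F) (hg : ∀ v, Q (g v) = c * Q v) : IsSquare c := by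
  classical
  set B := QuadraticMap.polarBilin Q with hB
  have hpol : ∀ v w, B (g v) (g w) = c * B v w := by
    intro v w
    simp only [hB, QuadraticMap.polarBilin_apply_apply, QuadraticMap.polar]
    rw [← map_add, hg, hg, hg]
    ring
  set M := LinearMap.BilinForm.toMatrix' B with hM
  have hdet : M.det ≠ 0 := by
    rw [← Matrix.nondegenerate_iff_det_ne_zero, LinearMap.BilinForm.nondegenerate_toMatrix'_iff]
    exact hQ
  set P := LinearMap.toMatrix' (g : (Fin n → F) →ₗ[F] (Fin n → F)) with hP
  have hcomp : LinearMap.BilinForm.comp B (g : (Fin n → F) →ₗ[F] (Fin n → F)) (g : (Fin n → F) →ₗ[F] (Fin n → F)) = c • B := by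
    ext v w
    simp [hpol]
  have hPM : P.transpose * M * P = c • M := by
    rw [hM, hP, ← LinearMap.BilinForm.toMatrix'_comp, hcomp, map_smul]
  have h1 := congrArg Matrix.det hPM
  rw [Matrix.det_mul, Matrix.det_mul, Matrix.det_transpose, Matrix.det_smul, Fintype.card_fin] at h1
  have hPd : P.det ≠ 0 := by
    rw [hP, LinearMap.det_toMatrix']
    exact (LinearEquiv.isUnit_det' g).ne_zero
  obtain ⟨k, hk⟩ := hn
  have e : c ^ n = c ^ (2 * k + 1) := by rw [hk]
  have h2 : P.det * P.det = c ^ n := by
    have : (P.det * P.det - c ^ n) * M.det = 0 := by linear_combination h1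
    rcases mul_eq_zero.mp this with h | h
    · exact sub_eq_zero.mp h
    · exact absurd h hdet
  have hc : c ≠ 0 := by
    rintro rfl
    rw [e, zero_pow (by omega)] at h2
    exact hPd (by simpa using h2)
  refine ⟨P.det / c ^ k, ?_⟩
  have hck : c ^ k ≠ 0 := pow_ne_zero _ hc
  field_simp
  rw [e] at h2
  rw [sq P.det, h2]
  ring

end Cfsg.Agent.S2625
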