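import Mathlib
import Cfsg.Agent.Lib.ClassGeo.OSpin3
import Cfsg.Statements.S2630
-- import your own Cfsg.Agent.* helpers here

set_option autoImplicit false
open Cfsg

namespace Cfsg.Agent.S2630

/-- For the hyperbolic form Σ x_i y_i on F^(2m) over a finite field of characteristic two (m ≥ 1, excluding m = 2 over the field of two elements), an isometry g preserves the class of the maximal totally singular subspace U₀ = {y = 0} (m − dim(U₀ ∩ gU₀) even) if and only if g lies in Ω (the commutator subgroup of the orthogonal group): the stabiliser of each class is Ω. -/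
theorem result {F : Type*} [Field F] [Fintype F] [CharP F 2] {m : ℕ} (hm : 1 ≤ m) (h : Fintype.card F ≠ 2 ∨ m ≠ 2) (g : ↥(Cfsg.isometryGroup F (Cfsg.quadFormPlus m F))) : Even (m - Module.finrank F ↥(LinearMap.ker (LinearMap.funLeft F F (Sum.inr : Fin m → Fin m ⊕ Fin m)) ⊓ (LinearMap.ker (LinearMap.funLeft F F (Sum.inr : Fin m → Fin m ⊕ Fin m))).map (Matrix.mulVecLin ((g : Matrix.GeneralLinearGroup (Fin m ⊕ Fin m) F) : Matrix (Fin m ⊕ Fin m) (Fin m ⊕ Fin m) F)))) ↔ g ∈ Cfsg.Omega F (Cfsg.quadFormPlus m F) := by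
  classical
  have h2 : (2 : F) = 0 := CharTwo.two_eq_zero
  have hQ := CfsgLib.ClassGeo.Orth.mkQ_nondeg (CfsgLib.ClassGeo.Orth.quadFormPlus_nondeg (F := F) m)
  have hc : Fintype.card (Fin m ⊕ Fin m) = 2 * m := by simp; ring
  have h' : Fintype.card F ≠ 2 ∨ Fintype.card (Fin m ⊕ Fin m) ≠ 4 := by
    rcases h with h | h
    · exact Or.inl h
    · right
      rw [hc]
      omega
  have hgen := CfsgLib.ClassGeo.OSpin.hgen_all hQ h'
  have hA := CfsgLib.ClassGeo.OSpin.maxTS_U0 (F := F) m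
  have key := CfsgLib.ClassGeo.OSpin.even_iff_wDelta_mat hQ hgen hA (CfsgLib.ClassGeo.OSpin.finrank_U0 m) g
  refine key.trans ?_
  have hn : 2 ≤ Fintype.card (Fin m ⊕ Fin m) := by rw [hc]; omega
  have hm' := CfsgLib.ClassGeo.OSpin.mem_omega_iff_wall hn hQ h' g
  refine Iff.trans ?_ hm'.symm
  constructor
  · intro h1
    exact ⟨h1, CfsgLib.ClassGeo.OSpin.wTheta_char_two hQ hgen h2 (CfsgLib.ClassGeo.Orth.isoEquiv (CfsgLib.ClassGeo.Orth.mkQ (CfsgLib.ClassGeo.Orth.quadFormPlus_nondeg (F := F) m)) g).2⟩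
  · exact fun h1 => h1.1

end Cfsg.Agent.S2630
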