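import Mathlib
import Cfsg.Agent.Lib.ClassGeo.OSpin3
import Cfsg.Statements.S2631
-- import your own Cfsg.Agent.* helpers here

set_option autoImplicit false
open Cfsg

namespace Cfsg.Agent.S2631

/-- For the hyperbolic form Σ x_i y_i on F^(2m) over a finite field (m ≥ 1, excluding m = 2 over the field of two elements), Ω (the commutator subgroup of the orthogonal group) acts transitively on each of the two classes of maximal totally singular subspaces: if U and W are m-dimensional totally singular subspaces with m − dim(U ∩ W) even, some element of Ω carries U to W. -/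
theorem result {F : Type*} [Field F] [Fintype F] {m : ℕ} (hm : 1 ≤ m) (h : Fintype.card F ≠ 2 ∨ m ≠ 2) (U W : Submodule F (Fin m ⊕ Fin m → F)) (hU : Module.finrank F U = m) (hW : Module.finrank F W = m) (hU0 : ∀ u ∈ U, Cfsg.quadFormPlus m F u = 0) (hW0 : ∀ w ∈ W, Cfsg.quadFormPlus m F w = 0) (he : Even (m - Module.finrank F ↥(U ⊓ W))) : ∃ g : ↥(Cfsg.isometryGroup F (Cfsg.quadFormPlus m F)), g ∈ Cfsg.Omega F (Cfsg.quadFormPlus m F) ∧ U.map (Matrix.mulVecLin ((g : Matrix.GeneralLinearGroup (Fin m ⊕ Fin m) F) : Matrix (Fin m ⊕ Fin m) (Fin m ⊕ Fin m) F)) = W := by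
  classical
  have hQ := CfsgLib.ClassGeo.Orth.mkQ_nondeg (CfsgLib.ClassGeo.Orth.quadFormPlus_nondeg (F := F) m)
  have hc : Fintype.card (Fin m ⊕ Fin m) = 2 * m := by simp; ring
  have h' : Fintype.card F ≠ 2 ∨ Fintype.card (Fin m ⊕ Fin m) ≠ 4 := by
    rcases h with h | h
    · exact Or.inl h
    · right
      rw [hc]
      omega
  have hgen := CfsgLib.ClassGeo.OSpin.hgen_all hQ h'
  have hn : 2 ≤ Fintype.card (Fin m ⊕ Fin m) := by rw [hc]; omega
  have hA : CfsgLib.ClassGeo.Orth.MaxTS (CfsgLib.ClassGeo.Orth.mkQ (CfsgLib.ClassGeo.Orth.quadFormPlus_nondeg (F := F) m)) U :=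
    ⟨hU0, by rw [hU]; simp; ring⟩
  obtain ⟨g₀, hg₀, hgU⟩ := CfsgLib.ClassGeo.OSpin.exists_isom_map_ts hQ (hU.trans hW.symm) hU0 hW0
  have h1 : CfsgLib.ClassGeo.Orth.wDelta g₀ = 1 := by
    rw [← CfsgLib.ClassGeo.OSpin.even_iff_wDelta hQ hgen hA hg₀, hgU, hU]
    exact he
  have hU1 : U ≠ ⊥ := by
    rintro rfl
    simp at hU
    omega
  obtain ⟨s, hs, h3, h4⟩ := CfsgLib.ClassGeo.OSpin.adj_max hQ hgen hU0 hU1 hg₀ h1
  obtain ⟨G, hG, hGp⟩ := CfsgLib.ClassGeo.OSpin.exists_omega_of hn hQ h' (Subgroup.mul_mem _ hg₀ hs.2) h3 h4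
  refine ⟨G, hG, ?_⟩
  rw [CfsgLib.ClassGeo.OSpin.mulVecLin_phi, hGp, CfsgLib.ClassGeo.OSpin.map_mul_stab hs.1, hgU]

end Cfsg.Agent.S2631
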