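import Mathlib
import Cfsg.Agent.Lib.ClassGeo.OSpin3
import Cfsg.Statements.S2632
-- import your own Cfsg.Agent.* helpers here

set_option autoImplicit false
open Cfsg

namespace Cfsg.Agent.S2632

/-- Ω is transitive on non-degenerate subspaces of each isometry type: for a quadratic form Q on F^n, n ≥ 3, with non-degenerate polar form (F finite; excluding dimension 4 over the field of two elements), if U and W are subspaces on which the polar form is non-degenerate and there is a Q-preserving linear isomorphism U → W, then some element of Ω (the commutator subgroup of the orthogonal group) carries U to W. (In dimension 2 this fails: Ω can be {±1}, which fixes every line.) -/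
theorem result {F : Type*} [Field F] [Fintype F] {n : ℕ} (hn : 3 ≤ n) (h : Fintype.card F ≠ 2 ∨ n ≠ 4) (Q : QuadraticForm F (Fin n → F)) (hQ : (QuadraticMap.polarBilin Q).Nondegenerate) (U W : Submodule F (Fin n → F)) (hU : U ⊓ LinearMap.BilinForm.orthogonal (QuadraticMap.polarBilin Q) U = ⊥) (hW : W ⊓ LinearMap.BilinForm.orthogonal (QuadraticMap.polarBilin Q) W = ⊥) (e : U ≃ₗ[F] W) (he : ∀ u : U, Q (e u : Fin n → F) = Q (u : Fin n → F)) : ∃ g : ↥(Cfsg.isometryGroup F ⇑Q), g ∈ Cfsg.Omega F ⇑Q ∧ U.map (Matrix.mulVecLin ((g : Matrix.GeneralLinearGroup (Fin n) F) : Matrix (Fin n) (Fin n) F)) = W := by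
  classical
  have hfr : Module.finrank F (Fin n → F) = n := by simp
  have hn' : Fintype.card (Fin n) = n := Fintype.card_fin n
  have h' : Fintype.card F ≠ 2 ∨ Fintype.card (Fin n) ≠ 4 := by rwa [hn']
  have hgen := CfsgLib.ClassGeo.OSpin.hgen_all hQ h'
  have hU' : CfsgLib.ClassGeo.Orth.NdSub Q U := by
    intro x hx hy
    have h1 : x ∈ U ⊓ LinearMap.BilinForm.orthogonal (QuadraticMap.polarBilin Q) U := by
      refine Submodule.mem_inf.mpr ⟨hx, ?_⟩
      rw [LinearMap.BilinForm.mem_orthogonal_iff]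
      intro y hy'
      have h2 := hy y hy'
      rw [QuadraticMap.polar_comm] at h2
      exact h2
    rw [hU] at h1
    simpa using h1
  obtain ⟨g₀, hg₀, hφ⟩ := CfsgLib.ClassGeo.quad_witt Q hQ U (W.subtype ∘ₗ (e : U →ₗ[F] W)) (by
      intro a b hab
      exact e.injective (Subtype.ext hab)) (by
      intro u
      exact he u)
  have hgU : U.map (g₀ : (Fin n → F) →ₗ[F] (Fin n → F)) = W := by
    ext x
    constructor
    · rintro ⟨a, ha, rfl⟩
      change g₀ a ∈ W
      rw [hφ ⟨a, ha⟩]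
      exact (e ⟨a, ha⟩).2
    · intro hx
      refine ⟨e.symm ⟨x, hx⟩, (e.symm ⟨x, hx⟩).2, ?_⟩
      change g₀ (e.symm ⟨x, hx⟩ : U) = x
      rw [hφ (e.symm ⟨x, hx⟩)]
      simp
  obtain ⟨s, hs, h3, h4⟩ := CfsgLib.ClassGeo.OSpin.adj_nd hQ hgen hU' (by rw [hfr]; exact hn) hg₀
  obtain ⟨G, hG, hGp⟩ := CfsgLib.ClassGeo.OSpin.exists_omega_of (by omega) hQ h' (Subgroup.mul_mem _ hg₀ hs.2) h3 h4
  refine ⟨G, hG, ?_⟩
  rw [CfsgLib.ClassGeo.OSpin.mulVecLin_phi, hGp, CfsgLib.ClassGeo.OSpin.map_mul_stab hs.1, hgU]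

end Cfsg.Agent.S2632
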