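import Mathlib
import Cfsg.Agent.Lib.ClassGeo.OSpin3
import Cfsg.Statements.S2633
-- import your own Cfsg.Agent.* helpers here

set_option autoImplicit false
open Cfsg

namespace Cfsg.Agent.S2633

/-- Ω is transitive on totally singular subspaces of each dimension less than half the dimension: for a quadratic form Q on F^n with non-degenerate polar form (F finite; excluding dimension 4 over the field of two elements), if U and W are subspaces of the same dimension k with 2k < n on which Q vanishes, then some element of Ω (the commutator subgroup of the orthogonal group) carries U to W. -/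
theorem result {F : Type*} [Field F] [Fintype F] {n : ℕ} (h : Fintype.card F ≠ 2 ∨ n ≠ 4) (Q : QuadraticForm F (Fin n → F)) (hQ : (QuadraticMap.polarBilin Q).Nondegenerate) (U W : Submodule F (Fin n → F)) {k : ℕ} (hk : 2 * k < n) (hU : Module.finrank F U = k) (hW : Module.finrank F W = k) (hU0 : ∀ u ∈ U, Q u = 0) (hW0 : ∀ w ∈ W, Q w = 0) : ∃ g : ↥(Cfsg.isometryGroup F ⇑Q), g ∈ Cfsg.Omega F ⇑Q ∧ U.map (Matrix.mulVecLin ((g : Matrix.GeneralLinearGroup (Fin n) F) : Matrix (Fin n) (Fin n) F)) = W := by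
  classical
  have hfr : Module.finrank F (Fin n → F) = n := by simp
  have hn' : Fintype.card (Fin n) = n := Fintype.card_fin n
  have h' : Fintype.card F ≠ 2 ∨ Fintype.card (Fin n) ≠ 4 := by rwa [hn']
  have hgen := CfsgLib.ClassGeo.OSpin.hgen_all hQ h'
  obtain ⟨g₀, hg₀, hgU⟩ := CfsgLib.ClassGeo.OSpin.exists_isom_map_ts hQ (hU.trans hW.symm) hU0 hW0
  by_cases hk0 : k = 0
  · subst hk0
    have e1 : U = ⊥ := Submodule.finrank_eq_zero.mp hU
    have e2 : W = ⊥ := Submodule.finrank_eq_zero.mp hW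
    subst e1
    subst e2
    exact ⟨1, Subgroup.one_mem _, by simp⟩
  have hU1 : U ≠ ⊥ := by
    rintro rfl
    simp at hU
    omega
  have hn2 : 2 ≤ Fintype.card (Fin n) := by omega
  obtain ⟨s, hs, h3, h4⟩ := CfsgLib.ClassGeo.OSpin.adj_ts hQ hgen hU0 hU1 (by rw [hU, hfr]; exact hk) hg₀
  obtain ⟨G, hG, hGp⟩ := CfsgLib.ClassGeo.OSpin.exists_omega_of hn2 hQ h' (Subgroup.mul_mem _ hg₀ hs.2) h3 h4
  refine ⟨G, hG, ?_⟩
  rw [CfsgLib.ClassGeo.OSpin.mulVecLin_phi, hGp, CfsgLib.ClassGeo.OSpin.map_mul_stab hs.1, hgU]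

end Cfsg.Agent.S2633
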