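import Mathlib
import Cfsg.Agent.Lib.ClassGeo.OSpin3
import Cfsg.Statements.S2634
-- import your own Cfsg.Agent.* helpers here

set_option autoImplicit false
open Cfsg

namespace Cfsg.Agent.S2634

/-- Over a finite field of characteristic two, Ω (the commutator subgroup of the orthogonal group of a quadratic form Q on F^n with non-degenerate polar form; excluding dimension 4 over the field of two elements) acts transitively on the non-singular 1-spaces: for u, v with Q(u) ≠ 0 and Q(v) ≠ 0 some element of Ω carries the line through u to the line through v. -/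
theorem result {F : Type*} [Field F] [Fintype F] [CharP F 2] {n : ℕ} (h : Fintype.card F ≠ 2 ∨ n ≠ 4) (Q : QuadraticForm F (Fin n → F)) (hQ : (QuadraticMap.polarBilin Q).Nondegenerate) (u v : Fin n → F) (hu : Q u ≠ 0) (hv : Q v ≠ 0) : ∃ g : ↥(Cfsg.isometryGroup F ⇑Q), g ∈ Cfsg.Omega F ⇑Q ∧ (F ∙ ((g : Matrix.GeneralLinearGroup (Fin n) F) : Matrix (Fin n) (Fin n) F).mulVec u) = F ∙ v := by
  classical
  have h2 : (2 : F) = 0 := CharTwo.two_eq_zero
  have hu0 : u ≠ 0 := by
    rintro rfl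
    simp at hu
  have hv0 : v ≠ 0 := by
    rintro rfl
    simp at hv
  have hfr : Module.finrank F (Fin n → F) = n := by simp
  have hn' : Fintype.card (Fin n) = n := Fintype.card_fin n
  have h' : Fintype.card F ≠ 2 ∨ Fintype.card (Fin n) ≠ 4 := by rwa [hn']
  have hgen := CfsgLib.ClassGeo.OSpin.hgen_all hQ h'
  have hn2 : 2 ≤ Fintype.card (Fin n) := by
    rw [hn', ← hfr]
    have hp := CfsgLib.ClassGeo.Orth.finrank_add_perp hQ (Submodule.span F {u})
    have h1 : Submodule.span F {u} ≤ CfsgLib.ClassGeo.Orth.perp Q (Submodule.span F {u}) := by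
      rw [Submodule.span_singleton_le_iff_mem, CfsgLib.ClassGeo.Orth.mem_perp]
      intro w hw
      obtain ⟨c, rfl⟩ := Submodule.mem_span_singleton.mp hw
      rw [QuadraticMap.polar_smul_left, CfsgLib.ClassGeo.Orth.pol_self, h2]
      simp
    have h3 := Submodule.finrank_mono h1
    have h4 : Module.finrank F (Submodule.span F {u}) = 1 := finrank_span_singleton hu0
    omega
  obtain ⟨c, hc⟩ := CfsgLib.ClassGeo.OSpin.isSquare_of_two_zero h2 (Q v / Q u)
  have hc0 : c ≠ 0 := by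
    rintro rfl
    rw [mul_zero, div_eq_zero_iff] at hc
    tauto
  have hq : Q (c • u) = Q v := by
    rw [QuadraticMap.map_smul, smul_eq_mul, ← hc]
    field_simp
  obtain ⟨g₀, hg₀, hgu⟩ := CfsgLib.ClassGeo.Orth.exists_isom_vec hQ (smul_ne_zero hc0 hu0) hv0 hq
  have hwall : ∀ p ∈ CfsgLib.ClassGeo.quadIsomGroup Q, CfsgLib.ClassGeo.Orth.wDelta p = 1 → p (c • u) = v →
      ∃ g : ↥(Cfsg.isometryGroup F ⇑Q), g ∈ Cfsg.Omega F ⇑Q ∧ (F ∙ ((g : Matrix.GeneralLinearGroup (Fin n) F) : Matrix (Fin n) (Fin n) F).mulVec u) = F ∙ v := by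
    intro p hp h1 h3
    obtain ⟨G, hG, hGp⟩ := CfsgLib.ClassGeo.OSpin.exists_omega_of hn2 hQ h' hp h1 (CfsgLib.ClassGeo.OSpin.wTheta_char_two hQ hgen h2 hp)
    refine ⟨G, hG, ?_⟩
    rw [CfsgLib.ClassGeo.OSpin.mulVec_phi, hGp]
    have e : p u = c⁻¹ • v := by
      rw [← h3, map_smul, smul_smul, inv_mul_cancel₀ hc0, one_smul]
    rw [e]
    exact Submodule.span_singleton_smul_eq (IsUnit.mk0 _ (inv_ne_zero hc0)) v
  rcases CfsgLib.ClassGeo.OSpin.wDelta_cases g₀ with h1 | h1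
  · exact hwall g₀ hg₀ h1 hgu
  · refine hwall (g₀ * CfsgLib.ClassGeo.Orth.rT Q u) (Subgroup.mul_mem _ hg₀ (CfsgLib.ClassGeo.Orth.rT_mem u)) ?_ ?_
    · rw [(CfsgLib.ClassGeo.Orth.wall_mul hQ (hgen hg₀) _ (CfsgLib.ClassGeo.Orth.rT_mem u)).1, h1, CfsgLib.ClassGeo.Orth.wDelta_rT hQ hu]
      rfl
    · change g₀ (CfsgLib.ClassGeo.Orth.rT Q u (c • u)) = v
      rw [CfsgLib.ClassGeo.Orth.rT_apply hu, QuadraticMap.polar_smul_right, CfsgLib.ClassGeo.Orth.pol_self, h2]
      simpa using hgu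

end Cfsg.Agent.S2634
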