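import Mathlib
import Cfsg.Agent.Lib.ClassGeo.OSpin3
import Cfsg.Statements.S2635
-- import your own Cfsg.Agent.* helpers here

set_option autoImplicit false
open Cfsg

namespace Cfsg.Agent.S2635

/-- Over a finite field of characteristic two, for a quadratic form Q on F^n with non-degenerate polar form, n ≥ 2, other than dimension 4 over the field of two elements, Ω (the commutator subgroup of the orthogonal group) is exactly the subgroup generated by the products of two reflections (orthogonal transvections) x ↦ x − Q(v)⁻¹ f(x, v) v, Q(v) ≠ 0: the products of an even number of reflections. -/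
theorem result {F : Type*} [Field F] [Fintype F] [CharP F 2] {n : ℕ} (hn : 2 ≤ n) (h : Fintype.card F ≠ 2 ∨ n ≠ 4) (Q : QuadraticForm F (Fin n → F)) (hQ : (QuadraticMap.polarBilin Q).Nondegenerate) : Cfsg.Omega F ⇑Q = Subgroup.closure {g : ↥(Cfsg.isometryGroup F ⇑Q) | ∃ u v : Fin n → F, Q u ≠ 0 ∧ Q v ≠ 0 ∧ ((g : Matrix.GeneralLinearGroup (Fin n) F) : Matrix (Fin n) (Fin n) F) = Cfsg.reflectionMatrix ⇑Q u * Cfsg.reflectionMatrix ⇑Q v} := by
  classical
  have h2 : (2 : F) = 0 := CharTwo.two_eq_zero
  have hn' : Fintype.card (Fin n) = n := Fintype.card_fin n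
  have h' : Fintype.card F ≠ 2 ∨ Fintype.card (Fin n) ≠ 4 := by rwa [hn']
  have hn2 : 2 ≤ Fintype.card (Fin n) := by omega
  have hgen := CfsgLib.ClassGeo.OSpin.hgen_all hQ h'
  apply le_antisymm
  · intro g hg
    have hp : CfsgLib.ClassGeo.Orth.phi Q g ∈ CfsgLib.ClassGeo.quadIsomGroup Q := (CfsgLib.ClassGeo.Orth.isoEquiv Q g).2
    obtain ⟨vs, hvs, hpg⟩ := CfsgLib.ClassGeo.OSpin.exists_refl_list (hgen hp)
    have hm := CfsgLib.ClassGeo.OSpin.mat_eq_list g vs hvs hpg
    have hev := ((CfsgLib.ClassGeo.OSpin.list_criterion hn2 hQ h' g vs hvs hm).mp hg).1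
    have key : ∀ (k : ℕ) (vs : List (Fin n → F)) (hvs : ∀ v ∈ vs, Q v ≠ 0), vs.length = 2 * k →
        CfsgLib.ClassGeo.OSpin.listIso vs hvs ∈ Subgroup.closure {g : ↥(Cfsg.isometryGroup F ⇑Q) | ∃ u v : Fin n → F, Q u ≠ 0 ∧ Q v ≠ 0 ∧ ((g : Matrix.GeneralLinearGroup (Fin n) F) : Matrix (Fin n) (Fin n) F) = Cfsg.reflectionMatrix ⇑Q u * Cfsg.reflectionMatrix ⇑Q v} := by
      intro k
      induction k with
      | zero =>
        intro vs hvs hl
        have : vs = [] := List.length_eq_zero_iff.mp (by omega)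
        subst this
        have e : CfsgLib.ClassGeo.OSpin.listIso (Q := Q) [] hvs = 1 := by
          apply CfsgLib.ClassGeo.Orth.phi_injective (Q := Q)
          rw [CfsgLib.ClassGeo.OSpin.phi_listIso, map_one]
          rfl
        rw [e]
        exact Subgroup.one_mem _
      | succ k ih =>
        intro vs hvs hl
        match vs, hvs, hl with
        | [], _, hl => simp at hl
        | [_], _, hl => simp at hl; omega
        | a :: b :: rest, hvs, hl =>
          have hr : ∀ v ∈ rest, Q v ≠ 0 := fun v hv => hvs v (by simp [hv])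
          have hab : ∀ v ∈ [a, b], Q v ≠ 0 := fun v hv => hvs v (by
            simp only [List.mem_cons, List.not_mem_nil, or_false] at hv ⊢
            tauto)
          have e : CfsgLib.ClassGeo.OSpin.listIso (a :: b :: rest) hvs = CfsgLib.ClassGeo.OSpin.listIso [a, b] hab * CfsgLib.ClassGeo.OSpin.listIso rest hr := by
            apply CfsgLib.ClassGeo.Orth.phi_injective (Q := Q)
            rw [map_mul, CfsgLib.ClassGeo.OSpin.phi_listIso, CfsgLib.ClassGeo.OSpin.phi_listIso, CfsgLib.ClassGeo.OSpin.phi_listIso]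
            simp [mul_assoc]
          rw [e]
          refine Subgroup.mul_mem _ (Subgroup.subset_closure ⟨a, b, hvs a (by simp), hvs b (by simp), ?_⟩) (ih rest hr (by simp at hl; omega))
          rw [CfsgLib.ClassGeo.OSpin.mat_listIso]
          simp
    obtain ⟨k, hk⟩ := hev
    have e : g = CfsgLib.ClassGeo.OSpin.listIso vs hvs := by
      apply CfsgLib.ClassGeo.Orth.phi_injective (Q := Q)
      rw [CfsgLib.ClassGeo.OSpin.phi_listIso, hpg]
    rw [e]
    exact key k vs hvs (by omega)
  · rw [Subgroup.closure_le]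
    rintro g ⟨u, v, hu, hv, hg⟩
    have huv : ∀ w ∈ [u, v], Q w ≠ 0 := by
      intro w hw
      simp only [List.mem_cons, List.not_mem_nil, or_false] at hw
      rcases hw with rfl | rfl
      · exact hu
      · exact hv
    have e : ((g : Matrix.GeneralLinearGroup (Fin n) F) : Matrix (Fin n) (Fin n) F) = ([u, v].map (fun w => Cfsg.reflectionMatrix ⇑Q w)).prod := by
      rw [hg]
      simp
    exact (CfsgLib.ClassGeo.OSpin.list_criterion hn2 hQ h' g [u, v] huv e).mpr ⟨by simp, CfsgLib.ClassGeo.OSpin.isSquare_of_two_zero h2 _⟩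

end Cfsg.Agent.S2635
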