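import Mathlib
import Cfsg.Agent.Lib.ClassGeo.RS2
import Cfsg.Statements.S2640
-- import your own Cfsg.Agent.* helpers here

set_option autoImplicit false
open Cfsg

namespace Cfsg.Agent.S2640

/-- For m even, the unitary group GU_m(q) (over the field with q² elements) embeds in the orthogonal group O⁺_2m(q) of the hyperbolic form Σ x_i y_i over the field with q elements (there is an injective homomorphism). -/
theorem result {K F : Type*} [Field K] [Fintype K] [Field F] [Fintype F] {q : ℕ} (hK : Fintype.card K = q ^ 2) (hF : Fintype.card F = q) (m : ℕ) (hm : Even m) : ∃ φ : ↥(Cfsg.GU m K q) →* ↥(Cfsg.isometryGroup F (Cfsg.quadFormPlus m F)), Function.Injective φ := by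
  obtain ⟨j, hj⟩ := CfsgLib.ClassGeo.exists_embed hK F hF
  letI : Algebra F K := j.toAlgebra
  exact CfsgLib.ClassGeo.RS.gu_plus hF hK hm

end Cfsg.Agent.S2640
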