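import Cfsg.Statements.S2666
import Cfsg.Agent.Lib.H9.Shintani

set_option autoImplicit false
open Cfsg

namespace Cfsg.Agent.S2666

theorem result {X : Type*} [Group X] (σ : MulAut X) (e : ℕ) (he : 1 ≤ e)
    (hL : ∀ g : X, ∃ a : X, g = a * (σ a)⁻¹) (hLe : ∀ g : X, ∃ a : X, g = a * ((σ ^ e) a)⁻¹) :
    (∀ g ∈ (MulEquiv.toMonoidHom (σ ^ e)).eqLocus (MonoidHom.id X), ∀ a : X, g = a * (σ a)⁻¹ →
        ((σ ^ e) a)⁻¹ * a ∈ (MulEquiv.toMonoidHom σ).eqLocus (MonoidHom.id X) ∧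
          a⁻¹ * ((List.range e).map (fun i => (σ ^ i) g)).prod * a = ((σ ^ e) a)⁻¹ * a) ∧
    (∀ g ∈ (MulEquiv.toMonoidHom (σ ^ e)).eqLocus (MonoidHom.id X), ∀ g' ∈ (MulEquiv.toMonoidHom (σ ^ e)).eqLocus (MonoidHom.id X), ∀ a b : X,
        g = a * (σ a)⁻¹ → g' = b * (σ b)⁻¹ →
          ((∃ k ∈ (MulEquiv.toMonoidHom (σ ^ e)).eqLocus (MonoidHom.id X), g' = k * g * (σ k)⁻¹) ↔
            (∃ h ∈ (MulEquiv.toMonoidHom σ).eqLocus (MonoidHom.id X), ((σ ^ e) b)⁻¹ * b = h * (((σ ^ e) a)⁻¹ * a) * h⁻¹))) ∧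
    (∀ x ∈ (MulEquiv.toMonoidHom σ).eqLocus (MonoidHom.id X), ∃ g ∈ (MulEquiv.toMonoidHom (σ ^ e)).eqLocus (MonoidHom.id X), ∃ a : X,
        g = a * (σ a)⁻¹ ∧ ((σ ^ e) a)⁻¹ * a = x) := by
  simp only [CfsgLib.H9.Shintani.mem_eqLocus_iff]
  refine ⟨?_, ?_, ?_⟩
  · intro g hg a ha
    subst ha
    refine ⟨CfsgLib.H9.Shintani.image_fixed σ e a hg, ?_⟩
    rw [CfsgLib.H9.Shintani.norm_eq]
    group
  · intro g hg g' hg' a b ha hb
    subst ha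
    subst hb
    constructor
    · rintro ⟨k, hk, hkg⟩
      refine ⟨b⁻¹ * k * a, ?_, ?_⟩
      · -- `h` is `σ`-fixed
        simp only [map_mul, map_inv]
        have h1 : (σ b)⁻¹ = b⁻¹ * (b * (σ b)⁻¹) := by group
        rw [h1, hkg]
        group
      · have h2 : (σ b)⁻¹ = b⁻¹ * (b * (σ b)⁻¹) := by group
        have hfix : σ (b⁻¹ * k * a) = b⁻¹ * k * a := by
          simp only [map_mul, map_inv]
          rw [h2, hkg]
          group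
        have hfe := CfsgLib.H9.Shintani.fix_pow hfix e
        simp only [map_mul, map_inv] at hfe
        rw [hk] at hfe
        -- `(σ^e b)⁻¹ = (b⁻¹ k a) (σ^e a)⁻¹ k⁻¹`
        have h3 : ((σ ^ e) b)⁻¹ = (b⁻¹ * k * a) * ((σ ^ e) a)⁻¹ * k⁻¹ := by
          rw [← hfe]; group
        rw [h3]
        group
    · rintro ⟨h, hh, hxx⟩
      refine ⟨b * h * a⁻¹, ?_, ?_⟩
      · -- fixed by `σ^e`
        simp only [map_mul, map_inv]
        rw [CfsgLib.H9.Shintani.fix_pow hh e]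
        have h3 : b = (σ ^ e) b * (h * (((σ ^ e) a)⁻¹ * a) * h⁻¹) := by
          rw [← hxx]; group
        calc (σ ^ e) b * h * ((σ ^ e) a)⁻¹ = (σ ^ e) b * (h * (((σ ^ e) a)⁻¹ * a) * h⁻¹) * h * a⁻¹ := by group
          _ = b * h * a⁻¹ := by rw [← h3]
      · simp only [map_mul, map_inv]
        rw [hh]
        group
  · intro x hx
    obtain ⟨c, hc⟩ := hLe x⁻¹
    have hax : ((σ ^ e) c⁻¹)⁻¹ * c⁻¹ = x := by
      rw [map_inv, inv_inv]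
      have : x = (x⁻¹)⁻¹ := by simp
      rw [this, hc]
      group
    refine ⟨c⁻¹ * (σ c⁻¹)⁻¹, ?_, c⁻¹, rfl, hax⟩
    set a := c⁻¹ with ha
    simp only [map_mul, map_inv]
    rw [CfsgLib.H9.Shintani.pow_comm_apply]
    have h1 : a = (σ ^ e) a * x := by
      rw [← hax]; group
    have h2 : σ a = σ ((σ ^ e) a) * x := by
      conv_lhs => rw [h1]
      rw [map_mul, hx]
    calc (σ ^ e) a * (σ ((σ ^ e) a))⁻¹ = ((σ ^ e) a * x) * (σ ((σ ^ e) a) * x)⁻¹ := by group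
      _ = a * (σ a)⁻¹ := by rw [← h1, ← h2]

end Cfsg.Agent.S2666
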