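import Cfsg.Statements.S2668
import Cfsg.Agent.Lib.H9.Shintani

set_option autoImplicit false
open Cfsg

namespace Cfsg.Agent.S2668

/-- Shintani descent and powers (abstract form). Let `σ` be an automorphism of a group `X`, `e ≥ 1` and `d ≥ 1`, let `g` be fixed by `σᵉ` and let `a` satisfy `g = a σ(a)⁻¹`, so that the Shintani map of `(X, σ, e)` sends the class of `g σ` to the class of `x = σᵉ(a)⁻¹ a`. Put `h = g σ(g) ⋯ σ^(d-1)(g)`, the part in `X` of the `d`-th power `(g σ)^d = h σ^d`. Then `h = a σ^d(a)⁻¹` (so `a` also serves for `h` with respect to `σ^d`), `h` is fixed by `(σ^d)ᵉ`, and `(σ^d)ᵉ(a)⁻¹ a = x^d`: the Shintani map of `(X, σ^d, e)` sends the class of `(g σ)^d` to the class of `x^d`. (When `d` divides `e`, the Shintani map of `(X, σ^d, e/d)` sends it to the class of `x` itself, since `(σ^d)^(e/d) = σᵉ`.) -/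
theorem result {X : Type*} [Group X] (σ : MulAut X) (e d : ℕ) (he : 1 ≤ e) (hd : 1 ≤ d)
    (g : X) (hg : g ∈ (MulEquiv.toMonoidHom (σ ^ e)).eqLocus (MonoidHom.id X)) (a : X) (ha : g = a * (σ a)⁻¹) :
    ((List.range d).map (fun i => (σ ^ i) g)).prod = a * ((σ ^ d) a)⁻¹ ∧
      ((List.range d).map (fun i => (σ ^ i) g)).prod ∈ (MulEquiv.toMonoidHom ((σ ^ d) ^ e)).eqLocus (MonoidHom.id X) ∧
      (((σ ^ d) ^ e) a)⁻¹ * a = (((σ ^ e) a)⁻¹ * a) ^ d := by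
  subst ha
  rw [CfsgLib.H9.Shintani.mem_eqLocus_iff] at hg
  have hnorm := CfsgLib.H9.Shintani.norm_eq σ a d
  refine ⟨hnorm, ?_, CfsgLib.H9.Shintani.image_pow σ e d a hg⟩
  rw [CfsgLib.H9.Shintani.mem_eqLocus_iff, hnorm]
  -- `a σ^d(a)⁻¹` is fixed by `σ^(de)`
  have h1 := CfsgLib.H9.Shintani.image_pow σ e d a hg
  have hx := CfsgLib.H9.Shintani.image_fixed σ e a hg
  have hxd : (σ ^ d) (((σ ^ e) a)⁻¹ * a) ^ d = (((σ ^ e) a)⁻¹ * a) ^ d := by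
    rw [CfsgLib.H9.Shintani.fix_pow hx d]
  have hcomm : (σ ^ d) ^ e * σ ^ d = σ ^ d * (σ ^ d) ^ e := (pow_succ _ _).symm.trans (pow_succ' _ _)
  have h3 : ((σ ^ d) ^ e) ((σ ^ d) a) = (σ ^ d) (((σ ^ d) ^ e) a) :=
    congrArg (fun τ : MulAut X => τ a) hcomm
  simp only [map_mul, map_inv]
  rw [h3]
  -- from `h1`: `((σ^d)^e a) = a * x^(-d)`
  have h4 : ((σ ^ d) ^ e) a = a * ((((σ ^ e) a)⁻¹ * a) ^ d)⁻¹ := by
    rw [← h1]; group
  rw [h4, map_mul, map_inv]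
  have h5 : (σ ^ d) ((((σ ^ e) a)⁻¹ * a) ^ d) = (((σ ^ e) a)⁻¹ * a) ^ d := by
    rw [map_pow, CfsgLib.H9.Shintani.fix_pow hx d]
  rw [h5]
  group

end Cfsg.Agent.S2668
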