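import Cfsg.Statements.S2669
import Cfsg.Agent.Lib.H9.Shintani
import Cfsg.Agent.Lib.H9.Count

set_option autoImplicit false
open Cfsg

namespace Cfsg.Agent.S2669

open CfsgLib.H9.Shintani in
theorem result {X : Type*} [Group X] (σ : MulAut X) (e : ℕ) (he : 1 ≤ e)
    [Finite ↥((MulEquiv.toMonoidHom (σ ^ e)).eqLocus (MonoidHom.id X))]
    (Y : Subgroup X) (hY : ∀ y : X, y ∈ Y ↔ σ y ∈ Y)
    (hYL : ∀ y ∈ Y, ∃ a ∈ Y, y = a * (σ a)⁻¹) (hYLe : ∀ y ∈ Y, ∃ a ∈ Y, y = a * ((σ ^ e) a)⁻¹)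
    (g : X) (hg : g ∈ (MulEquiv.toMonoidHom (σ ^ e)).eqLocus (MonoidHom.id X)) (a : X) (ha : g = a * (σ a)⁻¹) :
    Nat.card {k : ↥((MulEquiv.toMonoidHom (σ ^ e)).eqLocus (MonoidHom.id X)) // (k : X)⁻¹ * g * σ k ∈ Y} *
        Nat.card ↥(Y ⊓ (MulEquiv.toMonoidHom σ).eqLocus (MonoidHom.id X)) =
      Nat.card {h : ↥((MulEquiv.toMonoidHom σ).eqLocus (MonoidHom.id X)) // (h : X)⁻¹ * (((σ ^ e) a)⁻¹ * a) * h ∈ Y} *
        Nat.card ↥(Y ⊓ (MulEquiv.toMonoidHom (σ ^ e)).eqLocus (MonoidHom.id X)) := by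
  classical
  set G' := (MulEquiv.toMonoidHom (σ ^ e)).eqLocus (MonoidHom.id X) with hG'
  set H' := (MulEquiv.toMonoidHom σ).eqLocus (MonoidHom.id X) with hH'
  have memG : ∀ k : X, k ∈ G' ↔ (σ ^ e) k = k := fun k => Iff.rfl
  have memH : ∀ k : X, k ∈ H' ↔ σ k = k := fun k => Iff.rfl
  have hHG : H' ≤ G' := fun k hk => (memG k).2 (fix_pow ((memH k).1 hk) e)
  haveI : Finite H' := Finite.of_injective (Subgroup.inclusion hHG) (Subgroup.inclusion_injective hHG)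
  have hYe : ∀ (n : ℕ) (y : X), y ∈ Y → (σ ^ n) y ∈ Y := by
    intro n
    induction n with
    | zero => intro y hy; simpa using hy
    | succ n ih =>
      intro y hy
      rw [pow_succ, MulAut.mul_apply]
      exact ih _ ((hY y).1 hy)
  -- the set of pairs
  let T : Type _ := {p : G' × H' // ((p.1 : X)⁻¹ * a * (p.2 : X)⁻¹) ∈ Y}
  haveI : Finite T := Subtype.finite
  let A : Type _ := {k : G' // (k : X)⁻¹ * g * σ k ∈ Y}
  let B : Type _ := {h : H' // (h : X)⁻¹ * (((σ ^ e) a)⁻¹ * a) * h ∈ Y}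
  -- maps to `A` and `B`
  have hTA : ∀ p : T, ((p.1.1 : X)⁻¹ * g * σ p.1.1) ∈ Y := by
    rintro ⟨⟨k, h⟩, hc⟩
    simp only at hc ⊢
    have hσh : σ (h : X) = h := (memH _).1 h.2
    have : (k : X)⁻¹ * g * σ (k : X) = ((k : X)⁻¹ * a * (h : X)⁻¹) * (σ ((k : X)⁻¹ * a * (h : X)⁻¹))⁻¹ := by
      rw [ha]
      simp only [map_mul, map_inv, hσh]
      group
    rw [this]
    exact Y.mul_mem hc (Y.inv_mem ((hY _).1 hc))
  have hTB : ∀ p : T, ((p.1.2 : X)) * (((σ ^ e) a)⁻¹ * a) * (p.1.2 : X)⁻¹ ∈ Y := by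
    rintro ⟨⟨k, h⟩, hc⟩
    simp only at hc ⊢
    have hσk : (σ ^ e) (k : X) = k := (memG _).1 k.2
    have hσh : (σ ^ e) (h : X) = h := (memG _).1 (hHG h.2)
    set c := (k : X)⁻¹ * a * (h : X)⁻¹ with hc'
    have hac : a = k * c * h := by rw [hc']; group
    have : (h : X) * (((σ ^ e) a)⁻¹ * a) * (h : X)⁻¹ = ((σ ^ e) c)⁻¹ * c := by
      conv_lhs => rw [hac]
      simp only [map_mul, map_inv, hσk, hσh]
      group
    rw [this]
    exact Y.mul_mem (Y.inv_mem (hYe e c hc)) hc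
  have h1 : Nat.card T = Nat.card A * Nat.card ↥(Y ⊓ H') := by
    let f : T → A := fun p => ⟨p.1.1, hTA p⟩
    refine CfsgLib.H9.natCard_eq_of_fibers f _ ?_
    rintro ⟨k, hk⟩
    -- base point
    obtain ⟨c, hcY, hc⟩ := hYL _ hk
    have hσk' : σ (k : X)⁻¹ = (σ (k : X))⁻¹ := map_inv _ _
    set a' := (k : X)⁻¹ * a with ha'
    have hya : (k : X)⁻¹ * g * σ (k : X) = a' * (σ a')⁻¹ := by
      rw [ha, ha']
      simp only [map_mul, map_inv, inv_inv]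
      group
    rw [hya] at hc
    have hh₀ : c⁻¹ * a' ∈ H' := by
      rw [memH]
      simp only [map_mul, map_inv]
      have h2 : σ a' = (a'⁻¹ * (a' * (σ a')⁻¹))⁻¹ := by group
      rw [hc] at h2
      rw [h2]
      group
    let h₀ : H' := ⟨c⁻¹ * a', hh₀⟩
    have hcoe : (h₀ : X) = c⁻¹ * a' := rfl
    refine Nat.card_congr ?_
    refine
      { toFun := fun t => ⟨((t.1.1.2 * h₀⁻¹ : H') : X), ?_, (t.1.1.2 * h₀⁻¹).2⟩
        invFun := fun u => ⟨⟨(k, (⟨u.1, u.2.2⟩ : H') * h₀), ?_⟩, rfl⟩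
        left_inv := ?_
        right_inv := ?_ }
    · obtain ⟨⟨⟨k', h⟩, hc2⟩, hp⟩ := t
      simp only [f, A, Subtype.mk.injEq] at hp
      subst hp
      simp only at hc2 ⊢
      have hfin : (h : X) * (h₀ : X)⁻¹ = ((k' : X)⁻¹ * a * (h : X)⁻¹ : X)⁻¹ * c := by
        rw [hcoe, ha']; group
      show (h : X) * (h₀ : X)⁻¹ ∈ Y
      rw [hfin]
      exact Y.mul_mem (Y.inv_mem hc2) hcY
    · show ((k : X)⁻¹ * a * ((u.1 : X) * (c⁻¹ * a'))⁻¹) ∈ Y
      have : (k : X)⁻¹ * a * ((u.1 : X) * (c⁻¹ * a'))⁻¹ = c * (u.1 : X)⁻¹ := by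
        rw [ha']; group
      rw [this]
      exact Y.mul_mem hcY (Y.inv_mem u.2.1)
    · rintro ⟨⟨⟨k', h⟩, hc2⟩, hp⟩
      simp only [f, A, Subtype.mk.injEq] at hp
      subst hp
      apply Subtype.ext
      apply Subtype.ext
      simp
      apply Subtype.ext
      simp
    · rintro ⟨u, hu⟩
      apply Subtype.ext
      simp
  have h2 : Nat.card T = Nat.card B * Nat.card ↥(Y ⊓ G') := by
    let f : T → B := fun p => ⟨p.1.2⁻¹, by
      have := hTB p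
      simpa using this⟩
    refine CfsgLib.H9.natCard_eq_of_fibers f _ ?_
    rintro ⟨h, hh⟩
    -- base point
    obtain ⟨c, hcY, hc⟩ := hYLe _ (Y.inv_mem hh)
    set a'' := a * (h : X) with ha''
    have hσh : (σ ^ e) (h : X) = h := (memG _).1 (hHG h.2)
    have hee : (h : X)⁻¹ * (((σ ^ e) a)⁻¹ * a) * (h : X) = ((σ ^ e) a'')⁻¹ * a'' := by
      rw [ha'']
      simp only [map_mul, hσh]
      group
    rw [hee] at hc hh
    have hc' : (σ ^ e) a'' = a'' * c * ((σ ^ e) c)⁻¹ := by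
      have h3 : (((σ ^ e) a'')⁻¹ * a'')⁻¹ = a''⁻¹ * (σ ^ e) a'' := by group
      rw [h3] at hc
      calc (σ ^ e) a'' = a'' * (a''⁻¹ * (σ ^ e) a'') := by group
        _ = a'' * (c * ((σ ^ e) c)⁻¹) := by rw [hc]
        _ = a'' * c * ((σ ^ e) c)⁻¹ := by group
    have hk₀ : a'' * c ∈ G' := by
      rw [memG, map_mul, hc']
      group
    let k₀ : G' := ⟨a'' * c, hk₀⟩
    have hcoe : (k₀ : X) = a'' * c := rfl
    refine Nat.card_congr ?_
    refine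
      { toFun := fun t => ⟨((k₀⁻¹ * t.1.1.1 : G') : X), ?_, (k₀⁻¹ * t.1.1.1).2⟩
        invFun := fun u => ⟨⟨(k₀ * (⟨u.1, u.2.2⟩ : G'), h⁻¹), ?_⟩, ?_⟩
        left_inv := ?_
        right_inv := ?_ }
    · obtain ⟨⟨⟨k, h'⟩, hc2⟩, hp⟩ := t
      simp only [f, B, Subtype.mk.injEq] at hp
      have hh' : h' = h⁻¹ := by rw [← hp]; simp
      subst hh'
      simp only at hc2
      show (k₀ : X)⁻¹ * (k : X) ∈ Y
      have hfin : (k₀ : X)⁻¹ * (k : X) = c⁻¹ * ((k : X)⁻¹ * a * ((h⁻¹ : H') : X)⁻¹)⁻¹ := by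
        rw [hcoe, ha'']
        simp
        group
      rw [hfin]
      exact Y.mul_mem (Y.inv_mem hcY) (Y.inv_mem hc2)
    · show (((a'' * c) * (u.1 : X))⁻¹ * a * ((h⁻¹ : H') : X)⁻¹) ∈ Y
      have : ((a'' * c) * (u.1 : X))⁻¹ * a * ((h⁻¹ : H') : X)⁻¹ = (u.1 : X)⁻¹ * c⁻¹ := by
        rw [ha'']
        simp
        group
      rw [this]
      exact Y.mul_mem (Y.inv_mem u.2.1) (Y.inv_mem hcY)
    · apply Subtype.ext
      simp [f]
    · rintro ⟨⟨⟨k, h'⟩, hc2⟩, hp⟩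
      simp only [f, B, Subtype.mk.injEq] at hp
      have hh' : h' = h⁻¹ := by rw [← hp]; simp
      subst hh'
      apply Subtype.ext
      apply Subtype.ext
      simp
      apply Subtype.ext
      simp
    · rintro ⟨u, hu⟩
      apply Subtype.ext
      simp
  exact h1.symm.trans h2

end Cfsg.Agent.S2669
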