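import Mathlib
import Cfsg.Agent.Lib.ClassGeo.RS2
import Cfsg.Statements.S2678
-- import your own Cfsg.Agent.* helpers here

set_option autoImplicit false
open Cfsg

namespace Cfsg.Agent.S2678

/-- Field-extension embedding of symplectic groups: for a field K with q² elements and a field F with q elements there is an injective homomorphism Sp_2a(K) → Sp_4a(F). -/
theorem result {K F : Type*} [Field K] [Fintype K] [Field F] [Fintype F] {q : ℕ} (hK : Fintype.card K = q ^ 2) (hF : Fintype.card F = q) (a : ℕ) : ∃ φ : ↥(Matrix.symplecticGroup (Fin a) K) →* ↥(Matrix.symplecticGroup (Fin (2 * a)) F), Function.Injective φ := by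
  obtain ⟨j, hj⟩ := CfsgLib.ClassGeo.exists_embed hK F hF
  letI : Algebra F K := j.toAlgebra
  exact CfsgLib.ClassGeo.RS.sp_sp hF hK a

end Cfsg.Agent.S2678
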