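import Mathlib
import Cfsg.Agent.Lib.ClassGeo.RS2
import Cfsg.Statements.S2679
-- import your own Cfsg.Agent.* helpers here

set_option autoImplicit false
open Cfsg

namespace Cfsg.Agent.S2679

open Matrix CfsgLib.ClassGeo CfsgLib.ClassGeo.Orth CfsgLib.ClassGeo.OCoords CfsgLib.ClassGeo.RS CfsgLib.ClassGeo.OMinus4

variable {F K : Type*} [Field F] [Field K]

theorem S_comb {k : ℕ} (A C t : K) (x y : (Fin k ⊕ Fin k) ⊕ Fin 2 → K) :
    quadFormMinus k K A C (x + t • y) = quadFormMinus k K A C x + t ^ 2 * quadFormMinus k K A C y +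
      t * (quadFormMinus k K A C (x + y) - quadFormMinus k K A C x - quadFormMinus k K A C y) := by
  simp only [quadFormMinus, Pi.add_apply, Pi.smul_apply, smul_eq_mul]
  have hsum : (∑ i : Fin k, (x (.inl (.inl i)) + t * y (.inl (.inl i))) * (x (.inl (.inr i)) + t * y (.inl (.inr i)))) =
      (∑ i : Fin k, x (.inl (.inl i)) * x (.inl (.inr i))) + t ^ 2 * (∑ i : Fin k, y (.inl (.inl i)) * y (.inl (.inr i))) +
        t * ((∑ i : Fin k, (x (.inl (.inl i)) + y (.inl (.inl i))) * (x (.inl (.inr i)) + y (.inl (.inr i)))) - (∑ i : Fin k, x (.inl (.inl i)) * x (.inl (.inr i))) - (∑ i : Fin k, y (.inl (.inl i)) * y (.inl (.inr i)))) := by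
    rw [← Finset.sum_sub_distrib, ← Finset.sum_sub_distrib, Finset.mul_sum, Finset.mul_sum, ← Finset.sum_add_distrib, ← Finset.sum_add_distrib]
    exact Finset.sum_congr rfl fun i _ => by ring
  rw [hsum]
  ring

theorem S_map {k : ℕ} (j : F →+* K) (a c : F) (u : (Fin k ⊕ Fin k) ⊕ Fin 2 → F) :
    quadFormMinus k K (j a) (j c) (j ∘ u) = j (quadFormMinus k F a c u) := by
  simp only [quadFormMinus, map_add, map_sum, map_mul, map_pow, Function.comp]

theorem S_invariant {k : ℕ} (j : F →+* K) (θ : K) (a c : F) (hs : ∀ x : K, ∃ z₁ z₂ : F, j z₁ - j z₂ * θ = x)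
    (A : Matrix ((Fin k ⊕ Fin k) ⊕ Fin 2) ((Fin k ⊕ Fin k) ⊕ Fin 2) F)
    (hA : ∀ u, quadFormMinus k F a c (A *ᵥ u) = quadFormMinus k F a c u) (v : (Fin k ⊕ Fin k) ⊕ Fin 2 → K) :
    quadFormMinus k K (j a) (j c) (A.map j *ᵥ v) = quadFormMinus k K (j a) (j c) v := by
  choose u w huw using fun i => hs (v i)
  have hv : v = (j ∘ u) + (-θ) • (j ∘ w) := by
    funext i
    rw [← huw i]
    simp
    ring
  have hm : ∀ y : (Fin k ⊕ Fin k) ⊕ Fin 2 → F, A.map j *ᵥ (j ∘ y) = j ∘ (A *ᵥ y) := by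
    intro y
    funext i
    exact (RingHom.map_mulVec j A y i).symm
  have e1 : A.map j *ᵥ v = (j ∘ (A *ᵥ u)) + (-θ) • (j ∘ (A *ᵥ w)) := by
    rw [hv, Matrix.mulVec_add, Matrix.mulVec_smul, hm, hm]
  have e2 : ∀ y z : (Fin k ⊕ Fin k) ⊕ Fin 2 → F, (j ∘ y) + (j ∘ z) = j ∘ (y + z) := by
    intro y z
    funext i
    simp
  rw [e1, hv, S_comb, S_comb, e2, e2, S_map, S_map, S_map, S_map, S_map, S_map, ← Matrix.mulVec_add, hA, hA, hA]

/-- An elliptic orthogonal group embeds in the hyperbolic orthogonal group of the same dimension over the quadratic extension: for a field F with q elements and a field K with q² elements there is an injective homomorphism from O⁻_2m(F) (isometries of Σ_(j<m−1) x_j y_j + z₁² + a z₁z₂ + c z₂², binary part anisotropic) to O⁺_2m(K) (isometries of Σ_(j<m) x_j y_j over K). -/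
theorem result {F K : Type*} [Field F] [Fintype F] [Field K] [Fintype K] {q : ℕ} (hF : Fintype.card F = q) (hK : Fintype.card K = q ^ 2) {m : ℕ} (hm : 1 ≤ m) (a c : F) (hac : ∀ z₁ z₂ : F, z₁ ^ 2 + a * z₁ * z₂ + c * z₂ ^ 2 = 0 → z₁ = 0 ∧ z₂ = 0) : ∃ φ : ↥(Cfsg.isometryGroup F (Cfsg.quadFormMinus (m - 1) F a c)) →* ↥(Cfsg.isometryGroup K (Cfsg.quadFormPlus m K)), Function.Injective φ := by
  classical
  obtain ⟨j, θ, hθ⟩ := exists_HD hF hK a c hac
  obtain ⟨m', rfl⟩ : ∃ m', m = m' + 1 := ⟨m - 1, by omega⟩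
  change ∃ φ : ↥(Cfsg.isometryGroup F (Cfsg.quadFormMinus m' F a c)) →* ↥(Cfsg.isometryGroup K (Cfsg.quadFormPlus (m' + 1) K)), Function.Injective φ
  set σ := qFrob hK with hσdef
  have hne : σ θ ≠ θ := by
    intro h1
    obtain ⟨y, rfl⟩ := hθ.hfix θ h1
    have h2 := hθ.hanis y 1 (by
      apply j.injective
      simp only [map_add, map_mul, map_pow, map_one, map_zero]
      have h3 := hθ.hsum
      have h4 := hθ.hprod
      rw [h1] at h3 h4
      linear_combination (j y) * h3 - h4)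
    exact one_ne_zero h2.2
  have hd : σ θ - θ ≠ 0 := sub_ne_zero.mpr hne
  let ι' := (Fin m' ⊕ Fin m') ⊕ Fin 2
  -- the coordinates
  let z₂ : (Fin (m' + 1) ⊕ Fin (m' + 1) → K) → K := fun x => (x (.inl (Fin.last m')) - x (.inr (Fin.last m'))) / (σ θ - θ)
  let z₁ : (Fin (m' + 1) ⊕ Fin (m' + 1) → K) → K := fun x => x (.inl (Fin.last m')) + θ * z₂ x
  let f : (Fin (m' + 1) ⊕ Fin (m' + 1) → K) →ₗ[K] (ι' → K) :=
    { toFun := fun x => Sum.elim (Sum.elim (fun i => x (.inl i.castSucc)) (fun i => x (.inr i.castSucc))) ![z₁ x, z₂ x]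
      map_add' := by
        intro x y
        funext c
        rcases c with (c | c) | c
        · rfl
        · rfl
        · fin_cases c
          · simp [z₁, z₂]
            ring
          · simp [z₂]
            ring
      map_smul' := by
        intro r x
        funext c
        rcases c with (c | c) | c
        · rfl
        · rfl
        · fin_cases c
          · simp [z₁, z₂]
            ring
          · simp [z₂]
            ring }
  have hf : ∀ x, quadFormMinus m' K (j a) (j c) (f x) = quadFormPlus (m' + 1) K x := by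
    intro x
    show (∑ i : Fin m', x (.inl i.castSucc) * x (.inr i.castSucc)) + (z₁ x ^ 2 + j a * z₁ x * z₂ x + j c * z₂ x ^ 2) = _
    rw [quadFormPlus, Fin.sum_univ_castSucc]
    congr 1
    have e1 : z₁ x - σ θ * z₂ x = x (.inr (Fin.last m')) := by
      simp only [z₁, z₂]
      field_simp
      ring
    have e2 : z₁ x - θ * z₂ x = x (.inl (Fin.last m')) := by
      simp only [z₁]
      ring
    have h3 := hθ.hsum
    have h4 := hθ.hprod
    linear_combination (z₁ x * z₂ x) * h3 - (z₂ x ^ 2) * h4 + (z₁ x - σ θ * z₂ x) * e2 + (x (.inl (Fin.last m'))) * e1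
  have hbij := bijective_of_fn (Q' := mkQ (quadFormPlus_nondeg (F := K) (m' + 1))) (mkQ_nondeg _) f (quadFormMinus m' K (j a) (j c)) hf (by
    simp [ι']
    ring)
  let P := LinearEquiv.ofBijective f hbij
  let ρ : ↥(Cfsg.isometryGroup F (Cfsg.quadFormMinus m' F a c)) →* ((ι' → K) ≃ₗ[K] (ι' → K)) :=
    glLin.toMonoidHom.comp ((Matrix.GeneralLinearGroup.map j).comp (Cfsg.isometryGroup F (Cfsg.quadFormMinus m' F a c)).subtype)
  have hρ : Function.Injective ρ := by
    intro g g' e
    have h1 := glLin.injective e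
    apply Subtype.ext
    apply Units.ext
    ext r s
    have h2 := congrArg (fun M : Matrix.GeneralLinearGroup ι' K => (M : Matrix ι' ι' K) r s) h1
    exact j.injective h2
  refine exists_inj_isom ρ hρ (quadFormPlus (m' + 1) K) (quadFormMinus m' K (j a) (j c)) ?_ P hf
  intro g v
  exact S_invariant j θ a c hθ.hsurj _ (fun u => g.2 u u) v

end Cfsg.Agent.S2679
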