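import Cfsg.Statements.S2738

set_option autoImplicit false
open Cfsg

open Matrix

namespace Cfsg.Agent.S2738

/-- The special linear group SL(3, 4) has centre of order 3 and does not split over it: no subgroup is a complement to the centre (so SL(3, 4) is a non-split central extension of PSL(3, 4) by a group of order 3). -/
theorem result (F : Type*) [Field F] [Fintype F] (hF : Fintype.card F = 4) : Nat.card ↥(Subgroup.center (Matrix.SpecialLinearGroup (Fin 3) F)) = 3 ∧ ¬ ∃ K : Subgroup (Matrix.SpecialLinearGroup (Fin 3) F), Subgroup.IsComplement' (Subgroup.center (Matrix.SpecialLinearGroup (Fin 3) F)) K := by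
  classical
  have hu : Nat.card Fˣ = 3 := by rw [Nat.card_units, Nat.card_eq_fintype_card, hF]
  have h3 : ∀ x : Fˣ, x ^ 3 = 1 := by
    intro x
    have := pow_card_eq_one' (x := x)
    rwa [hu] at this
  have h2F : (2 : F) = 0 := by
    have h1 : (Fintype.card F : F) = 0 := Nat.cast_card_eq_zero F
    rw [hF] at h1
    have h2 : (2 : F) * 2 = 0 := by
      norm_num
      exact_mod_cast h1
    exact (mul_self_eq_zero.mp h2)
  have hcard : Nat.card ↥(Subgroup.center (Matrix.SpecialLinearGroup (Fin 3) F)) = 3 := by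
    rw [Nat.card_congr (Matrix.SpecialLinearGroup.center_equiv_rootsOfUnity' (0 : Fin 3)).toEquiv]
    have : rootsOfUnity (Fintype.card (Fin 3)) F = ⊤ := by
      ext x
      simp [mem_rootsOfUnity, h3]
    rw [this]
    rw [Nat.card_congr Subgroup.topEquiv.toEquiv, hu]
  refine ⟨hcard, ?_⟩
  rintro ⟨K, hK⟩
  set Z := Subgroup.center (Matrix.SpecialLinearGroup (Fin 3) F) with hZ
  have hinv : ∀ t : Matrix.SpecialLinearGroup (Fin 3) F, t * t = 1 → t ∈ K := by
    intro t ht
    obtain ⟨⟨z, k⟩, hzk, -⟩ := hK.existsUnique t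
    simp only at hzk
    have hzc : ∀ y : Matrix.SpecialLinearGroup (Fin 3) F, y * (z : Matrix.SpecialLinearGroup (Fin 3) F) = z * y :=
      fun y => (Subgroup.mem_center_iff.mp z.2 y)
    have h1 : ((z : Matrix.SpecialLinearGroup (Fin 3) F) * z) * ((k : Matrix.SpecialLinearGroup (Fin 3) F) * k) = 1 := by
      rw [← ht, ← hzk]
      calc (z : Matrix.SpecialLinearGroup (Fin 3) F) * z * (k * k) = z * (z * k) * k := by group
        _ = z * (k * z) * k := by rw [hzc k]
        _ = _ := by group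
    have h2 : (k : Matrix.SpecialLinearGroup (Fin 3) F) * k = ((z : Matrix.SpecialLinearGroup (Fin 3) F) * z)⁻¹ :=
      eq_inv_of_mul_eq_one_right h1
    have h3' : (k : Matrix.SpecialLinearGroup (Fin 3) F) * k ∈ Z := by
      rw [h2]
      exact Z.inv_mem (Z.mul_mem z.2 z.2)
    have h4 : (k : Matrix.SpecialLinearGroup (Fin 3) F) * k = 1 :=
      Subgroup.disjoint_def.mp hK.disjoint h3' (K.mul_mem k.2 k.2)
    have h5 : (z : Matrix.SpecialLinearGroup (Fin 3) F) * z = 1 := by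
      rw [h4, mul_one] at h1
      exact h1
    have h6 : (⟨z.1, z.2⟩ : Z) ^ 3 = 1 := by
      have := pow_card_eq_one' (x := (⟨z.1, z.2⟩ : Z))
      rwa [hcard] at this
    have h7 : (z : Matrix.SpecialLinearGroup (Fin 3) F) = 1 := by
      have h8 : (((⟨z.1, z.2⟩ : Z) ^ 3 : Z) : Matrix.SpecialLinearGroup (Fin 3) F) = 1 := by
        rw [h6]
        rfl
      rw [Subgroup.coe_pow] at h8
      simp only at h8
      rw [pow_succ, sq, h5, one_mul] at h8
      exact h8
    rw [← hzk, h7, one_mul]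
    exact k.2
  obtain ⟨ζ, hζ⟩ := IsCyclic.exists_generator (α := Fˣ)
  have hord : orderOf ζ = 3 := by
    rw [orderOf_eq_card_of_forall_mem_zpowers hζ, hu]
  have hω1 : (ζ : F) ≠ 1 := by
    intro h
    have h1 : ζ = 1 := Units.ext (by simpa using h)
    rw [h1, orderOf_one] at hord
    omega
  have hω3 : (ζ : F) ^ 3 = 1 := by
    have h1 := congrArg Units.val (h3 ζ)
    simpa using h1
  set ω : F := (ζ : F) with hω
  have hneg : ∀ x : F, -x = x := by
    intro x
    have : x + x = 0 := by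
      have h1 : x + x = 2 * x := by ring
      rw [h1, h2F, zero_mul]
    exact neg_eq_of_add_eq_zero_left this
  have h4 : ω ^ 4 = ω := by
    calc ω ^ 4 = ω ^ 3 * ω := by ring
      _ = ω := by rw [hω3, one_mul]
  let s1 : Matrix.SpecialLinearGroup (Fin 3) F := ⟨!![0, ω, 0; ω ^ 2, 0, 0; 0, 0, 1], by
    rw [Matrix.det_fin_three]
    simp
    rw [hneg, ← pow_succ', hω3]⟩
  let s2 : Matrix.SpecialLinearGroup (Fin 3) F := ⟨!![0, 1, 0; 1, 0, 0; 0, 0, 1], by
    rw [Matrix.det_fin_three]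
    simp [hneg]⟩
  let s3 : Matrix.SpecialLinearGroup (Fin 3) F := ⟨!![1, 0, 0; 0, 0, ω ^ 2; 0, ω, 0], by
    rw [Matrix.det_fin_three]
    simp
    rw [hneg, ← pow_succ, hω3]⟩
  let s4 : Matrix.SpecialLinearGroup (Fin 3) F := ⟨!![1, 0, 0; 0, 0, 1; 0, 1, 0], by
    rw [Matrix.det_fin_three]
    simp [hneg]⟩
  have hs1 : s1 * s1 = 1 := by
    apply Subtype.ext
    show !![0, ω, 0; ω ^ 2, 0, 0; 0, 0, 1] * !![0, ω, 0; ω ^ 2, 0, 0; 0, 0, 1] = 1
    ext i j
    fin_cases i <;> fin_cases j <;> simp [Matrix.mul_apply, Fin.sum_univ_three] <;> (try linear_combination hω3)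
  have hs2 : s2 * s2 = 1 := by
    apply Subtype.ext
    show !![0, 1, 0; 1, 0, 0; 0, 0, 1] * !![0, 1, 0; 1, 0, 0; 0, 0, 1] = (1 : Matrix (Fin 3) (Fin 3) F)
    ext i j
    fin_cases i <;> fin_cases j <;> simp [Matrix.mul_apply, Fin.sum_univ_three]
  have hs3 : s3 * s3 = 1 := by
    apply Subtype.ext
    show !![1, 0, 0; 0, 0, ω ^ 2; 0, ω, 0] * !![1, 0, 0; 0, 0, ω ^ 2; 0, ω, 0] = 1
    ext i j
    fin_cases i <;> fin_cases j <;> simp [Matrix.mul_apply, Fin.sum_univ_three] <;> (try linear_combination hω3)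
  have hs4 : s4 * s4 = 1 := by
    apply Subtype.ext
    show !![1, 0, 0; 0, 0, 1; 0, 1, 0] * !![1, 0, 0; 0, 0, 1; 0, 1, 0] = (1 : Matrix (Fin 3) (Fin 3) F)
    ext i j
    fin_cases i <;> fin_cases j <;> simp [Matrix.mul_apply, Fin.sum_univ_three]
  have hprod : (s1 * s2 * s3 * s4 : Matrix.SpecialLinearGroup (Fin 3) F).1 = Matrix.scalar (Fin 3) ω := by
    show !![0, ω, 0; ω ^ 2, 0, 0; 0, 0, 1] * !![0, 1, 0; 1, 0, 0; 0, 0, 1] * !![1, 0, 0; 0, 0, ω ^ 2; 0, ω, 0] * !![1, 0, 0; 0, 0, 1; 0, 1, 0] = _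
    ext i j
    fin_cases i <;> fin_cases j <;> simp [Matrix.mul_apply, Fin.sum_univ_three] <;> (try linear_combination h4)
  have hmemK : s1 * s2 * s3 * s4 ∈ K :=
    K.mul_mem (K.mul_mem (K.mul_mem (hinv _ hs1) (hinv _ hs2)) (hinv _ hs3)) (hinv _ hs4)
  have hmemZ : s1 * s2 * s3 * s4 ∈ Z := by
    rw [hZ, Matrix.SpecialLinearGroup.mem_center_iff]
    exact ⟨ω, by simpa using hω3, hprod.symm⟩
  have hone := Subgroup.disjoint_def.mp hK.disjoint hmemZ hmemK
  rw [hone] at hprod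
  have := congrFun (congrFun hprod 0) 0
  simp at this
  exact hω1 this.symm

end Cfsg.Agent.S2738
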