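import Cfsg.Statements.S2761
import Cfsg.Agent.Lib.Qd.Basic
-- import your own Cfsg.Agent.* helpers here

set_option autoImplicit false
open Cfsg

namespace Cfsg.Agent.S2761

open Matrix

def coordX : Fin 4 → (Fin 3 → ZMod 2) := ![![0,0,1],![1,0,1],![0,1,1],![1,1,1]]

def witM (σ : Equiv.Perm (Fin 4)) : Matrix (Fin 3) (Fin 3) (ZMod 2) :=
  Matrix.of fun i j => match j with
   | 0 => coordX (σ 1) i + coordX (σ 0) i
   | 1 => coordX (σ 2) i + coordX (σ 0) i
   | 2 => coordX (σ 0) i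

theorem witM_spec : ∀ σ : Equiv.Perm (Fin 4), (witM σ).det = 1 ∧ witM σ 2 0 = 0 ∧ witM σ 2 1 = 0 ∧ witM σ 2 2 = 1 := by
  decide +kernel

theorem witM_mul : ∀ σ τ : Equiv.Perm (Fin 4), witM (σ * τ) = witM σ * witM τ := by
  decide +kernel

theorem witM_inj : ∀ σ τ : Equiv.Perm (Fin 4), witM σ = witM τ → σ = τ := by
  decide +kernel

theorem witM_surj : ∀ M : Matrix (Fin 3) (Fin 3) (ZMod 2), M.det = 1 → M 2 0 = 0 → M 2 1 = 0 → M 2 2 = 1 →
    ∃ σ : Equiv.Perm (Fin 4), witM σ = M := by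
  decide +kernel

def Psi : Equiv.Perm (Fin 4) →* ↥(Cfsg.qd 2) where
  toFun σ := ⟨⟨witM σ, (witM_spec σ).1⟩, CfsgLib.Qd.mem_qd.2 (witM_spec σ).2⟩
  map_one' := by
    apply Subtype.ext
    apply Subtype.ext
    decide +kernel
  map_mul' σ τ := by
    apply Subtype.ext
    apply Subtype.ext
    exact witM_mul σ τ

/-- The group Qd(2), the natural semidirect product of an elementary abelian group of order 4 by SL₂(2) (realised as the affine subgroup of SL₃(2)), is isomorphic to the symmetric group of degree 4. -/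
theorem result : Nonempty (↥(Cfsg.qd 2) ≃* Equiv.Perm (Fin 4)) := by
  refine ⟨(MulEquiv.ofBijective Psi ⟨?_, ?_⟩).symm⟩
  · intro σ τ h
    have h1 := congrArg (fun x : ↥(Cfsg.qd 2) => ((x : Matrix.SpecialLinearGroup (Fin 3) (ZMod 2)) : Matrix (Fin 3) (Fin 3) (ZMod 2))) h
    exact witM_inj σ τ h1
  · rintro ⟨M, hM⟩
    obtain ⟨h0, h1, h2⟩ := CfsgLib.Qd.mem_qd.1 hM
    obtain ⟨σ, hσ⟩ := witM_surj M.1 M.2 h0 h1 h2
    refine ⟨σ, ?_⟩
    apply Subtype.ext
    apply Subtype.ext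
    exact hσ

end Cfsg.Agent.S2761
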