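import Cfsg.Statements.S2762
import Cfsg.Agent.Lib.Qd.Syl
-- import your own Cfsg.Agent.* helpers here

set_option autoImplicit false
open Cfsg

namespace Cfsg.Agent.S2762

open Matrix CfsgLib.Qd

section
variable {F : Type*} [Field F]

/-- The additive identification of the translations with column vectors. -/
noncomputable def psiE : Additive (rho (F := F)).ker ≃+ (Fin 2 → F) where
  toFun v := ![ent (Additive.toMul v).1 0 2, ent (Additive.toMul v).1 1 2]
  invFun w := Additive.ofMul ⟨tr (w 0) (w 1), tr_mem_ker _ _⟩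
  left_inv v := by
    obtain ⟨v, hv⟩ := v
    apply Additive.toMul.injective
    apply Subtype.ext
    exact (mem_ker_iff_tr.1 hv).symm
  right_inv w := by
    ext i
    fin_cases i <;> simp [tr]
  map_add' a b := by
    obtain ⟨a, ha⟩ := a
    obtain ⟨b, hb⟩ := b
    have ha' := mem_ker_iff_tr.1 ha
    have hb' := mem_ker_iff_tr.1 hb
    have hab : a * b = tr (ent a 0 2 + ent b 0 2) (ent a 1 2 + ent b 1 2) := by
      rw [← tr_mul, ← ha', ← hb']
    have e1 : ent (a * b) 0 2 = ent a 0 2 + ent b 0 2 := by rw [hab]; simp [tr]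
    have e2 : ent (a * b) 1 2 = ent a 1 2 + ent b 1 2 := by rw [hab]; simp [tr]
    ext i
    fin_cases i
    · exact e1
    · exact e2

theorem sec_inj : Function.Injective (sec (F := F)) := by
  intro A B h
  have := congrArg rho h
  rwa [rho_sec, rho_sec] at this

theorem mem_range_sec {M : QQ F} : M ∈ (sec (F := F)).range ↔ ent M 0 2 = 0 ∧ ent M 1 2 = 0 := by
  constructor
  · rintro ⟨A, rfl⟩
    exact ⟨(ent_sec A).2.2.2.2.1, (ent_sec A).2.2.2.2.2⟩
  · rintro ⟨h1, h2⟩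
    refine ⟨rho M, ?_⟩
    apply QQ_ext'
    · rfl
    · rfl
    · rw [h1]; rfl
    · rfl
    · rfl
    · rw [h2]; rfl

theorem range_inf_ker : (sec (F := F)).range ⊓ (rho (F := F)).ker = ⊥ := by
  rw [eq_bot_iff]
  rintro M ⟨h1, h2⟩
  obtain ⟨a1, a2⟩ := mem_range_sec.1 h1
  obtain ⟨b1, b2, b3, b4⟩ := mem_ker_rho.1 h2
  rw [Subgroup.mem_bot]
  apply QQ_ext' <;> simp [ent_one, a1, a2, b1, b2, b3, b4]

theorem range_sup_ker : (sec (F := F)).range ⊔ (rho (F := F)).ker = ⊤ := by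
  rw [eq_top_iff]
  intro M _
  have h1 : M = sec (rho M) * ((sec (rho M))⁻¹ * M) := by group
  rw [h1]
  refine Subgroup.mul_mem_sup ⟨_, rfl⟩ ?_
  rw [MonoidHom.mem_ker, map_mul, map_inv, rho_sec, inv_mul_cancel]

theorem natural_mod : Cfsg.IsNaturalSL2Module F (rho (F := F)).ker (sec (F := F)).range := by
  refine ⟨?_, (rho (F := F)).comp (sec (F := F)).range.subtype, psiE, ?_, ?_, ?_⟩
  · rw [Subgroup.normalizer_eq_top]
    exact le_top
  · intro A
    exact ⟨⟨sec A, ⟨A, rfl⟩⟩, rho_sec A⟩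
  · ext ⟨l, hl⟩
    rw [MonoidHom.mem_ker, Subgroup.mem_subgroupOf]
    obtain ⟨a1, a2⟩ := mem_range_sec.1 hl
    constructor
    · intro h
      have h1 : l ∈ (rho (F := F)).ker := h
      have h2 : l ∈ (sec (F := F)).range ⊓ (rho (F := F)).ker := ⟨hl, h1⟩
      rw [range_inf_ker, Subgroup.mem_bot] at h2
      change l ∈ _
      rw [h2]
      exact Subgroup.one_mem _
    · intro h
      change l ∈ Subgroup.centralizer _ at h
      have hcomm : ∀ x y : F, l * tr x y * l⁻¹ = tr x y := by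
        intro x y
        have h3 := (Subgroup.mem_centralizer_iff.1 h) (tr x y) (tr_mem_ker x y)
        rw [← h3]
        group
      have h1 := hcomm 1 0
      have h2 := hcomm 0 1
      rw [conj_tr] at h1 h2
      have e1 := congrArg (fun M : QQ F => ent M 0 2) h1
      have e2 := congrArg (fun M : QQ F => ent M 1 2) h1
      have e3 := congrArg (fun M : QQ F => ent M 0 2) h2
      have e4 := congrArg (fun M : QQ F => ent M 1 2) h2
      simp [tr] at e1 e2 e3 e4
      change rho l = 1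
      exact (mem_ker_rho.2 ⟨e1, e3, e2, e4⟩)
  · intro l v
    obtain ⟨l, hl⟩ := l
    obtain ⟨v, hv⟩ := v
    have hv' := mem_ker_iff_tr.1 hv
    have h1 : l * v * l⁻¹ ∈ (rho (F := F)).ker := (MonoidHom.normal_ker _).conj_mem v hv l
    refine ⟨⟨l * v * l⁻¹, h1⟩, rfl, ?_⟩
    have h2 : l * v * l⁻¹ = tr (ent l 0 0 * ent v 0 2 + ent l 0 1 * ent v 1 2) (ent l 1 0 * ent v 0 2 + ent l 1 1 * ent v 1 2) := by
      conv_lhs => rw [hv']
      rw [conj_tr]
    have e1 : ent (l * v * l⁻¹) 0 2 = ent l 0 0 * ent v 0 2 + ent l 0 1 * ent v 1 2 := by rw [h2]; simp [tr]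
    have e2 : ent (l * v * l⁻¹) 1 2 = ent l 1 0 * ent v 0 2 + ent l 1 1 * ent v 1 2 := by rw [h2]; simp [tr]
    ext i
    fin_cases i
    · simp [psiE, rho_val, Matrix.mulVec, dotProduct, Fin.sum_univ_two, e1]
    · simp [psiE, rho_val, Matrix.mulVec, dotProduct, Fin.sum_univ_two, e2]

end

/-- Structure of Qd over a finite field F of characteristic p (the affine subgroup of SL₃(F)): its largest normal p-subgroup is the group of translations (matrices with upper-left block the identity), the block-diagonal matrices form a complement isomorphic to SL₂(F), and the translation subgroup is a natural SL₂(F)-module for that complement. -/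
theorem result {F : Type*} [Field F] [Fintype F] {p : ℕ} [Fact p.Prime] [CharP F p] : (∀ M : ↥(Cfsg.qdOver F), M ∈ Cfsg.pCore p ↥(Cfsg.qdOver F) ↔ ((M : Matrix.SpecialLinearGroup (Fin 3) F) : Matrix (Fin 3) (Fin 3) F) 0 0 = 1 ∧ ((M : Matrix.SpecialLinearGroup (Fin 3) F) : Matrix (Fin 3) (Fin 3) F) 0 1 = 0 ∧ ((M : Matrix.SpecialLinearGroup (Fin 3) F) : Matrix (Fin 3) (Fin 3) F) 1 0 = 0 ∧ ((M : Matrix.SpecialLinearGroup (Fin 3) F) : Matrix (Fin 3) (Fin 3) F) 1 1 = 1) ∧ ∃ K : Subgroup ↥(Cfsg.qdOver F), (∀ M : ↥(Cfsg.qdOver F), M ∈ K ↔ ((M : Matrix.SpecialLinearGroup (Fin 3) F) : Matrix (Fin 3) (Fin 3) F) 0 2 = 0 ∧ ((M : Matrix.SpecialLinearGroup (Fin 3) F) : Matrix (Fin 3) (Fin 3) F) 1 2 = 0) ∧ K ⊓ Cfsg.pCore p ↥(Cfsg.qdOver F) = ⊥ ∧ K ⊔ Cfsg.pCore p ↥(Cfsg.qdOver F) = ⊤ ∧ Nonempty (↥K ≃* Matrix.SpecialLinearGroup (Fin 2) F) ∧ Cfsg.IsNaturalSL2Module F (Cfsg.pCore p ↥(Cfsg.qdOver F)) K := by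
  have hcore : Cfsg.pCore p ↥(Cfsg.qdOver F) = (rho (F := F)).ker := pCore_eq
  rw [hcore]
  refine ⟨fun M => mem_ker_rho, (sec (F := F)).range, fun M => mem_range_sec, range_inf_ker, range_sup_ker, ?_, natural_mod⟩
  exact ⟨(MonoidHom.ofInjective sec_inj).symm⟩

end Cfsg.Agent.S2762
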