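import Cfsg.Statements.S2779
import Cfsg.Agent.Lib.Qd.NatData
-- import your own Cfsg.Agent.* helpers here

set_option autoImplicit false
open Cfsg

namespace Cfsg.Agent.S2779

open Matrix Subgroup CfsgLib.NatMod

/-- Let L act on the elementary abelian p-group V (inside a finite group, by conjugation, faithfully) as SL₂(F) on its natural module, F a field with p^n elements, and let S be a Sylow p-subgroup of L. Then [V, S, S] = 1; |V| = p^(2n) and |C_V(S)| = p^n; and for every nonidentity s ∈ S and every v ∈ V outside C_V(S): C_V(s) = C_V(S) = [V, S] = [V, s] = the subgroup generated by the commutators [v, t], t ∈ S. -/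
theorem result {G : Type*} [Group G] [Finite G] {p : ℕ} [Fact p.Prime] {F : Type*} [Field F] [Fintype F] (n : ℕ) (hF : Fintype.card F = p ^ n) (V L : Subgroup G) (hnat : Cfsg.IsNaturalSL2Module F V L) (hf : L ⊓ Subgroup.centralizer (V : Set G) = ⊥) (S : Sylow p ↥L) (T : Subgroup G) (hT : T = ((S : Subgroup ↥L).map L.subtype)) : ⁅⁅V, T⁆, T⁆ = ⊥ ∧ Nat.card V = p ^ (2 * n) ∧ Nat.card ↥(V ⊓ Subgroup.centralizer ((T : Subgroup G) : Set G)) = p ^ n ∧ ∀ s ∈ T, s ≠ 1 → (V ⊓ Subgroup.centralizer ({s} : Set G)) = (V ⊓ Subgroup.centralizer ((T : Subgroup G) : Set G)) ∧ ⁅V, T⁆ = (V ⊓ Subgroup.centralizer ((T : Subgroup G) : Set G)) ∧ ⁅V, Subgroup.zpowers s⁆ = (V ⊓ Subgroup.centralizer ((T : Subgroup G) : Set G)) ∧ ∀ v ∈ V, v ∉ Subgroup.centralizer (T : Set G) → Subgroup.closure {x : G | ∃ t ∈ T, x = v * t * v⁻¹ * t⁻¹} = (V ⊓ Subgroup.centralizer ((T : Subgroup G) : Set G)) := by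
  obtain ⟨ρ, ψ, v₀, D⟩ := exists_data n hF V L hnat hf S T hT
  have hcle := comm_le D
  have helt : ∀ w : Fin 2 → F, vc ψ (Additive.toMul (ψ.symm w)) = w := by
    intro w; simp [vc]
  refine ⟨?_, ?_, ?_, ?_⟩
  · rw [Subgroup.commutator_eq_bot_iff_le_centralizer]
    exact hcle.trans inf_le_right
  · rw [Nat.card_congr (Additive.ofMul.trans ψ.toEquiv), Nat.card_eq_fintype_card, Fintype.card_fun, hF, Fintype.card_fin, ← pow_mul, mul_comm]
  · have hinj : Function.Injective (fun c : F => (⟨((Additive.toMul (ψ.symm (c • v₀)) : V) : G), (Additive.toMul (ψ.symm (c • v₀)) : V).2,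
        (mem_CT D _).2 ⟨c, helt _⟩⟩ : ↥(V ⊓ Subgroup.centralizer ((T : Subgroup G) : Set G)))) := by
      intro c c' h
      have h1 : (Additive.toMul (ψ.symm (c • v₀)) : V) = Additive.toMul (ψ.symm (c' • v₀)) :=
        Subtype.ext (congrArg (fun y : ↥(V ⊓ Subgroup.centralizer ((T : Subgroup G) : Set G)) => (y : G)) h)
      have h2 := congrArg (vc ψ) h1
      rw [helt, helt] at h2
      exact smul_left_injective F D.hv h2
    have hsurj : Function.Surjective (fun c : F => (⟨((Additive.toMul (ψ.symm (c • v₀)) : V) : G), (Additive.toMul (ψ.symm (c • v₀)) : V).2,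
        (mem_CT D _).2 ⟨c, helt _⟩⟩ : ↥(V ⊓ Subgroup.centralizer ((T : Subgroup G) : Set G)))) := by
      rintro ⟨x, hxV, hxC⟩
      obtain ⟨c, hc⟩ := (mem_CT D ⟨x, hxV⟩).1 hxC
      refine ⟨c, ?_⟩
      apply Subtype.ext
      have h3 : (Additive.toMul (ψ.symm (c • v₀)) : V) = ⟨x, hxV⟩ := by
        apply vc_inj (ψ := ψ)
        rw [helt, hc]
      change ((Additive.toMul (ψ.symm (c • v₀)) : V) : G) = x
      rw [h3]
    rw [← Nat.card_congr (Equiv.ofBijective _ ⟨hinj, hsurj⟩), Nat.card_eq_fintype_card, hF]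
  · intro s hs hs1
    have hsL : (⟨s, D.tle hs⟩ : L) ≠ 1 := fun h => hs1 (congrArg Subtype.val h)
    refine ⟨?_, ?_, ?_, ?_⟩
    · ext x
      constructor
      · rintro ⟨hx, hxC⟩
        exact ⟨hx, (mem_CT D ⟨x, hx⟩).2 ((mem_Cs D ⟨s, D.tle hs⟩ hs hsL ⟨x, hx⟩).1 hxC)⟩
      · rintro ⟨hx, hxC⟩
        exact ⟨hx, (mem_Cs D ⟨s, D.tle hs⟩ hs hsL ⟨x, hx⟩).2 ((mem_CT D ⟨x, hx⟩).1 hxC)⟩
    · apply le_antisymm hcle
      rintro c ⟨hc, hcC⟩
      obtain ⟨w, hw⟩ := exists_dd_ne D.hv
      have hv : ((Additive.toMul (ψ.symm w) : V) : G) ∉ Subgroup.centralizer ((T : Subgroup G) : Set G) := by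
        intro h
        obtain ⟨c', hc'⟩ := (mem_CT D _).1 h
        rw [helt] at hc'
        apply hw
        rw [hc', dd_smul_right, dd_self, mul_zero]
      obtain ⟨t, ht, hte⟩ := exists_comm D (Additive.toMul (ψ.symm w) : V) ⟨c, hc⟩ hv hcC
      have := Subgroup.commutator_mem_commutator (Additive.toMul (ψ.symm w) : V).2 ht
      rw [commutatorElement_def] at this
      change c = _ at hte
      rw [hte]
      exact this
    · apply le_antisymm
      · refine (Subgroup.commutator_mono le_rfl ?_).trans hcle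
        rw [Subgroup.zpowers_le]
        exact hs
      · rintro c ⟨hc, hcC⟩
        obtain ⟨v, hv⟩ := exists_comm_s D ⟨s, D.tle hs⟩ hs hsL ⟨c, hc⟩ hcC
        have := Subgroup.commutator_mem_commutator v.2 (Subgroup.mem_zpowers s)
        rw [commutatorElement_def] at this
        change c = _ at hv
        rw [hv]
        exact this
    · intro v hv hvC
      apply le_antisymm
      · rw [Subgroup.closure_le]
        rintro x ⟨t, ht, rfl⟩
        have := hcle (Subgroup.commutator_mem_commutator hv ht)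
        rw [commutatorElement_def] at this
        exact this
      · rintro c ⟨hc, hcC⟩
        obtain ⟨t, ht, hte⟩ := exists_comm D ⟨v, hv⟩ ⟨c, hc⟩ hvC hcC
        exact Subgroup.subset_closure ⟨t, ht, hte⟩

end Cfsg.Agent.S2779
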