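import Cfsg.Statements.S2780
import Cfsg.Agent.Lib.Qd.NatData
import Cfsg.Agent.Lib.PLocal.CoreLift
-- import your own Cfsg.Agent.* helpers here

set_option autoImplicit false
open Cfsg

namespace Cfsg.Agent.S2780

open Matrix Subgroup CfsgLib.NatMod

section
variable {G : Type*} [Group G] {F : Type*} [Field F] {V L T : Subgroup G}
  {ρ : ↥L →* Matrix.SpecialLinearGroup (Fin 2) F} {ψ : Additive ↥V ≃+ (Fin 2 → F)} {v₀ : Fin 2 → F}

theorem V_comm (ψ : Additive ↥V ≃+ (Fin 2 → F)) (a b : V) : (a : G) * b = b * a := by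
  have : a * b = b * a := by
    apply vc_inj (ψ := ψ)
    rw [vc_mul, vc_mul, add_comm]
  exact congrArg Subtype.val this

theorem norm_of_line [Finite G] (D : Data V L T ρ ψ v₀) (l : L) (a : F) (ha : a ≠ 0)
    (hl : (ρ l : Matrix.SpecialLinearGroup (Fin 2) F) • v₀ = a • v₀) : (l : G) ∈ normalizer (T : Set G) := by
  refine CfsgLib.PLocal.mem_normalizer_of_conj_le fun t ht => ?_
  have htL := D.tle ht
  have hinv : (ρ l⁻¹ : Matrix.SpecialLinearGroup (Fin 2) F) • v₀ = a⁻¹ • v₀ := by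
    rw [map_inv, inv_smul_eq_iff, smul_comm, hl, smul_smul, inv_mul_cancel₀ ha, one_smul]
  have hfix : (ρ (l * ⟨t, htL⟩ * l⁻¹) : Matrix.SpecialLinearGroup (Fin 2) F) • v₀ = v₀ := by
    rw [map_mul, map_mul, mul_smul, mul_smul, hinv, smul_comm (ρ ⟨t, htL⟩) a⁻¹, D.tfix ⟨t, htL⟩ ht, smul_comm (ρ l) a⁻¹, hl,
      smul_smul, inv_mul_cancel₀ ha, one_smul]
  obtain ⟨t', ht', hte⟩ := D.tex _ hfix
  have := D.inj hte
  rw [this] at ht'
  exact ht'

/-- Conjugate set-up. -/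
theorem data_conj [Finite G] (D : Data V L T ρ ψ v₀) (l : L) :
    Data V L (T.map (MulAut.conj (l : G)).toMonoidHom) ρ ψ ((ρ l : Matrix.SpecialLinearGroup (Fin 2) F) • v₀) := by
  refine ⟨D.act, D.inj, D.surj, (smul_ne_zero_iff_ne _).2 D.hv, ?_, ?_, ?_⟩
  · rintro m ⟨t, ht, hte⟩
    have htL := D.tle ht
    have hm : m = l * ⟨t, htL⟩ * l⁻¹ := Subtype.ext hte.symm
    rw [hm, map_mul, map_mul, mul_smul, mul_smul, map_inv, inv_smul_smul, D.tfix ⟨t, htL⟩ ht]
  · intro A hA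
    have h1 : ((ρ l)⁻¹ * A * ρ l : Matrix.SpecialLinearGroup (Fin 2) F) • v₀ = v₀ := by
      rw [mul_smul, mul_smul, hA, inv_smul_smul]
    obtain ⟨t, ht, hte⟩ := D.tex _ h1
    refine ⟨l * t * l⁻¹, ⟨t, ht, rfl⟩, ?_⟩
    rw [map_mul, map_mul, hte, map_inv]
    group
  · rintro _ ⟨t, ht, rfl⟩
    exact L.mul_mem (L.mul_mem l.2 (D.tle ht)) (L.inv_mem l.2)

theorem exists_A {v₀ : Fin 2 → F} (hv : v₀ ≠ 0) (a : F) (ha : a ≠ 0) :
    ∃ A : Matrix.SpecialLinearGroup (Fin 2) F, A • v₀ = a • v₀ := by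
  obtain ⟨w, hw⟩ := exists_dd_ne hv
  have hd' : dd v₀ (a⁻¹ • w) ≠ 0 := by
    rw [dd_smul_right]
    exact mul_ne_zero (inv_ne_zero ha) hw
  obtain ⟨A, b, hb, h1, h2⟩ := exists_map hw hd'
  refine ⟨A, ?_⟩
  have h3 := dd_smul A v₀ w
  rw [h1, h2, dd_smul_left, dd_smul_right] at h3
  have h4 : b * a⁻¹ = 1 := by
    have : b * (a⁻¹ * dd v₀ w) = dd v₀ w := h3
    have h5 : (b * a⁻¹) * dd v₀ w = 1 * dd v₀ w := by rw [one_mul, mul_assoc]; exact this
    exact mul_right_cancel₀ hw h5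
  have h6 : b = a := by
    field_simp at h4
    exact h4
  rw [h1, h6]

end

/-- Let L act on the elementary abelian p-group V (inside a finite group, faithfully) as SL₂(F) on its natural module, F a field with p^n elements, S a Sylow p-subgroup of L. Then: for every g ∈ L not normalizing S, V is the internal direct product of C_V(S) and C_V(gSg⁻¹); every nonidentity element of L of order prime to p acts on V without nonidentity fixed points; and C_V(S) and V/C_V(S) are irreducible for N_L(S): the only N_L(S)-invariant subgroups of C_V(S) are 1 and C_V(S), and the only N_L(S)-invariant subgroups between C_V(S) and V are those two. -/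
theorem result {G : Type*} [Group G] [Finite G] {p : ℕ} [Fact p.Prime] {F : Type*} [Field F] [Fintype F] (n : ℕ) (hF : Fintype.card F = p ^ n) (V L : Subgroup G) (hnat : Cfsg.IsNaturalSL2Module F V L) (hf : L ⊓ Subgroup.centralizer (V : Set G) = ⊥) (S : Sylow p ↥L) (T : Subgroup G) (hT : T = ((S : Subgroup ↥L).map L.subtype)) : (∀ g ∈ L, g ∉ Subgroup.normalizer (T : Set G) → Cfsg.IsInternalDirectProduct (V ⊓ Subgroup.centralizer ((T : Subgroup G) : Set G)) (V ⊓ Subgroup.centralizer ((T.map (MulAut.conj g).toMonoidHom : Subgroup G) : Set G)) V) ∧ (∀ x ∈ L, x ≠ 1 → (orderOf x).Coprime p → (V ⊓ Subgroup.centralizer ({x} : Set G)) = ⊥) ∧ (∀ U : Subgroup G, U ≤ (V ⊓ Subgroup.centralizer ((T : Subgroup G) : Set G)) → L ⊓ Subgroup.normalizer (T : Set G) ≤ Subgroup.normalizer (U : Set G) → U = ⊥ ∨ U = (V ⊓ Subgroup.centralizer ((T : Subgroup G) : Set G))) ∧ (∀ U : Subgroup G, (V ⊓ Subgroup.centralizer ((T : Subgroup G)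 : Set G)) ≤ U → U ≤ V → L ⊓ Subgroup.normalizer (T : Set G) ≤ Subgroup.normalizer (U : Set G) → U = (V ⊓ Subgroup.centralizer ((T : Subgroup G) : Set G)) ∨ U = V) := by
  obtain ⟨ρ, ψ, v₀, D⟩ := exists_data n hF V L hnat hf S T hT
  haveI : CharP F p := charP_of_card hF
  have helt : ∀ w : Fin 2 → F, vc ψ (Additive.toMul (ψ.symm w)) = w := by
    intro w; simp [vc]
  refine ⟨?_, ?_, ?_, ?_⟩
  · intro g hg hgn
    have D' := data_conj D ⟨g, hg⟩
    set w₀ : Fin 2 → F := (ρ ⟨g, hg⟩ : Matrix.SpecialLinearGroup (Fin 2) F) • v₀ with hw₀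
    have hdd : dd v₀ w₀ ≠ 0 := by
      intro h0
      obtain ⟨a, ha⟩ := eq_smul_of_dd_eq_zero D.hv h0
      have ha0 : a ≠ 0 := by
        rintro rfl
        rw [zero_smul] at ha
        exact D'.hv ha
      exact hgn (norm_of_line D ⟨g, hg⟩ a ha0 ha)
    refine ⟨inf_le_left, inf_le_left, ?_, ?_, ?_⟩
    · intro a ha b hb
      exact V_comm ψ ⟨a, ha.1⟩ ⟨b, hb.1⟩
    · rw [eq_bot_iff]
      rintro x ⟨⟨hx, hxC⟩, ⟨-, hxC'⟩⟩
      obtain ⟨c, hc⟩ := (mem_CT D ⟨x, hx⟩).1 hxC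
      obtain ⟨c', hc'⟩ := (mem_CT D' ⟨x, hx⟩).1 hxC'
      have h1 : c' * dd v₀ w₀ = c * dd v₀ v₀ := by
        rw [← dd_smul_right, ← dd_smul_right, ← hc, ← hc']
      rw [dd_self, mul_zero] at h1
      have h2 : c' = 0 := (mul_eq_zero.1 h1).resolve_right hdd
      rw [h2, zero_smul] at hc'
      have h3 : (⟨x, hx⟩ : V) = 1 := vc_inj (ψ := ψ) (by rw [hc', vc_one])
      exact congrArg Subtype.val h3
    · apply le_antisymm
      · exact sup_le inf_le_left inf_le_left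
      · intro x hx
        obtain ⟨a, b, hab⟩ : ∃ a b : F, vc ψ ⟨x, hx⟩ = a • v₀ + b • w₀ := by
          refine ⟨dd (vc ψ ⟨x, hx⟩) w₀ / dd v₀ w₀, dd v₀ (vc ψ ⟨x, hx⟩) / dd v₀ w₀, ?_⟩
          exact cramer hdd _
        have hx2 : (⟨x, hx⟩ : V) = Additive.toMul (ψ.symm (a • v₀)) * Additive.toMul (ψ.symm (b • w₀)) := by
          apply vc_inj (ψ := ψ)
          rw [vc_mul, helt, helt, hab]
        have hx3 : x = ((Additive.toMul (ψ.symm (a • v₀)) : V) : G) * ((Additive.toMul (ψ.symm (b • w₀)) : V) : G) :=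
          congrArg Subtype.val hx2
        rw [hx3]
        refine Subgroup.mul_mem_sup ⟨Subtype.property _, (mem_CT D _).2 ⟨a, helt _⟩⟩
          ⟨Subtype.property _, (mem_CT D' _).2 ⟨b, helt _⟩⟩
  · intro x hx hx1 hcop
    rw [eq_bot_iff]
    rintro y ⟨hy, hyC⟩
    rw [Subgroup.mem_bot]
    by_contra hy1
    have hw : vc ψ ⟨y, hy⟩ ≠ 0 := by
      intro h0
      have h3 : (⟨y, hy⟩ : V) = 1 := vc_inj (ψ := ψ) (by rw [h0, vc_one])
      exact hy1 (congrArg Subtype.val h3)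
    have h1 := (Subgroup.mem_centralizer_iff.1 hyC) _ rfl
    have h2 := (comm_iff D ⟨x, hx⟩ ⟨y, hy⟩).1 h1
    have hS : ρ ⟨x, hx⟩ ∈ MulAction.stabilizer (Matrix.SpecialLinearGroup (Fin 2) F) (vc ψ ⟨y, hy⟩) := h2
    have h3 := orderOf_dvd_natCard (⟨_, hS⟩ : MulAction.stabilizer (Matrix.SpecialLinearGroup (Fin 2) F) (vc ψ ⟨y, hy⟩))
    rw [Subgroup.orderOf_mk, orderOf_injective ρ D.inj, Subgroup.orderOf_mk,
      CfsgLib.ClassGeo.card_stab_of_ne_zero _ hw, Nat.card_eq_fintype_card, hF] at h3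
    have h4 := Nat.Coprime.eq_one_of_dvd (hcop.pow_right n) h3
    exact hx1 (orderOf_eq_one_iff.1 h4)
  · intro U hU hUn
    by_cases hU1 : U = ⊥
    · exact Or.inl hU1
    right
    obtain ⟨⟨u, huU⟩, hu⟩ := (Subgroup.ne_bot_iff_exists_ne_one).1 hU1
    have hu1 : u ≠ 1 := fun h => hu (Subtype.ext h)
    obtain ⟨huV, huC⟩ := hU huU
    obtain ⟨c, hc⟩ := (mem_CT D ⟨u, huV⟩).1 huC
    have hc0 : c ≠ 0 := by
      rintro rfl
      rw [zero_smul] at hc
      have h3 : (⟨u, huV⟩ : V) = 1 := vc_inj (ψ := ψ) (by rw [hc, vc_one])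
      exact hu1 (congrArg Subtype.val h3)
    apply le_antisymm hU
    rintro y ⟨hyV, hyC⟩
    obtain ⟨d, hd⟩ := (mem_CT D ⟨y, hyV⟩).1 hyC
    by_cases hd0 : d = 0
    · rw [hd0, zero_smul] at hd
      have h3 : (⟨y, hyV⟩ : V) = 1 := vc_inj (ψ := ψ) (by rw [hd, vc_one])
      have h4 : y = 1 := congrArg Subtype.val h3
      rw [h4]
      exact U.one_mem
    · obtain ⟨A, hA⟩ := exists_A D.hv (d / c) (div_ne_zero hd0 hc0)
      obtain ⟨l, hl⟩ := D.surj A
      have hlN : (l : G) ∈ normalizer (T : Set G) :=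
        norm_of_line D l (d / c) (div_ne_zero hd0 hc0) (by rw [hl]; exact hA)
      have hlU : (l : G) ∈ normalizer (U : Set G) := hUn ⟨l.2, hlN⟩
      have h5 := ((Subgroup.mem_normalizer_iff.1 hlU) u).1 huU
      obtain ⟨w, hw, hw2⟩ := D.act l ⟨u, huV⟩
      have h6 : w = ⟨y, hyV⟩ := by
        apply vc_inj (ψ := ψ)
        rw [hw2, hc, hl, smul_comm, hA, smul_smul, hd]
        congr 1
        field_simp
      have h7 : (w : G) = y := congrArg Subtype.val h6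
      rw [← h7, hw]
      exact h5
  · intro U hCU hUV hUn
    by_cases hU1 : U ≤ V ⊓ Subgroup.centralizer ((T : Subgroup G) : Set G)
    · exact Or.inl (le_antisymm hU1 hCU)
    right
    obtain ⟨u, huU, hu1⟩ := SetLike.not_le_iff_exists.1 hU1
    have huV := hUV huU
    have huC : u ∉ Subgroup.centralizer ((T : Subgroup G) : Set G) := fun h => hu1 ⟨huV, h⟩
    have hdu : dd v₀ (vc ψ ⟨u, huV⟩) ≠ 0 := fun h0 =>
      huC ((mem_CT D ⟨u, huV⟩).2 (eq_smul_of_dd_eq_zero D.hv h0))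
    apply le_antisymm hUV
    intro y hyV
    by_cases hyC : y ∈ Subgroup.centralizer ((T : Subgroup G) : Set G)
    · exact hCU ⟨hyV, hyC⟩
    have hdy : dd v₀ (vc ψ ⟨y, hyV⟩) ≠ 0 := fun h0 =>
      hyC ((mem_CT D ⟨y, hyV⟩).2 (eq_smul_of_dd_eq_zero D.hv h0))
    obtain ⟨A, a, ha, h1, h2⟩ := exists_map hdu hdy
    obtain ⟨l, hl⟩ := D.surj A
    have hlN : (l : G) ∈ normalizer (T : Set G) :=
      norm_of_line D l a ha (by rw [hl]; exact h1)
    have hlU : (l : G) ∈ normalizer (U : Set G) := hUn ⟨l.2, hlN⟩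
    have h5 := ((Subgroup.mem_normalizer_iff.1 hlU) u).1 huU
    obtain ⟨w, hw, hw2⟩ := D.act l ⟨u, huV⟩
    have h6 : w = ⟨y, hyV⟩ := by
      apply vc_inj (ψ := ψ)
      rw [hw2, hl, h2]
    have h7 : (w : G) = y := congrArg Subtype.val h6
    rw [← h7, hw]
    exact h5

end Cfsg.Agent.S2780
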