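import Cfsg.Statements.S2791
import Cfsg.Agent.Lib.H3.AlpGold
import Cfsg.Agent.Lib.PLocal.CoreLift
import Cfsg.Prelude.Def_LocalEven
-- import your own Cfsg.Agent.* helpers here

set_option autoImplicit false
open Cfsg

namespace Cfsg.Agent.S2791

open Subgroup CfsgLib.ConjFam CfsgLib.AlpGold CfsgLib.Solv

section
variable {G : Type*} [Group G] [Finite G] {p : ℕ} [hp : Fact p.Prime]

theorem rel_pow (M E : Subgroup G) (hEM : E ≤ M) (hn : M ≤ normalizer (E : Set G))
    (h : ∀ t ∈ M, (orderOf t).Coprime p → t ∈ E) : ∃ k, E.relIndex M = p ^ k := by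
  haveI : (E.subgroupOf M).Normal := by
    refine ⟨fun n hn' g => ?_⟩
    rw [Subgroup.mem_subgroupOf] at hn' ⊢
    exact ((Subgroup.mem_normalizer_iff.1 (hn g.2)) n).1 hn'
  have hP : IsPGroup p (M ⧸ E.subgroupOf M) := by
    intro y
    obtain ⟨g, rfl⟩ := QuotientGroup.mk_surjective y
    obtain ⟨a, n, hn', hg⟩ := Nat.exists_eq_pow_mul_and_not_dvd (n := orderOf (g : G)) (orderOf_pos _).ne' p hp.out.ne_one
    refine ⟨a, ?_⟩
    rw [← QuotientGroup.mk_pow, QuotientGroup.eq_one_iff, Subgroup.mem_subgroupOf]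
    refine h _ (by simpa using (g ^ p ^ a).2) ?_
    have h1 : orderOf ((g ^ p ^ a : M) : G) ∣ n := by
      apply orderOf_dvd_of_pow_eq_one
      have : (((g ^ p ^ a : M) : G)) ^ n = (g : G) ^ (p ^ a * n) := by
        simp [pow_mul]
      rw [this, ← hg, pow_orderOf_eq_one]
    exact Nat.Coprime.coprime_dvd_left h1 ((Nat.Prime.coprime_iff_not_dvd hp.out).2 hn').symm
  obtain ⟨k, hk⟩ := IsPGroup.iff_card.1 hP
  exact ⟨k, hk⟩

theorem step_sc (S : Sylow p G) (A : Subgroup G) (hA : IsMulCommutative ↥A)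
    (hsc : Cfsg.IsStronglyClosed A (S : Subgroup G)) (U : Subgroup G) (hU : U ≤ (S : Subgroup G))
    (hR : IsSylowIn p ((S : Subgroup G) ⊓ normalizer (U : Set G)) (normalizer (U : Set G)))
    (ih : ∀ D : Subgroup G, D ≤ (S : Subgroup G) → U < D → ∀ g : G, rc g (D : Set G) ⊆ (S : Subgroup G) →
        CCh {T : Subgroup G | T ≤ (S : Subgroup G) ∧ A ≤ T} (D : Set G) g)
    (m : G) (hm : m ∈ normalizer (U : Set G)) :
    CCh {T : Subgroup G | T ≤ (S : Subgroup G) ∧ A ≤ T} (U : Set G) m := by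
  have hAS : A ≤ (S : Subgroup G) := hsc.1
  have hSp : IsPGroup p (S : Subgroup G) := S.isPGroup'
  have hAc : ∀ a ∈ A, ∀ b ∈ A, a * b = b * a := by
    intro a ha b hb
    have := hA.is_comm.comm (⟨a, ha⟩ : A) ⟨b, hb⟩
    exact congrArg Subtype.val this
  have hAnorm : (S : Subgroup G) ≤ normalizer (A : Set G) := by
    intro s hs
    refine CfsgLib.PLocal.mem_normalizer_of_conj_le fun a ha => ?_
    exact hsc.2 a ha s ((S : Subgroup G).mul_mem ((S : Subgroup G).mul_mem hs (hAS ha)) ((S : Subgroup G).inv_mem hs))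
  by_cases hAU : A ≤ U
  · exact CCh.of_ch (Ch.step ⟨hU, hAU⟩ hm subset_rfl)
  set N : Subgroup G := normalizer (U : Set G) with hN
  have hUN : U ≤ N := le_normalizer
  -- an element of `A` normalizing `U` outside `U`
  obtain ⟨a, haA, haN, haU⟩ : ∃ a ∈ A, a ∈ N ∧ a ∉ U := by
    have hY : U ⊔ A ≤ (S : Subgroup G) := sup_le hU hAS
    have hlt : U < U ⊔ A := by
      refine lt_of_le_of_ne le_sup_left fun h => hAU ?_
      rw [h]; exact le_sup_right
    have h1 := lt_inf_normalizer_of_pgroup (hSp.to_le hY) hlt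
    obtain ⟨y, ⟨hyY, hyN⟩, hyU⟩ := SetLike.exists_of_lt h1
    have hcoe := Subgroup.coe_mul_of_left_le_normalizer_right U A (hU.trans hAnorm)
    have hy2 : y ∈ ((U ⊔ A : Subgroup G) : Set G) := hyY
    rw [hcoe] at hy2
    obtain ⟨u, hu, a, ha, rfl⟩ := Set.mem_mul.1 hy2
    refine ⟨a, ha, ?_, ?_⟩
    · have := N.mul_mem (N.inv_mem (hUN hu)) hyN
      simpa using this
    · intro h
      exact hyU (U.mul_mem hu h)
  -- the normal closure
  set W : Subgroup G := closure {w | ∃ x ∈ N, ∃ b ∈ A ⊓ N, w = x * b * x⁻¹} with hW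
  have hWN : W ≤ N := by
    rw [hW, Subgroup.closure_le]
    rintro _ ⟨x, hx, b, hb, rfl⟩
    exact N.mul_mem (N.mul_mem hx hb.2) (N.inv_mem hx)
  have hWconj : ∀ x ∈ N, ∀ w ∈ W, x * w * x⁻¹ ∈ W := by
    intro x hx w hw
    induction hw using Subgroup.closure_induction with
    | mem w hw =>
      obtain ⟨x', hx', b, hb, rfl⟩ := hw
      refine Subgroup.subset_closure ⟨x * x', N.mul_mem hx hx', b, hb, ?_⟩
      group
    | one => simp
    | mul w₁ w₂ _ _ h1 h2 =>
      have := W.mul_mem h1 h2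
      have e : x * (w₁ * w₂) * x⁻¹ = x * w₁ * x⁻¹ * (x * w₂ * x⁻¹) := by group
      rw [e]; exact this
    | inv w _ h1 =>
      have := W.inv_mem h1
      have e : x * w⁻¹ * x⁻¹ = (x * w * x⁻¹)⁻¹ := by group
      rw [e]; exact this
  have haW : a ∈ W := Subgroup.subset_closure ⟨1, N.one_mem, a, ⟨haA, haN⟩, by simp⟩
  set M : Subgroup G := U ⊔ W with hM
  have hMN : M ≤ N := sup_le hUN hWN
  have hNM : N ≤ normalizer (M : Set G) := by
    intro x hx
    refine CfsgLib.PLocal.mem_normalizer_of_conj_le fun y hy => ?_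
    have hle : M ≤ M.comap (MulAut.conj x).toMonoidHom := by
      refine sup_le ?_ ?_
      · intro y hy
        exact (le_sup_left : U ≤ M) (((Subgroup.mem_normalizer_iff.1 hx) y).1 hy)
      · intro y hy
        exact (le_sup_right : W ≤ M) (hWconj x hx y hy)
    exact hle hy
  have hR₀ : IsSylowIn p (((S : Subgroup G) ⊓ N) ⊓ M) M := isSylowIn_inf_normal hR hMN hNM
  set R₀ : Subgroup G := ((S : Subgroup G) ⊓ N) ⊓ M with hR₀def
  have hR₀S : R₀ ≤ (S : Subgroup G) := inf_le_left.trans inf_le_left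
  have hUR₀ : U < R₀ := by
    refine lt_of_le_of_ne (le_inf (le_inf hU hUN) le_sup_left) fun h => haU ?_
    rw [h]
    exact ⟨⟨hAS haA, haN⟩, (le_sup_right : W ≤ M) haW⟩
  obtain ⟨u, huM, hv⟩ := frattini hR₀ (hNM hm)
  have Cv : CCh {T : Subgroup G | T ≤ (S : Subgroup G) ∧ A ≤ T} (U : Set G) (u⁻¹ * m) := by
    refine (ih R₀ hR₀S hUR₀ _ ?_).mono hUR₀.le
    rw [rc_of_mem_normalizer hv]
    exact hR₀S
  -- chain property
  set B₀ : Subgroup G := U ⊓ A with hB₀
  have hB₀conj : ∀ x ∈ N, ∀ z ∈ B₀, x * z * x⁻¹ ∈ B₀ := by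
    intro x hx z hz
    have h1 : x * z * x⁻¹ ∈ U := ((Subgroup.mem_normalizer_iff.1 hx) z).1 hz.1
    exact ⟨h1, hsc.2 z hz.2 x (hU h1)⟩
  have hchain : ∀ w ∈ W, (∀ y ∈ U, ∃ z ∈ B₀, w * y * w⁻¹ = z * y) ∧ (∀ z ∈ B₀, w * z = z * w) := by
    intro w hw
    induction hw using Subgroup.closure_induction with
    | mem w hw =>
      obtain ⟨x, hx, b, ⟨hbA, hbN⟩, rfl⟩ := hw
      constructor
      · intro y hy
        have hy' : x⁻¹ * y * x ∈ U := by
          have := ((Subgroup.mem_normalizer_iff.1 (N.inv_mem hx)) y).1 hy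
          simpa using this
        set y' := x⁻¹ * y * x with hy'def
        have hz1 : b * y' * b⁻¹ ∈ U := ((Subgroup.mem_normalizer_iff.1 hbN) y').1 hy'
        have hz2 : b * y' * b⁻¹ * y'⁻¹ ∈ U := U.mul_mem hz1 (U.inv_mem hy')
        have hz3 : b * y' * b⁻¹ * y'⁻¹ ∈ A := by
          have h1 : y' * b⁻¹ * y'⁻¹ ∈ A := ((Subgroup.mem_normalizer_iff.1 (hAnorm (hU hy'))) _).1 (A.inv_mem hbA)
          have := A.mul_mem hbA h1
          have e : b * y' * b⁻¹ * y'⁻¹ = b * (y' * b⁻¹ * y'⁻¹) := by group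
          rw [e]; exact this
        refine ⟨x * (b * y' * b⁻¹ * y'⁻¹) * x⁻¹, hB₀conj x hx _ ⟨hz2, hz3⟩, ?_⟩
        rw [hy'def]
        group
      · intro z hz
        have hz' : x⁻¹ * z * x⁻¹⁻¹ ∈ B₀ := hB₀conj x⁻¹ (N.inv_mem hx) z hz
        rw [inv_inv] at hz'
        have h1 := hAc b hbA _ hz'.2
        calc x * b * x⁻¹ * z = x * (b * (x⁻¹ * z * x)) * x⁻¹ := by group
          _ = x * ((x⁻¹ * z * x) * b) * x⁻¹ := by rw [h1]
          _ = z * (x * b * x⁻¹) := by group
    | one =>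
      constructor
      · intro y hy
        exact ⟨1, B₀.one_mem, by simp⟩
      · intro z hz
        simp
    | mul w₁ w₂ _ _ h1 h2 =>
      constructor
      · intro y hy
        obtain ⟨z₂, hz₂, e₂⟩ := h2.1 y hy
        obtain ⟨z₁, hz₁, e₁⟩ := h1.1 y hy
        refine ⟨z₂ * z₁, B₀.mul_mem hz₂ hz₁, ?_⟩
        have h3 : w₁ * z₂ = z₂ * w₁ := h1.2 z₂ hz₂
        calc w₁ * w₂ * y * (w₁ * w₂)⁻¹ = w₁ * (w₂ * y * w₂⁻¹) * w₁⁻¹ := by group
          _ = w₁ * (z₂ * y) * w₁⁻¹ := by rw [e₂]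
          _ = (w₁ * z₂) * y * w₁⁻¹ := by group
          _ = (z₂ * w₁) * y * w₁⁻¹ := by rw [h3]
          _ = z₂ * (w₁ * y * w₁⁻¹) := by group
          _ = z₂ * (z₁ * y) := by rw [e₁]
          _ = _ := by group
      · intro z hz
        calc w₁ * w₂ * z = w₁ * (w₂ * z) := by group
          _ = w₁ * (z * w₂) := by rw [h2.2 z hz]
          _ = (w₁ * z) * w₂ := by group
          _ = (z * w₁) * w₂ := by rw [h1.2 z hz]
          _ = _ := by group
    | inv w _ h1 =>
      constructor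
      · intro y hy
        obtain ⟨z, hz, e⟩ := h1.1 y hy
        refine ⟨z⁻¹, B₀.inv_mem hz, ?_⟩
        have h3 : w * z = z * w := h1.2 z hz
        have h4 : y = z * (w⁻¹ * y * w) := by
          calc y = w⁻¹ * (w * y * w⁻¹) * w := by group
            _ = w⁻¹ * (z * y) * w := by rw [e]
            _ = w⁻¹ * (z * (y * w)) := by group
            _ = w⁻¹ * (z * w * (w⁻¹ * y * w)) := by group
            _ = w⁻¹ * (w * z * (w⁻¹ * y * w)) := by rw [h3]
            _ = _ := by group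
        rw [inv_inv]
        calc w⁻¹ * y * w = z⁻¹ * (z * (w⁻¹ * y * w)) := by group
          _ = z⁻¹ * y := by rw [← h4]
      · intro z hz
        have h3 : w * z = z * w := h1.2 z hz
        calc w⁻¹ * z = w⁻¹ * (z * w) * w⁻¹ := by group
          _ = w⁻¹ * (w * z) * w⁻¹ := by rw [h3]
          _ = z * w⁻¹ := by group
  -- elements of order prime to `p` in `M`
  have hUNW : U ≤ normalizer (W : Set G) := by
    intro y hy
    exact CfsgLib.PLocal.mem_normalizer_of_conj_le fun w hw => hWconj y (hUN hy) w hw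
  have hpW : ∀ t ∈ M, (orderOf t).Coprime p → t ∈ W := by
    intro t ht hcop
    have hcoe := Subgroup.coe_mul_of_left_le_normalizer_right U W hUNW
    have ht2 : t ∈ ((U ⊔ W : Subgroup G) : Set G) := ht
    rw [hcoe] at ht2
    obtain ⟨y, hy, w, hw, rfl⟩ := Set.mem_mul.1 ht2
    have hpow : ∀ n : ℕ, ∃ w' ∈ W, (y * w) ^ n = y ^ n * w' := by
      intro n
      induction n with
      | zero => exact ⟨1, W.one_mem, by simp⟩
      | succ n ih2 =>
        obtain ⟨w', hw', e⟩ := ih2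
        have h1 : y⁻¹ * w' * y⁻¹⁻¹ ∈ W := hWconj y⁻¹ (N.inv_mem (hUN hy)) w' hw'
        rw [inv_inv] at h1
        refine ⟨(y⁻¹ * w' * y) * w, W.mul_mem h1 hw, ?_⟩
        rw [pow_succ, e, pow_succ]
        group
    obtain ⟨j, hj⟩ := (hSp.to_le hU) ⟨y, hy⟩
    have hyj : y ^ p ^ j = 1 := by
      have := congrArg Subtype.val hj
      simpa using this
    obtain ⟨w', hw', e⟩ := hpow (p ^ j)
    rw [hyj, one_mul] at e
    obtain ⟨k, hk⟩ := exists_pow_eq_self_of_coprime (Nat.Coprime.pow_left j hcop.symm)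
    rw [← hk, e]
    exact W.pow_mem hw' k
  have hpE : ∀ t ∈ M, (orderOf t).Coprime p → t ∈ M ⊓ centralizer (U : Set G) := by
    intro t ht hcop
    refine ⟨ht, ?_⟩
    have htW := hpW t ht hcop
    obtain ⟨h1, h2⟩ := hchain t htW
    change t ∈ centralizer (U : Set G)
    rw [Subgroup.mem_centralizer_iff]
    intro y hy
    obtain ⟨z, hz, e⟩ := h1 y hy
    have hzc : t * z = z * t := h2 z hz
    have hn : ∀ n : ℕ, t ^ n * y * (t ^ n)⁻¹ = z ^ n * y := by
      intro n
      induction n with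
      | zero => simp
      | succ n ih2 =>
        have hc : Commute t z := hzc
        calc t ^ (n + 1) * y * (t ^ (n + 1))⁻¹ = t * (t ^ n * y * (t ^ n)⁻¹) * t⁻¹ := by
              rw [pow_succ']; group
          _ = t * (z ^ n * y) * t⁻¹ := by rw [ih2]
          _ = (t * z ^ n) * y * t⁻¹ := by group
          _ = (z ^ n * t) * y * t⁻¹ := by rw [(hc.pow_right n).eq]
          _ = z ^ n * (t * y * t⁻¹) := by group
          _ = z ^ n * (z * y) := by rw [e]
          _ = z ^ (n + 1) * y := by rw [pow_succ]; group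
    have h3 := hn (orderOf t)
    rw [pow_orderOf_eq_one] at h3
    simp only [one_mul, inv_one, mul_one] at h3
    have h4 : z ^ orderOf t = 1 := by
      have := h3.symm
      exact mul_eq_right.1 this
    obtain ⟨j, hj⟩ := (hSp.to_le (inf_le_left.trans hU : B₀ ≤ (S : Subgroup G))) ⟨z, hz⟩
    have hzj : z ^ p ^ j = 1 := by
      have := congrArg Subtype.val hj
      simpa using this
    have h5 : orderOf z ∣ Nat.gcd (orderOf t) (p ^ j) :=
      Nat.dvd_gcd (orderOf_dvd_of_pow_eq_one h4) (orderOf_dvd_of_pow_eq_one hzj)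
    rw [Nat.Coprime.pow_right j hcop] at h5
    have h6 : z = 1 := orderOf_eq_one_iff.1 (Nat.dvd_one.1 h5)
    rw [h6, one_mul] at e
    have : y * t = t * y := by
      calc y * t = (t * y * t⁻¹) * t := by rw [e]
        _ = t * y := by group
    exact this
  have hENM : M ≤ normalizer ((M ⊓ centralizer (U : Set G) : Subgroup G) : Set G) := by
    intro x hx
    refine CfsgLib.PLocal.mem_normalizer_of_conj_le fun c hc => ?_
    refine ⟨M.mul_mem (M.mul_mem hx hc.1) (M.inv_mem hx), ?_⟩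
    have h1 := (norm_le_norm_cent U) (hMN hx)
    exact ((Subgroup.mem_normalizer_iff.1 h1) c).1 hc.2
  obtain ⟨k, hk⟩ := rel_pow M (M ⊓ centralizer (U : Set G)) inf_le_left hENM hpE
  have hMle := le_sup_of_relIndex_pow hk hR₀
  have hcoe := Subgroup.coe_mul_of_right_le_normalizer_left (M ⊓ centralizer (U : Set G)) R₀
    ((inf_le_right : R₀ ≤ M).trans hENM)
  have hu2 : u ∈ (((M ⊓ centralizer (U : Set G)) ⊔ R₀ : Subgroup G) : Set G) := hMle huM
  rw [hcoe] at hu2
  obtain ⟨c, hc, r, hr, rfl⟩ := Set.mem_mul.1 hu2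
  have Cu : CCh {T : Subgroup G | T ≤ (S : Subgroup G) ∧ A ≤ T} (U : Set G) (c * r) :=
    CCh.prefix hc.2 (CCh.of_ch (Ch.step (T := (S : Subgroup G)) ⟨le_rfl, hAS⟩ (le_normalizer (hR₀S hr)) hU))
  have hm2 : m = (c * r) * ((c * r)⁻¹ * m) := by group
  rw [hm2]
  refine Cu.trans ?_
  rw [rc_of_mem_normalizer (hMN huM)]
  exact Cv

end

/-- Let S be a Sylow p-subgroup of the finite group G and A an abelian subgroup of S that is strongly closed in S with respect to G. Then A controls strong fusion in G: for some Sylow p-subgroup T containing A, whenever a subset of T is conjugated into T by an element of G, the same elementwise conjugation is induced by an element of N_G(A). -/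
theorem result {G : Type*} [Group G] [Finite G] {p : ℕ} [Fact p.Prime] (S : Sylow p G) (A : Subgroup G) (hA : IsMulCommutative ↥A) (hsc : Cfsg.IsStronglyClosed A (S : Subgroup G)) : Cfsg.ControlsStrongFusion p A := by
  have hAS : A ≤ (S : Subgroup G) := hsc.1
  refine ⟨S, hAS, fun X hX => ⟨hX, fun g hg => ?_⟩⟩
  have hNN : ∀ T : Subgroup G, T ∈ {T : Subgroup G | T ≤ (S : Subgroup G) ∧ A ≤ T} →
      normalizer (T : Set G) ≤ normalizer (A : Set G) := by
    intro T hT x hx
    refine CfsgLib.PLocal.mem_normalizer_of_conj_le fun a ha => ?_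
    have h1 : x * a * x⁻¹ ∈ T := ((Subgroup.mem_normalizer_iff.1 hx) a).1 (hT.2 ha)
    exact hsc.2 a ha x (hT.1 h1)
  have hch : ∀ (Y : Set G) (h : G), Ch {T : Subgroup G | T ≤ (S : Subgroup G) ∧ A ≤ T} Y h →
      h ∈ normalizer (A : Set G) := by
    intro Y h hh
    induction hh with
    | nil Y => exact Subgroup.one_mem _
    | cons hT hx hA _ ih => exact Subgroup.mul_mem _ (hNN _ hT hx) ih
  set T₀ : Subgroup G := closure X with hT₀
  have hT₀S : T₀ ≤ (S : Subgroup G) := (Subgroup.closure_le _).2 hX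
  have hg' : rc g⁻¹ (T₀ : Set G) ⊆ (S : Subgroup G) := by
    rw [rc_coe, inv_inv]
    have h1 : T₀.map (CfsgLib.CT1.cj g) ≤ (S : Subgroup G) := by
      rw [Subgroup.map_le_iff_le_comap, hT₀, Subgroup.closure_le]
      intro a ha
      exact hg ⟨a, ha, rfl⟩
    exact h1
  obtain ⟨c, h, hc, hh, he⟩ := cchain S (fun U hUS hR ih m hm => step_sc S A hA hsc U hUS hR ih m hm) T₀ hT₀S g⁻¹ hg'
  refine ⟨h⁻¹, Subgroup.inv_mem _ (hch _ _ hh), fun a ha => ?_⟩
  have hcomm := (Subgroup.mem_centralizer_iff.1 hc) a (Subgroup.subset_closure ha)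
  have hg2 : g = h⁻¹ * c⁻¹ := by
    have : g⁻¹⁻¹ = (c * h)⁻¹ := by rw [he]
    rw [inv_inv] at this
    rw [this]; group
  rw [hg2]
  have h3 : c⁻¹ * a * c = a := by
    have : a * c = c * a := hcomm
    rw [mul_assoc, this]; group
  calc h⁻¹ * c⁻¹ * a * (h⁻¹ * c⁻¹)⁻¹ = h⁻¹ * (c⁻¹ * a * c) * h⁻¹⁻¹ := by group
    _ = _ := by rw [h3]

end Cfsg.Agent.S2791
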