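import Cfsg.Statements.S3116
import Mathlib

set_option autoImplicit false

namespace Cfsg.Agent.S3116

/-- An automorphism of prime order `q` has a fixed point on every invariant finite subset whose size is
not divisible by `q`. -/
private theorem exists_fixed {X : Type*} [Group X] [Finite X] (α : MulAut X) (q : ℕ) [Fact q.Prime]
    (hα : orderOf α = q) (Y : Set X) (hY : ∀ y ∈ Y, α y ∈ Y) (hq : ¬ q ∣ Nat.card Y) :
    ∃ y ∈ Y, α y = y := by
  classical
  have hYinv : ∀ k : ℤ, ∀ y ∈ Y, (α ^ k) y ∈ Y := by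
    -- finite order: α⁻¹ is a power of α
    have hpow : ∀ n : ℕ, ∀ y ∈ Y, (α ^ n) y ∈ Y := by
      intro n
      induction n with
      | zero => simp
      | succ n ih =>
        intro y hy
        rw [pow_succ', MulAut.mul_apply]
        exact hY _ (ih y hy)
    intro k y hy
    have : α ^ k = α ^ (k % (orderOf α : ℤ)).toNat := by
      have h0 : (0 : ℤ) ≤ k % (orderOf α : ℤ) := Int.emod_nonneg _ (by
        have := orderOf_pos α; omega)
      rw [← zpow_natCast, Int.toNat_of_nonneg h0, zpow_mod_orderOf]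
    rw [this]
    exact hpow _ y hy
  let Z := Subgroup.zpowers α
  have hZ : IsPGroup q Z := by
    apply IsPGroup.of_card (n := 1)
    rw [Nat.card_zpowers, pow_one, hα]
  letI act : MulAction Z Y :=
    { smul := fun z y => ⟨z.1 y.1, by
        obtain ⟨k, hk⟩ := z.2
        have : z.1 = α ^ k := hk.symm
        rw [this]
        exact hYinv k y.1 y.2⟩
      one_smul := fun y => Subtype.ext rfl
      mul_smul := fun a b y => Subtype.ext rfl }
  obtain ⟨⟨y0, hy0⟩, hy⟩ := hZ.nonempty_fixed_point_of_prime_not_dvd_card Y hq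
  refine ⟨y0, hy0, ?_⟩
  have := hy ⟨α, Subgroup.mem_zpowers α⟩
  exact congrArg Subtype.val this

private theorem main {X : Type*} [Group X] [Finite X] (h2 : IsPGroup 2 X) (r : X)
    (hidx : (Subgroup.zpowers r).index = 2)
    (hout : ∀ x : X, x ∉ Subgroup.zpowers r → orderOf x < orderOf r) : IsPGroup 2 (MulAut X) := by
  classical
  haveI : Fact (Nat.Prime 2) := ⟨Nat.prime_two⟩
  set C := Subgroup.zpowers r with hC
  set n := orderOf r with hn
  have hcardC : Nat.card C = n := Nat.card_zpowers r
  have hcardX : n * 2 = Nat.card X := by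
    rw [← hcardC, ← hidx]; exact C.card_mul_index
  -- C is a 2-group of order 2^j
  obtain ⟨j, hj⟩ : ∃ j, n = 2 ^ j := by
    have : IsPGroup 2 C := h2.to_subgroup C
    obtain ⟨j, hj⟩ := IsPGroup.iff_card.1 this
    exact ⟨j, by rw [← hcardC, hj]⟩
  -- no automorphism of odd prime order
  suffices hno : ∀ q : ℕ, q.Prime → q ≠ 2 → ¬ q ∣ Nat.card (MulAut X) by
    obtain ⟨m, hm⟩ : ∃ m, Nat.card (MulAut X) = 2 ^ m := by
      have hne : Nat.card (MulAut X) ≠ 0 := Nat.card_pos.ne'
      refine ⟨_, Nat.eq_prime_pow_of_unique_prime_dvd hne (p := 2) ?_⟩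
      intro q hq hd
      by_contra hq2
      exact hno q hq hq2 hd
    exact IsPGroup.of_card hm
  intro q hq hq2 hdvd
  haveI : Fact q.Prime := ⟨hq⟩
  obtain ⟨α, hα⟩ := exists_prime_orderOf_dvd_card' (G := MulAut X) q hdvd
  have hqodd : ¬ q ∣ 2 ^ (j + 1) := by
    intro h
    have := (Nat.prime_dvd_prime_iff_eq hq Nat.prime_two).1 (hq.dvd_of_dvd_pow h)
    exact hq2 this
  have hqodd' : ∀ k, ¬ q ∣ 2 ^ k := by
    intro k h
    have := (Nat.prime_dvd_prime_iff_eq hq Nat.prime_two).1 (hq.dvd_of_dvd_pow h)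
    exact hq2 this
  -- Y1 = elements of order n
  let Y1 : Set X := {x | orderOf x = n}
  have hY1 : ∀ y ∈ Y1, α y ∈ Y1 := by
    intro y hy
    show orderOf (α y) = n
    rw [MulEquiv.orderOf_eq]; exact hy
  have hY1C : ∀ y ∈ Y1, y ∈ C := by
    intro y hy
    by_contra hcon
    have := hout y hcon
    have hy' : orderOf y = n := hy
    omega
  have hcardY1 : Nat.card Y1 = Nat.totient n := by
    haveI : IsCyclic C := by
      rw [hC]; infer_instance
    have h1 : Nat.card {x : C // orderOf x = n} = Nat.totient n := by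
      haveI : Fintype C := Fintype.ofFinite _
      have := IsCyclic.card_orderOf_eq_totient (α := C) (d := n) (by rw [← Nat.card_eq_fintype_card, hcardC])
      rw [← this, Nat.card_eq_fintype_card, Fintype.card_subtype]
    rw [← h1]
    refine Nat.card_congr ⟨fun y => ⟨⟨y.1, hY1C y.1 y.2⟩, ?_⟩, fun y => ⟨y.1.1, ?_⟩, fun y => rfl, fun y => rfl⟩
    · rw [← Subgroup.orderOf_coe]; exact y.2
    · show orderOf y.1.1 = n
      rw [Subgroup.orderOf_coe]; exact y.2
  have hqY1 : ¬ q ∣ Nat.card Y1 := by
    rw [hcardY1, hj]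
    rcases j with _ | j
    · simpa using hq.one_lt.ne'
    · rw [Nat.totient_prime_pow_succ Nat.prime_two]
      simpa using hqodd' j
  obtain ⟨y1, hy1, hfix1⟩ := exists_fixed α q hα Y1 hY1 hqY1
  -- Y2 = X \ C
  have hCα : ∀ x, x ∈ C → α x ∈ C := by
    intro x hx
    obtain ⟨k, rfl⟩ := hx
    show α (r ^ k) ∈ C
    rw [map_zpow]
    apply Subgroup.zpow_mem
    apply hY1C
    show orderOf (α r) = n
    rw [MulEquiv.orderOf_eq]
  let Y2 : Set X := {x | x ∉ C}
  have hY2 : ∀ y ∈ Y2, α y ∈ Y2 := by
    intro y hy hy2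
    apply hy
    -- use injectivity: α maps C onto C by counting
    have hmap : C.map α.toMonoidHom = C := by
      apply Subgroup.eq_of_le_of_card_ge
      · rintro _ ⟨x, hx, rfl⟩
        exact hCα x hx
      · rw [Subgroup.card_map_of_injective α.injective]
    rw [← hmap] at hy2
    obtain ⟨x, hx, hxy⟩ := hy2
    have : x = y := α.injective hxy
    rwa [← this]
  have hcardY2 : Nat.card Y2 = n := by
    have h1 : Nat.card Y2 + Nat.card C = Nat.card X := by
      haveI := Fintype.ofFinite X
      rw [Nat.card_eq_fintype_card, Nat.card_eq_fintype_card, Nat.card_eq_fintype_card]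
      have := Fintype.card_subtype_compl (fun x : X => x ∈ C)
      have h3 : Fintype.card Y2 = Fintype.card {x : X // ¬ x ∈ C} := rfl
      have h4 : Fintype.card {x : X // x ∈ C} ≤ Fintype.card X := Fintype.card_subtype_le _
      rw [h3, this]
      have h5 : Fintype.card ↥C = Fintype.card {x : X // x ∈ C} := rfl
      rw [h5]
      omega
    rw [hcardC] at h1
    omega
  have hqY2 : ¬ q ∣ Nat.card Y2 := by
    rw [hcardY2, hj]; exact hqodd' j
  obtain ⟨y2, hy2, hfix2⟩ := exists_fixed α q hα Y2 hY2 hqY2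
  -- α = 1
  have hαone : α = 1 := by
    have hCy1 : Subgroup.zpowers y1 = C := by
      apply Subgroup.eq_of_le_of_card_ge
      · rw [Subgroup.zpowers_le]; exact hY1C y1 hy1
      · rw [hcardC, Nat.card_zpowers]; exact le_of_eq (Eq.symm hy1)
    have hfixC : ∀ x ∈ C, α x = x := by
      intro x hx
      rw [← hCy1] at hx
      obtain ⟨k, rfl⟩ := hx
      show α (y1 ^ k) = y1 ^ k
      rw [map_zpow, hfix1]
    ext x
    show α x = x
    by_cases hx : x ∈ C
    · exact hfixC x hx
    · -- y2⁻¹ * x ∈ C as index 2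
      have hxy : y2⁻¹ * x ∈ C := by
        have := Subgroup.mul_mem_iff_of_index_two hidx (a := y2⁻¹) (b := x)
        rw [this, inv_mem_iff]
        exact iff_of_false hy2 hx
      have h3 := hfixC _ hxy
      rw [map_mul, map_inv, hfix2] at h3
      exact mul_left_cancel h3
  rw [hαone, orderOf_one] at hα
  exact hq.one_lt.ne hα

/-- The automorphism group of a dihedral 2-group of order at least 8, or of a quasi-dihedral (semidihedral) 2-group of order at least 16, is a 2-group. -/
theorem result {X : Type*} [Group X] [Finite X] (h2 : IsPGroup 2 X)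
    (h : (∃ n : ℕ, 4 ≤ n ∧ Nonempty (X ≃* DihedralGroup n)) ∨ Cfsg.IsQuasiDihedral X) : IsPGroup 2 (MulAut X) := by
  classical
  rcases h with ⟨n, hn, ⟨e⟩⟩ | ⟨n, hn, hcard, x, y, hx, hy, hyx⟩
  · -- dihedral case
    haveI : NeZero n := ⟨by omega⟩
    set r : X := e.symm (DihedralGroup.r 1) with hr
    have hrord : orderOf r = n := by
      rw [hr, MulEquiv.orderOf_eq, DihedralGroup.orderOf_r_one]
    have hcardX : Nat.card X = 2 * n := by
      rw [Nat.card_congr e.toEquiv, DihedralGroup.nat_card]
    have hidx : (Subgroup.zpowers r).index = 2 := by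
      have h1 := (Subgroup.zpowers r).card_mul_index
      rw [Nat.card_zpowers, hrord, hcardX] at h1
      have hn0 : 0 < n := by omega
      exact Nat.eq_of_mul_eq_mul_left hn0 (by rw [h1]; ring)
    refine main h2 r hidx ?_
    intro z hz
    rw [hrord]
    -- e z is not a rotation
    have hez : ∃ i : ZMod n, e z = DihedralGroup.sr i := by
      rcases hzz : e z with i | i
      · exfalso
        apply hz
        refine ⟨(i.val : ℤ), ?_⟩
        apply e.injective
        show e (r ^ ((i.val : ℤ))) = e z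
        rw [hzz, map_zpow, hr, MulEquiv.apply_symm_apply, zpow_natCast, DihedralGroup.r_one_pow]
        simp
      · exact ⟨i, rfl⟩
    obtain ⟨i, hi⟩ := hez
    have : orderOf z = 2 := by
      rw [← MulEquiv.orderOf_eq e, hi, DihedralGroup.orderOf_sr]
    omega
  · -- semidihedral case
    haveI : Fact (Nat.Prime 2) := ⟨Nat.prime_two⟩
    have hidx : (Subgroup.zpowers x).index = 2 := by
      have h1 := (Subgroup.zpowers x).card_mul_index
      rw [Nat.card_zpowers, hx, hcard, pow_succ] at h1
      have hn0 : 0 < 2 ^ n := by positivity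
      exact Nat.eq_of_mul_eq_mul_left hn0 h1
    refine main h2 x hidx ?_
    rw [hx]
    intro z hz
    -- z = y * x^k
    have hy2 : y * y = 1 := by
      have := pow_orderOf_eq_one y
      rw [hy, pow_two] at this
      exact this
    have hyinv : y⁻¹ = y := inv_eq_of_mul_eq_one_left hy2
    obtain ⟨m, hm⟩ : ∃ m, n = m + 3 := ⟨n - 3, by omega⟩
    have hpow : 2 ^ (n - 1) = 4 * 2 ^ m := by
      have : n - 1 = m + 2 := by omega
      rw [this, pow_add]; ring
    have hpown : 2 ^ n = 8 * 2 ^ m := by
      rw [hm, pow_add]; ring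
    have hm0 : 0 < 2 ^ m := by positivity
    have hyout : y ∉ Subgroup.zpowers x := by
      intro hy'
      obtain ⟨k, hk⟩ := hy'
      have hc : y * x * y⁻¹ = x := by
        have h1 : Commute y x := by
          rw [← hk]; exact (Commute.refl x).zpow_left k
        rw [h1.eq]; group
      rw [hyx] at hc
      -- x ^ (s - 1) = 1
      have h3 : x ^ (2 ^ (n - 1) - 2) = 1 := by
        have e : 2 ^ (n - 1) - 1 = (2 ^ (n - 1) - 2) + 1 := by omega
        rw [e, pow_succ] at hc
        exact mul_eq_right.1 hc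
      have h4 := orderOf_dvd_of_pow_eq_one h3
      rw [hx] at h4
      have h5 : 0 < 2 ^ (n - 1) - 2 := by omega
      have := Nat.le_of_dvd h5 h4
      omega
    have hzk : y⁻¹ * z ∈ Subgroup.zpowers x := by
      rw [Subgroup.mul_mem_iff_of_index_two hidx, inv_mem_iff]
      exact iff_of_false hyout hz
    obtain ⟨k, hk⟩ := hzk
    have hzeq : z = y * x ^ k := by
      have : x ^ k = y⁻¹ * z := hk
      rw [this]; group
    have hconj : y * x ^ k * y⁻¹ = (x ^ (2 ^ (n - 1) - 1)) ^ k := by
      rw [← hyx, conj_zpow]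
    have hz2 : z * z = x ^ (2 ^ (n - 1) * k) := by
      have e1 : z * z = (y * x ^ k * y⁻¹) * (y * y) * x ^ k := by
        rw [hzeq, hyinv]; simp only [mul_assoc, mul_one]
        rw [← mul_assoc y y, hy2, one_mul]
      rw [e1, hconj, hy2, mul_one, ← zpow_natCast, ← zpow_mul, ← zpow_add]
      congr 1
      have : ((2 ^ (n - 1) - 1 : ℕ) : ℤ) = 2 ^ (n - 1) - 1 := by
        rw [Nat.cast_sub (by omega)]; simp
      rw [this]
      ring
    have h4 : z ^ 4 = 1 := by
      have e0 : z ^ 4 = (z * z) * (z * z) := by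
        rw [show 4 = 2 + 2 from rfl, pow_add, pow_two]
      rw [e0, hz2, ← zpow_add]
      have e : (2 : ℤ) ^ (n - 1) * k + 2 ^ (n - 1) * k = ((2 ^ n : ℕ) : ℤ) * k := by
        have : ((2 ^ n : ℕ) : ℤ) = 2 * 2 ^ (n - 1) := by
          push_cast
          rw [← pow_succ']
          congr 1
          omega
        rw [this]; ring
      rw [e, zpow_mul, zpow_natCast, ← hx, pow_orderOf_eq_one, one_zpow]
    have h5 := Nat.le_of_dvd (by norm_num) (orderOf_dvd_of_pow_eq_one h4)
    omega

end Cfsg.Agent.S3116
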