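import Cfsg.Statements.S3374
import Cfsg.Agent.Lib.Lead.SL25Table
import Cfsg.Agent.Lib.Lead.Frobenius
import Cfsg.Agent.Lib.ClassGeo.SLGen
import Mathlib

set_option autoImplicit false

namespace Cfsg.Agent.S3374

open CfsgLib.Lead.SL25 Matrix

abbrev S5 := Matrix.SpecialLinearGroup (Fin 2) (ZMod 5)
abbrev V11 := Fin 2 → ZMod 11

noncomputable def M (A : S5) : Matrix (Fin 2) (Fin 2) (ZMod 11) :=
  !![E00 (A 0 0) (A 0 1) (A 1 0) (A 1 1), E01 (A 0 0) (A 0 1) (A 1 0) (A 1 1);
     E10 (A 0 0) (A 0 1) (A 1 0) (A 1 1), E11 (A 0 0) (A 0 1) (A 1 0) (A 1 1)]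

private theorem det_entries (A : S5) : A 0 0 * A 1 1 - A 0 1 * A 1 0 = 1 := by
  have := A.2
  rwa [Matrix.det_fin_two] at this

private theorem M_one : M 1 = 1 := by
  obtain ⟨h1, h2, h3, h4⟩ := eone
  ext i j
  fin_cases i <;> fin_cases j <;> simp [M, h1, h2, h3, h4]

private theorem M_gen1 (A : S5) (t : ZMod 5) (hij : (0 : Fin 2) ≠ 1) :
    M (A * Matrix.SpecialLinearGroup.transvection hij t) =
      M A * M (Matrix.SpecialLinearGroup.transvection hij t) := by
  obtain ⟨h1, h2, h3, h4⟩ := gen1 (A 0 0) (A 0 1) (A 1 0) (A 1 1) (det_entries A) t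
  set B : S5 := Matrix.SpecialLinearGroup.transvection hij t with hB
  have b00 : B 0 0 = 1 := by simp [hB, Matrix.SpecialLinearGroup.transvection_coe]
  have b01 : B 0 1 = t := by simp [hB, Matrix.SpecialLinearGroup.transvection_coe]
  have b10 : B 1 0 = 0 := by simp [hB, Matrix.SpecialLinearGroup.transvection_coe]
  have b11 : B 1 1 = 1 := by simp [hB, Matrix.SpecialLinearGroup.transvection_coe]
  have e : ∀ i j, (A * B) i j = A i 0 * B 0 j + A i 1 * B 1 j := by
    intro i j
    rw [Matrix.SpecialLinearGroup.coe_mul, Matrix.mul_apply, Fin.sum_univ_two]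
  have e00 : (A * B) 0 0 = A 0 0 := by rw [e, b00, b10]; ring
  have e01 : (A * B) 0 1 = A 0 0 * t + A 0 1 := by rw [e, b01, b11]; ring
  have e10 : (A * B) 1 0 = A 1 0 := by rw [e, b00, b10]; ring
  have e11 : (A * B) 1 1 = A 1 0 * t + A 1 1 := by rw [e, b01, b11]; ring
  unfold M
  rw [e00, e01, e10, e11, b00, b01, b10, b11, Matrix.mul_fin_two, h1, h2, h3, h4]

private theorem M_gen2 (A : S5) (t : ZMod 5) (hij : (1 : Fin 2) ≠ 0) :
    M (A * Matrix.SpecialLinearGroup.transvection hij t) =
      M A * M (Matrix.SpecialLinearGroup.transvection hij t) := by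
  obtain ⟨h1, h2, h3, h4⟩ := gen2 (A 0 0) (A 0 1) (A 1 0) (A 1 1) (det_entries A) t
  set B : S5 := Matrix.SpecialLinearGroup.transvection hij t with hB
  have b00 : B 0 0 = 1 := by simp [hB, Matrix.SpecialLinearGroup.transvection_coe]
  have b01 : B 0 1 = 0 := by simp [hB, Matrix.SpecialLinearGroup.transvection_coe]
  have b10 : B 1 0 = t := by simp [hB, Matrix.SpecialLinearGroup.transvection_coe]
  have b11 : B 1 1 = 1 := by simp [hB, Matrix.SpecialLinearGroup.transvection_coe]
  have e : ∀ i j, (A * B) i j = A i 0 * B 0 j + A i 1 * B 1 j := by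
    intro i j
    rw [Matrix.SpecialLinearGroup.coe_mul, Matrix.mul_apply, Fin.sum_univ_two]
  have e00 : (A * B) 0 0 = A 0 0 + A 0 1 * t := by rw [e, b00, b10]; ring
  have e01 : (A * B) 0 1 = A 0 1 := by rw [e, b01, b11]; ring
  have e10 : (A * B) 1 0 = A 1 0 + A 1 1 * t := by rw [e, b00, b10]; ring
  have e11 : (A * B) 1 1 = A 1 1 := by rw [e, b01, b11]; ring
  unfold M
  rw [e00, e01, e10, e11, b00, b01, b10, b11, Matrix.mul_fin_two, h1, h2, h3, h4]

private theorem M_mul (A B : S5) : M (A * B) = M A * M B := by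
  revert A
  haveI : Fact (Nat.Prime 5) := ⟨by norm_num⟩
  refine CfsgLib.ClassGeo.SL_transvection_induction (fun B : S5 => ∀ A : S5, M (A * B) = M A * M B) B ?_ ?_
  · intro i j hij t A
    have hf : ∀ i : Fin 2, i = 0 ∨ i = 1 := by decide
    rcases hf i with rfl | rfl <;> rcases hf j with rfl | rfl
    · exact absurd rfl hij
    · exact M_gen1 A t hij
    · exact M_gen2 A t hij
    · exact absurd rfl hij
  · intro C D hC hD A
    rw [← mul_assoc, hD, hC, hD, mul_assoc]

/-- the action on vectors -/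
noncomputable def ψfun (A : S5) : Multiplicative V11 ≃* Multiplicative V11 where
  toFun v := Multiplicative.ofAdd (M A *ᵥ (Multiplicative.toAdd v))
  invFun v := Multiplicative.ofAdd (M A⁻¹ *ᵥ (Multiplicative.toAdd v))
  left_inv v := by
    show Multiplicative.ofAdd (M A⁻¹ *ᵥ (M A *ᵥ (Multiplicative.toAdd v))) = v
    rw [Matrix.mulVec_mulVec, ← M_mul, inv_mul_cancel, M_one, Matrix.one_mulVec]
    rfl
  right_inv v := by
    show Multiplicative.ofAdd (M A *ᵥ (M A⁻¹ *ᵥ (Multiplicative.toAdd v))) = v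
    rw [Matrix.mulVec_mulVec, ← M_mul, mul_inv_cancel, M_one, Matrix.one_mulVec]
    rfl
  map_mul' x y := by
    show Multiplicative.ofAdd (M A *ᵥ (Multiplicative.toAdd x + Multiplicative.toAdd y)) = _
    rw [Matrix.mulVec_add]
    rfl

noncomputable def ψ : S5 →* MulAut (Multiplicative V11) where
  toFun := ψfun
  map_one' := by
    refine MulEquiv.ext fun v => ?_
    show Multiplicative.ofAdd (M 1 *ᵥ (Multiplicative.toAdd v)) = v
    rw [M_one, Matrix.one_mulVec]
    rfl
  map_mul' A B := by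
    refine MulEquiv.ext fun v => ?_
    show Multiplicative.ofAdd (M (A * B) *ᵥ (Multiplicative.toAdd v)) = Multiplicative.ofAdd (M A *ᵥ (M B *ᵥ (Multiplicative.toAdd v)))
    rw [M_mul, ← Matrix.mulVec_mulVec]

private theorem ψ_apply (A : S5) (v : Multiplicative V11) :
    Multiplicative.toAdd (ψ A v) = M A *ᵥ Multiplicative.toAdd v := rfl

/-- fixed-point-freeness on vectors -/
private theorem fpf' (A : S5) (v : V11) (hv : v ≠ 0) (h : M A *ᵥ v = v) : A = 1 := by
  rcases fpf (A 0 0) (A 0 1) (A 1 0) (A 1 1) (det_entries A) with ⟨h1, h2, h3, h4⟩ | hne0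
  · ext i j
    fin_cases i <;> fin_cases j <;> simp [h1, h2, h3, h4]
  · exfalso
    apply hne0
    have h0 : (M A - 1) *ᵥ v = 0 := by
      rw [Matrix.sub_mulVec, Matrix.one_mulVec, h, sub_self]
    have hdet : (M A - 1).det = 0 := by
      by_contra hne
      haveI : Fact (Nat.Prime 11) := ⟨by norm_num⟩
      have := Matrix.eq_zero_of_mulVec_eq_zero hne h0
      exact hv this
    rw [Matrix.det_fin_two] at hdet
    have e0 : (M A - 1) 0 0 = E00 (A 0 0) (A 0 1) (A 1 0) (A 1 1) - 1 := by simp [M]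
    have e1 : (M A - 1) 0 1 = E01 (A 0 0) (A 0 1) (A 1 0) (A 1 1) := by simp [M]
    have e2 : (M A - 1) 1 0 = E10 (A 0 0) (A 0 1) (A 1 0) (A 1 1) := by simp [M]
    have e3 : (M A - 1) 1 1 = E11 (A 0 0) (A 0 1) (A 1 0) (A 1 1) - 1 := by simp [M]
    rw [e0, e1, e2, e3] at hdet
    exact hdet

/-- SL(2,5) occurs as a Frobenius complement: there is a finite group L with a subgroup H isomorphic to SL(2,5) which is a non-trivial proper subgroup meeting each conjugate gHg⁻¹ with g outside H trivially. -/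
theorem result :
    ∃ (L : Type) (_ : Group L) (_ : Finite L) (H : Subgroup L),
      Cfsg.IsFrobeniusComplement H ∧ Nonempty (H ≃* Matrix.SpecialLinearGroup (Fin 2) (ZMod 5)) := by
  classical
  let L := Multiplicative V11 ⋊[ψ] S5
  haveI : Finite L := Finite.of_equiv _ (SemidirectProduct.equivProd (φ := ψ)).symm
  let ι : S5 →* L := SemidirectProduct.inr
  have hι : Function.Injective ι := SemidirectProduct.inr_injective
  refine ⟨L, inferInstance, inferInstance, ι.range, ⟨?_, ?_, ?_⟩, ⟨(MonoidHom.ofInjective hι).symm⟩⟩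
  · -- nontrivial
    intro h
    have h1 : (-1 : S5) = 1 := by
      apply hι
      have : ι (-1) ∈ ι.range := ⟨_, rfl⟩
      rw [h] at this
      rw [Subgroup.mem_bot.1 this, map_one]
    have := congrArg (fun A : S5 => A 0 0) h1
    revert this
    simp only [Matrix.SpecialLinearGroup.coe_neg, Matrix.SpecialLinearGroup.coe_one]
    decide
  · -- proper
    intro h
    have hv : (SemidirectProduct.inl (Multiplicative.ofAdd ![1, 0]) : L) ∈ ι.range := by
      rw [h]; trivial
    obtain ⟨A, hA⟩ := hv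
    have := congrArg SemidirectProduct.left hA
    have h2 : (1 : Multiplicative V11) = Multiplicative.ofAdd ![1, 0] := this
    have h3 : (0 : ZMod 11) = 1 := congrArg (fun w : Multiplicative V11 => (Multiplicative.toAdd w) 0) h2
    exact absurd h3 (by decide)
  · intro g hg
    rw [eq_bot_iff]
    rintro x ⟨⟨h, rfl⟩, hx⟩
    have hx' := (CfsgLib.Lead.mem_conj_smul_iff ι.range g (ι h)).1 hx
    obtain ⟨k, hk⟩ := hx'
    -- decompose g
    have hv : g.left ≠ 1 := by
      intro h1
      apply hg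
      refine ⟨g.right, ?_⟩
      apply SemidirectProduct.ext
      · rw [h1]; rfl
      · rfl
    have hleft : ψ h g.left = g.left := by
      have h1 : ι h * g = g * ι k := by
        rw [hk]; group
      have h2 := congrArg SemidirectProduct.left h1
      have h3 : (1 : Multiplicative V11) * ψ h g.left = g.left * ψ g.right 1 := h2
      simpa using h3
    have hone : h = 1 := by
      apply fpf' h (Multiplicative.toAdd g.left) _ _
      · intro h0
        exact hv (Multiplicative.toAdd.injective h0)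
      · rw [← ψ_apply, hleft]
    rw [hone, map_one]
    exact Subgroup.one_mem _

end Cfsg.Agent.S3374
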