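import Cfsg.Statements.S3375
import Mathlib

set_option autoImplicit false

namespace Cfsg.Agent.S3375

private theorem comm_of_inverted {H : Type*} [Group H] (A : Subgroup H) (γ : MulAut H)
    (hinv : ∀ a ∈ A, γ a = a⁻¹) (a b : H) (ha : a ∈ A) (hb : b ∈ A) : a * b = b * a := by
  have h1 : γ (a * b) = (a * b)⁻¹ := hinv _ (A.mul_mem ha hb)
  rw [map_mul, hinv a ha, hinv b hb, mul_inv_rev] at h1
  have : (a⁻¹ * b⁻¹)⁻¹ = (b⁻¹ * a⁻¹)⁻¹ := by rw [h1]
  simpa using this.symm

/-- Let γ be an automorphism of order 2 of a finite group H. (i) If γ fixes only the identity, then H is abelian and γ inverts every element. (ii) If γ has exactly two fixed points and H has a subgroup of index 2, then H has a γ-invariant abelian subgroup of index 2 on which γ acts by inversion. -/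
theorem result {H : Type*} [Group H] [Finite H] (γ : MulAut H) (hγ : orderOf γ = 2) :
    ((∀ h : H, γ h = h → h = 1) → (∀ a b : H, a * b = b * a) ∧ ∀ h : H, γ h = h⁻¹) ∧
    ((Nat.card {h : H // γ h = h} = 2 ∧ ∃ M : Subgroup H, M.index = 2) →
      ∃ A : Subgroup H, A.index = 2 ∧ IsMulCommutative A ∧ (∀ a ∈ A, γ a ∈ A) ∧ ∀ a ∈ A, γ a = a⁻¹) := by
  classical
  have hγ2 : ∀ x : H, γ (γ x) = x := by
    intro x
    have h : γ ^ 2 = 1 := by rw [← hγ]; exact pow_orderOf_eq_one γ
    have := congrArg (fun f : MulAut H => f x) h
    simpa [pow_two] using this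
  -- the map
  let f : H → H := fun x => x * (γ x)⁻¹
  have hfinv : ∀ x, γ (f x) = (f x)⁻¹ := by
    intro x
    simp [f, hγ2]
  have hfeq : ∀ x y, f x = f y ↔ γ (y⁻¹ * x) = y⁻¹ * x := by
    intro x y
    simp only [f, map_mul, map_inv]
    constructor
    · intro h
      have h' : y⁻¹ * x = (γ y)⁻¹ * γ x := by
        have := congrArg (fun w => y⁻¹ * w * γ x) h
        simp only [mul_assoc, inv_mul_cancel, mul_one, inv_mul_cancel_left] at this
        exact this
      exact h'.symm
    · intro h
      have h' : (γ y)⁻¹ * γ x = y⁻¹ * x := h
      have := congrArg (fun w => y * w * (γ x)⁻¹) h'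
      simp only [mul_assoc, mul_inv_cancel, mul_one, mul_inv_cancel_left] at this
      exact this.symm
  refine ⟨?_, ?_⟩
  · intro hfix
    have hinj : Function.Injective f := by
      intro x y hxy
      have h := (hfeq x y).1 hxy
      have := hfix _ h
      exact (inv_mul_eq_one.1 this).symm
    have hsurj : Function.Surjective f := Finite.surjective_of_injective hinj
    have hall : ∀ h : H, γ h = h⁻¹ := by
      intro h
      obtain ⟨x, rfl⟩ := hsurj h
      exact hfinv x
    exact ⟨fun a b => comm_of_inverted ⊤ γ (fun a _ => hall a) a b trivial trivial, hall⟩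
  · rintro ⟨h2, M, hM⟩
    -- fixed subgroup
    let C : Subgroup H :=
      { carrier := {x | γ x = x}
        mul_mem' := by
          intro a b ha hb
          simp only [Set.mem_setOf_eq] at ha hb ⊢
          rw [map_mul, ha, hb]
        one_mem' := by simp
        inv_mem' := by
          intro a ha
          simp only [Set.mem_setOf_eq] at ha ⊢
          rw [map_inv, ha] }
    have hC : Nat.card C = 2 := h2
    -- the image of f as a set
    have hI : Nat.card (Set.range f) * 2 = Nat.card H := by
      have hcardC := Subgroup.card_mul_index C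
      rw [hC] at hcardC
      have e : Nat.card (Set.range f) = C.index := by
        rw [Subgroup.index]
        let φ : H ⧸ C → Set.range f := fun q => Quotient.liftOn' q (fun x => (⟨f x, x, rfl⟩ : Set.range f))
          (by
            intro a b hab
            apply Subtype.ext
            have hab' : a⁻¹ * b ∈ C := QuotientGroup.leftRel_apply.1 hab
            exact ((hfeq b a).2 hab').symm)
        refine (Nat.card_congr (Equiv.ofBijective φ ⟨?_, ?_⟩)).symm
        · intro p q
          induction p using QuotientGroup.induction_on with | _ a => ?_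
          induction q using QuotientGroup.induction_on with | _ b => ?_
          intro h
          have h' : f a = f b := congrArg Subtype.val h
          exact QuotientGroup.eq.2 ((hfeq b a).1 h'.symm)
        · rintro ⟨_, x, rfl⟩
          exact ⟨QuotientGroup.mk x, rfl⟩
      rw [e]
      linarith
    -- the general principle
    have key : ∀ A : Subgroup H, A ≠ ⊤ → (∀ x, f x ∈ A) → (∀ a ∈ A, γ a ∈ A) →
        ∃ A : Subgroup H, A.index = 2 ∧ IsMulCommutative A ∧ (∀ a ∈ A, γ a ∈ A) ∧ ∀ a ∈ A, γ a = a⁻¹ := by
      intro A hA hfA hstab
      have hle : Nat.card (Set.range f) ≤ Nat.card A := by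
        refine Nat.card_le_card_of_injective (fun y => (⟨y.1, ?_⟩ : A)) ?_
        · obtain ⟨x, hx⟩ := y.2
          rw [← hx]; exact hfA x
        · intro y z hyz
          exact Subtype.ext (congrArg (fun w : A => (w : H)) hyz)
      have hidx : A.index ≠ 1 := by
        intro h; exact hA (Subgroup.index_eq_one.1 h)
      have hcard := Subgroup.card_mul_index A
      have hpos : 0 < Nat.card H := Nat.card_pos
      have hidx0 : A.index ≠ 0 := Subgroup.index_ne_zero_of_finite
      have hidx2 : 2 ≤ A.index := by omega
      have hA2 : A.index = 2 := by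
        by_contra hne
        have h3 : 3 ≤ A.index := by omega
        have hApos : 0 < Nat.card A := Nat.card_pos
        have : Nat.card A * 3 ≤ Nat.card A * A.index := Nat.mul_le_mul_left _ h3
        nlinarith
      have hAeq : Nat.card (Set.range f) = Nat.card A := by
        rw [hA2] at hcard
        omega
      have hAsub : ∀ a ∈ A, a ∈ Set.range f := by
        -- injective map between same card is bijective
        have hinj : Function.Injective (fun y : Set.range f => (⟨y.1, by
            obtain ⟨x, hx⟩ := y.2
            rw [← hx]; exact hfA x⟩ : A)) := by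
          intro y z hyz
          exact Subtype.ext (congrArg (fun w : A => (w : H)) hyz)
        have hbij := (Nat.bijective_iff_injective_and_card _).2 ⟨hinj, hAeq⟩
        intro a ha
        obtain ⟨y, hy⟩ := hbij.2 ⟨a, ha⟩
        have : y.1 = a := congrArg (fun w : A => (w : H)) hy
        rw [← this]; exact y.2
      have hinv : ∀ a ∈ A, γ a = a⁻¹ := by
        intro a ha
        obtain ⟨x, rfl⟩ := hAsub a ha
        exact hfinv x
      refine ⟨A, hA2, ⟨⟨?_⟩⟩, hstab, hinv⟩
      intro a b
      exact Subtype.ext (comm_of_inverted A γ hinv a.1 b.1 a.2 b.2)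
    by_cases hst : ∀ x, x ∈ M ↔ γ x ∈ M
    · refine key M ?_ ?_ (fun a ha => (hst a).1 ha)
      · rintro rfl; simp at hM
      · intro x
        simp only [f]
        haveI : M.Normal := Subgroup.normal_of_index_eq_two hM
        rw [Subgroup.mul_mem_iff_of_index_two hM, inv_mem_iff]
        exact hst x
    · let A : Subgroup H :=
        { carrier := {x | x ∈ M ↔ γ x ∈ M}
          mul_mem' := by
            intro a b ha hb
            simp only [Set.mem_setOf_eq] at ha hb ⊢
            rw [Subgroup.mul_mem_iff_of_index_two hM, map_mul, Subgroup.mul_mem_iff_of_index_two hM, ha, hb]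
          one_mem' := by simp [M.one_mem]
          inv_mem' := by
            intro a ha
            simp only [Set.mem_setOf_eq] at ha ⊢
            rw [inv_mem_iff, map_inv, inv_mem_iff]
            exact ha }
      refine key A ?_ ?_ ?_
      · intro htop
        apply hst
        intro x
        have : x ∈ A := by rw [htop]; trivial
        exact this
      · intro x
        show f x ∈ M ↔ γ (f x) ∈ M
        simp only [f, map_mul, map_inv, hγ2]
        rw [Subgroup.mul_mem_iff_of_index_two hM, Subgroup.mul_mem_iff_of_index_two hM, inv_mem_iff, inv_mem_iff]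
        tauto
      · intro a ha
        show γ a ∈ M ↔ γ (γ a) ∈ M
        rw [hγ2]
        exact (show a ∈ M ↔ γ a ∈ M from ha).symm

end Cfsg.Agent.S3375
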