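import Cfsg.Statements.S3377
import Cfsg.Agent.Lib.Dickson.Tri

set_option autoImplicit false
open Cfsg

namespace Cfsg.Agent.S3377

/-- The alternating group of degree 5 has the presentation ⟨x, y | x³ = 1, y⁵ = 1, (xy)² = 1⟩: the group so presented is isomorphic to Alt(5). -/
theorem result :
    Nonempty (PresentedGroup ({FreeGroup.of (0 : Fin 2) ^ 3, FreeGroup.of (1 : Fin 2) ^ 5,
        (FreeGroup.of (0 : Fin 2) * FreeGroup.of 1) ^ 2} : Set (FreeGroup (Fin 2))) ≃* alternatingGroup (Fin 5)) := by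
  classical
  set R : Set (FreeGroup (Fin 2)) := {FreeGroup.of (0 : Fin 2) ^ 3, FreeGroup.of (1 : Fin 2) ^ 5,
        (FreeGroup.of (0 : Fin 2) * FreeGroup.of 1) ^ 2} with hR
  let a : PresentedGroup R := PresentedGroup.of 0
  let b : PresentedGroup R := PresentedGroup.of 1
  have hrel : ∀ r ∈ R, PresentedGroup.mk R r = 1 := fun r hr => PresentedGroup.one_of_mem hr
  have ha3 : a ^ 3 = 1 := by
    have := hrel (FreeGroup.of (0 : Fin 2) ^ 3) (by simp [hR])
    rw [map_pow] at this
    exact this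
  have hb5 : b ^ 5 = 1 := by
    have := hrel (FreeGroup.of (1 : Fin 2) ^ 5) (by simp [hR])
    rw [map_pow] at this
    exact this
  have hab2 : (a * b) ^ 2 = 1 := by
    have := hrel ((FreeGroup.of (0 : Fin 2) * FreeGroup.of 1) ^ 2) (by simp [hR])
    rw [map_pow, map_mul] at this
    exact this
  have hy : (a⁻¹) ^ 3 = 1 := by rw [inv_pow, ha3, inv_one]
  have hxy : ((a * b) * a⁻¹) ^ 5 = 1 := by
    have e : (a * b) * a⁻¹ = a * b * a⁻¹ := rfl
    rw [conj_pow, hb5]
    simp
  obtain ⟨φ, hφx, hφy⟩ := CfsgLib.Present.hom_A5 (a * b) a⁻¹ hab2 hy hxy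
  -- the map to `A₅`
  let f : Fin 2 → alternatingGroup (Fin 5) := ![CfsgLib.Present.yA5⁻¹, CfsgLib.Present.yA5 * CfsgLib.Present.xA5]
  have hf : ∀ r ∈ R, FreeGroup.lift f r = 1 := by
    intro r hr
    rcases hr with rfl | rfl | rfl
    · simp [f]
      decide +kernel
    · simp [f]
      decide +kernel
    · simp [f]
      decide +kernel
  let ψ : PresentedGroup R →* alternatingGroup (Fin 5) := PresentedGroup.toGroup hf
  have hψa : ψ a = CfsgLib.Present.yA5⁻¹ := by
    simp [ψ, a, f]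
  have hψb : ψ b = CfsgLib.Present.yA5 * CfsgLib.Present.xA5 := by
    simp [ψ, b, f]
  have hinj : Function.Injective φ := by
    apply CfsgLib.Present.inj_A5
    intro h
    rw [hφx] at h
    have h2 : ψ (a * b) = 1 := by rw [h, map_one]
    rw [map_mul, hψa, hψb] at h2
    revert h2
    decide +kernel
  have hsurj : Function.Surjective φ := by
    rw [← MonoidHom.range_eq_top, eq_top_iff, ← PresentedGroup.closure_range_of]
    rw [Subgroup.closure_le]
    rintro _ ⟨i, rfl⟩
    fin_cases i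
    · refine ⟨CfsgLib.Present.yA5⁻¹, ?_⟩
      rw [map_inv, hφy, inv_inv]
      rfl
    · refine ⟨CfsgLib.Present.yA5 * CfsgLib.Present.xA5, ?_⟩
      rw [map_mul, hφx, hφy]
      show a⁻¹ * (a * b) = b
      group
  exact ⟨(MulEquiv.ofBijective φ ⟨hinj, hsurj⟩).symm⟩

end Cfsg.Agent.S3377
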