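import Cfsg.Statements.S3379

set_option autoImplicit false
open Cfsg

namespace Cfsg.Agent.S3379

/-- Let G be a finite group all of whose Sylow subgroups are cyclic. Then G is generated by two elements x and y of coprime orders n and m with x⁻¹yx = y^r, where gcd(r − 1, m) = 1 and r^n ≡ 1 (mod m). -/
theorem result {G : Type*} [Group G] [Finite G]
    (hZ : ∀ (p : ℕ) [Fact p.Prime] (P : Sylow p G), IsCyclic (P : Subgroup G)) :
    ∃ (x y : G) (n m r : ℕ), Subgroup.closure {x, y} = ⊤ ∧ orderOf x = n ∧ orderOf y = m ∧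
      x⁻¹ * y * x = y ^ r ∧ Nat.Coprime (r - 1) m ∧ Nat.Coprime n m ∧ 1 ≤ r ∧ r ^ n % m = 1 % m := by
  classical
  haveI : IsZGroup G := ⟨fun p hp P => by
    haveI := Fact.mk hp
    exact hZ p P⟩
  obtain ⟨H, hH⟩ := Subgroup.exists_right_complement'_of_coprime (IsZGroup.coprime_commutator_index G)
  have h1 : Abelianization G ≃* H := hH.symm.QuotientMulEquiv
  haveI : IsCyclic H := isCyclic_of_surjective _ h1.surjective
  haveI : IsCyclic (commutator G) := IsZGroup.isCyclic_commutator G
  obtain ⟨a, ha⟩ := IsCyclic.exists_generator (α := H)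
  obtain ⟨b, hb⟩ := IsCyclic.exists_generator (α := commutator G)
  set x : G := (a : G) with hx
  set y : G := (b : G) with hy
  have hNy : ∀ g ∈ commutator G, ∃ k : ℤ, g = y ^ k := by
    intro g hg
    obtain ⟨k, hk⟩ := Subgroup.mem_zpowers_iff.1 (hb ⟨g, hg⟩)
    refine ⟨k, ?_⟩
    have := congrArg Subtype.val hk
    simpa [hy] using this.symm
  have hHx : ∀ g ∈ H, ∃ k : ℤ, g = x ^ k := by
    intro g hg
    obtain ⟨k, hk⟩ := Subgroup.mem_zpowers_iff.1 (ha ⟨g, hg⟩)
    refine ⟨k, ?_⟩
    have := congrArg Subtype.val hk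
    simpa [hx] using this.symm
  have hyN : y ∈ commutator G := b.2
  have hxH : x ∈ H := a.2
  -- generation
  have hcl : Subgroup.closure {x, y} = ⊤ := by
    rw [eq_top_iff, ← hH.sup_eq_top]
    apply sup_le
    · intro g hg
      obtain ⟨k, rfl⟩ := hNy g hg
      exact Subgroup.zpow_mem _ (Subgroup.subset_closure (by simp)) _
    · intro g hg
      obtain ⟨k, rfl⟩ := hHx g hg
      exact Subgroup.zpow_mem _ (Subgroup.subset_closure (by simp)) _
  have hm : orderOf y = Nat.card (commutator G) := by
    rw [hy, Subgroup.orderOf_coe]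
    exact orderOf_eq_card_of_forall_mem_zpowers hb
  have hn : orderOf x = Nat.card H := by
    rw [hx, Subgroup.orderOf_coe]
    exact orderOf_eq_card_of_forall_mem_zpowers ha
  have hcop : Nat.Coprime (orderOf x) (orderOf y) := by
    rw [hm, hn]
    have h0 := IsZGroup.coprime_commutator_index G
    rw [hH.symm.index_eq_card] at h0
    exact h0.symm
  have hmpos : 0 < orderOf y := orderOf_pos y
  -- the exponent
  obtain ⟨k, hk⟩ : ∃ k : ℤ, x⁻¹ * y * x = y ^ k := by
    apply hNy
    have := (inferInstance : (commutator G).Normal).conj_mem y hyN x⁻¹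
    simpa using this
  obtain ⟨r, hr1, hr⟩ : ∃ r : ℕ, 1 ≤ r ∧ x⁻¹ * y * x = y ^ r := by
    refine ⟨(k % (orderOf y : ℤ)).toNat + orderOf y, by omega, ?_⟩
    rw [hk, pow_add, pow_orderOf_eq_one, mul_one]
    have h3 : 0 ≤ k % (orderOf y : ℤ) := Int.emod_nonneg _ (by omega)
    rw [← zpow_natCast, Int.toNat_of_nonneg h3, zpow_mod_orderOf]
  have hpow : ∀ i : ℕ, (x⁻¹) ^ i * y * x ^ i = y ^ (r ^ i) := by
    intro i
    induction i with
    | zero => simp
    | succ i ih =>
      have e1 : (x⁻¹) ^ (i + 1) * y * x ^ (i + 1) = x⁻¹ * ((x⁻¹) ^ i * y * x ^ i) * x := by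
        rw [pow_succ' x⁻¹, pow_succ x]; group
      rw [e1, ih, pow_succ' r, pow_mul]
      -- conjugation of a power
      have e2 : ∀ j : ℕ, x⁻¹ * y ^ j * x = (x⁻¹ * y * x) ^ j := by
        intro j
        induction j with
        | zero => simp
        | succ j ihj =>
          rw [pow_succ, pow_succ, ← ihj]; group
      rw [e2, hr]
  have hmod : r ^ orderOf x % orderOf y = 1 % orderOf y := by
    have h2 := hpow (orderOf x)
    rw [inv_pow, pow_orderOf_eq_one, inv_one, one_mul, mul_one] at h2
    have h3 : y ^ 1 = y ^ (r ^ orderOf x) := by rw [pow_one]; exact h2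
    exact ((pow_eq_pow_iff_modEq).1 h3).symm
  -- coprimality of `r - 1`
  have hcoprime : Nat.Coprime (r - 1) (orderOf y) := by
    let L : Subgroup G := Subgroup.zpowers (y ^ (r - 1))
    have hLn : L.Normal := by
      refine ⟨?_⟩
      intro u hu g
      obtain ⟨i, rfl⟩ := Subgroup.mem_zpowers_iff.1 hu
      -- conjugates of `y` are powers of `y`
      obtain ⟨t, ht⟩ := hNy _ ((inferInstance : (commutator G).Normal).conj_mem y hyN g)
      have e : g * (y ^ (r - 1)) ^ i * g⁻¹ = (y ^ (r - 1)) ^ (t * i) := by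
        have e1 : g * (y ^ (r - 1)) ^ i * g⁻¹ = (g * y * g⁻¹) ^ (((r - 1 : ℕ) : ℤ) * i) := by
          rw [conj_zpow, zpow_mul, zpow_natCast]
        rw [e1, ht, ← zpow_natCast y (r - 1), ← zpow_mul, ← zpow_mul]
        congr 1
        ring
      rw [e]
      exact Subgroup.zpow_mem _ (Subgroup.mem_zpowers _) _
    have hπ : (QuotientGroup.mk' L) x⁻¹ * (QuotientGroup.mk' L) y * (QuotientGroup.mk' L) x = (QuotientGroup.mk' L) y := by
      rw [← map_mul, ← map_mul, hr]
      have h5 : y ^ r = y * y ^ (r - 1) := by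
        rw [← pow_succ']
        congr 1
        omega
      rw [h5, map_mul]
      have h6 : (QuotientGroup.mk' L) (y ^ (r - 1)) = 1 := by
        rw [QuotientGroup.mk'_apply, QuotientGroup.eq_one_iff]
        exact Subgroup.mem_zpowers _
      rw [h6, mul_one]
    have hxy : (QuotientGroup.mk' L) y * (QuotientGroup.mk' L) x = (QuotientGroup.mk' L) x * (QuotientGroup.mk' L) y := by
      rw [map_inv, mul_assoc, inv_mul_eq_iff_eq_mul] at hπ
      exact hπ
    have hcomm : ∀ u ∈ Subgroup.closure {x, y}, ∀ v ∈ Subgroup.closure {x, y},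
        (QuotientGroup.mk' L) u * (QuotientGroup.mk' L) v = (QuotientGroup.mk' L) v * (QuotientGroup.mk' L) u := by
      have h1 : Subgroup.closure {x, y} ≤
          (Subgroup.centralizer {(QuotientGroup.mk' L) x, (QuotientGroup.mk' L) y}).comap (QuotientGroup.mk' L) := by
        rw [Subgroup.closure_le]
        rintro w (rfl | rfl)
        · show (QuotientGroup.mk' L) _ ∈ Subgroup.centralizer _
          rw [Subgroup.mem_centralizer_iff]
          rintro t (rfl | rfl)
          · rfl
          · exact hxy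
        · show (QuotientGroup.mk' L) _ ∈ Subgroup.centralizer _
          rw [Subgroup.mem_centralizer_iff]
          rintro t (rfl | rfl)
          · exact hxy.symm
          · rfl
      have h2 : Subgroup.closure {x, y} ≤
          (Subgroup.centralizer ((QuotientGroup.mk' L) '' (Subgroup.closure {x, y} : Subgroup G))).comap (QuotientGroup.mk' L) := by
        rw [Subgroup.closure_le]
        rintro w hw
        show (QuotientGroup.mk' L) _ ∈ Subgroup.centralizer _
        rw [Subgroup.mem_centralizer_iff]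
        rintro t ⟨v, hv, rfl⟩
        have h3 := h1 hv
        have h4 : (QuotientGroup.mk' L) v ∈ Subgroup.centralizer {(QuotientGroup.mk' L) x, (QuotientGroup.mk' L) y} := h3
        rw [Subgroup.mem_centralizer_iff] at h4
        have h5 := h4 ((QuotientGroup.mk' L) w) (by
          rcases hw with rfl | rfl
          · simp
          · simp)
        exact h5.symm
      intro u hu v hv
      have h3 : (QuotientGroup.mk' L) u ∈ Subgroup.centralizer ((QuotientGroup.mk' L) '' (Subgroup.closure {x, y} : Subgroup G)) := h2 hu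
      rw [Subgroup.mem_centralizer_iff] at h3
      exact (h3 _ ⟨v, hv, rfl⟩).symm
    have hle : commutator G ≤ L := by
      rw [commutator_def, Subgroup.commutator_le]
      intro u _ v _
      have h8 := hcomm u (by rw [hcl]; trivial) v (by rw [hcl]; trivial)
      have h9 : (QuotientGroup.mk' L) (u * v * u⁻¹ * v⁻¹) = 1 := by
        rw [map_mul, map_mul, map_mul, map_inv, map_inv, h8]
        group
      rw [QuotientGroup.mk'_apply, QuotientGroup.eq_one_iff] at h9
      exact h9
    obtain ⟨s, hs⟩ := Subgroup.mem_zpowers_iff.1 (hle hyN)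
    have h9 : y ^ (((r - 1 : ℕ) : ℤ) * s - 1) = 1 := by
      rw [zpow_sub, zpow_mul, zpow_natCast, hs, zpow_one, mul_inv_cancel]
    have h10 := (orderOf_dvd_iff_zpow_eq_one).2 h9
    obtain ⟨t, ht⟩ := h10
    have h11 : IsCoprime (((r - 1 : ℕ)) : ℤ) (orderOf y : ℤ) := ⟨s, -t, by linarith⟩
    exact Nat.isCoprime_iff_coprime.1 h11
  exact ⟨x, y, orderOf x, orderOf y, r, hcl, rfl, rfl, hr, hcoprime, hcop, hr1, hmod⟩

end Cfsg.Agent.S3379
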