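import Cfsg.Statements.S3733
import Cfsg.Agent.Lib.FGS.Basic

set_option autoImplicit false
open Cfsg

namespace Cfsg.Agent.S3733

/-- Let A and V be subgroups of a finite group with V abelian and nontrivial and A normalizing V. Suppose a nonempty finite family of proper subgroups of A partitions A: every non-identity element of A lies in exactly one member. If the number of members minus one is coprime to the order of V, then some member B of the family has a non-identity fixed point on V, that is V ∩ C(B) ≠ 1. -/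
theorem result {G : Type*} [Group G] [Finite G] (A V : Subgroup G) (hVab : IsMulCommutative V) (hV : V ≠ ⊥) (hAV : A ≤ Subgroup.normalizer (V : Set G)) (𝒜 : Finset (Subgroup G)) (hne : 𝒜.Nonempty) (hprop : ∀ B ∈ 𝒜, B < A) (hpart : ∀ a ∈ A, a ≠ 1 → ∃! B, B ∈ 𝒜 ∧ a ∈ B) (hk : (𝒜.card - 1).Coprime (Nat.card V)) : ∃ B ∈ 𝒜, V ⊓ Subgroup.centralizer (B : Set G) ≠ ⊥ := by
  classical
  by_contra hcon
  have hbot : ∀ B ∈ 𝒜, V ⊓ Subgroup.centralizer (B : Set G) = ⊥ := by
    intro B hB
    by_contra h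
    exact hcon ⟨B, hB, h⟩
  letI hcg : CommGroup V := { (inferInstance : Group V) with mul_comm := hVab.is_comm.comm }
  -- the conjugation action of `A` on `V`
  have hconj : ∀ k ∈ A, ∀ x ∈ V, k * x * k⁻¹ ∈ V := fun k hk x hx =>
    (Subgroup.mem_normalizer_iff.mp (hAV hk) x).mp hx
  let φ : (k : A) → V →* V := fun k =>
    { toFun := fun x => ⟨(k : G) * x * (k : G)⁻¹, hconj k k.2 x x.2⟩
      map_one' := by
        apply Subtype.ext
        simp
      map_mul' := by
        intro x y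
        apply Subtype.ext
        show (k : G) * ((x : G) * y) * (k : G)⁻¹ = ((k : G) * x * (k : G)⁻¹) * ((k : G) * y * (k : G)⁻¹)
        group }
  -- function on `G`
  let f : V → G → V := fun v g => if h : g ∈ A then φ ⟨g, h⟩ v else 1
  have hf1 : ∀ v : V, f v 1 = v := by
    intro v
    apply Subtype.ext
    simp [f, φ]
  have hfk : ∀ (k : A) (v : V) (g : G), g ∈ A → φ k (f v g) = f v ((k : G) * g) := by
    intro k v g hg
    have h2 : (k : G) * g ∈ A := A.mul_mem k.2 hg
    apply Subtype.ext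
    simp only [f, dif_pos hg, dif_pos h2]
    show (k : G) * (g * v * g⁻¹) * (k : G)⁻¹ = ((k : G) * g) * v * ((k : G) * g)⁻¹
    group
  let F : Subgroup G → Finset G := fun K => (Set.toFinite (K : Set G)).toFinset
  have hF : ∀ K g, g ∈ F K ↔ g ∈ K := by
    intro K g
    simp [F]
  let T : Subgroup G → V → V := fun K v => ∏ g ∈ F K, f v g
  -- `T K v` is fixed by `K`
  have hTfix : ∀ K : Subgroup G, K ≤ A → ∀ v : V, ∀ k : A, (k : G) ∈ K → φ k (T K v) = T K v := by
    intro K hK v k hk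
    simp only [T]
    rw [map_prod]
    rw [Finset.prod_congr rfl (fun g hg => hfk k v g (hK ((hF K g).mp hg)))]
    apply Finset.prod_bij (fun g _ => (k : G) * g)
    · intro g hg
      exact (hF K _).mpr (K.mul_mem hk ((hF K g).mp hg))
    · intro a _ b _ h
      exact mul_left_cancel h
    · intro b hb
      refine ⟨(k : G)⁻¹ * b, (hF K _).mpr (K.mul_mem (K.inv_mem hk) ((hF K b).mp hb)), by group⟩
    · intro g _
      rfl
  have hTone : ∀ B ∈ 𝒜, ∀ v : V, T B v = 1 := by
    intro B hB v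
    have hBA : B ≤ A := (hprop B hB).le
    have h1 : (T B v : G) ∈ V ⊓ Subgroup.centralizer (B : Set G) := by
      refine Subgroup.mem_inf.mpr ⟨(T B v).2, ?_⟩
      rw [Subgroup.mem_centralizer_iff]
      intro b hb
      have h2 := hTfix B hBA v ⟨b, hBA hb⟩ hb
      have h3 : b * (T B v : G) * b⁻¹ = T B v := congrArg Subtype.val h2
      rw [mul_inv_eq_iff_eq_mul] at h3
      exact h3
    rw [hbot B hB] at h1
    exact Subtype.ext (Subgroup.mem_bot.mp h1)
  -- the partition
  have hdecomp : ∀ K : Subgroup G, ∀ v : V, T K v = v * ∏ g ∈ (F K).erase 1, f v g := by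
    intro K v
    have h1 : (1 : G) ∈ F K := (hF K 1).mpr K.one_mem
    simp only [T]
    rw [← Finset.mul_prod_erase (F K) (f v) h1, hf1]
  have hunion : (F A).erase 1 = 𝒜.biUnion (fun B => (F B).erase 1) := by
    ext a
    simp only [Finset.mem_erase, Finset.mem_biUnion, hF]
    constructor
    · rintro ⟨ha1, haA⟩
      obtain ⟨B, ⟨hB, haB⟩, -⟩ := hpart a haA ha1
      exact ⟨B, hB, ha1, haB⟩
    · rintro ⟨B, hB, ha1, haB⟩
      exact ⟨ha1, (hprop B hB).le haB⟩
  have hdisj : (𝒜 : Set (Subgroup G)).PairwiseDisjoint (fun B => (F B).erase 1) := by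
    intro B₁ hB₁ B₂ hB₂ hne
    rw [Function.onFun, Finset.disjoint_left]
    intro a ha₁ ha₂
    have ha₁' := Finset.mem_erase.mp ha₁
    have ha₂' := Finset.mem_erase.mp ha₂
    have haA : a ∈ A := (hprop B₁ hB₁).le ((hF _ _).mp ha₁'.2)
    obtain ⟨B, -, huniq⟩ := hpart a haA ha₁'.1
    have e1 := huniq B₁ ⟨hB₁, (hF _ _).mp ha₁'.2⟩
    have e2 := huniq B₂ ⟨hB₂, (hF _ _).mp ha₂'.2⟩
    exact hne (e1.trans e2.symm)
  obtain ⟨B₀, hB₀⟩ := hne
  have hk1 : 1 ≤ 𝒜.card := Finset.card_pos.mpr ⟨B₀, hB₀⟩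
  have hvpow : ∀ v : V, v ^ (𝒜.card - 1) = 1 := by
    intro v
    have h1 : ∏ B ∈ 𝒜, T B v = 1 := Finset.prod_eq_one (fun B hB => hTone B hB v)
    have h2 : ∏ B ∈ 𝒜, T B v = v ^ 𝒜.card * ∏ g ∈ (F A).erase 1, f v g := by
      rw [hunion, Finset.prod_biUnion hdisj, Finset.prod_congr rfl (fun B _ => hdecomp B v),
        Finset.prod_mul_distrib, Finset.prod_const]
    rw [h2] at h1
    have h3 : T A v * v ^ (𝒜.card - 1) = 1 := by
      rw [hdecomp A v, ← h1]
      have h4 : v ^ 𝒜.card = v * v ^ (𝒜.card - 1) := by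
        rw [← pow_succ', Nat.sub_add_cancel hk1]
      rw [h4]
      exact mul_right_comm v _ _
    have h5 : T A v = 1 := by
      have hBA : B₀ ≤ A := (hprop B₀ hB₀).le
      have h6 : (T A v : G) ∈ V ⊓ Subgroup.centralizer (B₀ : Set G) := by
        refine Subgroup.mem_inf.mpr ⟨(T A v).2, ?_⟩
        rw [Subgroup.mem_centralizer_iff]
        intro b hb
        have h2 := hTfix A le_rfl v ⟨b, hBA hb⟩ (hBA hb)
        have h3 : b * (T A v : G) * b⁻¹ = T A v := congrArg Subtype.val h2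
        rw [mul_inv_eq_iff_eq_mul] at h3
        exact h3
      rw [hbot B₀ hB₀] at h6
      exact Subtype.ext (Subgroup.mem_bot.mp h6)
    rw [h5, one_mul] at h3
    exact h3
  apply hV
  rw [eq_bot_iff]
  intro x hx
  have h1 := hvpow ⟨x, hx⟩
  have h2 : (⟨x, hx⟩ : V) ^ Nat.card V = 1 := pow_card_eq_one'
  have h3 : orderOf (⟨x, hx⟩ : V) ∣ (𝒜.card - 1).gcd (Nat.card V) :=
    Nat.dvd_gcd (orderOf_dvd_of_pow_eq_one h1) (orderOf_dvd_of_pow_eq_one h2)
  rw [hk, Nat.dvd_one, orderOf_eq_one_iff] at h3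
  exact Subgroup.mem_bot.mpr (congrArg Subtype.val h3)

end Cfsg.Agent.S3733
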