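import Cfsg.Statements.S3734
import Cfsg.Agent.Lib.FGS.Basic
import Cfsg.Agent.Lib.FGS.Syl
import Cfsg.Agent.Lib.Solv.PGroup
import Cfsg.Agent.Lib.Solv.CoprimeSylow
import Cfsg.Agent.Lib.SS.FPF
import Cfsg.Agent.Lib.Solv.Nilp

set_option autoImplicit false
open Cfsg
open scoped commutatorElement
open scoped Pointwise

namespace Cfsg.Agent.S3734

open Subgroup CfsgLib.Solv

private lemma cyc_aux {P A₁ : Type*} [Group P] [Finite P] [Group A₁] [Finite A₁] (hA₁ : ∀ a b : A₁, a * b = b * a)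
    (M : Subgroup P) [hMn : M.Normal] (hab : ∀ x y : P, x * y * x⁻¹ * y⁻¹ ∈ M) (hMne : M ≠ ⊤) (α : A₁ →* MulAut P)
    (hαM : ∀ a, ∀ p ∈ M, α a p ∈ M)
    (hdich : ∀ a : A₁, (∀ p, α a p * p⁻¹ ∈ M) ∨ (∀ p, α a p * p⁻¹ ∈ M → p ∈ M)) :
    ∃ a₀ : A₁, ∀ a : A₁, ∃ k : ℕ, ∀ p, α (a * (a₀ ^ k)⁻¹) p * p⁻¹ ∈ M := by
  classical
  letI : CommGroup (P ⧸ M) := { (inferInstance : Group (P ⧸ M)) with
    mul_comm := by
      intro a b
      obtain ⟨a, rfl⟩ := QuotientGroup.mk'_surjective M a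
      obtain ⟨b, rfl⟩ := QuotientGroup.mk'_surjective M b
      rw [← map_mul, ← map_mul]
      apply QuotientGroup.eq.2
      have h3 : (a * b)⁻¹ * (b * a) = b⁻¹ * a⁻¹ * b⁻¹⁻¹ * a⁻¹⁻¹ := by group
      rw [h3]
      exact hab _ _ }
  haveI hnt : Nontrivial (P ⧸ M) := by
    by_contra hn
    have hs : Subsingleton (P ⧸ M) := not_nontrivial_iff_subsingleton.1 hn
    apply hMne
    rw [Subgroup.eq_top_iff']
    intro x
    exact (QuotientGroup.eq_one_iff x).1 (Subsingleton.elim _ _)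
  have hmap : ∀ a : A₁, M.map (α a).toMonoidHom = M := by
    intro a
    apply Subgroup.eq_of_le_of_card_ge
    · rintro _ ⟨x, hx, rfl⟩
      exact hαM a x hx
    · rw [Subgroup.card_map_of_injective (α a).injective]
  let c : A₁ →* MulAut (P ⧸ M) := MonoidHom.mk' (fun a => QuotientGroup.congr M M (α a) (hmap a)) (by
    intro a b
    ext x
    obtain ⟨x, rfl⟩ := QuotientGroup.mk'_surjective M x
    show (((α (a * b)) x : P) : P ⧸ M) = ((α a (α b x) : P) : P ⧸ M)
    rw [map_mul]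
    rfl)
  have hc : ∀ (a : A₁) (p : P), c a (p : P ⧸ M) = ((α a p : P) : P ⧸ M) := by
    intro a p
    rfl
  have heq : ∀ (a : A₁) (p : P), c a (p : P ⧸ M) = (p : P ⧸ M) ↔ α a p * p⁻¹ ∈ M := by
    intro a p
    rw [hc, QuotientGroup.eq_iff_div_mem, div_eq_mul_inv]
  haveI hcyc : IsCyclic c.range := by
    refine CfsgLib.SS.isCyclic_of_fpf_comm (A := c.range) (V := P ⧸ M) c.range.subtype ?_ ?_
    · rintro ⟨_, a, rfl⟩ ⟨_, b, rfl⟩
      apply Subtype.ext
      show c a * c b = c b * c a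
      rw [← map_mul, ← map_mul, hA₁]
    · rintro ⟨_, a, rfl⟩ hr v hv
      obtain ⟨p, rfl⟩ := QuotientGroup.mk'_surjective M v
      have hv' : c a (p : P ⧸ M) = (p : P ⧸ M) := hv
      rw [heq] at hv'
      rcases hdich a with h | h
      · exfalso
        apply hr
        apply Subtype.ext
        show c a = 1
        ext x
        obtain ⟨x, rfl⟩ := QuotientGroup.mk'_surjective M x
        exact (heq a x).2 (h x)
      · exact (QuotientGroup.eq_one_iff p).2 (h p hv')
  obtain ⟨g, hg⟩ := IsCyclic.exists_generator (α := c.range)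
  obtain ⟨_, a₀, rfl⟩ := g
  refine ⟨a₀, fun a => ?_⟩
  have h1 := hg ⟨c a, a, rfl⟩
  rw [← mem_powers_iff_mem_zpowers] at h1
  obtain ⟨k, hk⟩ := h1
  refine ⟨k, fun p => ?_⟩
  rw [← heq]
  have h2 : c a = c a₀ ^ k := by
    have := congrArg Subtype.val hk
    simpa using this.symm
  rw [map_mul, map_inv, map_pow, ← h2, mul_inv_cancel]
  rfl

section main
variable {X : Type*} [Group X] [Finite X]

private lemma conj_mem_of_comm {A B : Subgroup X} (hAab : IsMulCommutative A) (hBA : B ≤ A) {a : X} (ha : a ∈ A)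
    {x : X} (hx : x ∈ centralizer (B : Set X)) : a * x * a⁻¹ ∈ centralizer (B : Set X) := by
  rw [Subgroup.mem_centralizer_iff] at hx ⊢
  intro b hb
  have h1 : a * b = b * a := congrArg Subtype.val (hAab.is_comm.comm ⟨a, ha⟩ ⟨b, hBA hb⟩)
  have h2 := hx b hb
  have h3 : b * a⁻¹ = a⁻¹ * b := by
    calc b * a⁻¹ = a⁻¹ * (a * b) * a⁻¹ := by group
      _ = a⁻¹ * (b * a) * a⁻¹ := by rw [h1]
      _ = a⁻¹ * b := by group
  calc b * (a * x * a⁻¹) = (b * a) * x * a⁻¹ := by group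
    _ = (a * b) * x * a⁻¹ := by rw [h1]
    _ = a * (b * x) * a⁻¹ := by group
    _ = a * (x * b) * a⁻¹ := by rw [h2]
    _ = a * x * (b * a⁻¹) := by group
    _ = a * x * (a⁻¹ * b) := by rw [h3]
    _ = a * x * a⁻¹ * b := by group

private lemma pgroup_gen (A P : Subgroup X) (hAab : IsMulCommutative A) (hAP : A ≤ normalizer (P : Set X))
    (hcop : (Nat.card A).Coprime (Nat.card P)) {p : ℕ} [Fact p.Prime] (hP : IsPGroup p P) :
    P ≤ ⨆ B ∈ {B : Subgroup X | B ≤ A ∧ ∃ a ∈ A, B ⊔ Subgroup.zpowers a = A}, P ⊓ centralizer (B : Set X) := by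
  obtain ⟨L, hL⟩ : ∃ L, L = ⨆ B ∈ {B : Subgroup X | B ≤ A ∧ ∃ a ∈ A, B ⊔ Subgroup.zpowers a = A},
      P ⊓ centralizer (B : Set X) := ⟨_, rfl⟩
  rw [← hL]
  have hLP : L ≤ P := by
    rw [hL]; exact iSup₂_le fun B _ => inf_le_left
  by_contra hcon
  have hLlt : L < P := lt_of_le_of_ne hLP (fun h => hcon h.ge)
  have hLA : A ≤ normalizer (L : Set X) := by
    intro a ha
    apply CfsgLib.FGS.mem_normalizer_of_conj_le
    intro x hx
    have hle : L ≤ L.comap (MulAut.conj a).toMonoidHom := by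
      conv_lhs => rw [hL]
      refine iSup₂_le fun B hB => ?_
      intro y hy
      rw [Subgroup.mem_comap]
      have h1 : a * y * a⁻¹ ∈ P ⊓ centralizer (B : Set X) :=
        Subgroup.mem_inf.2 ⟨(Subgroup.mem_normalizer_iff.1 (hAP ha) y).1 hy.1,
          conj_mem_of_comm hAab hB.1 ha hy.2⟩
      have h2 : P ⊓ centralizer (B : Set X) ≤ L := by
        rw [hL]; exact le_iSup₂_of_le B hB le_rfl
      exact h2 h1
    exact hle hx
  have hfin : ({M : Subgroup X | L ≤ M ∧ M < P ∧ A ≤ normalizer (M : Set X)}).Finite := Set.toFinite _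
  obtain ⟨M, hM⟩ := hfin.exists_maximal ⟨L, le_rfl, hLlt, hLA⟩
  obtain ⟨hLM, hMP, hMA⟩ := hM.1
  -- maximality principle
  have hmax : ∀ C : Subgroup X, M ≤ C → C ≤ P → A ≤ normalizer (C : Set X) → C = M ∨ C = P := by
    intro C h1 h2 h3
    by_cases h4 : C = P
    · exact Or.inr h4
    · left
      have h5 : C < P := lt_of_le_of_ne h2 h4
      exact le_antisymm (hM.2 (show C ∈ {M : Subgroup X | L ≤ M ∧ M < P ∧ A ≤ normalizer (M : Set X)} from
        ⟨hLM.trans h1, h5, h3⟩) h1) h1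
  -- `M` is normal in `P`
  have hPM : P ≤ normalizer (M : Set X) := by
    have h1 : P ⊓ normalizer (M : Set X) = M ∨ P ⊓ normalizer (M : Set X) = P := by
      apply hmax _ (le_inf hMP.le le_normalizer) inf_le_left
      exact CfsgLib.Solv.le_normalizer_inf' hAP (hMA.trans (le_normalizer_of_normalizer_mem_self M))
    rcases h1 with h1 | h1
    · exfalso
      haveI := hP.isNilpotent
      have hne : M.subgroupOf P ≠ ⊤ := by
        intro h
        rw [Subgroup.subgroupOf_eq_top] at h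
        exact absurd h (not_le_of_gt hMP)
      have hs := (CfsgLib.Solv.nilpotent_iff_all_subnormal.1 (inferInstance : Group.IsNilpotent P)) (M.subgroupOf P)
      have hlt := CfsgLib.Solv.lt_normalizer_of_isSubnormal hs hne
      obtain ⟨y, hy, hyM⟩ := SetLike.exists_of_lt hlt
      have hy' : (y : X) ∈ P ⊓ normalizer (M : Set X) := by
        refine Subgroup.mem_inf.2 ⟨y.2, ?_⟩
        rw [Subgroup.mem_normalizer_iff]
        intro m
        constructor
        · intro hm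
          have hmP : m ∈ P := hMP.le hm
          have := (Subgroup.mem_normalizer_iff.1 hy ⟨m, hmP⟩).1 (by rwa [Subgroup.mem_subgroupOf])
          simpa [Subgroup.mem_subgroupOf] using this
        · intro hm
          have h9 : (y : X) * m * (y : X)⁻¹ ∈ P := hMP.le hm
          have hmP : m ∈ P := by
            have h10 : m = (y : X)⁻¹ * ((y : X) * m * (y : X)⁻¹) * y := by group
            rw [h10]
            exact P.mul_mem (P.mul_mem (P.inv_mem y.2) h9) y.2
          have := (Subgroup.mem_normalizer_iff.1 hy ⟨m, hmP⟩).2 (by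
            rw [Subgroup.mem_subgroupOf]; exact hm)
          simpa [Subgroup.mem_subgroupOf] using this
      rw [h1] at hy'
      exact hyM (by rw [Subgroup.mem_subgroupOf]; exact hy')
    · rw [← h1]; exact inf_le_right
  -- work in the type `P`
  obtain ⟨M', hM'⟩ : ∃ M' : Subgroup P, M' = M.subgroupOf P := ⟨_, rfl⟩
  have hM'mem : ∀ x : P, x ∈ M' ↔ (x : X) ∈ M := by
    intro x; rw [hM', Subgroup.mem_subgroupOf]
  haveI hM'n : M'.Normal := by
    constructor
    intro n hn g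
    rw [hM'mem] at hn ⊢
    exact (Subgroup.mem_normalizer_iff.1 (hPM g.2) _).1 hn
  have hM'ne : M' ≠ ⊤ := by
    intro h
    apply not_le_of_gt hMP
    intro x hx
    have : (⟨x, hx⟩ : P) ∈ M' := by rw [h]; exact Subgroup.mem_top _
    exact (hM'mem _).1 this
  -- `P / M` is abelian
  have hcomm : ∀ x y : P, x * y * x⁻¹ * y⁻¹ ∈ M' := by
    haveI := hP.isNilpotent
    have hfr := (CfsgLib.Solv.pgroup_commutator_pow_le_frattini hP).1
    have hK := hmax (⁅P, P⁆ ⊔ M) le_sup_right (sup_le (by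
        rw [Subgroup.commutator_le]
        intro u hu v hv
        rw [commutatorElement_def]
        exact P.mul_mem (P.mul_mem (P.mul_mem hu hv) (P.inv_mem hu)) (P.inv_mem hv)) hMP.le)
      (by
        intro a ha
        apply CfsgLib.FGS.mem_normalizer_of_conj_le
        have hle : ⁅P, P⁆ ⊔ M ≤ (⁅P, P⁆ ⊔ M).comap (MulAut.conj a).toMonoidHom := by
          refine sup_le ?_ ?_
          · rw [Subgroup.commutator_le]
            intro u hu v hv
            rw [Subgroup.mem_comap]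
            have h1 : (MulAut.conj a).toMonoidHom ⁅u, v⁆ = ⁅a * u * a⁻¹, a * v * a⁻¹⁆ := by
              show a * ⁅u, v⁆ * a⁻¹ = _
              simp only [commutatorElement_def]; group
            rw [h1]
            exact Subgroup.mem_sup_left (Subgroup.commutator_mem_commutator
              ((Subgroup.mem_normalizer_iff.1 (hAP ha) u).1 hu) ((Subgroup.mem_normalizer_iff.1 (hAP ha) v).1 hv))
          · intro u hu
            rw [Subgroup.mem_comap]
            exact Subgroup.mem_sup_right ((Subgroup.mem_normalizer_iff.1 (hMA ha) u).1 hu)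
        intro x hx
        exact hle hx)
    have hcM : ⁅P, P⁆ ≤ M := by
      rcases hK with h | h
      · rw [← h]; exact le_sup_left
      · exfalso
        -- `[P,P] M = P`: then `M = P` by the Frattini argument
        apply hM'ne
        have h1 : frattini P ⊔ M' = ⊤ := by
          rw [eq_top_iff]
          intro x _
          have hx : (x : X) ∈ ⁅P, P⁆ ⊔ M := by rw [h]; exact x.2
          -- `M` normal in `P`
          have hle : ⁅P, P⁆ ⊔ M ≤ ((frattini P ⊔ M').map P.subtype) := by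
            refine sup_le ?_ ?_
            · rw [Subgroup.commutator_le]
              intro u hu v hv
              have hc : ⁅(⟨u, hu⟩ : P), (⟨v, hv⟩ : P)⁆ ∈ frattini P :=
                hfr (Subgroup.commutator_mem_commutator (Subgroup.mem_top _) (Subgroup.mem_top _))
              exact ⟨_, Subgroup.mem_sup_left hc, rfl⟩
            · intro m hm
              exact ⟨⟨m, hMP.le hm⟩, Subgroup.mem_sup_right ((hM'mem _).2 hm), rfl⟩
          obtain ⟨y, hy, hyx⟩ := hle hx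
          have : y = x := Subtype.ext hyx
          rwa [← this]
        exact frattini_nongenerating (by rw [sup_comm]; exact h1)
    intro x y
    rw [hM'mem]
    have hc : ⁅(x : X), (y : X)⁆ ∈ ⁅P, P⁆ := Subgroup.commutator_mem_commutator x.2 y.2
    exact hcM hc
  -- the action
  let α : A →* MulAut P := (normalizerMonoidHom P).comp (Subgroup.inclusion hAP)
  have hα : ∀ (a : A) (q : P), ((α a q : P) : X) = a * q * (a : X)⁻¹ := fun a q => rfl
  have hαM : ∀ a, ∀ q ∈ M', α a q ∈ M' := by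
    intro a q hq
    rw [hM'mem] at hq ⊢
    rw [hα]
    exact (Subgroup.mem_normalizer_iff.1 (hMA a.2) _).1 hq
  have hdich : ∀ a : A, (∀ q, α a q * q⁻¹ ∈ M') ∨ (∀ q, α a q * q⁻¹ ∈ M' → q ∈ M') := by
    intro a
    obtain ⟨C, hC⟩ : ∃ C : Subgroup X, ∀ x, x ∈ C ↔ x ∈ P ∧ (a : X) * x * (a : X)⁻¹ * x⁻¹ ∈ M := by
      refine ⟨{ carrier := {x | x ∈ P ∧ (a : X) * x * (a : X)⁻¹ * x⁻¹ ∈ M}
                one_mem' := ⟨P.one_mem, by simpa using M.one_mem⟩
                mul_mem' := ?_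
                inv_mem' := ?_ }, fun x => Iff.rfl⟩
      · rintro x y ⟨hx, hx'⟩ ⟨hy, hy'⟩
        refine ⟨P.mul_mem hx hy, ?_⟩
        have h1 : (a : X) * (x * y) * (a : X)⁻¹ * (x * y)⁻¹ =
            ((a : X) * x * (a : X)⁻¹ * x⁻¹) * (x * ((a : X) * y * (a : X)⁻¹ * y⁻¹) * x⁻¹) := by group
        rw [h1]
        exact M.mul_mem hx' ((Subgroup.mem_normalizer_iff.1 (hPM hx) _).1 hy')
      · rintro x ⟨hx, hx'⟩
        refine ⟨P.inv_mem hx, ?_⟩
        have h1 : (a : X) * x⁻¹ * (a : X)⁻¹ * x⁻¹⁻¹ =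
            ((a : X) * x⁻¹ * (a : X)⁻¹) * (((a : X) * x * (a : X)⁻¹ * x⁻¹)⁻¹) * ((a : X) * x⁻¹ * (a : X)⁻¹)⁻¹ := by group
        rw [h1]
        have ha' : (a : X) * x⁻¹ * (a : X)⁻¹ ∈ P := (Subgroup.mem_normalizer_iff.1 (hAP a.2) _).1 (P.inv_mem hx)
        exact (Subgroup.mem_normalizer_iff.1 (hPM ha') _).1 (M.inv_mem hx')
    have hMC : M ≤ C := by
      intro m hm
      rw [hC]
      refine ⟨hMP.le hm, ?_⟩
      exact M.mul_mem ((Subgroup.mem_normalizer_iff.1 (hMA a.2) _).1 hm) (M.inv_mem hm)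
    have hCP : C ≤ P := fun x hx => ((hC x).1 hx).1
    have hCA : A ≤ normalizer (C : Set X) := by
      intro b hb
      apply CfsgLib.FGS.mem_normalizer_of_conj_le
      intro x hx
      rw [hC] at hx ⊢
      refine ⟨(Subgroup.mem_normalizer_iff.1 (hAP hb) _).1 hx.1, ?_⟩
      have hab : (a : X) * b = b * a := congrArg Subtype.val (hAab.is_comm.comm a ⟨b, hb⟩)
      have h1 : (a : X) * (b * x * b⁻¹) * (a : X)⁻¹ * (b * x * b⁻¹)⁻¹ =
          b * ((a : X) * x * (a : X)⁻¹ * x⁻¹) * b⁻¹ := by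
        have hab' : (a : X)⁻¹ * b = b * (a : X)⁻¹ := by
          calc (a : X)⁻¹ * b = (a : X)⁻¹ * (b * a) * (a : X)⁻¹ := by group
            _ = (a : X)⁻¹ * ((a : X) * b) * (a : X)⁻¹ := by rw [hab]
            _ = b * (a : X)⁻¹ := by group
        calc (a : X) * (b * x * b⁻¹) * (a : X)⁻¹ * (b * x * b⁻¹)⁻¹
            = ((a : X) * b) * x * b⁻¹ * (a : X)⁻¹ * (b * x⁻¹ * b⁻¹) := by group
          _ = (b * a) * x * b⁻¹ * (a : X)⁻¹ * (b * x⁻¹ * b⁻¹) := by rw [hab]
          _ = (b * a) * x * (b⁻¹ * ((a : X)⁻¹ * b)) * x⁻¹ * b⁻¹ := by group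
          _ = (b * a) * x * (b⁻¹ * (b * (a : X)⁻¹)) * x⁻¹ * b⁻¹ := by rw [hab']
          _ = _ := by group
      rw [h1]
      exact (Subgroup.mem_normalizer_iff.1 (hMA hb) _).1 hx.2
    rcases hmax C hMC hCP hCA with h | h
    · right
      intro q hq
      rw [hM'mem] at hq ⊢
      rw [← h, hC]
      refine ⟨q.2, ?_⟩
      exact hq
    · left
      intro q
      rw [hM'mem]
      have hq : (q : X) ∈ C := by rw [h]; exact q.2
      exact ((hC _).1 hq).2
  obtain ⟨a₀, ha₀⟩ := cyc_aux (P := P) (A₁ := A) (fun a b => hAab.is_comm.comm a b) M' hcomm hM'ne α hαM hdich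
  -- the subgroup `B`
  obtain ⟨B, hB⟩ : ∃ B : Subgroup X, ∀ x, x ∈ B ↔ x ∈ A ∧ ∀ q ∈ P, x * q * x⁻¹ * q⁻¹ ∈ M := by
    refine ⟨{ carrier := {x | x ∈ A ∧ ∀ q ∈ P, x * q * x⁻¹ * q⁻¹ ∈ M}
              one_mem' := ⟨A.one_mem, fun q _ => by simpa using M.one_mem⟩
              mul_mem' := ?_
              inv_mem' := ?_ }, fun x => Iff.rfl⟩
    · rintro x y ⟨hx, hx'⟩ ⟨hy, hy'⟩
      refine ⟨A.mul_mem hx hy, fun q hq => ?_⟩
      have h1 : (x * y) * q * (x * y)⁻¹ * q⁻¹ = (x * (y * q * y⁻¹ * q⁻¹) * x⁻¹) * (x * q * x⁻¹ * q⁻¹) := by group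
      rw [h1]
      exact M.mul_mem ((Subgroup.mem_normalizer_iff.1 (hMA hx) _).1 (hy' q hq)) (hx' q hq)
    · rintro x ⟨hx, hx'⟩
      refine ⟨A.inv_mem hx, fun q hq => ?_⟩
      have hq' : x⁻¹ * q * x ∈ P := by
        have := (Subgroup.mem_normalizer_iff.1 (hAP (A.inv_mem hx)) q).1 hq
        simpa using this
      have h1 := M.inv_mem (hx' _ hq')
      have h2 : (x * (x⁻¹ * q * x) * x⁻¹ * (x⁻¹ * q * x)⁻¹)⁻¹ = x⁻¹ * q * x⁻¹⁻¹ * q⁻¹ := by group
      rw [h2] at h1
      exact h1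
  have hBA : B ≤ A := fun x hx => ((hB x).1 hx).1
  have hBs : B ∈ {B : Subgroup X | B ≤ A ∧ ∃ a ∈ A, B ⊔ Subgroup.zpowers a = A} := by
    refine ⟨hBA, (a₀ : X), a₀.2, le_antisymm (sup_le hBA ((Subgroup.zpowers_le).2 a₀.2)) ?_⟩
    intro a ha
    obtain ⟨k, hk⟩ := ha₀ ⟨a, ha⟩
    have hb : a * ((a₀ : X) ^ k)⁻¹ ∈ B := by
      rw [hB]
      refine ⟨A.mul_mem ha (A.inv_mem (A.pow_mem a₀.2 k)), fun q hq => ?_⟩
      have h1 := hk ⟨q, hq⟩
      rw [hM'mem] at h1
      exact h1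
    have h2 : a = (a * ((a₀ : X) ^ k)⁻¹) * (a₀ : X) ^ k := by group
    rw [h2]
    exact Subgroup.mul_mem _ (Subgroup.mem_sup_left hb)
      (Subgroup.mem_sup_right (Subgroup.pow_mem _ (Subgroup.mem_zpowers _) k))
  apply not_le_of_gt hMP
  intro x hx
  haveI := hP.isNilpotent
  obtain ⟨c, hc, hxc⟩ := coprime_fixed_coset B P (hBA.trans hAP)
    (Nat.Coprime.coprime_dvd_left (Subgroup.card_dvd_of_le hBA) hcop) (Or.inr inferInstance) M hMP.le hPM
    (hBA.trans hMA) x hx (fun b hb => ((hB b).1 hb).2 x hx)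
  have hcL : c ∈ L := by
    rw [hL]
    exact (le_iSup₂_of_le B hBs le_rfl : P ⊓ centralizer (B : Set X) ≤ _) hc
  have h1 : x = c * (x⁻¹ * c)⁻¹ := by group
  rw [h1]
  exact M.mul_mem (hLM hcL) (M.inv_mem hxc)

end main

/-- Let A and G be subgroups of a finite group with A abelian, A normalizing G and the orders of A and G coprime. Then G is generated by the fixed-point subgroups C_G(B) of those subgroups B of A for which A/B is cyclic (that is, A = ⟨B, a⟩ for some a), and [G, A] is generated by the commutator subgroups [C_G(B), A] over the same subgroups B. -/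
theorem result {X : Type*} [Group X] [Finite X] (A G : Subgroup X) (hAab : IsMulCommutative A) (hAG : A ≤ Subgroup.normalizer (G : Set X)) (hcop : (Nat.card A).Coprime (Nat.card G)) : (⨆ B ∈ {B : Subgroup X | B ≤ A ∧ ∃ a ∈ A, B ⊔ Subgroup.zpowers a = A}, G ⊓ Subgroup.centralizer (B : Set X)) = G ∧ (⨆ B ∈ {B : Subgroup X | B ≤ A ∧ ∃ a ∈ A, B ⊔ Subgroup.zpowers a = A}, ⁅G ⊓ Subgroup.centralizer (B : Set X), A⁆) = ⁅G, A⁆ := by
  have hAsolv : Group.IsSolvable A := Group.isSolvable_of_comm (fun a b => hAab.is_comm.comm a b)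
  -- the first part, for arbitrary invariant subgroups
  have part1 : ∀ K : Subgroup X, A ≤ Subgroup.normalizer (K : Set X) → (Nat.card A).Coprime (Nat.card K) →
      (⨆ B ∈ {B : Subgroup X | B ≤ A ∧ ∃ a ∈ A, B ⊔ Subgroup.zpowers a = A}, K ⊓ Subgroup.centralizer (B : Set X)) = K := by
    intro K hAK hcopK
    obtain ⟨L, hL⟩ : ∃ L, L = ⨆ B ∈ {B : Subgroup X | B ≤ A ∧ ∃ a ∈ A, B ⊔ Subgroup.zpowers a = A},
        K ⊓ Subgroup.centralizer (B : Set X) := ⟨_, rfl⟩
    rw [← hL]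
    have hLK : L ≤ K := by
      rw [hL]; exact iSup₂_le fun B _ => inf_le_left
    apply le_antisymm hLK
    rw [← Subgroup.relIndex_eq_one]
    by_contra hne
    obtain ⟨p, hp, hpd⟩ := Nat.exists_prime_and_dvd hne
    haveI : Fact p.Prime := ⟨hp⟩
    obtain ⟨P, hPS, hPA⟩ := CfsgLib.Solv.exists_invariant_sylow (p := p) A K hAK hcopK (Or.inl hAsolv)
    have hPL : P ≤ L := by
      refine (pgroup_gen A P hAab hPA (Nat.Coprime.coprime_dvd_right (Subgroup.card_dvd_of_le hPS.1) hcopK) hPS.2.1).trans ?_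
      refine iSup₂_le fun B hB => ?_
      rw [hL]
      exact le_iSup₂_of_le B hB (inf_le_inf_right _ hPS.1)
    exact hPS.2.2 (hpd.trans (Subgroup.relIndex_dvd_of_le_left K hPL))
  refine ⟨part1 G hAG hcop, ?_⟩
  -- the second part
  obtain ⟨T, hT⟩ : ∃ T, T = ⨆ B ∈ {B : Subgroup X | B ≤ A ∧ ∃ a ∈ A, B ⊔ Subgroup.zpowers a = A},
      ⁅G ⊓ Subgroup.centralizer (B : Set X), A⁆ := ⟨_, rfl⟩
  rw [← hT]
  obtain ⟨K, hK⟩ : ∃ K, K = ⁅G, A⁆ := ⟨_, rfl⟩
  rw [← hK]
  have hKG : K ≤ G := by rw [hK]; exact commutator_le_of_normalizes hAG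
  have hAK : A ≤ Subgroup.normalizer (K : Set X) := by
    rw [hK]; exact le_normalizer_commutator_right hAG
  have hcopK : (Nat.card A).Coprime (Nat.card K) :=
    Nat.Coprime.coprime_dvd_right (Subgroup.card_dvd_of_le hKG) hcop
  have hTK : T ≤ K := by
    rw [hT, hK]
    exact iSup₂_le fun B _ => Subgroup.commutator_mono inf_le_left le_rfl
  -- `T` is invariant
  have hTinv : ∀ u : X, (∀ g ∈ G, u * g * u⁻¹ ∈ G) → (∀ a ∈ A, u * a = a * u) →
      u ∈ Subgroup.normalizer (T : Set X) := by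
    intro u hu1 hu2
    apply CfsgLib.FGS.mem_normalizer_of_conj_le
    have hle : T ≤ T.comap (MulAut.conj u).toMonoidHom := by
      conv_lhs => rw [hT]
      refine iSup₂_le fun B hB => ?_
      rw [← Subgroup.map_le_iff_le_comap, Subgroup.map_commutator]
      have h1 : (G ⊓ Subgroup.centralizer (B : Set X)).map (MulAut.conj u).toMonoidHom ≤ G ⊓ Subgroup.centralizer (B : Set X) := by
        rintro _ ⟨x, hx, rfl⟩
        refine Subgroup.mem_inf.2 ⟨hu1 x hx.1, ?_⟩
        rw [Subgroup.mem_centralizer_iff]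
        intro b hb
        have h3 := hu2 b (hB.1 hb)
        have h4 := (Subgroup.mem_centralizer_iff.1 hx.2) b hb
        show b * (u * x * u⁻¹) = u * x * u⁻¹ * b
        have h5 : u⁻¹ * b = b * u⁻¹ := by
          calc u⁻¹ * b = u⁻¹ * (b * u) * u⁻¹ := by group
            _ = u⁻¹ * (u * b) * u⁻¹ := by rw [h3]
            _ = b * u⁻¹ := by group
        calc b * (u * x * u⁻¹) = (b * u) * x * u⁻¹ := by group
          _ = (u * b) * x * u⁻¹ := by rw [h3]
          _ = u * (b * x) * u⁻¹ := by group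
          _ = u * (x * b) * u⁻¹ := by rw [h4]
          _ = u * x * (b * u⁻¹) := by group
          _ = u * x * (u⁻¹ * b) := by rw [h5]
          _ = u * x * u⁻¹ * b := by group
      have h2 : A.map (MulAut.conj u).toMonoidHom ≤ A := by
        rintro _ ⟨a, ha, rfl⟩
        show u * a * u⁻¹ ∈ A
        rw [hu2 a ha]
        simpa using ha
      refine (Subgroup.commutator_mono h1 h2).trans ?_
      rw [hT]
      exact le_iSup₂_of_le B hB le_rfl
    intro x hx
    exact hle hx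
  have hAT : A ≤ Subgroup.normalizer (T : Set X) := by
    intro a ha
    apply hTinv a
    · intro g hg
      exact (Subgroup.mem_normalizer_iff.1 (hAG ha) g).1 hg
    · intro b hb
      exact congrArg Subtype.val (hAab.is_comm.comm ⟨a, ha⟩ ⟨b, hb⟩)
  obtain ⟨D, hD⟩ : ∃ D, D = K ⊓ Subgroup.centralizer (A : Set X) := ⟨_, rfl⟩
  have hDT : D ≤ Subgroup.normalizer (T : Set X) := by
    intro d hd
    rw [hD] at hd
    apply hTinv d
    · intro g hg
      exact G.mul_mem (G.mul_mem (hKG hd.1) hg) (G.inv_mem (hKG hd.1))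
    · intro a ha
      exact ((Subgroup.mem_centralizer_iff.1 hd.2) a ha).symm
  -- `K = T D`
  have hKsup : K ≤ T ⊔ D := by
    conv_lhs => rw [← part1 K hAK hcopK]
    refine iSup₂_le fun B hB => ?_
    have hKB : A ≤ Subgroup.normalizer ((K ⊓ Subgroup.centralizer (B : Set X) : Subgroup X) : Set X) :=
      le_normalizer_inf' hAK (by
        intro a ha
        apply CfsgLib.FGS.mem_normalizer_of_conj_le
        intro x hx
        exact conj_mem_of_comm hAab hB.1 ha hx)
    have hc := coprime_commutator_sup_centralizer A _ hKB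
      (Nat.Coprime.coprime_dvd_right (Subgroup.card_dvd_of_le inf_le_left) hcopK) (Or.inl hAsolv)
    rw [← hc]
    refine sup_le_sup ?_ ?_
    · rw [hT]
      exact le_iSup₂_of_le B hB (Subgroup.commutator_mono (inf_le_inf_right _ hKG) le_rfl)
    · rw [hD]
      exact inf_le_inf_right _ inf_le_left
  -- the commutator
  obtain ⟨W, hW⟩ : ∃ W : Subgroup X, ∀ k, k ∈ W ↔ k ∈ Subgroup.normalizer (T : Set X) ∧ ∀ a ∈ A, ⁅k, a⁆ ∈ T := by
    refine ⟨{ carrier := {k | k ∈ Subgroup.normalizer (T : Set X) ∧ ∀ a ∈ A, ⁅k, a⁆ ∈ T}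
              one_mem' := ⟨Subgroup.one_mem _, fun a _ => by simp [commutatorElement_one_left]⟩
              mul_mem' := ?_
              inv_mem' := ?_ }, fun x => Iff.rfl⟩
    · rintro x y ⟨hx, hx'⟩ ⟨hy, hy'⟩
      refine ⟨Subgroup.mul_mem _ hx hy, fun a ha => ?_⟩
      have h1 : ⁅x * y, a⁆ = (x * ⁅y, a⁆ * x⁻¹) * ⁅x, a⁆ := by
        simp only [commutatorElement_def]; group
      rw [h1]
      exact T.mul_mem ((Subgroup.mem_normalizer_iff.1 hx _).1 (hy' a ha)) (hx' a ha)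
    · rintro x ⟨hx, hx'⟩
      refine ⟨Subgroup.inv_mem _ hx, fun a ha => ?_⟩
      have h1 : ⁅x⁻¹, a⁆ = x⁻¹ * (⁅x, a⁆)⁻¹ * x⁻¹⁻¹ := by
        simp only [commutatorElement_def]; group
      rw [h1]
      exact (Subgroup.mem_normalizer_iff.1 (Subgroup.inv_mem _ hx) _).1 (T.inv_mem (hx' a ha))
  have hTW : T ≤ W := by
    intro t ht
    rw [hW]
    refine ⟨Subgroup.le_normalizer ht, fun a ha => ?_⟩
    have h1 : ⁅t, a⁆ = t * (a * t⁻¹ * a⁻¹) := by
      simp only [commutatorElement_def]; group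
    rw [h1]
    exact T.mul_mem ht ((Subgroup.mem_normalizer_iff.1 (hAT ha) _).1 (T.inv_mem ht))
  have hDW : D ≤ W := by
    intro d hd
    rw [hW]
    refine ⟨hDT hd, fun a ha => ?_⟩
    rw [hD] at hd
    have h1 : d * a = a * d := ((Subgroup.mem_centralizer_iff.1 hd.2) a ha).symm
    have h2 : ⁅d, a⁆ = 1 := commutatorElement_eq_one_iff_mul_comm.2 h1
    rw [h2]
    exact T.one_mem
  have hKW : K ≤ W := hKsup.trans (sup_le hTW hDW)
  apply le_antisymm hTK
  have hKK : ⁅K, A⁆ = K := by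
    rw [hK]; exact coprime_commutator_commutator A G hAG hcop (Or.inl hAsolv)
  rw [← hKK, Subgroup.commutator_le]
  intro k hk a ha
  exact ((hW k).1 (hKW hk)).2 a ha

end Cfsg.Agent.S3734
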