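import Cfsg.Statements.S3735
import Cfsg.Agent.Lib.H3.ConjTools
import Cfsg.Agent.Lib.H3.Comp2

set_option autoImplicit false
open Cfsg

namespace Cfsg.Agent.S3735

/-- Clifford's Theorem for actions on finite abelian groups, first part. Let H and V be subgroups of a finite group with V abelian and H normalizing V, and let A be a normal subgroup of H. If every H-invariant subgroup of V has an H-invariant complement in V, then every A-invariant subgroup of V has an A-invariant complement in V. -/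
theorem result {G : Type*} [Group G] [Finite G] (H A V : Subgroup G) (hVab : IsMulCommutative V) (hHV : H ≤ Subgroup.normalizer (V : Set G)) (hAH : A ≤ H) (hAn : H ≤ Subgroup.normalizer (A : Set G)) (hss : ∀ U : Subgroup G, U ≤ V → H ≤ Subgroup.normalizer (U : Set G) → ∃ W : Subgroup G, W ≤ V ∧ H ≤ Subgroup.normalizer (W : Set G) ∧ U ⊓ W = ⊥ ∧ U ⊔ W = V) (U : Subgroup G) (hUV : U ≤ V) (hAU : A ≤ Subgroup.normalizer (U : Set G)) : ∃ W : Subgroup G, W ≤ V ∧ A ≤ Subgroup.normalizer (W : Set G) ∧ U ⊓ W = ⊥ ∧ U ⊔ W = V := by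
  classical
  open CfsgLib.CT in
  have hsupn : ∀ (B X Y : Subgroup G), B ≤ Subgroup.normalizer (X : Set G) → B ≤ Subgroup.normalizer (Y : Set G) →
      B ≤ Subgroup.normalizer ((X ⊔ Y : Subgroup G) : Set G) := by
    intro B X Y hX hY b hb
    rw [← map_conj_eq_iff, Subgroup.map_sup, map_conj_eq_iff.2 (hX hb), map_conj_eq_iff.2 (hY hb)]
  have hinfn : ∀ (B X Y : Subgroup G), B ≤ Subgroup.normalizer (X : Set G) → B ≤ Subgroup.normalizer (Y : Set G) →
      B ≤ Subgroup.normalizer ((X ⊓ Y : Subgroup G) : Set G) := by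
    intro B X Y hX hY b hb
    rw [Subgroup.mem_normalizer_iff]
    intro x
    have h1 := Subgroup.mem_normalizer_iff.1 (hX hb) x
    have h2 := Subgroup.mem_normalizer_iff.1 (hY hb) x
    simp only [Subgroup.mem_inf]
    rw [h1, h2]
  have hcommV : ∀ a ∈ V, ∀ b ∈ V, a * b = b * a := by
    intro a ha b hb
    have := hVab.is_comm.comm (⟨a, ha⟩ : V) ⟨b, hb⟩
    exact congrArg Subtype.val this
  -- minimal `A`-invariant subgroups
  let IsMin : Subgroup G → Prop := fun M => M ≤ V ∧ A ≤ Subgroup.normalizer (M : Set G) ∧ M ≠ ⊥ ∧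
    ∀ M' : Subgroup G, M' ≤ M → A ≤ Subgroup.normalizer (M' : Set G) → M' = ⊥ ∨ M' = M
  have hexmin : ∀ T : Subgroup G, T ≤ V → A ≤ Subgroup.normalizer (T : Set G) → T ≠ ⊥ → ∃ M, IsMin M ∧ M ≤ T := by
    intro T hTV hTA hT
    have hfin : ({M : Subgroup G | M ≤ T ∧ A ≤ Subgroup.normalizer (M : Set G) ∧ M ≠ ⊥}).Finite := Set.toFinite _
    obtain ⟨M, hM⟩ := hfin.exists_minimal ⟨T, le_refl _, hTA, hT⟩
    refine ⟨M, ⟨hM.1.1.trans hTV, hM.1.2.1, hM.1.2.2, ?_⟩, hM.1.1⟩
    intro M' hM'M hM'A
    by_cases hb : M' = ⊥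
    · exact Or.inl hb
    · right
      exact le_antisymm hM'M (hM.2 ⟨hM'M.trans hM.1.1, hM'A, hb⟩ hM'M)
  -- the socle is everything
  set S : Subgroup G := sSup {M | IsMin M} with hS
  have hSV : S ≤ V := sSup_le (fun M hM => hM.1)
  have hSH : H ≤ Subgroup.normalizer (S : Set G) := by
    intro h hh
    apply mem_normalizer_of_conj_le
    have hconj : ∀ M, IsMin M → IsMin (M.map (MulAut.conj h).toMonoidHom) := by
      intro M hM
      have hhA : A.map (MulAut.conj h).toMonoidHom = A := map_conj_eq_iff.2 (hAn hh)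
      have hhA' : A.map (MulAut.conj h⁻¹).toMonoidHom = A := map_conj_eq_iff.2 (inv_mem (hAn hh))
      have hhV : V.map (MulAut.conj h).toMonoidHom = V := map_conj_eq_iff.2 (hHV hh)
      have hinv : ∀ X : Subgroup G, A ≤ Subgroup.normalizer (X : Set G) →
          A ≤ Subgroup.normalizer ((X.map (MulAut.conj h).toMonoidHom : Subgroup G) : Set G) := by
        intro X hX a ha
        rw [← map_conj_eq_iff]
        have ha' : h⁻¹ * a * h ∈ A := by
          have := (mem_map_conj' (H := A) (g := h) (x := a)).1 (by rw [hhA]; exact ha)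
          exact this
        have h1 := map_conj_eq_iff.2 (hX ha')
        have h2 : (MulAut.conj a).toMonoidHom.comp (MulAut.conj h).toMonoidHom =
            (MulAut.conj h).toMonoidHom.comp (MulAut.conj (h⁻¹ * a * h)).toMonoidHom := by
          ext x
          simp [MulAut.conj_apply]
          group
        rw [Subgroup.map_map, h2, ← Subgroup.map_map, h1]
      have hback : ∀ X : Subgroup G, A ≤ Subgroup.normalizer (X : Set G) →
          A ≤ Subgroup.normalizer ((X.map (MulAut.conj h⁻¹).toMonoidHom : Subgroup G) : Set G) := by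
        intro X hX a ha
        rw [← map_conj_eq_iff]
        have ha' : h⁻¹⁻¹ * a * h⁻¹ ∈ A := by
          have := (mem_map_conj' (H := A) (g := h⁻¹) (x := a)).1 (by rw [hhA']; exact ha)
          exact this
        have h1 := map_conj_eq_iff.2 (hX ha')
        have h2 : (MulAut.conj a).toMonoidHom.comp (MulAut.conj h⁻¹).toMonoidHom =
            (MulAut.conj h⁻¹).toMonoidHom.comp (MulAut.conj (h⁻¹⁻¹ * a * h⁻¹)).toMonoidHom := by
          ext x
          simp [MulAut.conj_apply]
          group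
        rw [Subgroup.map_map, h2, ← Subgroup.map_map, h1]
      have hcomp : ∀ X : Subgroup G, (X.map (MulAut.conj h⁻¹).toMonoidHom).map (MulAut.conj h).toMonoidHom = X := by
        intro X
        ext x
        simp only [Subgroup.mem_map]
        constructor
        · rintro ⟨_, ⟨y, hy, rfl⟩, rfl⟩
          have e : (MulAut.conj h).toMonoidHom ((MulAut.conj h⁻¹).toMonoidHom y) = y := by
            simp only [MulEquiv.coe_toMonoidHom, MulAut.conj_apply]
            group
          rw [e]; exact hy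
        · intro hx
          exact ⟨h⁻¹ * x * h, ⟨x, hx, by simp [MulAut.conj_apply]⟩, by simp [MulAut.conj_apply, mul_assoc]⟩
      refine ⟨?_, hinv M hM.2.1, ?_, ?_⟩
      · rw [← hhV]
        exact Subgroup.map_mono hM.1
      · intro hb
        apply hM.2.2.1
        have hinj : Function.Injective (MulAut.conj h).toMonoidHom := (MulAut.conj h).injective
        exact (Subgroup.map_eq_bot_iff_of_injective M hinj).1 hb
      · intro M' hM' hM'A
        have h3 : M'.map (MulAut.conj h⁻¹).toMonoidHom ≤ M := by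
          have hinj : Function.Injective (MulAut.conj h).toMonoidHom := (MulAut.conj h).injective
          rw [← Subgroup.map_le_map_iff_of_injective hinj, hcomp]
          exact hM'
        rcases hM.2.2.2 _ h3 (hback M' hM'A) with h4 | h4
        · left
          rw [← hcomp M', h4, Subgroup.map_bot]
        · right
          rw [← hcomp M', h4]
    intro a ha
    have hle : S.map (MulAut.conj h).toMonoidHom ≤ S := by
      rw [hS, Subgroup.map_le_iff_le_comap]
      apply sSup_le
      intro M hM x hx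
      rw [Subgroup.mem_comap]
      exact le_sSup (a := M.map (MulAut.conj h).toMonoidHom) (hconj M hM) ⟨x, hx, rfl⟩
    exact hle ⟨a, ha, rfl⟩
  obtain ⟨T, hTV, hTH, hST, hST'⟩ := hss S hSV hSH
  have hTbot : T = ⊥ := by
    by_contra hT
    obtain ⟨M, hM, hMT⟩ := hexmin T hTV (hAH.trans hTH) hT
    have hMS : M ≤ S := le_sSup hM
    apply hM.2.2.1
    rw [eq_bot_iff, ← hST]
    exact le_inf hMS hMT
  have hSeq : S = V := by
    rw [hTbot, sup_bot_eq] at hST'
    exact hST'
  -- a maximal complement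
  have hfin : ({W : Subgroup G | W ≤ V ∧ A ≤ Subgroup.normalizer (W : Set G) ∧ U ⊓ W = ⊥}).Finite := Set.toFinite _
  obtain ⟨W, hW⟩ := hfin.exists_maximal ⟨⊥, bot_le, by
    rw [Subgroup.normalizer_eq_top_iff.2 inferInstance]; exact le_top, inf_bot_eq _⟩
  refine ⟨W, hW.1.1, hW.1.2.1, hW.1.2.2, ?_⟩
  apply le_antisymm (sup_le hUV hW.1.1)
  by_contra hcon
  have hexM : ∃ M, IsMin M ∧ ¬ M ≤ U ⊔ W := by
    by_contra h
    push Not at h
    apply hcon
    rw [← hSeq]
    exact sSup_le h
  obtain ⟨M, hM, hMn⟩ := hexM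
  have hUW : A ≤ Subgroup.normalizer ((U ⊔ W : Subgroup G) : Set G) := hsupn A U W hAU hW.1.2.1
  have hinf : M ⊓ (U ⊔ W) = ⊥ := by
    rcases hM.2.2.2 (M ⊓ (U ⊔ W)) inf_le_left (hinfn A M (U ⊔ W) hM.2.1 hUW) with h | h
    · exact h
    · exact absurd (inf_eq_left.1 h) hMn
  have hW' : W ⊔ M ∈ {W : Subgroup G | W ≤ V ∧ A ≤ Subgroup.normalizer (W : Set G) ∧ U ⊓ W = ⊥} := by
    refine ⟨sup_le hW.1.1 hM.1, hsupn A W M hW.1.2.1 hM.2.1, ?_⟩
    rw [eq_bot_iff]
    rintro x ⟨hxU, hx⟩
    obtain ⟨w, hw, m, hm, rfl⟩ := CfsgLib.Comp.mem_sup_of_commute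
      (fun a ha b hb => hcommV a (hW.1.1 ha) b (hM.1 hb)) hx
    have hm1 : m ∈ M ⊓ (U ⊔ W) := by
      refine ⟨hm, ?_⟩
      have h5 : m = w⁻¹ * (w * m) := by group
      rw [h5]
      exact mul_mem (Subgroup.mem_sup_right (inv_mem hw)) (Subgroup.mem_sup_left hxU)
    rw [hinf, Subgroup.mem_bot] at hm1
    rw [hm1, mul_one] at hxU ⊢
    have h6 : w ∈ U ⊓ W := ⟨hxU, hw⟩
    rw [hW.1.2.2] at h6
    exact h6
  have hle := hW.2 hW' le_sup_left
  apply hMn
  exact le_sup_of_le_right (le_sup_right.trans hle)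

end Cfsg.Agent.S3735
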