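import Cfsg.Statements.S3738
import Cfsg.Agent.Lib.FGS.Eigen
import Cfsg.Agent.Lib.FGS.Syl
import Cfsg.Agent.Lib.Solv.PGroup
import Cfsg.Agent.Lib.Solv.Hall

set_option autoImplicit false
open Cfsg
open scoped commutatorElement
open scoped Pointwise

namespace Cfsg.Agent.S3738

theorem h8_free9 {Ω : Type*} [Finite Ω] (f : Equiv.Perm Ω) (h9 : f ^ 9 = 1) (h3 : ∀ ω, (f ^ 3) ω ≠ ω) :
    9 ∣ Nat.card Ω := by
  classical
  by_cases hΩ : IsEmpty Ω
  · rw [Nat.card_of_isEmpty]
    exact dvd_zero 9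
  rw [not_isEmpty_iff] at hΩ
  obtain ⟨ω₀⟩ := hΩ
  have hper : ∀ ω, Function.minimalPeriod f ω = 9 := by
    intro ω
    have h1 : Function.IsPeriodicPt f 9 ω := by
      show f^[9] ω = ω
      rw [Equiv.Perm.iterate_eq_pow, h9]
      rfl
    have h2 := h1.minimalPeriod_dvd
    obtain ⟨j, hj, hj2⟩ := (Nat.dvd_prime_pow Nat.prime_three).1 (show Function.minimalPeriod f ω ∣ 3 ^ 2 from h2)
    have h4 : j = 2 := by
      by_contra hne
      have hj1 : j ≤ 1 := by omega
      have h5 : Function.minimalPeriod f ω ∣ 3 := by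
        rw [hj2]
        exact (pow_dvd_pow 3 hj1).trans (by norm_num)
      have h6 : Function.IsPeriodicPt f 3 ω := (Function.isPeriodicPt_minimalPeriod f ω).trans_dvd h5
      have h7 : f^[3] ω = ω := h6
      rw [Equiv.Perm.iterate_eq_pow] at h7
      exact h3 ω h7
    rw [hj2, h4]
    norm_num
  have hstab : ∀ b : Ω, MulAction.stabilizer (Subgroup.zpowers f) b = ⊥ := by
    intro b
    rw [eq_bot_iff]
    rintro ⟨g, hg⟩ hgb
    have hgb' : g b = b := hgb
    obtain ⟨i, hi⟩ := mem_powers_iff_mem_zpowers.2 hg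
    have hi' : f ^ i = g := hi
    have h1 : Function.IsPeriodicPt f i b := by
      show f^[i] b = b
      rw [Equiv.Perm.iterate_eq_pow, hi']
      exact hgb'
    have h2 := h1.minimalPeriod_dvd
    rw [hper] at h2
    obtain ⟨m, rfl⟩ := h2
    rw [Subgroup.mem_bot]
    apply Subtype.ext
    show g = 1
    rw [← hi', pow_mul, h9, one_pow]
  have hcard : Nat.card (Subgroup.zpowers f) = 9 := by
    rw [Nat.card_zpowers]
    have h1 : orderOf f ∣ 3 ^ 2 := orderOf_dvd_of_pow_eq_one h9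
    obtain ⟨j, hj, hj2⟩ := (Nat.dvd_prime_pow Nat.prime_three).1 h1
    have h4 : j = 2 := by
      by_contra hne
      have hj1 : j ≤ 1 := by omega
      have h5 : orderOf f ∣ 3 := by
        rw [hj2]
        exact (pow_dvd_pow 3 hj1).trans (by norm_num)
      have h6 : f ^ 3 = 1 := orderOf_dvd_iff_pow_eq_one.1 h5
      apply h3 ω₀
      rw [h6]
      rfl
    rw [hj2, h4]
    norm_num
  have heq := Nat.card_congr (MulAction.selfEquivOrbitsQuotientProd (G := Subgroup.zpowers f) (X := Ω) hstab)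
  rw [Nat.card_prod, hcard] at heq
  rw [heq]
  exact Dvd.intro_left _ rfl

theorem h8_triple {B : Type*} [Group B] [Finite B] (hsq : ∀ q : B, q * q = 1) (hc : 8 ≤ Nat.card B) :
    ∃ u v w : B, u ≠ 1 ∧ v ≠ 1 ∧ w ≠ 1 ∧ u * v ≠ 1 ∧ u * w ≠ 1 ∧ v * w ≠ 1 ∧ u * (v * w) ≠ 1 := by
  classical
  have hinv : ∀ q : B, q⁻¹ = q := fun q => inv_eq_of_mul_eq_one_left (hsq q)
  have hcomm := CfsgLib.FGS.Eigen.comm_of_sq hsq
  have hord : ∀ q : B, Nat.card (Subgroup.zpowers q) ≤ 2 := by
    intro q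
    rw [Nat.card_zpowers]
    exact Nat.le_of_dvd (by norm_num) (orderOf_dvd_of_pow_eq_one (by rw [sq]; exact hsq q))
  have hout : ∀ S : Subgroup B, Nat.card S < Nat.card B → ∃ w, w ∉ S := by
    intro S hS
    by_contra hcon
    push Not at hcon
    have h1 : S = ⊤ := by
      rw [eq_top_iff]
      intro x _
      exact hcon x
    rw [h1, Subgroup.card_top] at hS
    exact lt_irrefl _ hS
  obtain ⟨u, hu⟩ := hout ⊥ (by rw [Subgroup.card_bot]; omega)
  obtain ⟨v, hv⟩ := hout (Subgroup.zpowers u) (by have := hord u; omega)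
  have hle : Nat.card ↥(Subgroup.zpowers u ⊔ Subgroup.zpowers v) ≤ 4 := by
    have h1 := CfsgLib.FGS.Eigen.card_sup_le_of_commute (Subgroup.zpowers u) (Subgroup.zpowers v)
      (fun a ha b hb => by
        obtain ⟨i, rfl⟩ := Subgroup.mem_zpowers_iff.1 ha
        obtain ⟨j, rfl⟩ := Subgroup.mem_zpowers_iff.1 hb
        exact ((Commute.zpow_zpow (show Commute u v from hcomm u v) i j)).eq)
    have h2 := Nat.mul_le_mul (hord u) (hord v)
    omega
  obtain ⟨w, hw⟩ := hout (Subgroup.zpowers u ⊔ Subgroup.zpowers v) (by omega)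
  have hu1 : u ≠ 1 := fun h => hu (by rw [h]; exact Subgroup.one_mem _)
  have hmemu : u ∈ Subgroup.zpowers u ⊔ Subgroup.zpowers v := Subgroup.mem_sup_left (Subgroup.mem_zpowers u)
  have hmemv : v ∈ Subgroup.zpowers u ⊔ Subgroup.zpowers v := Subgroup.mem_sup_right (Subgroup.mem_zpowers v)
  refine ⟨u, v, w, hu1, ?_, ?_, ?_, ?_, ?_, ?_⟩
  · intro h
    exact hv (by rw [h]; exact Subgroup.one_mem _)
  · intro h
    exact hw (by rw [h]; exact Subgroup.one_mem _)
  · intro h
    apply hv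
    have h1 : v = u := by
      have h2 := eq_inv_of_mul_eq_one_right h
      rwa [hinv] at h2
    rw [h1]
    exact Subgroup.mem_zpowers u
  · intro h
    apply hw
    have h1 : w = u := by
      have h2 := eq_inv_of_mul_eq_one_right h
      rwa [hinv] at h2
    rw [h1]
    exact hmemu
  · intro h
    apply hw
    have h1 : w = v := by
      have h2 := eq_inv_of_mul_eq_one_right h
      rwa [hinv] at h2
    rw [h1]
    exact hmemv
  · intro h
    apply hw
    have h1 : w = u * v := by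
      have h2 : v * w = u := by
        have h3 := eq_inv_of_mul_eq_one_right h
        rwa [hinv] at h3
      calc w = v * (v * w) := by rw [← mul_assoc, hsq, one_mul]
        _ = v * u := by rw [h2]
        _ = u * v := hcomm v u
    rw [h1]
    exact Subgroup.mul_mem _ hmemu hmemv

set_option maxHeartbeats 4000000 in
theorem h8_core {Q : Type*} [Group Q] [Finite Q] (h2 : IsPGroup 2 Q) (σ τ ρ : MulAut Q) (hρ : ρ ^ 3 = τ)
    (hρ9 : ρ ^ 9 = 1) (hστ : σ * τ = τ * σ) (hτ : τ ≠ 1)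
    (hmin : ∀ R : Subgroup Q, (∀ x ∈ R, σ x ∈ R) → R ≠ ⊤ → ∀ x ∈ R, τ x = x)
    (hfpf : ∀ x, σ x = x → x = 1)
    (hrank : ∀ E : Subgroup Q, (∀ a ∈ E, ∀ b ∈ E, a * b = b * a) → (∀ a ∈ E, a * a = 1) → Nat.card E ≤ 4) :
    False := by
  classical
  have hτ3 : τ ^ 3 = 1 := by
    rw [← hρ, ← pow_mul]
    exact hρ9
  have hτ3' : ∀ g, τ (τ (τ g)) = g := by
    intro g
    have h1 : (τ ^ 3) g = g := by rw [hτ3]; rfl
    simpa [pow_succ, MulAut.mul_apply] using h1
  have hστ' : ∀ g, σ (τ g) = τ (σ g) := by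
    intro g
    rw [← MulAut.mul_apply, hστ]
    rfl
  let cc : Q → Q := fun g => g⁻¹ * τ g
  have hcc : ∀ g, τ g = g * cc g := fun g => by simp [cc]
  set C := Subgroup.closure (Set.range cc) with hCdef
  have hCσ : ∀ x ∈ C, σ x ∈ C := by
    intro x hx
    have hle : Subgroup.closure (Set.range cc) ≤ C.comap σ.toMonoidHom := by
      rw [Subgroup.closure_le]
      rintro _ ⟨g, rfl⟩
      show σ (g⁻¹ * τ g) ∈ C
      rw [map_mul, map_inv, hστ']
      exact Subgroup.subset_closure ⟨σ g, rfl⟩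
    exact hle hx
  have hord2 : ∀ c : Q, c * c * c = 1 → c = 1 := by
    intro c hc
    have h3 : c ^ 3 = 1 := by
      rw [pow_succ, pow_two]
      exact hc
    obtain ⟨k, hk⟩ := IsPGroup.iff_orderOf.1 h2 c
    have h4 : orderOf c ∣ 3 := orderOf_dvd_of_pow_eq_one h3
    have h5 : Nat.Coprime (orderOf c) 3 := by
      rw [hk]
      exact Nat.Coprime.pow_left k (by norm_num)
    exact orderOf_eq_one_iff.1 (Nat.Coprime.eq_one_of_dvd h5 h4)
  have hCtop : C = ⊤ := by
    by_contra hne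
    have hfix := hmin C hCσ hne
    apply hτ
    apply MulEquiv.ext
    intro g
    have h1 : τ (cc g) = cc g := hfix _ (Subgroup.subset_closure ⟨g, rfl⟩)
    obtain ⟨c, hc⟩ : ∃ c, c = cc g := ⟨_, rfl⟩
    rw [← hc] at h1
    have h3 : τ g = g * c := by rw [hc]; exact hcc g
    have h4 : τ (τ g) = g * c * c := by rw [h3, map_mul, h3, h1]
    have h5 : τ (τ (τ g)) = g * c * c * c := by rw [h4, map_mul, map_mul, h3, h1]
    rw [hτ3'] at h5
    have h6 : c * c * c = 1 := by
      have h7 : g * (c * c * c) = g * 1 := by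
        rw [mul_one, ← mul_assoc, ← mul_assoc]
        exact h5.symm
      exact mul_left_cancel h7
    have h8 := hord2 c h6
    rw [h3, h8, mul_one]
    rfl
  -- the subgroup generated by squares
  set Z := Subgroup.closure {a : Q | ∃ x, a = x * x} with hZdef
  have hZaut : ∀ φ : MulAut Q, ∀ z ∈ Z, φ z ∈ Z := by
    intro φ z hz
    have hle : Subgroup.closure {a : Q | ∃ x, a = x * x} ≤ Z.comap φ.toMonoidHom := by
      rw [Subgroup.closure_le]
      rintro _ ⟨x, rfl⟩
      show φ (x * x) ∈ Z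
      rw [map_mul]
      exact Subgroup.subset_closure ⟨φ x, rfl⟩
    exact hle hz
  haveI hZn : Z.Normal := ⟨fun z hz g => hZaut (MulAut.conj g) z hz⟩
  have hsqZ : ∀ x, x * x ∈ Z := fun x => Subgroup.subset_closure ⟨x, rfl⟩
  haveI hNontriv : Nontrivial Q := by
    by_contra hcon
    rw [not_nontrivial_iff_subsingleton] at hcon
    apply hτ
    apply MulEquiv.ext
    intro g
    exact Subsingleton.elim _ _
  have hZtop : Z ≠ ⊤ := by
    have h3 : Z ≤ frattini Q := by
      rw [hZdef, Subgroup.closure_le]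
      rintro _ ⟨x, rfl⟩
      have h4 := (CfsgLib.Solv.pgroup_commutator_pow_le_frattini h2).2 x
      rwa [sq] at h4
    intro h
    rw [h, top_le_iff] at h3
    obtain ⟨M, hM, -⟩ := (eq_top_or_exists_le_coatom (⊥ : Subgroup Q)).resolve_left bot_ne_top
    have h4 : frattini Q ≤ M := fun x hx => CfsgLib.Solv.mem_frattini_iff.1 hx M hM
    rw [h3, top_le_iff] at h4
    exact hM.1 h4
  have hτZ : ∀ z ∈ Z, τ z = z := hmin Z (fun x hx => hZaut σ x hx) hZtop
  -- abelian quotient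
  have hWsq : ∀ q : Q ⧸ Z, q * q = 1 := by
    intro q
    obtain ⟨x, rfl⟩ := QuotientGroup.mk'_surjective Z q
    rw [← map_mul]
    exact (QuotientGroup.eq_one_iff _).2 (hsqZ x)
  have hWcomm := CfsgLib.FGS.Eigen.comm_of_sq hWsq
  have hcommZ : ∀ a b : Q, a * b * a⁻¹ * b⁻¹ ∈ Z := by
    intro a b
    have h3 := hWcomm (QuotientGroup.mk' Z a) (QuotientGroup.mk' Z b)
    have h4 : QuotientGroup.mk' Z (a * b * a⁻¹ * b⁻¹) = 1 := by
      simp only [map_mul, map_inv, h3]
      group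
    exact (QuotientGroup.eq_one_iff _).1 h4
  -- `Z` is central
  have hcen : ∀ z ∈ Z, ∀ g, g * z = z * g := by
    have hle : C ≤ Subgroup.centralizer (Z : Set Q) := by
      rw [hCdef, Subgroup.closure_le]
      rintro _ ⟨g, rfl⟩
      show g⁻¹ * τ g ∈ Subgroup.centralizer (Z : Set Q)
      rw [Subgroup.mem_centralizer_iff]
      intro z hz
      have h3 : g * z * g⁻¹ ∈ Z := hZn.conj_mem z hz g
      have h4 := hτZ _ h3
      rw [map_mul, map_mul, map_inv, hτZ z hz] at h4
      have h5 : z * (g⁻¹ * τ g) = g⁻¹ * (g * z * g⁻¹) * τ g := by group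
      rw [h5, ← h4]
      group
    rw [hCtop] at hle
    intro z hz g
    exact (Subgroup.mem_centralizer_iff.1 (hle (Subgroup.mem_top g)) z hz).symm
  have hsqc : ∀ x g : Q, g * (x * x) = (x * x) * g := fun x g => hcen _ (hsqZ x) g
  -- squaring formula
  have hkZ : ∀ a b : Q, b * a * b⁻¹ * a⁻¹ ∈ Z := fun a b => hcommZ b a
  have hsq2 : ∀ a b : Q, (a * b) * (a * b) = (b * a * b⁻¹ * a⁻¹) * (a * a) * (b * b) := by
    intro a b
    have h3 := hcen _ (hkZ a b) a
    obtain ⟨k, hk⟩ : ∃ k, k = b * a * b⁻¹ * a⁻¹ := ⟨_, rfl⟩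
    rw [← hk] at h3 ⊢
    have h4 : b * a = k * a * b := by rw [hk]; group
    calc (a * b) * (a * b) = a * (b * a) * b := by group
      _ = a * (k * a * b) * b := by rw [h4]
      _ = (a * k) * a * b * b := by group
      _ = (k * a) * a * b * b := by rw [h3]
      _ = k * (a * a) * (b * b) := by group
  have hk2 : ∀ a b : Q, (b * a * b⁻¹ * a⁻¹) * (b * a * b⁻¹ * a⁻¹) = 1 := by
    intro a b
    have h3 := hcen _ (hkZ a b) b
    obtain ⟨k, hk⟩ : ∃ k, k = b * a * b⁻¹ * a⁻¹ := ⟨_, rfl⟩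
    rw [← hk] at h3 ⊢
    have h4 : b * a * b⁻¹ = k * a := by rw [hk]; group
    have h5 : (b * b) * a * (b * b)⁻¹ = k * k * a := by
      calc (b * b) * a * (b * b)⁻¹ = b * (b * a * b⁻¹) * b⁻¹ := by group
        _ = b * (k * a) * b⁻¹ := by rw [h4]
        _ = (b * k) * a * b⁻¹ := by group
        _ = (k * b) * a * b⁻¹ := by rw [h3]
        _ = k * (b * a * b⁻¹) := by group
        _ = k * (k * a) := by rw [h4]
        _ = k * k * a := by group
    have h6 : (b * b) * a * (b * b)⁻¹ = a := by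
      rw [← hsqc b a]
      group
    rw [h6] at h5
    have h7 : k * k * a = 1 * a := by rw [← h5, one_mul]
    exact mul_right_cancel h7
  have hfour : ∀ a b : Q, ((a * b) * (a * b)) * ((a * b) * (a * b)) = ((a * a) * (a * a)) * ((b * b) * (b * b)) := by
    intro a b
    rw [hsq2 a b]
    have h3 := hk2 a b
    have h4 := hkZ a b
    obtain ⟨k, hk⟩ : ∃ k, k = b * a * b⁻¹ * a⁻¹ := ⟨_, rfl⟩
    rw [← hk] at h3 h4 ⊢
    obtain ⟨A, hA⟩ : ∃ A, A = a * a := ⟨_, rfl⟩
    obtain ⟨B, hB⟩ : ∃ B, B = b * b := ⟨_, rfl⟩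
    rw [← hA, ← hB]
    have hAZ : A ∈ Z := by rw [hA]; exact hsqZ a
    have hBZ : B ∈ Z := by rw [hB]; exact hsqZ b
    have h5 : A * k = k * A := hcen k h4 A
    have h6 : B * k = k * B := hcen k h4 B
    have h7 : B * A = A * B := hcen A hAZ B
    calc k * A * B * (k * A * B) = k * A * (B * k) * A * B := by group
      _ = k * A * (k * B) * A * B := by rw [h6]
      _ = k * (A * k) * B * A * B := by group
      _ = k * (k * A) * B * A * B := by rw [h5]
      _ = (k * k) * A * (B * A) * B := by group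
      _ = (k * k) * A * (A * B) * B := by rw [h7]
      _ = A * A * (B * B) := by rw [h3]; group
  have hx4 : ∀ x : Q, (x * x) * (x * x) = 1 := by
    let E : Subgroup Q :=
      { carrier := {x | (x * x) * (x * x) = 1}
        one_mem' := by simp
        mul_mem' := by
          intro a b ha hb
          show ((a * b) * (a * b)) * ((a * b) * (a * b)) = 1
          rw [hfour, show (a * a) * (a * a) = 1 from ha, show (b * b) * (b * b) = 1 from hb, one_mul]
        inv_mem' := by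
          intro a ha
          show (a⁻¹ * a⁻¹) * (a⁻¹ * a⁻¹) = 1
          have h3 : (a * a) * (a * a) = 1 := ha
          have h4 : (a⁻¹ * a⁻¹) * (a⁻¹ * a⁻¹) = ((a * a) * (a * a))⁻¹ := by group
          rw [h4, h3, inv_one] }
    have hle : C ≤ E := by
      rw [hCdef, Subgroup.closure_le]
      rintro _ ⟨g, rfl⟩
      show ((g⁻¹ * τ g) * (g⁻¹ * τ g)) * ((g⁻¹ * τ g) * (g⁻¹ * τ g)) = 1
      rw [hfour]
      have h3 : τ g * τ g * (τ g * τ g) = g * g * (g * g) := by
        have h4 := hτZ _ (Z.mul_mem (hsqZ g) (hsqZ g))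
        simpa only [map_mul] using h4
      rw [h3]
      group
    intro x
    have hx : x ∈ C := by rw [hCtop]; exact Subgroup.mem_top x
    exact hle hx
  have hZsq : ∀ z ∈ Z, z * z = 1 := by
    intro z hz
    rw [hZdef] at hz
    induction hz using Subgroup.closure_induction with
    | mem x hx =>
      obtain ⟨y, rfl⟩ := hx
      exact hx4 y
    | one => simp
    | mul a b ha hb h3 h4 =>
      have h5 : b * a = a * b := hcen a (Subgroup.closure_le _ |>.2 (fun _ h => Subgroup.subset_closure h) ha) b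
      calc a * b * (a * b) = a * (b * a) * b := by group
        _ = a * (a * b) * b := by rw [h5]
        _ = (a * a) * (b * b) := by group
        _ = 1 := by rw [h3, h4, one_mul]
    | inv a _ h3 =>
      have h4 : a⁻¹ * a⁻¹ = (a * a)⁻¹ := by group
      rw [h4, h3, inv_one]
  have hZcomm : ∀ a ∈ Z, ∀ b ∈ Z, a * b = b * a := fun a ha b _ => (hcen a ha b).symm
  have hcardZ := hrank Z hZcomm hZsq
  -- fixed points of `τ`
  have hτC : ∀ x, τ x = x → x ∈ Z := by
    intro x hx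
    letI cW : CommGroup (Q ⧸ Z) := { (inferInstance : Group (Q ⧸ Z)) with mul_comm := hWcomm }
    let π := QuotientGroup.mk' Z
    let R : Subgroup Q :=
      { carrier := {g | π g * π (τ g) * π (τ (τ g)) = 1}
        one_mem' := by simp
        mul_mem' := by
          intro a b ha hb
          show π (a * b) * π (τ (a * b)) * π (τ (τ (a * b))) = 1
          have ha' : π a * π (τ a) * π (τ (τ a)) = 1 := ha
          have hb' : π b * π (τ b) * π (τ (τ b)) = 1 := hb
          simp only [map_mul]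
          calc π a * π b * (π (τ a) * π (τ b)) * (π (τ (τ a)) * π (τ (τ b)))
              = (π a * π (τ a) * π (τ (τ a))) * (π b * π (τ b) * π (τ (τ b))) := by
                rw [mul_mul_mul_comm (π a) (π b), mul_mul_mul_comm]
            _ = 1 := by rw [ha', hb', one_mul]
        inv_mem' := by
          intro a ha
          show π a⁻¹ * π (τ a⁻¹) * π (τ (τ a⁻¹)) = 1
          have ha' : π a * π (τ a) * π (τ (τ a)) = 1 := ha
          simp only [map_inv]
          calc (π a)⁻¹ * (π (τ a))⁻¹ * (π (τ (τ a)))⁻¹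
              = (π a * π (τ a) * π (τ (τ a)))⁻¹ := by
                rw [mul_inv, mul_inv]
            _ = 1 := by rw [ha', inv_one] }
    have hle : C ≤ R := by
      rw [hCdef, Subgroup.closure_le]
      rintro _ ⟨g, rfl⟩
      show π (g⁻¹ * τ g) * π (τ (g⁻¹ * τ g)) * π (τ (τ (g⁻¹ * τ g))) = 1
      simp only [map_mul, map_inv, hτ3']
      calc (π g)⁻¹ * π (τ g) * ((π (τ g))⁻¹ * π (τ (τ g))) * ((π (τ (τ g)))⁻¹ * π g) = (π g)⁻¹ * π g := by group
        _ = 1 := inv_mul_cancel _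
    have hxR : x ∈ R := by
      apply hle
      rw [hCtop]
      exact Subgroup.mem_top x
    have h3 : π x * π (τ x) * π (τ (τ x)) = 1 := hxR
    rw [hx, hx] at h3
    have h4 : π x * π x = 1 := hWsq (π x)
    rw [h4, one_mul] at h3
    exact (QuotientGroup.eq_one_iff _).1 h3
  -- the count
  have hinvZ : ∀ (φ : MulAut Q) x, x ∉ Z → φ x ∉ Z := by
    intro φ x hx h
    apply hx
    have h3 := hZaut φ⁻¹ _ h
    have h4 : φ⁻¹ (φ x) = x := by
      rw [← MulAut.mul_apply, inv_mul_cancel]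
      rfl
    rwa [h4] at h3
  let f : Equiv.Perm {x : Q // x ∉ Z} :=
    { toFun := fun x => ⟨ρ x.1, hinvZ ρ x.1 x.2⟩
      invFun := fun x => ⟨ρ⁻¹ x.1, hinvZ ρ⁻¹ x.1 x.2⟩
      left_inv := fun x => Subtype.ext (by
        show ρ⁻¹ (ρ x.1) = x.1
        rw [← MulAut.mul_apply, inv_mul_cancel]
        rfl)
      right_inv := fun x => Subtype.ext (by
        show ρ (ρ⁻¹ x.1) = x.1
        rw [← MulAut.mul_apply, mul_inv_cancel]
        rfl) }
  have hfk : ∀ k (x : {x : Q // x ∉ Z}), ((f ^ k) x : Q) = (ρ ^ k) x.1 := by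
    intro k
    induction k with
    | zero =>
      intro x
      rfl
    | succ k ih =>
      intro x
      rw [pow_succ', pow_succ']
      show ρ (((f ^ k) x : {x : Q // x ∉ Z}) : Q) = (ρ * ρ ^ k) x.1
      rw [ih, MulAut.mul_apply]
  have h9 : 9 ∣ Nat.card {x : Q // x ∉ Z} := by
    apply h8_free9 f
    · ext x
      rw [hfk, hρ9]
      rfl
    · intro ω h
      have h3 := congrArg Subtype.val h
      rw [hfk, hρ] at h3
      exact ω.2 (hτC _ h3)
  have hsum : Nat.card Z + Nat.card {x : Q // x ∉ Z} = Nat.card Q := by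
    rw [← Nat.card_sum]
    exact Nat.card_congr (Equiv.sumCompl (fun x : Q => x ∈ Z))
  obtain ⟨m, hm⟩ := IsPGroup.iff_card.1 h2
  have hindex := Subgroup.card_mul_index Z
  obtain ⟨w, hw⟩ : ∃ w, w = Z.index := ⟨_, rfl⟩
  rw [← hw] at hindex
  have hw1 : w ≠ 1 := by
    rw [hw]
    intro h
    exact hZtop (Subgroup.index_eq_one.1 h)
  have hwpos : 0 < w := by
    rw [hw]
    exact Nat.pos_of_ne_zero Subgroup.index_ne_zero_of_finite
  obtain ⟨z, hz⟩ : ∃ z, z = Nat.card Z := ⟨_, rfl⟩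
  rw [← hz] at hindex hsum hcardZ
  have hzdvd : z ∣ 2 ^ m := by
    rw [hz, ← hm]
    exact Subgroup.card_subgroup_dvd_card Z
  have hwdvd : w ∣ 2 ^ m := by
    rw [← hm, ← hindex]
    exact Dvd.intro_left _ rfl
  obtain ⟨j, -, hj⟩ := (Nat.dvd_prime_pow Nat.prime_two).1 hwdvd
  obtain ⟨i, -, hi⟩ := (Nat.dvd_prime_pow Nat.prime_two).1 hzdvd
  have h10 : 9 ∣ z * (w - 1) := by
    have h3 : Nat.card {x : Q // x ∉ Z} = z * (w - 1) := by
      have h4 : z * w = z * (w - 1) + z := by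
        have : w = (w - 1) + 1 := by omega
        nth_rw 1 [this]
        ring
      omega
    rwa [h3] at h9
  have h11 : 9 ∣ w - 1 := by
    have hco : Nat.Coprime 9 z := by
      rw [hi]
      exact Nat.Coprime.pow_right i (by norm_num)
    exact hco.dvd_of_dvd_mul_left h10
  have hw64 : 64 ≤ w := by
    by_contra hlt
    have hjlt : j < 6 := by
      by_contra hj6
      have h3 : 2 ^ 6 ≤ 2 ^ j := Nat.pow_le_pow_right (by norm_num) (by omega)
      rw [← hj] at h3
      omega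
    rw [hj] at h11 hw1
    interval_cases j <;> omega
  have hz4 : z = 4 := by
    have hilt : i ≤ 2 := by
      by_contra hi2
      have h3 : 2 ^ 3 ≤ 2 ^ i := Nat.pow_le_pow_right (by norm_num) (by omega)
      rw [← hi] at h3
      omega
    interval_cases i
    · -- `Z` trivial
      exfalso
      have hZb : Z = ⊥ := Subgroup.eq_bot_of_card_eq Z (by rw [← hz, hi]; norm_num)
      have hall : ∀ x : Q, x * x = 1 := fun x => by
        have := hsqZ x
        rwa [hZb, Subgroup.mem_bot] at this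
      have h3 := hrank ⊤ (fun a _ b _ => CfsgLib.FGS.Eigen.comm_of_sq hall a b) (fun a _ => hall a)
      rw [Subgroup.card_top, ← hindex, hi] at h3
      omega
    · -- `Z` of order 2
      exfalso
      have h3 : Nat.card Z = 2 := by rw [← hz, hi]; norm_num
      obtain ⟨y, hy, huniq⟩ := (Nat.card_eq_two_iff' (1 : Z)).1 h3
      have hσy : (⟨σ y, hZaut σ y y.2⟩ : Z) ≠ 1 := by
        intro h
        apply hy
        apply Subtype.ext
        have h4 : σ (y : Q) = 1 := congrArg Subtype.val h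
        have h5 : σ (y : Q) = σ 1 := by rw [h4, map_one]
        exact σ.injective h5
      have h4 := huniq _ hσy
      have h5 : σ (y : Q) = y := congrArg Subtype.val h4
      apply hy
      apply Subtype.ext
      exact hfpf _ h5
    · rw [hi]
      norm_num
  -- non-central elements have non-trivial squares
  have hne1 : ∀ x, x ∉ Z → x * x ≠ 1 := by
    intro x hxZ hx1
    have hpow : ∀ b ∈ Subgroup.zpowers x, b * b = 1 := by
      intro b hb
      obtain ⟨i, rfl⟩ := Subgroup.mem_zpowers_iff.1 hb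
      rw [← (Commute.refl x).mul_zpow, hx1, one_zpow]
    have hcommx : ∀ a ∈ Subgroup.zpowers x, ∀ b ∈ Subgroup.zpowers x, a * b = b * a := by
      intro a ha b hb
      obtain ⟨i, rfl⟩ := Subgroup.mem_zpowers_iff.1 ha
      obtain ⟨j, rfl⟩ := Subgroup.mem_zpowers_iff.1 hb
      exact zpow_mul_comm x i j
    have h3 := hrank (Subgroup.zpowers x ⊔ Z) ?_ ?_
    · have h4 : Z = Subgroup.zpowers x ⊔ Z := Subgroup.eq_of_le_of_card_ge le_sup_right (by rw [← hz, hz4]; exact h3)
      apply hxZ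
      rw [h4]
      exact Subgroup.mem_sup_left (Subgroup.mem_zpowers x)
    · intro a ha b hb
      obtain ⟨a1, ha1, a2, ha2, rfl⟩ := Subgroup.mem_sup_of_normal_right.1 ha
      obtain ⟨b1, hb1, b2, hb2, rfl⟩ := Subgroup.mem_sup_of_normal_right.1 hb
      have h4 := hcen a2 ha2 b1
      have h5 := hcen a2 ha2 b2
      have h6 := hcen b2 hb2 a1
      have h7 := hcommx a1 ha1 b1 hb1
      calc a1 * a2 * (b1 * b2) = a1 * (a2 * b1) * b2 := by group
        _ = a1 * (b1 * a2) * b2 := by rw [h4]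
        _ = (a1 * b1) * (a2 * b2) := by group
        _ = (b1 * a1) * (a2 * b2) := by rw [h7]
        _ = b1 * (a1 * a2 * b2) := by group
        _ = b1 * (a1 * (b2 * a2)) := by rw [mul_assoc, h5]
        _ = b1 * ((a1 * b2) * a2) := by group
        _ = b1 * ((b2 * a1) * a2) := by rw [h6]
        _ = b1 * b2 * (a1 * a2) := by group
    · intro a ha
      obtain ⟨a1, ha1, a2, ha2, rfl⟩ := Subgroup.mem_sup_of_normal_right.1 ha
      have h4 := hcen a2 ha2 a1
      calc a1 * a2 * (a1 * a2) = a1 * (a2 * a1) * a2 := by group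
        _ = a1 * (a1 * a2) * a2 := by rw [h4]
        _ = (a1 * a1) * (a2 * a2) := by group
        _ = 1 := by rw [hpow a1 ha1, hZsq a2 ha2, one_mul]
  -- choose `x`
  obtain ⟨x, hxZ⟩ : ∃ x, x ∉ Z := by
    by_contra hcon
    push Not at hcon
    exact hZtop (eq_top_iff.2 (fun y _ => hcon y))
  obtain ⟨t, ht⟩ : ∃ t, t = x * x := ⟨_, rfl⟩
  have ht1 : t ≠ 1 := by rw [ht]; exact hne1 x hxZ
  have htZ : t ∈ Z := by rw [ht]; exact hsqZ x
  have htt : t * t = 1 := hZsq t htZ
  have htinv : t⁻¹ = t := inv_eq_of_mul_eq_one_left htt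
  let T : Subgroup Q := Subgroup.zpowers t
  have hTord : Nat.card T = 2 := by
    rw [Nat.card_zpowers]
    exact orderOf_eq_prime (by rw [sq]; exact htt) ht1
  have hTZ : T ≤ Z := (Subgroup.zpowers_le).2 htZ
  have hTmem : ∀ a, a ∈ T → a = 1 ∨ a = t := by
    intro a ha
    obtain ⟨i, rfl⟩ := Subgroup.mem_zpowers_iff.1 ha
    rcases Int.even_or_odd' i with ⟨k, rfl | rfl⟩
    · left
      rw [zpow_mul, zpow_two, htt, one_zpow]
    · right
      rw [zpow_add, zpow_mul, zpow_two, htt, one_zpow, one_mul, zpow_one]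
  have hidxT : (T.subgroupOf Z).index = 2 := by
    have h3 := Subgroup.card_mul_index (T.subgroupOf Z)
    have h4 : Nat.card (T.subgroupOf Z) = 2 := by
      rw [← hTord]
      exact Nat.card_congr (Subgroup.subgroupOfEquivOfLe hTZ).toEquiv
    rw [h4, ← hz, hz4] at h3
    omega
  have hT2 : ∀ a ∈ Z, ∀ b ∈ Z, a ∉ T → b ∉ T → a * b ∈ T := by
    intro a ha b hb hat hbt
    have h3 := (Subgroup.mul_mem_iff_of_index_two hidxT (a := (⟨a, ha⟩ : Z)) (b := (⟨b, hb⟩ : Z))).2
      ⟨fun h => absurd h hat, fun h => absurd h hbt⟩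
    exact h3
  have hcomx : ∀ g : Q, g * x * g⁻¹ * x⁻¹ ∈ Z := fun g => hcommZ g x
  -- the centralizer of `x` is large
  let κ : Q →* Z := MonoidHom.mk' (fun g => ⟨g * x * g⁻¹ * x⁻¹, hcomx g⟩) (by
    intro g h
    apply Subtype.ext
    show (g * h) * x * (g * h)⁻¹ * x⁻¹ = (g * x * g⁻¹ * x⁻¹) * (h * x * h⁻¹ * x⁻¹)
    have h3 := hcen _ (hcomx h) g
    obtain ⟨k, hk⟩ : ∃ k, k = h * x * h⁻¹ * x⁻¹ := ⟨_, rfl⟩
    rw [← hk] at h3 ⊢
    have h4 : h * x * h⁻¹ = k * x := by rw [hk]; group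
    have h5 : k ∈ Z := by rw [hk]; exact hcomx h
    calc (g * h) * x * (g * h)⁻¹ * x⁻¹ = g * (h * x * h⁻¹) * g⁻¹ * x⁻¹ := by group
      _ = g * (k * x) * g⁻¹ * x⁻¹ := by rw [h4]
      _ = (g * k) * x * g⁻¹ * x⁻¹ := by group
      _ = (k * g) * x * g⁻¹ * x⁻¹ := by rw [h3]
      _ = k * (g * x * g⁻¹ * x⁻¹) := by group
      _ = (g * x * g⁻¹ * x⁻¹) * k := (hcen k h5 _).symm)
  let D : Subgroup Q := Subgroup.centralizer {x}
  have hkerκ : κ.ker = D := by
    ext g
    rw [MonoidHom.mem_ker]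
    constructor
    · intro h
      have h3 : g * x * g⁻¹ * x⁻¹ = 1 := congrArg Subtype.val h
      rw [mul_inv_eq_one, mul_inv_eq_iff_eq_mul] at h3
      exact Subgroup.mem_centralizer_singleton_iff.2 h3
    · intro h
      have h3 := Subgroup.mem_centralizer_singleton_iff.1 h
      apply Subtype.ext
      show g * x * g⁻¹ * x⁻¹ = 1
      rw [h3]
      group
  have hDcard : w ≤ Nat.card D := by
    have h3 := Subgroup.card_mul_index D
    have h4 : D.index = Nat.card κ.range := by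
      rw [← hkerκ]
      exact Subgroup.index_ker κ
    have h5 : Nat.card κ.range ≤ Nat.card Z := Subgroup.card_le_card_group _
    rw [← hz, hz4] at h5
    rw [h4, ← hindex, hz4] at h3
    by_contra hlt
    push Not at hlt
    have h6 : Nat.card D * Nat.card κ.range ≤ Nat.card D * 4 := Nat.mul_le_mul_left _ h5
    have h7 : 0 < Nat.card D := Nat.card_pos
    nlinarith
  let A : Subgroup Q := Subgroup.zpowers x ⊔ Z
  have hADcent : ∀ a ∈ Subgroup.zpowers x, a ∈ D := by
    intro a ha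
    obtain ⟨i, rfl⟩ := Subgroup.mem_zpowers_iff.1 ha
    exact Subgroup.mem_centralizer_singleton_iff.2 (zpow_mul_comm x i 1 |> fun h => by simpa using h)
  have hZD : Z ≤ D := fun z hz' => Subgroup.mem_centralizer_singleton_iff.2 (hcen z hz' x).symm
  have hAD : A ≤ D := sup_le hADcent hZD
  have hAcard : Nat.card A ≤ 8 := by
    have h3 := CfsgLib.Solv.card_sup_mul_card_inf (Subgroup.zpowers x) Z
    have h4 : 2 ≤ Nat.card ↥(Subgroup.zpowers x ⊓ Z) := by
      rw [← hTord]
      apply Subgroup.card_le_of_le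
      refine (Subgroup.zpowers_le).2 ⟨?_, htZ⟩
      rw [ht, ← sq]
      exact Subgroup.npow_mem_zpowers x 2
    have h5 : Nat.card (Subgroup.zpowers x) ≤ 4 := by
      rw [Nat.card_zpowers]
      refine Nat.le_of_dvd (by norm_num) (orderOf_dvd_of_pow_eq_one ?_)
      have := hx4 x
      calc x ^ 4 = x * x * (x * x) := by simp only [pow_succ, pow_zero, one_mul, mul_assoc]
        _ = 1 := this
    rw [← hz, hz4] at h3
    have h6 : Nat.card A * 2 ≤ Nat.card A * Nat.card ↥(Subgroup.zpowers x ⊓ Z) := Nat.mul_le_mul_left _ h4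
    show Nat.card ↥(Subgroup.zpowers x ⊔ Z) ≤ 8
    have h7 : Nat.card A = Nat.card ↥(Subgroup.zpowers x ⊔ Z) := rfl
    rw [← h7] at h3 ⊢
    nlinarith
  -- the quotient `D / A`
  let A' : Subgroup D := A.subgroupOf D
  haveI hA'n : A'.Normal := by
    constructor
    intro a ha g
    rw [Subgroup.mem_subgroupOf] at ha ⊢
    have h3 : (g : Q) * a * (g : Q)⁻¹ = ((g : Q) * a * (g : Q)⁻¹ * (a : Q)⁻¹) * a := by group
    show (g : Q) * a * (g : Q)⁻¹ ∈ A
    rw [h3]
    exact A.mul_mem (Subgroup.mem_sup_right (hcommZ _ _)) ha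
  have hBsq : ∀ q : D ⧸ A', q * q = 1 := by
    intro q
    obtain ⟨g, rfl⟩ := QuotientGroup.mk'_surjective A' q
    rw [← map_mul]
    apply (QuotientGroup.eq_one_iff _).2
    rw [Subgroup.mem_subgroupOf]
    exact Subgroup.mem_sup_right (hsqZ g)
  have hBcard : 8 ≤ Nat.card (D ⧸ A') := by
    have h3 := Subgroup.card_mul_index A'
    have h4 : Nat.card A' = Nat.card A := Nat.card_congr (Subgroup.subgroupOfEquivOfLe hAD).toEquiv
    have h5 : Nat.card (D ⧸ A') = A'.index := rfl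
    rw [h5]
    rw [h4] at h3
    by_contra hlt
    push Not at hlt
    have h6 : Nat.card A * A'.index ≤ 8 * 7 := Nat.mul_le_mul hAcard (by omega)
    omega
  obtain ⟨qu, qv, qw, hqu, hqv, hqw, hquv, hquw, hqvw, hquvw⟩ := h8_triple hBsq hBcard
  obtain ⟨u, rfl⟩ := QuotientGroup.mk'_surjective A' qu
  obtain ⟨v, rfl⟩ := QuotientGroup.mk'_surjective A' qv
  obtain ⟨w', rfl⟩ := QuotientGroup.mk'_surjective A' qw
  have hnot : ∀ g : D, QuotientGroup.mk' A' g ≠ 1 → (g : Q) ∉ A := by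
    intro g hg h
    apply hg
    exact (QuotientGroup.eq_one_iff _).2 (Subgroup.mem_subgroupOf.2 h)
  rw [← map_mul] at hquv hquw hqvw
  rw [← map_mul, ← map_mul] at hquvw
  have hnu := hnot u hqu
  have hnv := hnot v hqv
  have hnw := hnot w' hqw
  have hnuv := hnot _ hquv
  have hnuw := hnot _ hquw
  have hnvw := hnot _ hqvw
  have hnuvw := hnot _ hquvw
  -- squares of elements outside `A`
  have hsqn : ∀ y : D, (y : Q) ∉ A → (y : Q) * y ∉ T := by
    intro y hy hT
    have hyZ : (y : Q) ∉ Z := fun h => hy (Subgroup.mem_sup_right h)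
    have hyx : (y : Q) * x ∉ Z := by
      intro h
      apply hy
      have h3 : (y : Q) = ((y : Q) * x) * x⁻¹ := by group
      rw [h3]
      exact A.mul_mem (Subgroup.mem_sup_right h) (Subgroup.mem_sup_left (Subgroup.inv_mem _ (Subgroup.mem_zpowers x)))
    have hcy : (y : Q) * x = x * y := Subgroup.mem_centralizer_singleton_iff.1 y.2
    rcases hTmem _ hT with h | h
    · exact hne1 _ hyZ h
    · apply hne1 _ hyx
      calc ((y : Q) * x) * ((y : Q) * x) = y * (x * y) * x := by group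
        _ = y * (y * x) * x := by rw [hcy]
        _ = ((y : Q) * y) * (x * x) := by group
        _ = t * t := by rw [h, ← ht]
        _ = 1 := htt
  have hpair : ∀ a b : D, (a : Q) ∉ A → (b : Q) ∉ A → ((a * b : D) : Q) ∉ A →
      (b : Q) * a * (b : Q)⁻¹ * (a : Q)⁻¹ ∉ T := by
    intro a b ha hb hab hk
    have h3 := hT2 _ (hsqZ _) _ (hsqZ _) (hsqn a ha) (hsqn b hb)
    have h4 := T.mul_mem hk h3
    have h5 := hsq2 (a : Q) (b : Q)
    rw [mul_assoc (((b : Q) * a * (b : Q)⁻¹ * (a : Q)⁻¹)) ((a : Q) * a) ((b : Q) * b), ← mul_assoc (((b : Q) * a * (b : Q)⁻¹ * (a : Q)⁻¹)) ] at h5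
    apply hsqn (a * b) hab
    show ((a : Q) * b) * ((a : Q) * b) ∈ T
    rw [hsq2]
    rw [mul_assoc]
    exact h4
  have h1u := hpair u v hnu hnv hnuv
  have h2u := hpair u w' hnu hnw hnuw
  have h3u := hpair u (v * w') hnu hnvw hnuvw
  apply h3u
  have hk1 := hkZ (u : Q) (v : Q)
  have hk2' := hkZ (u : Q) (w' : Q)
  have h4 := hT2 _ hk1 _ hk2' h1u h2u
  have hcent := hcen _ hk2' (v : Q)
  obtain ⟨k2, hk2d⟩ : ∃ k2, k2 = (w' : Q) * u * (w' : Q)⁻¹ * (u : Q)⁻¹ := ⟨_, rfl⟩
  rw [← hk2d] at h4 hcent hk2'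
  have h5 : (w' : Q) * u * (w' : Q)⁻¹ = k2 * u := by rw [hk2d]; group
  have h6 : ((v * w' : D) : Q) * u * ((v * w' : D) : Q)⁻¹ * (u : Q)⁻¹ =
      ((v : Q) * u * (v : Q)⁻¹ * (u : Q)⁻¹) * k2 := by
    show ((v : Q) * w') * u * ((v : Q) * w')⁻¹ * (u : Q)⁻¹ = _
    calc ((v : Q) * w') * u * ((v : Q) * w')⁻¹ * (u : Q)⁻¹ = (v : Q) * ((w' : Q) * u * (w' : Q)⁻¹) * (v : Q)⁻¹ * (u : Q)⁻¹ := by group
      _ = (v : Q) * (k2 * u) * (v : Q)⁻¹ * (u : Q)⁻¹ := by rw [h5]
      _ = ((v : Q) * k2) * u * (v : Q)⁻¹ * (u : Q)⁻¹ := by group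
      _ = (k2 * (v : Q)) * u * (v : Q)⁻¹ * (u : Q)⁻¹ := by rw [hcent]
      _ = k2 * ((v : Q) * u * (v : Q)⁻¹ * (u : Q)⁻¹) := by group
      _ = ((v : Q) * u * (v : Q)⁻¹ * (u : Q)⁻¹) * k2 := (hcen k2 hk2' _).symm
  rw [h6]
  exact h4

/-- Let d be a non-identity 3-element of a finite group and P a 2-subgroup normalized by d on which ⟨d⟩ acts faithfully (no non-identity power of d centralizes P) and without non-identity fixed points (C_P(d) = 1). If every abelian subgroup of P has 2-rank at most 2, then d has order 3. -/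
theorem result {X : Type*} [Group X] [Finite X] (d : X) (n : ℕ) (hn : 1 ≤ n) (hd : orderOf d = 3 ^ n) (P : Subgroup X) (hP : IsPGroup 2 P) (hdP : d ∈ Subgroup.normalizer (P : Set X)) (hfaith : Subgroup.zpowers d ⊓ Subgroup.centralizer (P : Set X) = ⊥) (hfpf : P ⊓ Subgroup.centralizer {d} = ⊥) (hrank : ∀ V : Subgroup X, V ≤ P → IsMulCommutative V → Cfsg.PRankLE 2 2 V) : orderOf d = 3 := by
  classical
  -- reduce to `n ≥ 2`
  rcases Nat.lt_or_ge n 2 with hn2 | hn2
  · have h1 : n = 1 := by omega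
    rw [hd, h1, pow_one]
  exfalso
  obtain ⟨k, rfl⟩ : ∃ k, n = k + 2 := ⟨n - 2, by omega⟩
  set y := d ^ (3 ^ (k + 1)) with hy
  have hy1 : y ≠ 1 := by
    intro h
    have h1 := orderOf_dvd_of_pow_eq_one h
    rw [hd] at h1
    have h2 : 3 ^ (k + 2) ≤ 3 ^ (k + 1) := Nat.le_of_dvd (by positivity) h1
    have h3 : 3 ^ (k + 1) < 3 ^ (k + 2) := Nat.pow_lt_pow_right (by norm_num) (by omega)
    omega
  have hyP : y ∉ Subgroup.centralizer (P : Set X) := by
    intro h
    have h1 : y ∈ Subgroup.zpowers d ⊓ Subgroup.centralizer (P : Set X) :=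
      ⟨Subgroup.npow_mem_zpowers d _, h⟩
    rw [hfaith, Subgroup.mem_bot] at h1
    exact hy1 h1
  let S : Set (Subgroup X) := {R | R ≤ P ∧ d ∈ Subgroup.normalizer (R : Set X) ∧ y ∉ Subgroup.centralizer (R : Set X)}
  obtain ⟨Q, hQ⟩ := (Set.toFinite S).exists_minimal ⟨P, le_rfl, hdP, hyP⟩
  obtain ⟨hQP, hdQ, hyQ⟩ := hQ.1
  have hQmin : ∀ R : Subgroup X, R ≤ Q → d ∈ Subgroup.normalizer (R : Set X) → R ≠ Q →
      y ∈ Subgroup.centralizer (R : Set X) := by
    intro R hRQ hdR hne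
    by_contra hcon
    exact hne (le_antisymm hRQ (hQ.2 ⟨hRQ.trans hQP, hdR, hcon⟩ hRQ))
  let δ : Subgroup.normalizer (Q : Set X) := ⟨d, hdQ⟩
  let σ : MulAut Q := Q.normalizerMonoidHom δ
  have hσ : ∀ (m : ℕ) (x : Q), ((σ ^ m) x : X) = d ^ m * x * (d ^ m)⁻¹ := by
    intro m x
    have h1 : σ ^ m = Q.normalizerMonoidHom (δ ^ m) := by
      rw [map_pow]
    rw [h1]
    rfl
  let τ : MulAut Q := σ ^ (3 ^ (k + 1))
  let ρ : MulAut Q := σ ^ (3 ^ k)
  have hτx : ∀ x : Q, (τ x : X) = y * x * y⁻¹ := fun x => hσ _ x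
  have hρ : ρ ^ 3 = τ := by
    show (σ ^ (3 ^ k)) ^ 3 = σ ^ (3 ^ (k + 1))
    rw [← pow_mul, pow_succ]
  have hσtop : σ ^ (3 ^ (k + 2)) = 1 := by
    apply MulEquiv.ext
    intro x
    apply Subtype.ext
    rw [hσ, ← hd, pow_orderOf_eq_one]
    simp
  have hρ9 : ρ ^ 9 = 1 := by
    show (σ ^ (3 ^ k)) ^ 9 = 1
    rw [← pow_mul, show 3 ^ k * 9 = 3 ^ (k + 2) by ring, hσtop]
  have hQ2 : IsPGroup 2 Q := IsPGroup.to_le hP hQP
  apply h8_core hQ2 σ τ ρ hρ hρ9
  · exact ((Commute.refl σ).pow_right _).eq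
  · intro h
    apply hyQ
    rw [Subgroup.mem_centralizer_iff]
    intro x hx
    have h1 := hτx ⟨x, hx⟩
    rw [h] at h1
    have h2 : x = y * x * y⁻¹ := h1
    rw [eq_comm, mul_inv_eq_iff_eq_mul] at h2
    exact h2.symm
  · intro R hRσ hRtop x hx
    have hmapQ : R.map Q.subtype ≤ Q := Subgroup.map_subtype_le R
    have hne : R.map Q.subtype ≠ Q := by
      intro h
      apply hRtop
      rw [eq_top_iff]
      intro z _
      have h1 : (z : X) ∈ R.map Q.subtype := by
        rw [h]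
        exact z.2
      obtain ⟨z', hz', hzz⟩ := h1
      have h2 : z' = z := Subtype.ext hzz
      rwa [← h2]
    have hdR : d ∈ Subgroup.normalizer ((R.map Q.subtype : Subgroup X) : Set X) := by
      apply CfsgLib.FGS.mem_normalizer_of_conj_le
      rintro _ ⟨z, hz, rfl⟩
      refine ⟨σ z, hRσ z hz, ?_⟩
      have h1 := hσ 1 z
      simpa using h1
    have h1 := hQmin _ hmapQ hdR hne
    apply Subtype.ext
    rw [hτx]
    have h2 := Subgroup.mem_centralizer_iff.1 h1 (x : X) ⟨x, hx, rfl⟩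
    rw [mul_inv_eq_iff_eq_mul]
    exact h2.symm
  · intro x hx
    have h1 := hσ 1 x
    rw [pow_one, hx] at h1
    have h2 : (x : X) = d * x * d⁻¹ := by simpa using h1
    have h3 : (x : X) ∈ P ⊓ Subgroup.centralizer {d} := by
      refine ⟨hQP x.2, ?_⟩
      apply Subgroup.mem_centralizer_singleton_iff.2
      rw [eq_comm, mul_inv_eq_iff_eq_mul] at h2
      exact h2.symm
    rw [hfpf, Subgroup.mem_bot] at h3
    exact Subtype.ext h3
  · intro E hEc hEs
    have hE' : E.map Q.subtype ≤ P := (Subgroup.map_subtype_le E).trans hQP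
    have hcomm : IsMulCommutative ↥(E.map Q.subtype) := ⟨⟨by
      rintro ⟨_, a, ha, rfl⟩ ⟨_, b, hb, rfl⟩
      apply Subtype.ext
      have h := congrArg (fun z : Q => (z : X)) (hEc a ha b hb)
      exact h⟩⟩
    have h1 := hrank _ hE' hcomm ⊤ (by
      haveI : IsMulCommutative ↥(⊤ : Subgroup ↥(E.map Q.subtype)) := ⟨⟨by
        rintro ⟨a, -⟩ ⟨b, -⟩
        apply Subtype.ext
        exact hcomm.is_comm.comm a b⟩⟩
      infer_instance) (by
      rintro ⟨_, a, ha, rfl⟩ -
      apply Subtype.ext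
      show ((a : Q) : X) ^ 2 = 1
      rw [sq]
      have h := congrArg (fun z : Q => (z : X)) (hEs a ha)
      exact h)
    rw [Subgroup.card_top, Subgroup.card_map_of_injective Q.subtype_injective] at h1
    exact h1

end Cfsg.Agent.S3738
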