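import Cfsg.Statements.S3742
import Cfsg.Agent.Lib.FGS.Basic

set_option autoImplicit false
open Cfsg

namespace Cfsg.Agent.S3742

abbrev Q8 := QuaternionGroup 2

def tbl : ℕ → Q8 × Q8
  | 6 => (QuaternionGroup.a 1, QuaternionGroup.xa 0)
  | 7 => (QuaternionGroup.xa 2, QuaternionGroup.a 3)
  | 9 => (QuaternionGroup.xa 1, QuaternionGroup.xa 2)
  | 11 => (QuaternionGroup.xa 0, QuaternionGroup.xa 3)
  | 13 => (QuaternionGroup.xa 3, QuaternionGroup.a 1)
  | 14 => (QuaternionGroup.a 3, QuaternionGroup.xa 1)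
  | 18 => (QuaternionGroup.xa 0, QuaternionGroup.a 1)
  | 19 => (QuaternionGroup.a 3, QuaternionGroup.xa 2)
  | 24 => (QuaternionGroup.xa 3, QuaternionGroup.a 3)
  | 27 => (QuaternionGroup.a 1, QuaternionGroup.xa 1)
  | 28 => (QuaternionGroup.xa 1, QuaternionGroup.xa 0)
  | 30 => (QuaternionGroup.xa 2, QuaternionGroup.xa 3)
  | 33 => (QuaternionGroup.xa 2, QuaternionGroup.xa 1)
  | 35 => (QuaternionGroup.xa 3, QuaternionGroup.xa 0)
  | 36 => (QuaternionGroup.a 3, QuaternionGroup.xa 3)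
  | 39 => (QuaternionGroup.xa 1, QuaternionGroup.a 1)
  | 44 => (QuaternionGroup.a 1, QuaternionGroup.xa 2)
  | 45 => (QuaternionGroup.xa 0, QuaternionGroup.a 3)
  | 49 => (QuaternionGroup.a 1, QuaternionGroup.xa 3)
  | 50 => (QuaternionGroup.xa 1, QuaternionGroup.a 3)
  | 52 => (QuaternionGroup.xa 0, QuaternionGroup.xa 1)
  | 54 => (QuaternionGroup.xa 3, QuaternionGroup.xa 2)
  | 56 => (QuaternionGroup.xa 2, QuaternionGroup.a 1)
  | 57 => (QuaternionGroup.a 3, QuaternionGroup.xa 0)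
  | _ => (1, 1)

def key (σ : Equiv.Perm (Fin 4)) : ℕ := (σ 0).val * 16 + (σ 1).val * 4 + (σ 2).val

def W (p : Q8 × Q8) : Q8 → Q8
  | .a i => p.1 ^ i.val
  | .xa i => p.2 * p.1 ^ i.val

def act (σ : Equiv.Perm (Fin 4)) (q : Q8) : Q8 := W (tbl (key σ)) q

theorem act_mul : ∀ (σ : Equiv.Perm (Fin 4)) (q q' : Q8), act σ (q * q') = act σ q * act σ q' := by decide +kernel
theorem act_comp : ∀ (σ τ : Equiv.Perm (Fin 4)) (q : Q8), act (σ * τ) q = act σ (act τ q) := by decide +kernel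
theorem act_one : ∀ q : Q8, act 1 q = q := by decide +kernel
theorem act_inj : ∀ σ : Equiv.Perm (Fin 4), (∀ q : Q8, act σ q = q) → σ = 1 := by decide +kernel
theorem act_surj : ∀ u v : Q8, u ^ 2 ≠ 1 → v ^ 2 ≠ 1 → v ≠ u → v ≠ u⁻¹ →
    ∃ σ : Equiv.Perm (Fin 4), act σ (.a 1) = u ∧ act σ (.xa 0) = v := by decide +kernel
theorem gens : ∀ q : Q8, ∃ k : Fin 4, q = (.a 1 : Q8) ^ k.val ∨ q = (.xa 0 : Q8) * (.a 1 : Q8) ^ k.val := by decide +kernel
theorem facts : ((.a 1 : Q8) ^ 2 ≠ 1) ∧ ((.xa 0 : Q8) ^ 2 ≠ 1) ∧ ((.xa 0 : Q8) ≠ .a 1) ∧ ((.xa 0 : Q8) ≠ (.a 1 : Q8)⁻¹) := by decide +kernel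

def actEquiv (σ : Equiv.Perm (Fin 4)) : MulAut Q8 :=
  { toFun := act σ
    invFun := act σ⁻¹
    left_inv := by
      intro q
      rw [← act_comp, inv_mul_cancel, act_one]
    right_inv := by
      intro q
      rw [← act_comp, mul_inv_cancel, act_one]
    map_mul' := act_mul σ }

def ρ : Equiv.Perm (Fin 4) →* MulAut Q8 :=
  { toFun := actEquiv
    map_one' := by
      ext q
      exact act_one q
    map_mul' := by
      intro σ τ
      ext q
      exact act_comp σ τ q }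

theorem ρ_apply (σ : Equiv.Perm (Fin 4)) (q : Q8) : ρ σ q = act σ q := rfl


/-- The automorphism group of the quaternion group of order 8 is isomorphic to the symmetric group of degree 4. -/
theorem result : Nonempty (MulAut (QuaternionGroup 2) ≃* Equiv.Perm (Fin 4)) := by
  have hinj : Function.Injective ρ := by
    rw [injective_iff_map_eq_one]
    intro σ h
    apply act_inj
    intro q
    rw [← ρ_apply, h]
    rfl
  have hsurj : Function.Surjective ρ := by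
    intro φ
    obtain ⟨f1, f2, f3, f4⟩ := facts
    have h1 : (φ (.a 1)) ^ 2 ≠ 1 := by
      intro h
      rw [← map_pow] at h
      exact f1 (φ.map_eq_one_iff.mp h)
    have h2 : (φ (.xa 0)) ^ 2 ≠ 1 := by
      intro h
      rw [← map_pow] at h
      exact f2 (φ.map_eq_one_iff.mp h)
    have h3 : φ (.xa 0) ≠ φ (.a 1) := fun h => f3 (φ.injective h)
    have h4 : φ (.xa 0) ≠ (φ (.a 1))⁻¹ := by
      intro h
      rw [← map_inv] at h
      exact f4 (φ.injective h)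
    obtain ⟨σ, hσ1, hσ2⟩ := act_surj _ _ h1 h2 h3 h4
    refine ⟨σ, ?_⟩
    ext q
    obtain ⟨k, hk | hk⟩ := gens q
    · rw [hk, map_pow, map_pow, ρ_apply, hσ1]
    · rw [hk, map_mul, map_mul, map_pow, map_pow, ρ_apply, ρ_apply, hσ1, hσ2]
  exact ⟨(MulEquiv.ofBijective ρ ⟨hinj, hsurj⟩).symm⟩

end Cfsg.Agent.S3742
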