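import Cfsg.Statements.S3744
import Cfsg.Agent.Lib.FGS.Basic
import Cfsg.Agent.Lib.H3.PSolv
import Cfsg.Agent.Lib.Solv.Hall
import Cfsg.Agent.Lib.OOL.CNTri
import Cfsg.Agent.Lib.Solv.Core

set_option autoImplicit false
open Cfsg
open scoped commutatorElement
open scoped Pointwise

namespace Cfsg.Agent.S3744

universe u

open Subgroup in
private lemma conj_lift_aux {G : Type*} [Group G] (N : Subgroup G) [N.Normal] (Hb : Subgroup (G ⧸ N))
    (U : Subgroup G) (gb : G ⧸ N) (h : (U.map (QuotientGroup.mk' N)).map (MulAut.conj gb).toMonoidHom ≤ Hb) :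
    ∃ g : G, U.map (MulAut.conj g).toMonoidHom ≤ Hb.comap (QuotientGroup.mk' N) := by
  obtain ⟨g, rfl⟩ := QuotientGroup.mk'_surjective N gb
  refine ⟨g, ?_⟩
  rintro _ ⟨u, hu, rfl⟩
  have := h ⟨(QuotientGroup.mk' N) u, ⟨u, hu, rfl⟩, rfl⟩
  simpa [Subgroup.mem_comap, MulAut.conj_apply] using this

open Subgroup in
private lemma card_map_mk_coprime {G : Type*} [Group G] [Finite G] (N U : Subgroup G) [N.Normal] {p : ℕ}
    (h : (Nat.card U).Coprime p) : (Nat.card (U.map (QuotientGroup.mk' N))).Coprime p :=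
  Nat.Coprime.coprime_dvd_left (Subgroup.card_map_dvd _ _) h

open Subgroup in
theorem psolv_main (p : ℕ) [hp : Fact p.Prime] : ∀ (c : ℕ) (G : Type u) [Group G] [Finite G], Nat.card G = c →
    Cfsg.IsPSolvable p G →
    ∃ H : Subgroup G, (Nat.card H).Coprime p ∧ (∃ n : ℕ, H.index = p ^ n) ∧
      ∀ U : Subgroup G, (Nat.card U).Coprime p → ∃ g : G, U.map (MulAut.conj g).toMonoidHom ≤ H := by
  intro c
  induction c using Nat.strong_induction_on with
  | _ c ih =>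
  intro G _ _ hc hG
  by_cases hnt : Nontrivial G
  swap
  · have hsub : Subsingleton G := not_nontrivial_iff_subsingleton.1 hnt
    refine ⟨⊤, ?_, ⟨0, ?_⟩, fun U _ => ⟨1, le_top⟩⟩
    · rw [Subgroup.card_top, Nat.card_of_subsingleton (1 : G)]
      exact Nat.coprime_one_left p
    · simp
  have hquot : ∀ (N : Subgroup G) [N.Normal], N ≠ ⊥ → Nat.card (G ⧸ N) < c := by
    intro N _ hN
    have h1 := Subgroup.card_mul_index N
    have h2 : 1 < Nat.card N := Subgroup.one_lt_card_iff_ne_bot N |>.2 hN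
    have h3 : 0 < N.index := Nat.pos_of_ne_zero Subgroup.index_ne_zero_of_finite
    rw [← hc, ← h1, Subgroup.index_eq_card]
    rw [Subgroup.index_eq_card] at h3
    nlinarith
  rcases CfsgLib.PSolv.core_ne_bot hG with hP | hN
  · -- normal `p`-subgroup
    obtain ⟨P, hPdef⟩ : ∃ P, P = Cfsg.pCore p G := ⟨_, rfl⟩
    have hPn : P.Normal := hPdef ▸ CfsgLib.Solv.pCore_normal' p
    have hPp : IsPGroup p P := hPdef ▸ CfsgLib.Solv.pCore_isPGroup p
    have hP0 : P ≠ ⊥ := hPdef ▸ hP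
    obtain ⟨Hb, hHb1, ⟨nb, hnb⟩, hHb2⟩ := ih _ (hquot P hP0) (G ⧸ P) rfl
      (CfsgLib.PSolv.quotient hp.out hG P)
    obtain ⟨L, hL⟩ : ∃ L, L = Hb.comap (QuotientGroup.mk' P) := ⟨_, rfl⟩
    have hPL : P ≤ L := by
      rw [hL]
      intro x hx
      have : (QuotientGroup.mk' P) x = 1 := (QuotientGroup.eq_one_iff x).2 hx
      simp [Subgroup.mem_comap, this]
    have hLcard : Nat.card L = Nat.card Hb * Nat.card P := by
      rw [hL]; exact CfsgLib.OOL.card_comap_mk P Hb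
    obtain ⟨Q, hQ⟩ : ∃ Q : Subgroup L, Q = P.subgroupOf L := ⟨_, rfl⟩
    have hQn : Q.Normal := hQ ▸ inferInstance
    have hQcard : Nat.card Q = Nat.card P := by
      rw [hQ]; exact CfsgLib.Solv.card_subgroupOf_of_le hPL
    have hQindex : Q.index = Nat.card Hb := by
      have h1 := Subgroup.card_mul_index Q
      rw [hQcard, hLcard, mul_comm (Nat.card Hb)] at h1
      exact Nat.eq_of_mul_eq_mul_left Nat.card_pos h1
    obtain ⟨kP, hkP⟩ := hPp.exists_card_eq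
    have hcopP : (Nat.card P).Coprime (Nat.card Hb) := by
      rw [hkP]; exact Nat.Coprime.pow_left _ hHb1.symm
    have hQcop : (Nat.card Q).Coprime Q.index := by rw [hQcard, hQindex]; exact hcopP
    have hQsolv : Group.IsSolvable Q := by
      have hQp : IsPGroup p Q := IsPGroup.of_card (n := kP) (by rw [hQcard, hkP])
      haveI := hQp.isNilpotent
      infer_instance
    obtain ⟨H₁, hH₁, -⟩ := CfsgLib.Solv.exists_complement_containing Q hQcop hQsolv ⊥ (by simp)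
    have hH₁card : Nat.card H₁ = Nat.card Hb := by
      rw [← hQindex]; exact hH₁.symm.index_eq_card.symm
    refine ⟨H₁.map L.subtype, ?_, ?_, ?_⟩
    · rw [Subgroup.card_map_of_injective L.subtype_injective, hH₁card]; exact hHb1
    · have h1 := Subgroup.card_mul_index (H₁.map L.subtype)
      rw [Subgroup.card_map_of_injective L.subtype_injective, hH₁card] at h1
      have h2 := Subgroup.card_mul_index P
      have h3 := Subgroup.card_mul_index Hb
      rw [Subgroup.index_eq_card] at h2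
      rw [hnb] at h3
      refine ⟨kP + nb, ?_⟩
      have h4 : Nat.card Hb * (H₁.map L.subtype).index = Nat.card Hb * p ^ (kP + nb) := by
        rw [h1, ← h2, ← h3, hkP, pow_add]; ring
      exact Nat.eq_of_mul_eq_mul_left Nat.card_pos h4
    · intro U hU
      obtain ⟨gb, hgb⟩ := hHb2 (U.map (QuotientGroup.mk' P)) (card_map_mk_coprime P U hU)
      obtain ⟨g, hg⟩ := conj_lift_aux P Hb U gb hgb
      rw [← hL] at hg
      -- `U^g ≤ L`
      obtain ⟨U', hU'⟩ : ∃ U' : Subgroup L, U' = (U.map (MulAut.conj g).toMonoidHom).subgroupOf L := ⟨_, rfl⟩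
      have hU'card : Nat.card U' = Nat.card U := by
        rw [hU', CfsgLib.Solv.card_subgroupOf_of_le hg]
        exact Subgroup.card_map_of_injective (MulAut.conj g).injective
      obtain ⟨H₂, hH₂, hU'H₂⟩ := CfsgLib.Solv.exists_complement_containing Q hQcop hQsolv U' (by
        rw [hU'card, hQcard, hkP]; exact Nat.Coprime.pow_right _ hU)
      obtain ⟨l, hl⟩ := CfsgLib.Solv.schur_conj_of_solvable_normal _ L Q rfl hQsolv hQcop H₁ H₂ hH₁ hH₂
      refine ⟨(l : G)⁻¹ * g, ?_⟩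
      rintro _ ⟨u, hu, rfl⟩
      have hmem : g * u * g⁻¹ ∈ L := hg ⟨u, hu, rfl⟩
      have h5 : (⟨g * u * g⁻¹, hmem⟩ : L) ∈ U' := by
        rw [hU', Subgroup.mem_subgroupOf]; exact ⟨u, hu, rfl⟩
      have h6 := hU'H₂ h5
      rw [← hl, CfsgLib.Solv.mem_conj_smul] at h6
      refine ⟨l⁻¹ * ⟨g * u * g⁻¹, hmem⟩ * l, h6, ?_⟩
      simp [MulAut.conj_apply, mul_assoc]
  · -- normal `p'`-subgroup
    obtain ⟨N, hNdef⟩ : ∃ N, N = Cfsg.pPrimeCore p G := ⟨_, rfl⟩
    have hNn : N.Normal := hNdef ▸ CfsgLib.Solv.pPrimeCore_normal' p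
    have hNc : (Nat.card N).Coprime p := hNdef ▸ CfsgLib.Solv.pPrimeCore_coprime p
    have hN0 : N ≠ ⊥ := hNdef ▸ hN
    obtain ⟨Hb, hHb1, ⟨nb, hnb⟩, hHb2⟩ := ih _ (hquot N hN0) (G ⧸ N) rfl
      (CfsgLib.PSolv.quotient hp.out hG N)
    refine ⟨Hb.comap (QuotientGroup.mk' N), ?_, ⟨nb, ?_⟩, ?_⟩
    · rw [CfsgLib.OOL.card_comap_mk N Hb]; exact Nat.Coprime.mul_left hHb1 hNc
    · rw [Subgroup.index_comap_of_surjective _ (QuotientGroup.mk'_surjective N), hnb]
    · intro U hU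
      obtain ⟨gb, hgb⟩ := hHb2 (U.map (QuotientGroup.mk' N)) (card_map_mk_coprime N U hU)
      exact conj_lift_aux N Hb U gb hgb

/-- A finite p-soluble group has a p-complement, all its p-complements are conjugate, and every subgroup of order prime to p lies in one of them. Here a p-complement is a subgroup of order prime to p whose index is a power of p. -/
theorem result {G : Type*} [Group G] [Finite G] {p : ℕ} [Fact p.Prime] (hG : Cfsg.IsPSolvable p G) : (∃ H : Subgroup G, (Nat.card H).Coprime p ∧ ∃ n : ℕ, H.index = p ^ n) ∧ (∀ H₁ H₂ : Subgroup G, (Nat.card H₁).Coprime p → (∃ n : ℕ, H₁.index = p ^ n) → (Nat.card H₂).Coprime p → (∃ n : ℕ, H₂.index = p ^ n) → ∃ g : G, H₂ = H₁.map (MulAut.conj g).toMonoidHom) ∧ (∀ U : Subgroup G, (Nat.card U).Coprime p → ∃ H : Subgroup G, (Nat.card H).Coprime p ∧ (∃ n : ℕ, H.index = p ^ n) ∧ ∃ g : G, U.map (MulAut.conj g).toMonoidHom ≤ H) := by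
  obtain ⟨H, hH1, ⟨n, hn⟩, hH2⟩ := psolv_main p _ G rfl hG
  refine ⟨⟨H, hH1, n, hn⟩, ?_, fun U hU => ⟨H, hH1, ⟨n, hn⟩, hH2 U hU⟩⟩
  intro H₁ H₂ h1 ⟨a, ha⟩ h2 ⟨b, hb⟩
  have hcard : ∀ (K : Subgroup G) (k : ℕ), (Nat.card K).Coprime p → K.index = p ^ k → Nat.card K = Nat.card H := by
    intro K k hK hk
    have e1 := Subgroup.card_mul_index K
    have e2 := Subgroup.card_mul_index H
    rw [hk] at e1
    rw [hn] at e2
    have d1 : Nat.card K ∣ Nat.card H := by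
      have : Nat.card K ∣ Nat.card H * p ^ n := ⟨p ^ k, by rw [e1, e2]⟩
      exact (Nat.Coprime.pow_right n hK).dvd_of_dvd_mul_right this
    have d2 : Nat.card H ∣ Nat.card K := by
      have : Nat.card H ∣ Nat.card K * p ^ k := ⟨p ^ n, by rw [e1, e2]⟩
      exact (Nat.Coprime.pow_right k hH1).dvd_of_dvd_mul_right this
    exact Nat.dvd_antisymm d1 d2
  obtain ⟨g₁, hg₁⟩ := hH2 H₁ h1
  obtain ⟨g₂, hg₂⟩ := hH2 H₂ h2
  have e₁ : H₁.map (MulAut.conj g₁).toMonoidHom = H := Subgroup.eq_of_le_of_card_ge hg₁ (by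
    rw [Subgroup.card_map_of_injective (MulAut.conj g₁).injective, hcard H₁ a h1 ha])
  have e₂ : H₂.map (MulAut.conj g₂).toMonoidHom = H := Subgroup.eq_of_le_of_card_ge hg₂ (by
    rw [Subgroup.card_map_of_injective (MulAut.conj g₂).injective, hcard H₂ b h2 hb])
  refine ⟨g₂⁻¹ * g₁, ?_⟩
  ext x
  constructor
  · intro hx
    have h3 : g₂ * x * g₂⁻¹ ∈ H₁.map (MulAut.conj g₁).toMonoidHom := by
      rw [e₁, ← e₂]; exact ⟨x, hx, rfl⟩
    obtain ⟨y, hy, hyx⟩ := h3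
    refine ⟨y, hy, ?_⟩
    have hyx' : g₁ * y * g₁⁻¹ = g₂ * x * g₂⁻¹ := hyx
    show (g₂⁻¹ * g₁) * y * (g₂⁻¹ * g₁)⁻¹ = x
    calc (g₂⁻¹ * g₁) * y * (g₂⁻¹ * g₁)⁻¹ = g₂⁻¹ * (g₁ * y * g₁⁻¹) * g₂ := by group
      _ = g₂⁻¹ * (g₂ * x * g₂⁻¹) * g₂ := by rw [hyx']
      _ = x := by group
  · rintro ⟨y, hy, rfl⟩
    have h3 : g₁ * y * g₁⁻¹ ∈ H₂.map (MulAut.conj g₂).toMonoidHom := by
      rw [e₂, ← e₁]; exact ⟨y, hy, rfl⟩
    obtain ⟨z, hz, hzy⟩ := h3
    have hzy' : g₂ * z * g₂⁻¹ = g₁ * y * g₁⁻¹ := hzy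
    have : (MulAut.conj (g₂⁻¹ * g₁)).toMonoidHom y = z := by
      show (g₂⁻¹ * g₁) * y * (g₂⁻¹ * g₁)⁻¹ = z
      calc (g₂⁻¹ * g₁) * y * (g₂⁻¹ * g₁)⁻¹ = g₂⁻¹ * (g₁ * y * g₁⁻¹) * g₂ := by group
        _ = g₂⁻¹ * (g₂ * z * g₂⁻¹) * g₂ := by rw [hzy']
        _ = z := by group
    rw [this]; exact hz

end Cfsg.Agent.S3744
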