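import Cfsg.Statements.S3745
import Cfsg.Agent.Lib.FGS.Basic
import Cfsg.Agent.Lib.FGS.Syl
import Cfsg.Agent.Lib.Solv.CoprimeSylow
import Cfsg.Agent.Lib.Solv.Hall
import Cfsg.Agent.Lib.OOL.CNTri
import Cfsg.Agent.Lib.H3.Comp2

set_option autoImplicit false
open Cfsg
open scoped commutatorElement
open scoped Pointwise

namespace Cfsg.Agent.S3745

universe u

open Subgroup CfsgLib.Solv

private lemma hall_card_mul {X : Type*} [Group X] [Finite X] {π : Set ℕ} {H G : Subgroup X}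
    (hH : Cfsg.IsPiHallOf π H G) : Nat.card H * H.relIndex G = Nat.card G := by
  rw [← card_subgroupOf_of_le hH.1]; exact Subgroup.card_mul_index _

private lemma hall_coprime {X : Type*} [Group X] {π : Set ℕ} {H K G : Subgroup X}
    (hH : Cfsg.IsPiHallOf π H G) (hK : Cfsg.IsPiHallOf π K G) : (Nat.card H).Coprime (K.relIndex G) :=
  Nat.coprime_of_dvd fun q hq h1 h2 => hK.2.2 q hq (hH.2.1 q hq h1) h2

private lemma hall_card_eq {X : Type*} [Group X] [Finite X] {π : Set ℕ} {H K G : Subgroup X}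
    (hH : Cfsg.IsPiHallOf π H G) (hK : Cfsg.IsPiHallOf π K G) : Nat.card H = Nat.card K := by
  have e1 := hall_card_mul hH
  have e2 := hall_card_mul hK
  apply Nat.dvd_antisymm
  · have : Nat.card H ∣ Nat.card K * K.relIndex G := ⟨H.relIndex G, by rw [e1, e2]⟩
    exact (hall_coprime hH hK).dvd_of_dvd_mul_right this
  · have : Nat.card K ∣ Nat.card H * H.relIndex G := ⟨K.relIndex G, by rw [e1, e2]⟩
    exact (hall_coprime hK hH).dvd_of_dvd_mul_right this

private lemma hall_conj' {X : Type u} [Group X] [Finite X] {π : Set ℕ} {H K G : Subgroup X}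
    (hsolv : Group.IsSolvable G) (hH : Cfsg.IsPiHallOf π H G) (hK : Cfsg.IsPiHallOf π K G) :
    ∃ k ∈ G, MulAut.conj k • H = K := by
  haveI := hsolv
  obtain ⟨l, hl⟩ := hall_conj _ G rfl (Nat.card H) (H.relIndex G) (hall_card_mul hH).symm
    (hall_coprime hH hH) (H.subgroupOf G) (K.subgroupOf G) (card_subgroupOf_of_le hH.1)
    (by rw [card_subgroupOf_of_le hK.1]; exact (hall_card_eq hH hK).symm)
  exact ⟨l, l.2, conj_of_subgroupOf hH.1 hK.1 l hl⟩

/-- the statement to prove by induction -/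
private def StmtC (π : Set ℕ) (c : ℕ) : Prop :=
  ∀ (X : Type u) [Group X] [Finite X] (A G : Subgroup X), Nat.card G = c →
    A ≤ normalizer (G : Set X) → (Nat.card A).Coprime (Nat.card G) → Group.IsSolvable G →
    ∀ U : Subgroup X, U ≤ G → A ≤ normalizer (U : Set X) →
      (∀ p : ℕ, p.Prime → p ∣ Nat.card U → p ∈ π) →
      ∃ H : Subgroup X, Cfsg.IsPiHallOf π H G ∧ A ≤ normalizer (H : Set X) ∧ U ≤ H

private lemma bot_case {X : Type*} [Group X] [Finite X] (π : Set ℕ) (A G U : Subgroup X) (hG0 : G = ⊥) (hUG : U ≤ G) :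
      ∃ H : Subgroup X, Cfsg.IsPiHallOf π H G ∧ A ≤ normalizer (H : Set X) ∧ U ≤ H := by
  subst hG0
  refine ⟨⊥, ⟨le_rfl, ?_, ?_⟩, ?_, hUG⟩
  · intro p hp hd
    rw [Subgroup.card_bot] at hd
    exact absurd (Nat.dvd_one.1 hd) hp.one_lt.ne'
  · intro p hp _ hd
    rw [Subgroup.relIndex_self] at hd
    exact absurd (Nat.dvd_one.1 hd) hp.one_lt.ne'
  · intro a _
    rw [Subgroup.mem_normalizer_iff]
    intro h
    simp [Subgroup.mem_bot]

private lemma normal_case (π : Set ℕ) (c : ℕ) (ih : ∀ c' < c, StmtC.{u} π c')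
    (X : Type u) [Group X] [Finite X] (A G : Subgroup X) [hGn : G.Normal] (hc : Nat.card G = c)
    (hAG : A ≤ normalizer (G : Set X)) (hcop : (Nat.card A).Coprime (Nat.card G))
    (hsolv : Group.IsSolvable G) (U : Subgroup X) (hUG : U ≤ G) (hUA : A ≤ normalizer (U : Set X))
    (hUπ : ∀ p : ℕ, p.Prime → p ∣ Nat.card U → p ∈ π) :
    ∃ H : Subgroup X, Cfsg.IsPiHallOf π H G ∧ A ≤ normalizer (H : Set X) ∧ U ≤ H := by
  by_cases hG0 : G = ⊥
  · exact bot_case π A G U hG0 hUG
  haveI := hsolv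
  haveI : Nontrivial G := (Subgroup.nontrivial_iff_ne_bot G).2 hG0
  obtain ⟨r, Ar, hr, hArn, hAr0, hArp⟩ := exists_normal_pgroup G
  haveI := Fact.mk hr
  haveI hch : (Cfsg.pCore r G).Characteristic := CfsgLib.Comp.pCore_char r
  obtain ⟨M, hMdef⟩ : ∃ M, M = (Cfsg.pCore r G).map G.subtype := ⟨_, rfl⟩
  haveI hMn : M.Normal := by rw [hMdef]; infer_instance
  have hMG : M ≤ G := by rw [hMdef]; exact Subgroup.map_subtype_le _
  have hMp : IsPGroup r M := by rw [hMdef]; exact (pCore_isPGroup r).map _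
  have hM0 : M ≠ ⊥ := by
    rw [hMdef]
    intro h
    rw [Subgroup.map_eq_bot_iff_of_injective _ G.subtype_injective] at h
    apply hAr0
    rw [eq_bot_iff, ← h]
    exact le_pCore' Ar hArp
  obtain ⟨kM, hkM⟩ := hMp.exists_card_eq
  have hM1 : 1 < Nat.card M := (Subgroup.one_lt_card_iff_ne_bot M).2 hM0
  have hcardG : Nat.card G = Nat.card M * M.relIndex G := by
    rw [← card_subgroupOf_of_le hMG]; exact (Subgroup.card_mul_index _).symm
  obtain ⟨f, hf⟩ : ∃ f : X →* X ⧸ M, f = QuotientGroup.mk' M := ⟨_, rfl⟩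
  have hfsurj : Function.Surjective f := hf ▸ QuotientGroup.mk'_surjective M
  have hfker : f.ker = M := by rw [hf]; exact QuotientGroup.ker_mk' M
  have hGbcard : Nat.card (G.map f) = M.relIndex G := by
    rw [← Subgroup.relIndex_ker, hfker]
  have hGbpos : 0 < Nat.card (G.map f) := Nat.card_pos
  have hlt : Nat.card (G.map f) < c := by
    rw [← hc, hcardG, hGbcard]
    rw [hGbcard] at hGbpos
    nlinarith
  obtain ⟨Hb, hHb, hHbA, hUHb⟩ := ih _ hlt (X ⧸ M) (A.map f) (G.map f) rfl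
    ((Subgroup.map_mono hAG).trans (Subgroup.le_normalizer_map f))
    (Nat.Coprime.coprime_dvd_left (Subgroup.card_map_dvd _ _)
      (Nat.Coprime.coprime_dvd_right (Subgroup.card_map_dvd _ _) hcop))
    (by
      haveI := hsolv
      exact Group.isSolvable_of_surjective (f := f.subgroupMap G) (f.subgroupMap_surjective G))
    (U.map f) (Subgroup.map_mono hUG)
    ((Subgroup.map_mono hUA).trans (Subgroup.le_normalizer_map f))
    (fun p hp hd => hUπ p hp (hd.trans (Subgroup.card_map_dvd _ _)))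
  obtain ⟨L, hLdef⟩ : ∃ L, L = Hb.comap f := ⟨_, rfl⟩
  have hLA : A ≤ normalizer (L : Set X) := by
    rw [hLdef]
    exact ((Subgroup.map_le_iff_le_comap).1 hHbA).trans (Subgroup.le_normalizer_comap f)
  have hUL : U ≤ L := by rw [hLdef]; exact (Subgroup.map_le_iff_le_comap).1 hUHb
  have hLG : L ≤ G := by
    intro x hx
    rw [hLdef, Subgroup.mem_comap] at hx
    obtain ⟨g, hg, hgx⟩ := hHb.1 hx
    have h1 : g⁻¹ * x ∈ f.ker := by
      rw [MonoidHom.mem_ker, map_mul, map_inv, hgx, inv_mul_cancel]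
    rw [hfker] at h1
    have h2 : x = g * (g⁻¹ * x) := by group
    rw [h2]
    exact G.mul_mem hg (hMG h1)
  have hLcard : Nat.card L = Nat.card Hb * Nat.card M := by
    rw [hLdef, hf]; exact CfsgLib.OOL.card_comap_mk M Hb
  have hidx : L.relIndex G = Hb.relIndex (G.map f) := by
    rw [hLdef, Subgroup.relIndex_comap]
  have hpidx : ∀ p : ℕ, p.Prime → p ∈ π → ¬ p ∣ L.relIndex G := by
    intro p hp hpπ
    rw [hidx]; exact hHb.2.2 p hp hpπ
  have hMprime : ∀ p : ℕ, p.Prime → p ∣ Nat.card M → p = r := by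
    intro p hp hd
    rw [hkM] at hd
    exact (Nat.prime_dvd_prime_iff_eq hp hr).1 (hp.dvd_of_dvd_pow hd)
  by_cases hrπ : r ∈ π
  · refine ⟨L, ⟨hLG, ?_, hpidx⟩, hLA, hUL⟩
    intro p hp hd
    rw [hLcard] at hd
    rcases (Nat.Prime.dvd_mul hp).1 hd with h | h
    · exact hHb.2.1 p hp h
    · rw [hMprime p hp h]; exact hrπ
  by_cases hLeq : L = G
  swap
  · -- induction on `L`
    have hlt2 : Nat.card L < c := by
      rw [← hc]
      refine lt_of_le_of_ne (Nat.card_le_card_of_injective _ (Subgroup.inclusion_injective hLG)) ?_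
      intro h
      exact hLeq (Subgroup.eq_of_le_of_card_ge hLG h.ge)
    obtain ⟨H, hH, hHA, hUH⟩ := ih _ hlt2 X A L rfl hLA
      (Nat.Coprime.coprime_dvd_right (Subgroup.card_dvd_of_le hLG) hcop)
      (subgroup_solvable_of_le hLG hsolv) U hUL hUA hUπ
    refine ⟨H, ⟨hH.1.trans hLG, hH.2.1, ?_⟩, hHA, hUH⟩
    intro p hp hpπ hd
    rw [← Subgroup.relIndex_mul_relIndex H L G hH.1 hLG] at hd
    rcases (Nat.Prime.dvd_mul hp).1 hd with h | h
    · exact hH.2.2 p hp hpπ h
    · exact hpidx p hp hpπ h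
  -- `G / M` is a `π`-group
  have hGbπ : ∀ p : ℕ, p.Prime → p ∣ M.relIndex G → p ∈ π := by
    intro p hp hd
    have h1 : L.relIndex G = 1 := by rw [hLeq]; exact Subgroup.relIndex_self G
    rw [h1] at hidx
    have h2 := hall_card_mul hHb
    rw [← hidx, mul_one, hGbcard] at h2
    rw [← h2] at hd
    exact hHb.2.1 p hp hd
  have hcopMG : (Nat.card M).Coprime (M.relIndex G) := by
    rw [hkM]
    exact Nat.Coprime.pow_left _ ((Nat.Prime.coprime_iff_not_dvd hr).2 fun h => hrπ (hGbπ r hr h))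
  obtain ⟨Mg, hMg⟩ : ∃ Mg : Subgroup G, Mg = M.subgroupOf G := ⟨_, rfl⟩
  haveI hMgn : Mg.Normal := by rw [hMg]; infer_instance
  have hMgcard : Nat.card Mg = Nat.card M := by rw [hMg]; exact card_subgroupOf_of_le hMG
  have hMgidx : Mg.index = M.relIndex G := by rw [hMg]; rfl
  have hMgcop : (Nat.card Mg).Coprime Mg.index := by rw [hMgcard, hMgidx]; exact hcopMG
  have hMgsolv : Group.IsSolvable Mg := by
    have : IsPGroup r Mg := IsPGroup.of_card (n := kM) (by rw [hMgcard, hkM])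
    haveI := this.isNilpotent
    infer_instance
  have hcU : (Nat.card (U.subgroupOf G)).Coprime (Nat.card Mg) := by
    rw [card_subgroupOf_of_le hUG, hMgcard, hkM]
    exact Nat.Coprime.pow_right _ (Nat.coprime_of_dvd' fun q hq h1 h2 => by
      have h3 := (Nat.prime_dvd_prime_iff_eq hq hr).1 h2
      subst h3
      exact absurd (hUπ q hq h1) hrπ) |>.symm.symm
  obtain ⟨Kg, hKg, hUKg⟩ := exists_complement_containing Mg hMgcop hMgsolv (U.subgroupOf G) hcU
  obtain ⟨K₀, hK₀⟩ : ∃ K₀, K₀ = Kg.map G.subtype := ⟨_, rfl⟩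
  have hK₀card : Nat.card K₀ = M.relIndex G := by
    rw [hK₀, Subgroup.card_map_of_injective G.subtype_injective, ← hMgidx]
    exact hKg.symm.index_eq_card.symm
  have hK₀G : K₀ ≤ G := by rw [hK₀]; exact Subgroup.map_subtype_le _
  have hUK₀ : U ≤ K₀ := by
    intro u hu
    rw [hK₀]
    exact ⟨⟨u, hUG hu⟩, hUKg (by rw [Subgroup.mem_subgroupOf]; exact hu), rfl⟩
  -- transitivity
  have htrans : ∀ K₁ K₂ : Subgroup X, K₁ ≤ G → K₂ ≤ G → Nat.card K₁ = M.relIndex G →
      Nat.card K₂ = M.relIndex G → U ≤ K₁ → U ≤ K₂ →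
      ∃ d ∈ M ⊓ centralizer (U : Set X), MulAut.conj d • K₁ = K₂ := by
    intro K₁ K₂ h1 h2 hc1 hc2 hU1 hU2
    have hC1 : IsComplement' Mg (K₁.subgroupOf G) := complement_of_card _ _ hMgcop (by
      rw [card_subgroupOf_of_le h1, hc1, hMgidx])
    have hC2 : IsComplement' Mg (K₂.subgroupOf G) := complement_of_card _ _ hMgcop (by
      rw [card_subgroupOf_of_le h2, hc2, hMgidx])
    obtain ⟨n, hn, hnc⟩ := schur_conj_mem Mg hMgcop (Or.inl hMgsolv) _ _ hC1 hC2
    have hnc' := conj_of_subgroupOf h1 h2 n hnc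
    have hnM : (n : X) ∈ M := by rw [hMg, Subgroup.mem_subgroupOf] at hn; exact hn
    refine ⟨n, Subgroup.mem_inf.2 ⟨hnM, ?_⟩, hnc'⟩
    rw [Subgroup.mem_centralizer_iff]
    intro u hu
    have h3 : u ∈ MulAut.conj (n : X) • K₁ := by rw [hnc']; exact hU2 hu
    rw [mem_conj_smul] at h3
    have h4 : u⁻¹ * ((n : X)⁻¹ * u * n) ∈ K₁ := K₁.mul_mem (K₁.inv_mem (hU1 hu)) h3
    have h5 : u⁻¹ * ((n : X)⁻¹ * u * n) ∈ M := by
      have h6 : u⁻¹ * ((n : X)⁻¹ * u * n) = (u⁻¹ * (n : X)⁻¹ * u⁻¹⁻¹) * n := by group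
      rw [h6]
      exact M.mul_mem (hMn.conj_mem _ (M.inv_mem hnM) _) hnM
    have hdisj : K₁ ⊓ M = ⊥ := (Subgroup.disjoint_of_coprime_natCard (by
      rw [hc1]; exact hcopMG.symm)).eq_bot
    have h7 : u⁻¹ * ((n : X)⁻¹ * u * n) ∈ K₁ ⊓ M := Subgroup.mem_inf.2 ⟨h4, h5⟩
    rw [hdisj, Subgroup.mem_bot] at h7
    have h8 : (n : X)⁻¹ * u * n = u := by
      have := mul_eq_one_iff_eq_inv.1 h7
      simpa using (inv_mul_eq_one.1 h7).symm
    calc u * (n : X) = (n : X) * ((n : X)⁻¹ * u * n) := by group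
      _ = (n : X) * u := by rw [h8]
  -- the group `D`
  obtain ⟨D, hD⟩ : ∃ D : Subgroup X, D = M ⊓ centralizer (U : Set X) := ⟨_, rfl⟩
  have hDG : D ≤ G := by rw [hD]; exact inf_le_left.trans hMG
  have hAD : A ≤ normalizer (D : Set X) := by
    intro a ha
    apply CfsgLib.FGS.mem_normalizer_of_conj_le
    intro x hx
    rw [hD] at hx ⊢
    obtain ⟨hx1, hx2⟩ := Subgroup.mem_inf.1 hx
    refine Subgroup.mem_inf.2 ⟨hMn.conj_mem _ hx1 _, ?_⟩
    rw [Subgroup.mem_centralizer_iff]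
    intro u hu
    have h1 : a⁻¹ * u * a ∈ U := by
      have h2 := (Subgroup.mem_normalizer_iff.1 (hUA (A.inv_mem ha)) u).1 hu
      simpa using h2
    have h3 := (Subgroup.mem_centralizer_iff.1 hx2) _ h1
    calc u * (a * x * a⁻¹) = a * ((a⁻¹ * u * a) * x) * a⁻¹ := by group
      _ = a * (x * (a⁻¹ * u * a)) * a⁻¹ := by rw [h3]
      _ = a * x * a⁻¹ * u := by group
  have hcopD : (Nat.card A).Coprime (Nat.card D) :=
    Nat.Coprime.coprime_dvd_right (Subgroup.card_dvd_of_le hDG) hcop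
  have hsolvD : Group.IsSolvable D := subgroup_solvable_of_le hDG hsolv
  obtain ⟨S, hS⟩ : ∃ S : Subgroup X, S = (D ⊔ A) ⊓ normalizer (K₀ : Set X) := ⟨_, rfl⟩
  have hSN : S ≤ normalizer (D : Set X) := by
    rw [hS]; exact inf_le_left.trans (sup_le le_normalizer hAD)
  have hSle : S ≤ D ⊔ A := by rw [hS]; exact inf_le_left
  have hAS : A ≤ D ⊔ S := by
    intro a ha
    have h1 : MulAut.conj a • K₀ ≤ G := by
      intro x hx
      rw [mem_conj_smul] at hx
      have h2 := hGn.conj_mem _ (hK₀G hx) a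
      have h3 : a * (a⁻¹ * x * a) * a⁻¹ = x := by group
      rwa [h3] at h2
    have h2 : U ≤ MulAut.conj a • K₀ := by
      intro u hu
      rw [mem_conj_smul]
      apply hUK₀
      have h2 := (Subgroup.mem_normalizer_iff.1 (hUA (A.inv_mem ha)) u).1 hu
      simpa using h2
    obtain ⟨d, hd, hdc⟩ := htrans K₀ (MulAut.conj a • K₀) hK₀G h1 hK₀card
      (by rw [card_conj_smul, hK₀card]) hUK₀ h2
    rw [← hD] at hd
    have h3 : d⁻¹ * a ∈ S := by
      rw [hS]
      refine Subgroup.mem_inf.2 ⟨Subgroup.mul_mem _ (Subgroup.mem_sup_left (D.inv_mem hd))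
        (Subgroup.mem_sup_right ha), ?_⟩
      rw [mem_normalizer_iff_conj_smul, conj_mul_smul, ← hdc, conj_inv_smul_smul]
    have h4 : a = d * (d⁻¹ * a) := by group
    rw [h4]
    exact Subgroup.mul_mem _ (Subgroup.mem_sup_left hd) (Subgroup.mem_sup_right h3)
  obtain ⟨d, hd, hdA⟩ := glauberman_fix A D S hAD hcopD (Or.inr hsolvD) hSN hSle hAS
  have hdG : d ∈ G := hDG hd
  have hHG : MulAut.conj d • K₀ ≤ G := by
    intro x hx
    rw [mem_conj_smul] at hx
    have h2 := hGn.conj_mem _ (hK₀G hx) d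
    have h3 : d * (d⁻¹ * x * d) * d⁻¹ = x := by group
    rwa [h3] at h2
  have hHcard : Nat.card (MulAut.conj d • K₀ : Subgroup X) = M.relIndex G := by
    rw [card_conj_smul, hK₀card]
  refine ⟨MulAut.conj d • K₀, ⟨hHG, ?_, ?_⟩, ?_, ?_⟩
  · intro p hp hdv
    rw [hHcard] at hdv
    exact hGbπ p hp hdv
  · intro p hp hpπ hdv
    have e : (MulAut.conj d • K₀).relIndex G * M.relIndex G = Nat.card M * M.relIndex G := by
      rw [← hcardG, ← hHcard, mul_comm]
      rw [← card_subgroupOf_of_le hHG]; exact Subgroup.card_mul_index _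
    have e2 : (MulAut.conj d • K₀).relIndex G = Nat.card M :=
      Nat.eq_of_mul_eq_mul_right (by
        rw [← hGbcard]; exact hGbpos) e
    rw [e2] at hdv
    have := hMprime p hp hdv
    subst this
    exact hrπ hpπ
  · intro a ha
    rw [mem_normalizer_conj_iff]
    have := hdA ha
    rw [mem_conj_smul, hS] at this
    exact this.2
  · intro u hu
    rw [mem_conj_smul]
    have h1 : d ∈ centralizer (U : Set X) := by
      rw [hD] at hd; exact (Subgroup.mem_inf.1 hd).2
    have h2 := (Subgroup.mem_centralizer_iff.1 h1) u hu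
    have h3 : d⁻¹ * u * d = u := by
      calc d⁻¹ * u * d = d⁻¹ * (u * d) := by group
        _ = d⁻¹ * (d * u) := by rw [h2]
        _ = u := by group
    rw [h3]
    exact hUK₀ hu

private theorem stage_b (π : Set ℕ) : ∀ c : ℕ, StmtC.{u} π c := by
  intro c
  induction c using Nat.strong_induction_on with
  | _ c ih =>
  intro X _ _ A G hc hAG hcop hsolv U hUG hUA hUπ
  obtain ⟨Y, hY⟩ : ∃ Y : Subgroup X, Y = normalizer (G : Set X) := ⟨_, rfl⟩
  have hGY : G ≤ Y := by rw [hY]; exact le_normalizer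
  have hAY : A ≤ Y := by rw [hY]; exact hAG
  have hUY : U ≤ Y := hUG.trans hGY
  haveI hGn : (G.subgroupOf Y).Normal := by
    rw [hY]; exact Subgroup.normal_in_normalizer
  obtain ⟨H', hH', hH'A, hUH'⟩ := normal_case π c ih Y (A.subgroupOf Y) (G.subgroupOf Y)
    (by rw [card_subgroupOf_of_le hGY]; exact hc)
    (by
      rw [Subgroup.normalizer_eq_top_iff.2 hGn]; exact le_top)
    (by rw [card_subgroupOf_of_le hGY, card_subgroupOf_of_le hAY]; exact hcop)
    (by
      haveI := hsolv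
      exact Group.isSolvable_of_isSolvable_injective (f := (Subgroup.subgroupOfEquivOfLe hGY).toMonoidHom)
        (Subgroup.subgroupOfEquivOfLe hGY).injective)
    (U.subgroupOf Y) (Subgroup.subgroupOf_mono _ hUG)
    (by
      intro a ha
      rw [Subgroup.mem_subgroupOf] at ha
      rw [Subgroup.mem_normalizer_iff]
      intro y
      rw [Subgroup.mem_subgroupOf, Subgroup.mem_subgroupOf]
      exact Subgroup.mem_normalizer_iff.1 (hUA ha) y)
    (by
      intro p hp hd
      rw [card_subgroupOf_of_le hUY] at hd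
      exact hUπ p hp hd)
  refine ⟨H'.map Y.subtype, ⟨?_, ?_, ?_⟩, ?_, ?_⟩
  · rintro _ ⟨y, hy, rfl⟩
    have := hH'.1 hy
    rwa [Subgroup.mem_subgroupOf] at this
  · intro p hp hd
    rw [Subgroup.card_map_of_injective Y.subtype_injective] at hd
    exact hH'.2.1 p hp hd
  · intro p hp hpπ hd
    have e : (G.subgroupOf Y).map Y.subtype = G := by
      rw [Subgroup.subgroupOf_map_subtype]; exact inf_eq_left.2 hGY
    have h1 := Subgroup.relIndex_map_map_of_injective H' (G.subgroupOf Y) Y.subtype_injective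
    rw [e] at h1
    rw [h1] at hd
    exact hH'.2.2 p hp hpπ hd
  · intro a ha
    apply CfsgLib.FGS.mem_normalizer_of_conj_le
    rintro _ ⟨y, hy, rfl⟩
    have ha' : (⟨a, hAY ha⟩ : Y) ∈ A.subgroupOf Y := by rw [Subgroup.mem_subgroupOf]; exact ha
    have h1 := (Subgroup.mem_normalizer_iff.1 (hH'A ha') y).1 hy
    exact ⟨_, h1, rfl⟩
  · intro u hu
    have hu' : (⟨u, hUY hu⟩ : Y) ∈ U.subgroupOf Y := by rw [Subgroup.mem_subgroupOf]; exact hu
    exact ⟨_, hUH' hu', rfl⟩

/-- Coprime action on a solvable group and Hall subgroups. Let A and G be subgroups of a finite group with A normalizing G, the orders of A and G coprime, and G solvable, and let π be a set of primes. Then (a) G has an A-invariant Hall π-subgroup; (b) any two A-invariant Hall π-subgroups of G are conjugate by an element of C_G(A); (c) every A-invariant π-subgroup of G lies in an A-invariant Hall π-subgroup of G. -/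
theorem result {X : Type*} [Group X] [Finite X] (A G : Subgroup X) (hAG : A ≤ Subgroup.normalizer (G : Set X)) (hcop : (Nat.card A).Coprime (Nat.card G)) (hsolv : Group.IsSolvable G) (π : Set ℕ) : (∃ H : Subgroup X, Cfsg.IsPiHallOf π H G ∧ A ≤ Subgroup.normalizer (H : Set X)) ∧ (∀ H₁ H₂ : Subgroup X, Cfsg.IsPiHallOf π H₁ G → A ≤ Subgroup.normalizer (H₁ : Set X) → Cfsg.IsPiHallOf π H₂ G → A ≤ Subgroup.normalizer (H₂ : Set X) → ∃ c ∈ G ⊓ Subgroup.centralizer (A : Set X), H₂ = H₁.map (MulAut.conj c).toMonoidHom) ∧ (∀ U : Subgroup X, U ≤ G → A ≤ Subgroup.normalizer (U : Set X) → (∀ p : ℕ, p.Prime → p ∣ Nat.card U → p ∈ π) → ∃ H : Subgroup X, Cfsg.IsPiHallOf π H G ∧ A ≤ Subgroup.normalizer (H : Set X) ∧ U ≤ H) := by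
  have hmain := stage_b.{u_1} π _ X A G rfl hAG hcop hsolv
  refine ⟨?_, ?_, fun U hUG hUA hUπ => hmain U hUG hUA hUπ⟩
  · obtain ⟨H, hH, hHA, -⟩ := hmain ⊥ bot_le (by
      intro a _
      rw [Subgroup.mem_normalizer_iff]
      intro h
      simp [Subgroup.mem_bot]) (by
      intro p hp hd
      rw [Subgroup.card_bot] at hd
      exact absurd (Nat.dvd_one.1 hd) hp.one_lt.ne')
    exact ⟨H, hH, hHA⟩
  · intro H₁ H₂ hH₁ hH₁A hH₂ hH₂A
    obtain ⟨k, hk, rfl⟩ := hall_conj' hsolv hH₁ hH₂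
    obtain ⟨S, hS⟩ : ∃ S : Subgroup X, S = (G ⊔ A) ⊓ normalizer (H₁ : Set X) := ⟨_, rfl⟩
    have hSN : S ≤ normalizer (G : Set X) := by
      rw [hS]; exact inf_le_left.trans (sup_le le_normalizer hAG)
    have hSle : S ≤ G ⊔ A := by rw [hS]; exact inf_le_left
    have hAS : A ≤ S := by rw [hS]; exact le_inf le_sup_right hH₁A
    have hkA : A ≤ MulAut.conj k • S := by
      intro a ha
      rw [mem_conj_smul, hS]
      refine Subgroup.mem_inf.2 ⟨?_, ?_⟩
      · have h1 : k⁻¹ * a * k = k⁻¹ * (a * k) := by group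
        rw [h1]
        exact Subgroup.mul_mem _ (Subgroup.mem_sup_left (G.inv_mem hk))
          (Subgroup.mul_mem _ (Subgroup.mem_sup_right ha) (Subgroup.mem_sup_left hk))
      · exact mem_normalizer_conj_iff.1 (hH₂A ha)
    obtain ⟨c, hc, hc2⟩ := glauberman_conj A G S hAG hcop (Or.inr hsolv) hSN hSle hAS hk hkA
    refine ⟨c, hc, ?_⟩
    have h3 : k⁻¹ * c ∈ normalizer (H₁ : Set X) := by
      rw [hS] at hc2; exact hc2.2
    rw [mem_normalizer_iff_conj_smul] at h3
    have h4 : c = k * (k⁻¹ * c) := by group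
    change _ = MulAut.conj c • H₁
    rw [h4, conj_mul_smul, h3]

end Cfsg.Agent.S3745
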