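import Cfsg.Statements.S3746
import Cfsg.Agent.Lib.FGS.Basic
import Cfsg.Agent.Lib.H3.Comp

set_option autoImplicit false
open Cfsg
open scoped commutatorElement

namespace Cfsg.Agent.S3746

theorem comap_subnormal {G H : Type*} [Group G] [Group H] (f : G →* H) {K : Subgroup H}
    (hK : K.IsSubnormal) : (K.comap f).IsSubnormal := by
  induction hK with
  | top => rw [Subgroup.comap_top]; exact Subgroup.IsSubnormal.top
  | step A B hAB hB hN ih =>
    refine Subgroup.IsSubnormal.step _ _ (Subgroup.comap_mono hAB) ih ?_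
    constructor
    rintro ⟨x, hx⟩ hxA ⟨g, hg⟩
    rw [Subgroup.mem_subgroupOf] at hxA ⊢
    have h1 : (⟨f x, hx⟩ : B) ∈ A.subgroupOf B := Subgroup.mem_subgroupOf.mpr hxA
    have h2 := hN.conj_mem _ h1 ⟨f g, hg⟩
    rw [Subgroup.mem_subgroupOf] at h2
    simpa using h2


theorem comm_central {G : Type*} [Group G] (a b z₁ z₂ : G) (e1 : ∀ g : G, z₁ * g = g * z₁)
    (e2 : ∀ g : G, z₂ * g = g * z₂) : ⁅a * z₁, b * z₂⁆ = ⁅a, b⁆ := by
  rw [commutatorElement_def, commutatorElement_def]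
  simp only [mul_inv_rev]
  calc a * z₁ * (b * z₂) * (z₁⁻¹ * a⁻¹) * (z₂⁻¹ * b⁻¹)
     = a * z₁ * b * (z₂ * (z₁⁻¹ * a⁻¹)) * z₂⁻¹ * b⁻¹ := by group
   _ = a * z₁ * b * ((z₁⁻¹ * a⁻¹) * z₂) * z₂⁻¹ * b⁻¹ := by rw [e2]
   _ = a * (z₁ * b) * z₁⁻¹ * a⁻¹ * b⁻¹ := by group
   _ = a * (b * z₁) * z₁⁻¹ * a⁻¹ * b⁻¹ := by rw [e1]
   _ = a * b * a⁻¹ * b⁻¹ := by group

/-- Let Z ≤ Z(G) be a central subgroup of a finite group G and E a subgroup of G containing Z whose image E/Z is a component of G/Z (subnormal and quasisimple). Then the derived subgroup [E, E] is a component of G. -/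
theorem result {G : Type*} [Group G] [Finite G] (Z : Subgroup G) (hZ : Z ≤ Subgroup.center G) [Z.Normal] (E : Subgroup G) (hZE : Z ≤ E) (hE : Cfsg.IsComponent (E.map (QuotientGroup.mk' Z))) : Cfsg.IsComponent ⁅E, E⁆ := by
  classical
  let π := QuotientGroup.mk' Z
  have hker : π.ker = Z := QuotientGroup.ker_mk' Z
  have hπ : ∀ x, π x = 1 ↔ x ∈ Z := fun x => QuotientGroup.eq_one_iff x
  have hcentral : ∀ z ∈ Z, ∀ g : G, z * g = g * z := by
    intro z hz g
    exact (Subgroup.mem_center_iff.mp (hZ hz) g).symm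
  set Eb := E.map π with hEb
  set L : Subgroup G := ⁅E, E⁆ with hL
  have hLE : L ≤ E := Subgroup.commutator_le_self E
  have hmapL : L.map π = Eb := by
    rw [hL, Subgroup.map_commutator]
    exact CfsgLib.Comp.comp_commutator hE
  -- every element of E is an element of L times a central element
  have hdec : ∀ e ∈ E, ∃ l ∈ L, ∃ z ∈ Z, e = l * z := by
    intro e he
    have h1 : π e ∈ L.map π := by
      rw [hmapL]
      exact ⟨e, he, rfl⟩
    obtain ⟨l, hl, hle⟩ := h1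
    refine ⟨l, hl, l⁻¹ * e, ?_, by group⟩
    rw [← hπ, map_mul, map_inv, hle, inv_mul_cancel]
  -- L is perfect
  have hperf : ⁅L, L⁆ = L := by
    apply le_antisymm
    · exact Subgroup.commutator_le_self L
    · rw [hL, Subgroup.commutator_le]
      intro a ha b hb
      obtain ⟨l₁, hl₁, z₁, hz₁, rfl⟩ := hdec a ha
      obtain ⟨l₂, hl₂, z₂, hz₂, rfl⟩ := hdec b hb
      have h2 : ⁅l₁ * z₁, l₂ * z₂⁆ = ⁅l₁, l₂⁆ := comm_central _ _ _ _ (hcentral z₁ hz₁) (hcentral z₂ hz₂)
      rw [h2]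
      exact Subgroup.commutator_mem_commutator hl₁ hl₂
  -- subnormality
  have hEsub : E.IsSubnormal := by
    have h1 := comap_subnormal π hE.1
    have h2 : Eb.comap π = E := Subgroup.comap_map_eq_self (by rw [hker]; exact hZE)
    rwa [h2] at h1
  have hLn : (L.subgroupOf E).Normal := by
    have h1 : L.subgroupOf E = commutator ↥E := by
      rw [hL, ← Subgroup.map_subtype_commutator E]
      exact Subgroup.comap_map_eq_self_of_injective E.subtype_injective _
    rw [h1]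
    infer_instance
  have hLsub : L.IsSubnormal := Subgroup.IsSubnormal.step _ _ hLE hEsub hLn
  let π' : ↥L →* ↥Eb := (π.comp L.subtype).codRestrict Eb (fun l => hmapL ▸ ⟨l.1, l.2, rfl⟩)
  have hπ' : ∀ l : ↥L, ((π' l : ↥Eb) : G ⧸ Z) = π l.1 := fun l => rfl
  let Φ : ↥L →* ↥Eb ⧸ Subgroup.center ↥Eb := (QuotientGroup.mk' _).comp π'
  have hΦs : Function.Surjective Φ := by
    intro q
    obtain ⟨y, rfl⟩ := QuotientGroup.mk_surjective q
    have h1 : (y : G ⧸ Z) ∈ L.map π := by rw [hmapL]; exact y.2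
    obtain ⟨l, hl, hly⟩ := h1
    refine ⟨⟨l, hl⟩, ?_⟩
    have : π' ⟨l, hl⟩ = y := Subtype.ext hly
    show ((π' ⟨l, hl⟩ : ↥Eb) : ↥Eb ⧸ Subgroup.center ↥Eb) = _
    rw [this]
  have hΦk : Φ.ker = Subgroup.center ↥L := by
    ext l
    rw [MonoidHom.mem_ker]
    show ((π' l : ↥Eb) : ↥Eb ⧸ Subgroup.center ↥Eb) = 1 ↔ _
    rw [QuotientGroup.eq_one_iff, Subgroup.mem_center_iff, Subgroup.mem_center_iff]
    constructor
    · intro h l'
      have hz : ∀ a ∈ E, a⁻¹ * (l.1 * a * l.1⁻¹) ∈ Z := by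
        intro a ha
        rw [← hπ]
        have h1 := h ⟨π a, a, ha, rfl⟩
        have h2 := congrArg Subtype.val h1
        simp only [Subgroup.coe_mul, hπ'] at h2
        simp only [map_mul, map_inv]
        rw [← h2]
        group
      have hall : ⁅E, E⁆ ≤ Subgroup.centralizer {l.1} := by
        rw [Subgroup.commutator_le]
        intro a ha b hb
        rw [Subgroup.mem_centralizer_singleton_iff]
        have h3 := comm_central a b _ _ (hcentral _ (hz a ha)) (hcentral _ (hz b hb))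
        have h4 : a * (a⁻¹ * (l.1 * a * l.1⁻¹)) = l.1 * a * l.1⁻¹ := by group
        have h5 : b * (b⁻¹ * (l.1 * b * l.1⁻¹)) = l.1 * b * l.1⁻¹ := by group
        rw [h4, h5] at h3
        simp only [commutatorElement_def] at h3 ⊢
        have h6 : l.1 * (a * b * a⁻¹ * b⁻¹) * l.1⁻¹ = a * b * a⁻¹ * b⁻¹ := by
          refine Eq.trans ?_ h3
          group
        calc a * b * a⁻¹ * b⁻¹ * l.1 = (l.1 * (a * b * a⁻¹ * b⁻¹) * l.1⁻¹) * l.1 := by rw [h6]
          _ = l.1 * (a * b * a⁻¹ * b⁻¹) := by group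
      have h6 := hall l'.2
      rw [Subgroup.mem_centralizer_singleton_iff] at h6
      exact Subtype.ext h6
    · intro h y
      have h1 : (y : G ⧸ Z) ∈ L.map π := by rw [hmapL]; exact y.2
      obtain ⟨l', hl', hly⟩ := h1
      apply Subtype.ext
      simp only [Subgroup.coe_mul, hπ']
      rw [← hly, ← map_mul, ← map_mul]
      congr 1
      exact congrArg Subtype.val (h ⟨l', hl'⟩)
  have hq : ↥L ⧸ Subgroup.center ↥L ≃* ↥Eb ⧸ Subgroup.center ↥Eb :=
    (QuotientGroup.quotientMulEquivOfEq hΦk.symm).trans (QuotientGroup.quotientKerEquivOfSurjective Φ hΦs)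
  exact ⟨hLsub, Subgroup.isPerfect_iff.mpr hperf, (MulEquiv.isSimpleGroup_congr hq).mpr hE.2.2⟩


end Cfsg.Agent.S3746
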