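import Cfsg.Statements.S3747
import Cfsg.Agent.Lib.FGS.Basic
import Cfsg.Agent.Lib.H3.Comp2

set_option autoImplicit false
open Cfsg

namespace Cfsg.Agent.S3747

theorem center_join {G : Type*} [Group G] (S : Finset (Subgroup G))
    (hcomm : ∀ A ∈ S, ∀ B ∈ S, A ≠ B → ∀ a ∈ A, ∀ b ∈ B, a * b = b * a)
    (hcen : ∀ A ∈ S, ∀ z ∈ A, (∀ y ∈ A, z * y = y * z) → z = 1) :
    ∀ z ∈ S.sup id, (∀ y ∈ S.sup id, z * y = y * z) → z = 1 := by
  classical
  induction S using Finset.induction_on with
  | empty =>
    intro z hz _
    simpa using hz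
  | insert T S hT ih =>
    intro z hz hzc
    rw [Finset.sup_insert, id] at hz hzc
    have hCT : S.sup id ≤ Subgroup.centralizer (T : Set G) := by
      apply Finset.sup_le
      intro B hB
      intro b hb
      rw [Subgroup.mem_centralizer_iff]
      intro a ha
      exact hcomm T (Finset.mem_insert_self _ _) B (Finset.mem_insert_of_mem hB)
        (fun h => hT (h ▸ hB)) a ha b hb
    have hTc : ∀ a ∈ T, ∀ b ∈ S.sup id, a * b = b * a := fun a ha b hb =>
      (Subgroup.mem_centralizer_iff.mp (hCT hb) a ha)
    obtain ⟨a, ha, b, hb, rfl⟩ := CfsgLib.Comp.mem_sup_of_commute hTc hz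
    have ha1 : a = 1 := by
      apply hcen T (Finset.mem_insert_self _ _) a ha
      intro y hy
      have h1 := hzc y (Subgroup.mem_sup_left hy)
      have h2 := hTc y hy b hb
      have h3 : a * y * b = y * a * b := by
        calc a * y * b = a * (y * b) := by group
          _ = a * (b * y) := by rw [h2]
          _ = a * b * y := by group
          _ = y * (a * b) := h1
          _ = _ := by group
      exact mul_right_cancel h3
    have hb1 : b = 1 := by
      apply ih (fun A hA B hB => hcomm A (Finset.mem_insert_of_mem hA) B (Finset.mem_insert_of_mem hB))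
        (fun A hA => hcen A (Finset.mem_insert_of_mem hA)) b hb
      intro y hy
      have h1 := hzc y (Subgroup.mem_sup_right hy)
      have h2 := hTc a ha y hy
      have h3 : a * (b * y) = a * (y * b) := by
        calc a * (b * y) = a * b * y := by group
          _ = y * (a * b) := h1
          _ = (y * a) * b := by group
          _ = (a * y) * b := by rw [h2]
          _ = _ := by group
      exact mul_left_cancel h3
    rw [ha1, hb1, one_mul]

theorem part_a {G : Type*} [Group G] [Finite G] (K : Subgroup G) (hK : Cfsg.IsComponent K)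
    (hc : Subgroup.center ↥K = ⊥) :
    Subgroup.normalClosure (K : Set G) ≠ ⊥ ∧ ∀ N : Subgroup G, N.Normal →
      N ≤ Subgroup.normalClosure (K : Set G) → N = ⊥ ∨ N = Subgroup.normalClosure (K : Set G) := by
  classical
  have hKle : K ≤ Subgroup.normalClosure (K : Set G) := Subgroup.le_normalClosure
  constructor
  · intro h
    rw [h, le_bot_iff] at hKle
    exact CfsgLib.Comp.comp_ne_bot hK hKle
  intro N hN hNM
  rcases CfsgLib.Comp.le_or_commute_of_normal hK hN with h | h
  · right
    exact le_antisymm hNM (Subgroup.normalClosure_le_normal h)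
  left
  -- the conjugates
  let conj : G → Subgroup G := fun g => K.map (MulAut.conj g).toMonoidHom
  haveI := Fintype.ofFinite G
  let S : Finset (Subgroup G) := Finset.univ.image conj
  have hSmem : ∀ A ∈ S, ∃ g, A = conj g := by
    intro A hA
    obtain ⟨g, _, rfl⟩ := Finset.mem_image.mp hA
    exact ⟨g, rfl⟩
  have hcompS : ∀ A ∈ S, Cfsg.IsComponent A := by
    intro A hA
    obtain ⟨g, rfl⟩ := hSmem A hA
    exact CfsgLib.Comp.component_conj hK g
  have hMeq : Subgroup.normalClosure (K : Set G) = S.sup id := by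
    apply le_antisymm
    · rw [Subgroup.normalClosure, Subgroup.closure_le]
      intro x hx
      obtain ⟨a, ha, hax⟩ := Group.mem_conjugatesOfSet_iff.mp hx
      obtain ⟨c, rfl⟩ := isConj_iff.mp hax
      have h1 : conj c ≤ S.sup id := Finset.le_sup (f := id) (Finset.mem_image_of_mem conj (Finset.mem_univ c))
      exact h1 ⟨a, ha, rfl⟩
    · apply Finset.sup_le
      intro A hA
      obtain ⟨g, rfl⟩ := hSmem A hA
      rintro _ ⟨a, ha, rfl⟩
      exact (Subgroup.normalClosure_normal (s := (K : Set G))).conj_mem _ (hKle ha) g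
  have hcenS : ∀ A ∈ S, ∀ z ∈ A, (∀ y ∈ A, z * y = y * z) → z = 1 := by
    intro A hA z hz hzc
    obtain ⟨g, rfl⟩ := hSmem A hA
    obtain ⟨a, ha, rfl⟩ := hz
    have h1 : (⟨a, ha⟩ : K) ∈ Subgroup.center ↥K := by
      rw [Subgroup.mem_center_iff]
      intro y
      apply Subtype.ext
      have h2 := hzc _ ⟨y.1, y.2, rfl⟩
      simp only [MulEquiv.coe_toMonoidHom, MulAut.conj_apply] at h2
      have h3 : g * (a * y.1) * g⁻¹ = g * (y.1 * a) * g⁻¹ := by
        calc g * (a * y.1) * g⁻¹ = g * a * g⁻¹ * (g * y.1 * g⁻¹) := by group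
          _ = g * y.1 * g⁻¹ * (g * a * g⁻¹) := h2
          _ = _ := by group
      have h4 := mul_left_cancel (mul_right_cancel h3)
      exact h4.symm
    rw [hc, Subgroup.mem_bot] at h1
    have h5 : a = 1 := congrArg Subtype.val h1
    simp [h5]
  have hcommS : ∀ A ∈ S, ∀ B ∈ S, A ≠ B → ∀ a ∈ A, ∀ b ∈ B, a * b = b * a := by
    intro A hA B hB hne
    exact CfsgLib.Comp.comm_bot_iff.mp (CfsgLib.Comp.components_commute (hcompS A hA) (hcompS B hB) hne)
  have hNC : ∀ z ∈ N, ∀ y ∈ S.sup id, z * y = y * z := by
    intro z hz y hy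
    have hle : S.sup id ≤ Subgroup.centralizer ({z} : Set G) := by
      apply Finset.sup_le
      intro A hA
      obtain ⟨g, rfl⟩ := hSmem A hA
      rintro _ ⟨a, ha, rfl⟩
      rw [Subgroup.mem_centralizer_singleton_iff]
      simp only [MulEquiv.coe_toMonoidHom, MulAut.conj_apply]
      have h1 : g⁻¹ * z * g ∈ N := by
        have := hN.conj_mem z hz g⁻¹
        simpa using this
      have h2 := CfsgLib.Comp.comm_bot_iff.mp h a ha _ h1
      calc g * a * g⁻¹ * z = g * (a * (g⁻¹ * z * g)) * g⁻¹ := by group
        _ = g * ((g⁻¹ * z * g) * a) * g⁻¹ := by rw [h2]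
        _ = _ := by group
    exact (Subgroup.mem_centralizer_singleton_iff.mp (hle hy)).symm
  rw [eq_bot_iff]
  intro z hz
  rw [Subgroup.mem_bot]
  apply center_join S hcommS hcenS z
  · rw [← hMeq]
    exact hNM hz
  · exact hNC z hz


/-- Let G be a finite group. (a) If K is a component of G with trivial centre, then the normal closure of K in G is a minimal normal subgroup of G. (b) If the Fitting subgroup of G is trivial, then the layer E(G) is generated by the minimal normal subgroups of G. -/
theorem result {G : Type*} [Group G] [Finite G] : (∀ K : Subgroup G, Cfsg.IsComponent K → Subgroup.center ↥K = ⊥ → (Subgroup.normalClosure (K : Set G) ≠ ⊥ ∧ ∀ N : Subgroup G, N.Normal → N ≤ Subgroup.normalClosure (K : Set G) → N = ⊥ ∨ N = Subgroup.normalClosure (K : Set G))) ∧ (Cfsg.fittingSubgroup G = ⊥ → sSup {N : Subgroup G | N ≠ ⊥ ∧ N.Normal ∧ ∀ N' : Subgroup G, N'.Normal → N' ≤ N → N' = ⊥ ∨ N' = N} = Cfsg.layer G) := by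
  refine ⟨fun K hK hc => part_a K hK hc, ?_⟩
  intro hF
  apply le_antisymm
  · apply sSup_le
    rintro N ⟨hN0, hNn, hNmin⟩
    have hfit : Cfsg.generalizedFittingSubgroup G = Cfsg.layer G := by
      rw [Cfsg.generalizedFittingSubgroup, hF, sup_bot_eq]
    have hC : Subgroup.centralizer ((Cfsg.layer G : Subgroup G) : Set G) ≤ Cfsg.layer G := by
      have := CfsgLib.Comp.gfit_self_centralizing (G := G)
      rwa [hfit] at this
    haveI hLn : (Cfsg.layer G).Normal := inferInstance
    haveI := hNn
    have hinf : (N ⊓ Cfsg.layer G) = ⊥ ∨ (N ⊓ Cfsg.layer G) = N :=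
      hNmin _ (Subgroup.normal_inf_normal _ _) inf_le_left
    rcases hinf with h | h
    · exfalso
      apply hN0
      have h1 : ⁅N, Cfsg.layer G⁆ = ⊥ := by
        have := Subgroup.commutator_le_inf N (Cfsg.layer G)
        rw [h] at this
        exact le_bot_iff.mp this
      have h2 : N ≤ Subgroup.centralizer ((Cfsg.layer G : Subgroup G) : Set G) := by
        intro x hx
        rw [Subgroup.mem_centralizer_iff]
        intro y hy
        exact (CfsgLib.Comp.comm_bot_iff.mp h1 x hx y hy).symm
      rw [eq_bot_iff, ← h]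
      intro x hx
      exact ⟨hx, hC (h2 hx)⟩
    · rw [← h]
      exact inf_le_right
  · apply sSup_le
    intro K hK
    -- trivial centre
    have hc : Subgroup.center ↥K = ⊥ := by
      have h1 : (Subgroup.center ↥K).map K.subtype ≤ Cfsg.fittingSubgroup G := by
        apply CfsgLib.Comp.fitting_of_subnormal_normal hK.1
        · exact Subgroup.map_subtype_le _
        · have : ((Subgroup.center ↥K).map K.subtype).subgroupOf K = Subgroup.center ↥K :=
            Subgroup.comap_map_eq_self_of_injective K.subtype_injective _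
          rw [this]
          infer_instance
        · have := CfsgLib.Comp.nilpotent_center ↥K
          exact Group.nilpotent_of_mulEquiv
            ((Subgroup.center ↥K).equivMapOfInjective _ K.subtype_injective)
      rw [hF, le_bot_iff] at h1
      exact (Subgroup.map_eq_bot_iff_of_injective _ K.subtype_injective).mp h1
    obtain ⟨h1, h2⟩ := part_a K hK hc
    have hmem : Subgroup.normalClosure (K : Set G) ∈ {N : Subgroup G | N ≠ ⊥ ∧ N.Normal ∧ ∀ N' : Subgroup G, N'.Normal → N' ≤ N → N' = ⊥ ∨ N' = N} :=
      ⟨h1, Subgroup.normalClosure_normal, h2⟩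
    exact Subgroup.le_normalClosure.trans (le_sSup hmem)

end Cfsg.Agent.S3747
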