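import Cfsg.Statements.S3748
import Cfsg.Agent.Lib.FGS.Syl
import Cfsg.Agent.Lib.Solv.Nilp
import Cfsg.Agent.Lib.FGS.Subnormal

set_option autoImplicit false
open Cfsg

namespace Cfsg.Agent.S3748

/-- Call a proper subgroup M of G primitive when M = N_G(N) for every non-trivial normal subgroup N of M. If M is a primitive subgroup of the finite group G, then no non-trivial subnormal subgroup of G is contained in M; in particular M ∩ F(G) = 1. -/
theorem result {G : Type*} [Group G] [Finite G] (M : Subgroup G) (hM : M ≠ ⊤) (hprim : ∀ N : Subgroup G, N ≤ M → M ≤ Subgroup.normalizer (N : Set G) → N ≠ ⊥ → Subgroup.normalizer (N : Set G) = M) : (∀ L : Subgroup G, L.IsSubnormal → L ≤ M → L = ⊥) ∧ M ⊓ Cfsg.fittingSubgroup G = ⊥ := by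
  classical
  let S : Set (Subgroup G) := {K | K.IsSubnormal ∧ K ≤ M}
  let L0 : Subgroup G := sSup S
  have hL0sn : L0.IsSubnormal := CfsgLib.FGS.isSubnormal_sSup S (fun K hK => hK.1)
  have hL0M : L0 ≤ M := sSup_le (fun K hK => hK.2)
  have key : ∀ L : Subgroup G, L.IsSubnormal → L ≤ M → L ≤ L0 := fun L h1 h2 => le_sSup ⟨h1, h2⟩
  have hnorm : M ≤ Subgroup.normalizer (L0 : Set G) := by
    intro m hm
    apply CfsgLib.FGS.mem_normalizer_of_conj_le
    intro x hx
    have h1 : (L0.map (MulAut.conj m).toMonoidHom).IsSubnormal := CfsgLib.FGS.isSubnormal_conj hL0sn m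
    have h2 : L0.map (MulAut.conj m).toMonoidHom ≤ M := by
      rintro _ ⟨y, hy, rfl⟩
      show m * y * m⁻¹ ∈ M
      exact M.mul_mem (M.mul_mem hm (hL0M hy)) (M.inv_mem hm)
    exact key _ h1 h2 ⟨x, hx, rfl⟩
  have part1 : ∀ L : Subgroup G, L.IsSubnormal → L ≤ M → L = ⊥ := by
    intro L hL hLM
    by_contra hne
    have hL0ne : L0 ≠ ⊥ := by
      intro h0
      apply hne
      have := key L hL hLM
      rw [h0] at this
      exact le_bot_iff.mp this
    have hN := hprim L0 hL0M hnorm hL0ne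
    rcases Subgroup.IsSubnormal.iff_eq_top_or_exists.mp hL0sn with h | ⟨K, hlt, hKs, hKn⟩
    · apply hM
      rw [eq_top_iff, ← h]
      exact hL0M
    · have hKle : K ≤ Subgroup.normalizer (L0 : Set G) :=
        (Subgroup.normal_subgroupOf_iff_le_normalizer hlt.le).mp hKn
      rw [hN] at hKle
      exact absurd (key K hKs hKle) (not_le_of_gt hlt)
  refine ⟨part1, ?_⟩
  apply part1 _ _ inf_le_left
  have hFnil : Group.IsNilpotent (Cfsg.fittingSubgroup G) := CfsgLib.Solv.fitting_nilpotent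
  have hFn : (Cfsg.fittingSubgroup G).Normal := CfsgLib.Solv.fittingSubgroup_normal'
  refine Subgroup.IsSubnormal.trans (inf_le_right : M ⊓ Cfsg.fittingSubgroup G ≤ Cfsg.fittingSubgroup G) ?_ hFn.isSubnormal
  exact (CfsgLib.Solv.nilpotent_iff_all_subnormal).mp hFnil _

end Cfsg.Agent.S3748
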