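import Cfsg.Statements.S3749
import Cfsg.Agent.Lib.FGS.SylQuot
import Cfsg.Agent.Lib.Solv.Nilp
import Cfsg.Agent.Lib.Solv.CoprimeSylow
import Cfsg.Agent.Lib.PLocal.CardSup

set_option autoImplicit false
open Cfsg

namespace Cfsg.Agent.S3749

/-- Call a proper subgroup M of G primitive when M = N_G(N) for every non-trivial normal subgroup N of M. Let M be a primitive subgroup of the finite group G, p a prime with O_p(M) ≠ 1, and N a normal subgroup of G with M ∩ N = 1. Then p does not divide the order of N; for every prime q there is exactly one Sylow q-subgroup of N normalized by M; and if the order of N has at least two prime divisors then M is not a maximal subgroup of G. -/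
theorem result {G : Type*} [Group G] [Finite G] (M : Subgroup G) (hM : M ≠ ⊤) (hprim : ∀ N : Subgroup G, N ≤ M → M ≤ Subgroup.normalizer (N : Set G) → N ≠ ⊥ → Subgroup.normalizer (N : Set G) = M) {p : ℕ} [Fact p.Prime] (hOp : Cfsg.pCore p ↥M ≠ ⊥) (N : Subgroup G) [N.Normal] (hMN : M ⊓ N = ⊥) : ¬ p ∣ Nat.card N ∧ (∀ q : ℕ, [Fact q.Prime] → ∃! Q : Sylow q ↥N, M ≤ Subgroup.normalizer ((Q : Subgroup ↥N).map N.subtype : Set G)) ∧ ((∃ q r : ℕ, q.Prime ∧ r.Prime ∧ q ≠ r ∧ q ∣ Nat.card N ∧ r ∣ Nat.card N) → ¬ IsCoatom M) := by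
  classical
  set O : Subgroup G := (Cfsg.pCore p ↥M).map M.subtype with hO
  have hOne : O ≠ ⊥ := by
    intro h
    apply hOp
    exact (Subgroup.map_eq_bot_iff_of_injective _ M.subtype_injective).mp h
  have hOle : O ≤ M := Subgroup.map_subtype_le _
  have hOp' : IsPGroup p O := (CfsgLib.Solv.pCore_isPGroup p).map _
  have hMO : M ≤ Subgroup.normalizer (O : Set G) := by
    intro m hm
    rw [Subgroup.mem_normalizer_iff]
    intro x
    constructor
    · rintro ⟨y, hy, rfl⟩
      refine ⟨⟨m, hm⟩ * y * ⟨m, hm⟩⁻¹, (CfsgLib.Solv.pCore_normal' p).conj_mem y hy _, ?_⟩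
      simp
    · intro hx
      obtain ⟨y, hy, hyx⟩ := hx
      refine ⟨⟨m, hm⟩⁻¹ * y * (⟨m, hm⟩⁻¹)⁻¹, (CfsgLib.Solv.pCore_normal' p).conj_mem y hy _, ?_⟩
      simp only [Subgroup.coe_subtype, Subgroup.coe_mul, InvMemClass.coe_inv, inv_inv] at hyx ⊢
      rw [hyx]; group
  have hNO : Subgroup.normalizer (O : Set G) = M := hprim O hOle hMO hOne
  have hCbot : N ⊓ Subgroup.centralizer (O : Set G) = ⊥ := by
    rw [eq_bot_iff, ← hMN]
    rintro x ⟨hxN, hxC⟩
    refine ⟨?_, hxN⟩
    rw [← hNO]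
    exact (Subgroup.centralizer_le_normalizer _) hxC
  have h1 : ¬ p ∣ Nat.card N := by
    intro hd
    obtain ⟨R, hOR⟩ := hOp'.exists_le_sylow
    have h2 := CfsgLib.FGS.relIndex_sup_mul_card_inf (R : Subgroup G) N
    have h3 : ¬ p ∣ (R : Subgroup G).relIndex ((R : Subgroup G) ⊔ N) := by
      intro h4
      apply R.not_dvd_index
      have h6 := Subgroup.relIndex_mul_index (le_sup_left : (R : Subgroup G) ≤ (R : Subgroup G) ⊔ N)
      rw [← h6]
      exact Dvd.dvd.mul_right h4 _
    have h4 : p ∣ Nat.card ↥((R : Subgroup G) ⊓ N) := by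
      rw [← h2] at hd
      exact ((Nat.Prime.dvd_mul (Fact.out)).mp hd).resolve_left h3
    have hne : (N.subgroupOf (R : Subgroup G)) ≠ ⊥ := by
      intro hb
      have h5 : (R : Subgroup G) ⊓ N = ⊥ := by
        rw [eq_bot_iff]
        rintro x ⟨hxR, hxN⟩
        have : (⟨x, hxR⟩ : (R : Subgroup G)) ∈ N.subgroupOf (R : Subgroup G) := hxN
        rw [hb] at this
        simpa using this
      rw [h5] at h4
      simp at h4
      exact (Fact.out : p.Prime).one_lt.ne' h4
    haveI : Group.IsNilpotent (R : Subgroup G) := R.isPGroup'.isNilpotent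
    have h6 := CfsgLib.Solv.normal_inf_center_ne_bot (N.subgroupOf (R : Subgroup G)) hne
    obtain ⟨z, ⟨hzN, hzZ⟩, hz1⟩ := Subgroup.bot_or_exists_ne_one _ |>.resolve_left h6
    have hz : (z : G) ∈ N ⊓ Subgroup.centralizer (O : Set G) := by
      refine ⟨hzN, ?_⟩
      show (z : G) ∈ Subgroup.centralizer (O : Set G)
      rw [Subgroup.mem_centralizer_iff]
      intro o ho
      have := (Subgroup.mem_center_iff.mp hzZ) ⟨o, hOR ho⟩
      simpa [Subtype.ext_iff] using this
    rw [hCbot] at hz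
    apply hz1
    exact Subtype.ext (by simpa using hz)
  have hcop : (Nat.card O).Coprime (Nat.card N) := by
    obtain ⟨k, hk⟩ := IsPGroup.iff_card.mp hOp'
    rw [hk]
    exact Nat.Coprime.pow_left _ ((Nat.Prime.coprime_iff_not_dvd Fact.out).mpr h1)
  have hsolv : Group.IsSolvable O ∨ Group.IsSolvable N := by
    left
    haveI := hOp'.isNilpotent
    infer_instance
  have hAN : O ≤ Subgroup.normalizer (N : Set G) := by
    rw [Subgroup.normalizer_eq_top_iff.mpr ‹_›]; exact le_top
  have huniq : ∀ (q : ℕ) [Fact q.Prime] (P P' : Subgroup G), CfsgLib.Solv.IsSylowIn q P N → CfsgLib.Solv.IsSylowIn q P' N →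
      O ≤ Subgroup.normalizer (P : Set G) → O ≤ Subgroup.normalizer (P' : Set G) → P = P' := by
    intro q _ P P' hP hP' hPO hPO'
    obtain ⟨c, hc, hcP⟩ := CfsgLib.Solv.invariant_sylow_conj O N hAN hcop hsolv hP hP' hPO hPO'
    rw [hCbot] at hc
    have hc1 : c = 1 := by simpa using hc
    rw [hc1] at hcP
    simpa using hcP
  have hq : ∀ (q : ℕ) [Fact q.Prime], ∃ P : Subgroup G, CfsgLib.Solv.IsSylowIn q P N ∧ M ≤ Subgroup.normalizer (P : Set G) := by
    intro q _
    obtain ⟨P, hP, hPO⟩ := CfsgLib.Solv.exists_invariant_sylow (p := q) O N hAN hcop hsolv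
    refine ⟨P, hP, ?_⟩
    intro m hm
    rw [CfsgLib.Solv.mem_normalizer_iff_conj_smul]
    refine huniq q _ _ (hP.conj_of_mem_normalizer (by
      rw [Subgroup.normalizer_eq_top_iff.mpr ‹_›]; trivial)) hP ?_ hPO
    intro a ha
    rw [CfsgLib.Solv.mem_normalizer_conj_iff]
    apply hPO
    have hm' : m⁻¹ ∈ Subgroup.normalizer (O : Set G) := hMO (M.inv_mem hm)
    have := (Subgroup.mem_normalizer_iff.mp hm' a).mp ha
    simpa using this
  refine ⟨h1, ?_, ?_⟩
  · intro q _
    obtain ⟨P, hP, hPM⟩ := hq q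
    obtain ⟨Q, hQ⟩ := hP.exists_sylow
    refine ⟨Q, by show M ≤ Subgroup.normalizer (((Q : Subgroup N).map N.subtype : Subgroup G) : Set G); rw [hQ]; exact hPM, ?_⟩
    intro Q' hQ'
    have h2 : (Q' : Subgroup N).map N.subtype = P :=
      huniq q _ _ (CfsgLib.Solv.isSylowIn_of_sylow Q') hP (hOle.trans hQ') (hOle.trans hPM)
    apply Sylow.ext
    apply Subgroup.map_injective N.subtype_injective
    rw [h2, hQ]
  · rintro ⟨q, r, hqp, hrp, hne, hqN, hrN⟩ hco
    haveI : Fact q.Prime := ⟨hqp⟩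
    obtain ⟨P, hP, hPM⟩ := hq q
    obtain ⟨Q, hQ⟩ := hP.exists_sylow
    have hPne : P ≠ ⊥ := by
      rw [← hQ]
      intro hb
      have := (Subgroup.map_eq_bot_iff_of_injective _ N.subtype_injective).mp hb
      exact Q.ne_bot_of_dvd_card hqN this
    have hPinf : M ⊓ P = ⊥ := by
      rw [eq_bot_iff, ← hMN]
      exact inf_le_inf_left _ hP.1
    have hlt : M < M ⊔ P := by
      refine lt_of_le_of_ne le_sup_left ?_
      intro he
      have hPle : P ≤ M := by rw [he]; exact le_sup_right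
      apply hPne
      rw [← inf_eq_right.mpr hPle]
      exact hPinf
    have htop := hco.2 _ hlt
    have hc1 := CfsgLib.PLocal.card_sup_mul_card_inf M P hPM
    have hc2 := CfsgLib.PLocal.card_sup_mul_card_inf M N (by
      rw [Subgroup.normalizer_eq_top_iff.mpr ‹_›]; exact le_top)
    rw [hPinf] at hc1
    rw [hMN] at hc2
    simp only [Subgroup.card_bot, mul_one] at hc1 hc2
    rw [htop, Subgroup.card_top] at hc1
    have hcardle : Nat.card ↥(M ⊔ N) ≤ Nat.card G := Subgroup.card_le_card_group _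
    have hPN : Nat.card N ≤ Nat.card P := by
      have h0 : 0 < Nat.card M := Nat.card_pos
      have : Nat.card M * Nat.card N ≤ Nat.card M * Nat.card P := by
        rw [← hc1, ← hc2]; exact hcardle
      exact Nat.le_of_mul_le_mul_left this h0
    have hPeqN : P = N := Subgroup.eq_of_le_of_card_ge hP.1 hPN
    have hrP : r ∣ Nat.card P := by rw [hPeqN]; exact hrN
    obtain ⟨k, hk⟩ := IsPGroup.iff_card.mp hP.2.1
    rw [hk] at hrP
    exact hne ((Nat.prime_dvd_prime_iff_eq hrp hqp).mp (hrp.dvd_of_dvd_pow hrP)).symm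

end Cfsg.Agent.S3749
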