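import Cfsg.Statements.S3750
import Cfsg.Agent.Lib.FGS.Syl
import Cfsg.Agent.S3748
import Cfsg.Agent.Lib.H3.Comp2
import Cfsg.Agent.Lib.Solv.Nilp
import Cfsg.Agent.Lib.FGS.Subnormal

set_option autoImplicit false
open Cfsg
open scoped commutatorElement

namespace Cfsg.Agent.S3750

/-- Call a proper subgroup M of G primitive when M = N_G(N) for every non-trivial normal subgroup N of M. Let M be a primitive subgroup of the finite group G and N a normal subgroup of G with M ∩ F*(N) ≠ 1. Then F(G) = 1 and F*(N) = F*(G) = E(G); in particular every minimal normal subgroup of G is contained in N. -/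
theorem result {G : Type*} [Group G] [Finite G] (M : Subgroup G) (hM : M ≠ ⊤) (hprim : ∀ N : Subgroup G, N ≤ M → M ≤ Subgroup.normalizer (N : Set G) → N ≠ ⊥ → Subgroup.normalizer (N : Set G) = M) (N : Subgroup G) [N.Normal] (hMF : M ⊓ (Cfsg.generalizedFittingSubgroup ↥N).map N.subtype ≠ ⊥) : Cfsg.fittingSubgroup G = ⊥ ∧ (Cfsg.generalizedFittingSubgroup ↥N).map N.subtype = Cfsg.generalizedFittingSubgroup G ∧ Cfsg.generalizedFittingSubgroup G = Cfsg.layer G ∧ ∀ K : Subgroup G, K.Normal → K ≠ ⊥ → (∀ K' : Subgroup G, K'.Normal → K' ≤ K → K' = ⊥ ∨ K' = K) → K ≤ N := by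
  classical
  have hS := Cfsg.Agent.S3748.result M hM hprim
  have hNn : N.Normal := ‹N.Normal›
  have hNsn : N.IsSubnormal := hNn.isSubnormal
  have hlay : (Cfsg.layer N).map N.subtype ≤ Cfsg.layer G := CfsgLib.Comp.layer_map_le hNsn
  have hfit2 : (Cfsg.fittingSubgroup N).map N.subtype = Cfsg.fittingSubgroup G ⊓ N :=
    CfsgLib.Comp.fitting_subnormal hNsn
  have hFsdef : (Cfsg.generalizedFittingSubgroup N).map N.subtype =
      (Cfsg.layer N).map N.subtype ⊔ (Cfsg.fittingSubgroup N).map N.subtype := by
    rw [Cfsg.generalizedFittingSubgroup, Subgroup.map_sup]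
  set Fs := (Cfsg.generalizedFittingSubgroup N).map N.subtype with hFs
  haveI hFsn : Fs.Normal := CfsgLib.Comp.char_map_normal_of_normal hNn _
  have hFsN : Fs ≤ N := Subgroup.map_subtype_le _
  set B := M ⊓ Fs with hB
  have hBN : M ≤ Subgroup.normalizer (B : Set G) := by
    intro m hm
    apply CfsgLib.FGS.mem_normalizer_of_conj_le
    rintro x ⟨hxM, hxF⟩
    exact ⟨M.mul_mem (M.mul_mem hm hxM) (M.inv_mem hm), hFsn.conj_mem x hxF m⟩
  have hNB := hprim B inf_le_left hBN hMF
  have hcen : ∀ X : Subgroup G, (∀ x ∈ X, ∀ b ∈ B, x * b = b * x) → X ≤ M := by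
    intro X hX x hx
    rw [← hNB]
    apply (Subgroup.centralizer_le_normalizer _)
    show x ∈ Subgroup.centralizer (B : Set G)
    rw [Subgroup.mem_centralizer_iff]
    intro b hb
    exact (hX x hx b hb).symm
  have hFG : Cfsg.fittingSubgroup G = ⊥ := by
    by_contra hne
    let Z : Subgroup G := (Subgroup.center (Cfsg.fittingSubgroup G)).map (Cfsg.fittingSubgroup G).subtype
    have hZF : Z ≤ Cfsg.fittingSubgroup G := Subgroup.map_subtype_le _
    have hZne : Z ≠ ⊥ := by
      haveI : Group.IsNilpotent (Cfsg.fittingSubgroup G) := CfsgLib.Solv.fitting_nilpotent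
      have h1 : (⊤ : Subgroup (Cfsg.fittingSubgroup G)) ≠ ⊥ := by
        intro h2
        apply hne
        rw [eq_bot_iff]
        intro x hx
        have : (⟨x, hx⟩ : Cfsg.fittingSubgroup G) ∈ (⊤ : Subgroup (Cfsg.fittingSubgroup G)) := trivial
        rw [h2] at this
        simpa using this
      have h3 := CfsgLib.Solv.normal_inf_center_ne_bot (⊤ : Subgroup (Cfsg.fittingSubgroup G)) h1
      rw [top_inf_eq] at h3
      intro h4
      exact h3 ((Subgroup.map_eq_bot_iff_of_injective _ (Cfsg.fittingSubgroup G).subtype_injective).mp h4)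
    have hZc : ∀ z ∈ Z, ∀ a ∈ Fs, z * a = a * z := by
      have h1 : Fs ≤ Subgroup.centralizer (Z : Set G) := by
        rw [hFsdef]
        refine sup_le ?_ ?_
        · refine hlay.trans ?_
          intro a ha
          rw [Subgroup.mem_centralizer_iff]
          intro z hz
          exact (CfsgLib.Comp.layer_commute_fitting a ha z (hZF hz)).symm
        · rw [hfit2]
          rintro a ⟨haF, -⟩
          rw [Subgroup.mem_centralizer_iff]
          rintro _ ⟨z, hz, rfl⟩
          have := (Subgroup.mem_center_iff.mp hz) ⟨a, haF⟩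
          have h2 := congrArg Subtype.val this
          simpa using h2.symm
      intro z hz a ha
      exact Subgroup.mem_centralizer_iff.mp (h1 ha) z hz
    have hZM := hcen Z (fun z hz b hb => hZc z hz b hb.2)
    apply hZne
    rw [eq_bot_iff, ← hS.2]
    exact le_inf hZM hZF
  have hFsL : Fs = (Cfsg.layer N).map N.subtype := by
    rw [hFsdef, hfit2, hFG, bot_inf_eq, sup_bot_eq]
  have hgL : Cfsg.generalizedFittingSubgroup G = Cfsg.layer G := by
    rw [Cfsg.generalizedFittingSubgroup, hFG, sup_bot_eq]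
  refine ⟨hFG, ?_, hgL, ?_⟩
  · rw [hgL]
    apply le_antisymm
    · rw [hFsL]; exact hlay
    · rw [hFsL]
      refine sSup_le ?_
      intro K hK
      rcases CfsgLib.Comp.le_or_commute_of_normal hK hNn with h | h
      · have h1 := CfsgLib.Comp.component_subgroupOf hK h
        have h2 : K.subgroupOf N ≤ Cfsg.layer N := le_sSup h1
        intro x hx
        exact ⟨⟨x, h hx⟩, h2 hx, rfl⟩
      · exfalso
        have hKM : K ≤ M := by
          apply hcen
          intro x hx b hb
          have h1 : ⁅x, b⁆ ∈ ⁅K, N⁆ := Subgroup.commutator_mem_commutator hx (hFsN hb.2)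
          rw [h] at h1
          have h2 : ⁅x, b⁆ = 1 := by simpa using h1
          exact commutatorElement_eq_one_iff_mul_comm.mp h2
        exact CfsgLib.Comp.comp_ne_bot hK (hS.1 K hK.1 hKM)
  · intro K hKn hKne hKmin
    by_contra hnot
    rcases hKmin (K ⊓ N) (Subgroup.normal_inf_normal K N) inf_le_left with h | h
    · have hKM : K ≤ M := by
        apply hcen
        intro x hx b hb
        have h1 : ⁅x, b⁆ ∈ K ⊓ N := Subgroup.commutator_le_inf K N (Subgroup.commutator_mem_commutator hx (hFsN hb.2))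
        rw [h] at h1
        have h2 : ⁅x, b⁆ = 1 := by simpa using h1
        exact commutatorElement_eq_one_iff_mul_comm.mp h2
      exact hKne (hS.1 K hKn.isSubnormal hKM)
    · exact hnot (inf_eq_left.mp h)

end Cfsg.Agent.S3750
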