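import Cfsg.Statements.S3755
import Cfsg.Agent.Lib.FGS.Eigen2

set_option autoImplicit false
open Cfsg
open scoped commutatorElement
open scoped Pointwise

namespace Cfsg.Agent.S3755

/-- Let M and V be subgroups of a finite group with V an elementary abelian 2-group, M normalizing V and acting faithfully on it (M ∩ C(V) = 1), and C_M(O_{2'}(M)) ≤ O_{2'}(M). If some elementary abelian 2-subgroup A of M satisfies |V : C_V(A)| < |A|², then M has a section isomorphic to the symmetric group of degree 3. -/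
theorem result {X : Type*} [Group X] [Finite X] (M V : Subgroup X) (hV : Cfsg.IsElementaryAbelian 2 V) (hMV : M ≤ Subgroup.normalizer (V : Set X)) (hfaith : M ⊓ Subgroup.centralizer (V : Set X) = ⊥) (hcon : Subgroup.centralizer (Cfsg.pPrimeCore 2 ↥M : Set ↥M) ≤ Cfsg.pPrimeCore 2 ↥M) (A : Subgroup X) (hAM : A ≤ M) (hA : Cfsg.IsElementaryAbelian 2 A) (hsmall : (V ⊓ Subgroup.centralizer (A : Set X)).relIndex V < Nat.card A ^ 2) : Cfsg.Involves (Equiv.Perm (Fin 3)) ↥M := by
  classical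
  by_contra hinv
  let K : Subgroup ↥M := Cfsg.pPrimeCore 2 ↥M
  haveI hKn : K.Normal := CfsgLib.Solv.pPrimeCore_normal' 2
  have hKodd : Odd (Nat.card K) := Nat.coprime_two_right.1 (CfsgLib.Solv.pPrimeCore_coprime (G := ↥M) 2)
  let A' : Subgroup ↥M := A.subgroupOf M
  have hAsq : ∀ a ∈ A, a * a = 1 := fun a ha => by
    have := hA.2 a ha
    rwa [sq] at this
  have hA'sq : ∀ a ∈ A', a * a = 1 := fun a ha => Subtype.ext (hAsq _ ha)
  have hcardA : Nat.card A' = Nat.card A := Nat.card_congr (Subgroup.subgroupOfEquivOfLe hAM).toEquiv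
  have hA2 : IsPGroup 2 A := by
    intro x
    refine ⟨1, ?_⟩
    apply Subtype.ext
    show (x : X) ^ 2 ^ 1 = 1
    rw [pow_one]
    exact hA.2 x x.2
  obtain ⟨n, hn⟩ := IsPGroup.iff_card.1 hA2
  have hΓ : ∀ g : A', g * g = 1 := fun g => Subtype.ext (hA'sq g g.2)
  let ρK : A' →* MulAut K := (MulAut.conjNormal).comp A'.subtype
  have hρK : ∀ (g : A') (x : K), ((ρK g x : K) : ↥M) = g * x * (g : ↥M)⁻¹ := fun g x =>
    MulAut.conjNormal_apply _ _
  have hcop : (Nat.card A').Coprime (Nat.card K) := by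
    rw [hcardA, hn]
    exact Nat.Coprime.pow_left n (Nat.coprime_two_left.2 hKodd)
  have hA'solv : Group.IsSolvable A' := by
    haveI : Std.Commutative (fun x y : A' => x * y) := ⟨CfsgLib.FGS.Eigen.comm_of_sq hΓ⟩
    exact Group.isSolvable_of_comm (CfsgLib.FGS.Eigen.comm_of_sq hΓ)
  have hz : ∀ t : A', t ≠ 1 → ∃ z : K, (orderOf z).Prime ∧ orderOf z ≠ 3 ∧ ρK t z = z⁻¹ ∧
      ∀ g, ρK g z = z ∨ ρK g z = z⁻¹ := by
    intro t ht
    have hnc : (t : ↥M) ∉ Subgroup.centralizer (K : Set ↥M) := by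
      intro h
      have h1 : (t : ↥M) ∈ K := hcon h
      have h2 : (⟨t, h1⟩ : K) = (⟨t, h1⟩ : K)⁻¹ := by
        apply Subtype.ext
        exact eq_inv_of_mul_eq_one_left (hA'sq t t.2)
      have h3 := CfsgLib.FGS.Eigen.eq_one_of_eq_inv hKodd h2
      apply ht
      apply Subtype.ext
      exact congrArg (fun z : K => (z : ↥M)) h3
    set C := K ⊓ Subgroup.centralizer {(t : ↥M)} with hC
    have hCK : C ≤ K := inf_le_left
    have hidx : C.relIndex K ≠ 1 := by
      intro h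
      rw [Subgroup.relIndex_eq_one] at h
      apply hnc
      rw [Subgroup.mem_centralizer_iff]
      intro x hx
      have h1 := Subgroup.mem_centralizer_singleton_iff.1 (h hx).2
      exact h1
    obtain ⟨r, hr, hrd⟩ := Nat.exists_prime_and_dvd hidx
    haveI : Fact r.Prime := ⟨hr⟩
    obtain ⟨P, ⟨hPK, hPr, hPnd⟩, hPinv⟩ := CfsgLib.Solv.exists_invariant_sylow (p := r) A' K
      (by rw [Subgroup.normalizer_eq_top]; exact le_top) hcop (Or.inl hA'solv)
    have hPC : ¬ P ≤ C := by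
      intro h
      apply hPnd
      rw [← Subgroup.relIndex_mul_relIndex P C K h hCK]
      exact Dvd.dvd.mul_left hrd _
    obtain ⟨x, hxP, hxC⟩ := Set.not_subset.1 hPC
    have hnt : ∃ x ∈ P, (t : ↥M) * x * (t : ↥M)⁻¹ ≠ x := by
      refine ⟨x, hxP, fun h => hxC ⟨hPK hxP, ?_⟩⟩
      apply Subgroup.mem_centralizer_singleton_iff.2
      rw [mul_inv_eq_iff_eq_mul] at h
      exact h.symm
    have hPodd : Odd (Nat.card P) := by
      have h1 : Nat.card P ∣ Nat.card K := Subgroup.card_dvd_of_le hPK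
      exact Odd.of_dvd_nat hKodd h1
    obtain ⟨y, hyP, hyp, hyt, hye⟩ := CfsgLib.FGS.Eigen.exists_eigen_general A' P hPinv hA'sq
      (IsPGroup.isNilpotent hPr) hPodd t t.2 hnt
    have hyK : y ∈ K := hPK hyP
    refine ⟨⟨y, hyK⟩, ?_, ?_, ?_, ?_⟩
    · rw [Subgroup.orderOf_mk]
      exact hyp
    · rw [Subgroup.orderOf_mk]
      intro h3
      exact hinv (CfsgLib.FGS.Eigen.involves_S3 (t : ↥M) y (hA'sq t t.2) h3 hyt)
    · apply Subtype.ext
      rw [hρK]
      exact hyt
    · intro g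
      rcases hye g g.2 with h | h
      · left
        apply Subtype.ext
        rw [hρK]
        exact h
      · right
        apply Subtype.ext
        rw [hρK]
        exact h
  obtain ⟨L, hlen, hLp, hLpair⟩ := CfsgLib.FGS.Eigen.exists_list_chain ρK hΓ hKodd n (by rw [hcardA, hn]) hz
  let ρV : ↥M →* MulAut ↥V := (V.normalizerMonoidHom).comp (Subgroup.inclusion hMV)
  have hρV : ∀ (g : ↥M) (x : ↥V), ((ρV g x : ↥V) : X) = (g : X) * x * (g : X)⁻¹ := fun g x => rfl
  have hVc : ∀ x y : ↥V, x * y = y * x := fun x y => hV.1.is_comm.comm x y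
  have hVs : ∀ x : ↥V, x * x = 1 := fun x => by
    apply Subtype.ext
    have := hV.2 x x.2
    rw [sq] at this
    exact this
  let φ : A' × K → MulAut ↥V × MulAut ↥V := fun p => (ρV (p.1 : ↥M), ρV (p.2 : ↥M))
  have hzne : ∀ p ∈ L, (p.2 : ↥M) ≠ 1 := by
    intro p hp h
    have h1 := (hLp p hp).1
    have h2 : p.2 = 1 := Subtype.ext h
    rw [h2, orderOf_one] at h1
    exact Nat.not_prime_one h1
  have hcount := CfsgLib.FGS.Eigen.count_list hVc hVs (L.map φ) ?_ ?_ ⊤ (fun _ _ _ _ => ⟨Subgroup.mem_top _, Subgroup.mem_top _⟩) ?_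
  · rw [List.length_map, hlen, top_inf_eq, Subgroup.relIndex_top_right] at hcount
    set F := CfsgLib.FGS.Eigen.fixAll (L.map φ) with hF
    have hle : (V ⊓ Subgroup.centralizer (A : Set X)).subgroupOf V ≤ F := by
      rintro v hv p' hp'
      obtain ⟨p, hp, rfl⟩ := List.mem_map.1 hp'
      apply Subtype.ext
      rw [Subgroup.mem_subgroupOf] at hv
      show ((ρV (p.1 : ↥M) v : ↥V) : X) = v
      rw [hρV, mul_inv_eq_iff_eq_mul]
      exact Subgroup.mem_centralizer_iff.1 hv.2 _ p.1.2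
    have h1 : F.index ∣ ((V ⊓ Subgroup.centralizer (A : Set X)).subgroupOf V).index :=
      Subgroup.index_dvd_of_le hle
    have h2 : ((V ⊓ Subgroup.centralizer (A : Set X)).subgroupOf V).index ≠ 0 := Subgroup.index_ne_zero_of_finite
    have h3 := Nat.le_of_dvd (Nat.pos_of_ne_zero h2) h1
    have h4 : (V ⊓ Subgroup.centralizer (A : Set X)).relIndex V < (2 ^ n) ^ 2 := by
      rw [← hn]
      exact hsmall
    have h5 : (2 ^ n) ^ 2 = 4 ^ n := by
      rw [← pow_mul, mul_comm, pow_mul]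
      norm_num
    have h6 : ((V ⊓ Subgroup.centralizer (A : Set X)).subgroupOf V).index = (V ⊓ Subgroup.centralizer (A : Set X)).relIndex V := rfl
    omega
  · intro p' hp'
    obtain ⟨p, hp, rfl⟩ := List.mem_map.1 hp'
    obtain ⟨h1, h2, h3⟩ := hLp p hp
    have hainv : ((p.1 : ↥M))⁻¹ = (p.1 : ↥M) := inv_eq_of_mul_eq_one_left (hA'sq _ p.1.2)
    have h4 : (p.1 : ↥M) * (p.2 : ↥M) * (p.1 : ↥M) = (p.2 : ↥M)⁻¹ := by
      have h5 := congrArg (fun z : K => (z : ↥M)) h3
      simp only [hρK] at h5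
      rw [hainv] at h5
      exact h5
    refine ⟨?_, ?_, orderOf p.2, h1, ?_, h2, ?_⟩
    · show ρV (p.1 : ↥M) * ρV (p.1 : ↥M) = 1
      rw [← map_mul, hA'sq _ p.1.2, map_one]
    · show ρV (p.1 : ↥M) * ρV (p.2 : ↥M) * ρV (p.1 : ↥M) = (ρV (p.2 : ↥M))⁻¹
      rw [← map_mul, ← map_mul, h4, map_inv]
    · intro h
      have h5 : Odd (orderOf p.2) := Odd.of_dvd_nat hKodd (orderOf_dvd_natCard p.2)
      rw [h] at h5
      exact absurd h5 (by decide)
    · show (ρV (p.2 : ↥M)) ^ orderOf p.2 = 1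
      rw [← map_pow]
      have h5 : ((p.2 : ↥M)) ^ orderOf p.2 = 1 := by
        rw [← Subgroup.coe_pow, pow_orderOf_eq_one]
        rfl
      rw [h5, map_one]
  · rw [List.pairwise_map]
    refine hLpair.imp ?_
    intro p q h
    constructor
    · show ρV (p.1 : ↥M) * ρV (q.1 : ↥M) = ρV (q.1 : ↥M) * ρV (p.1 : ↥M)
      rw [← map_mul, ← map_mul]
      have := CfsgLib.FGS.Eigen.comm_of_sq hΓ p.1 q.1
      have h2 := congrArg (fun z : A' => (z : ↥M)) this
      simp only [Subgroup.coe_mul] at h2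
      rw [h2]
    · show ρV (p.1 : ↥M) * ρV (q.2 : ↥M) = ρV (q.2 : ↥M) * ρV (p.1 : ↥M)
      rw [← map_mul, ← map_mul]
      have h5 := congrArg (fun z : K => (z : ↥M)) h
      simp only [hρK] at h5
      rw [mul_inv_eq_iff_eq_mul] at h5
      rw [h5]
  · intro p' hp'
    obtain ⟨p, hp, rfl⟩ := List.mem_map.1 hp'
    by_contra hcon
    push Not at hcon
    apply hzne p hp
    have h1 : ((p.2 : ↥M) : X) ∈ M ⊓ Subgroup.centralizer (V : Set X) := by
      refine ⟨(p.2 : ↥M).2, ?_⟩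
      show ((p.2 : ↥M) : X) ∈ Subgroup.centralizer (V : Set X)
      rw [Subgroup.mem_centralizer_iff]
      intro v hv
      have h2 := hcon ⟨v, hv⟩ (Subgroup.mem_top _)
      have h3 := congrArg (fun z : ↥V => (z : X)) h2
      have h4 : ((p.2 : ↥M) : X) * v * ((p.2 : ↥M) : X)⁻¹ = v := h3
      rw [mul_inv_eq_iff_eq_mul] at h4
      exact h4.symm
    rw [hfaith, Subgroup.mem_bot] at h1
    exact Subtype.ext h1

end Cfsg.Agent.S3755
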