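import Cfsg.Statements.S3760
import Cfsg.Agent.Lib.FGS.Elem

set_option autoImplicit false
open Cfsg

namespace Cfsg.Agent.S3760

/-- Let the group G act transitively on a set X, let x ∈ X with stabilizer H = G_x, and let K ≤ H. Then N_G(K) acts transitively on the set of fixed points of K if and only if every G-conjugate of K contained in H is already an H-conjugate of K. -/
theorem result {G : Type*} [Group G] {X : Type*} [MulAction G X] (htrans : ∀ a b : X, ∃ g : G, g • a = b) (x : X) (K : Subgroup G) (hK : K ≤ MulAction.stabilizer G x) : (∀ a b : X, (∀ k ∈ K, k • a = a) → (∀ k ∈ K, k • b = b) → ∃ g ∈ Subgroup.normalizer (K : Set G), g • a = b) ↔ ∀ g : G, K.map (MulAut.conj g).toMonoidHom ≤ MulAction.stabilizer G x → ∃ h ∈ MulAction.stabilizer G x, K.map (MulAut.conj g).toMonoidHom = K.map (MulAut.conj h).toMonoidHom := by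
  constructor
  · intro h g hg
    have hfix : ∀ k ∈ K, k • (g⁻¹ • x) = g⁻¹ • x := by
      intro k hk
      have h1 : g * k * g⁻¹ ∈ K.map (MulAut.conj g).toMonoidHom := ⟨k, hk, rfl⟩
      have h2 := hg h1
      rw [MulAction.mem_stabilizer_iff] at h2
      calc k • (g⁻¹ • x) = g⁻¹ • ((g * k * g⁻¹) • x) := by simp [mul_smul]
        _ = g⁻¹ • x := by rw [h2]
    have hfix2 : ∀ k ∈ K, k • x = x := fun k hk => hK hk
    obtain ⟨n, hn, hnx⟩ := h (g⁻¹ • x) x hfix hfix2
    refine ⟨g * n⁻¹, ?_, ?_⟩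
    · rw [MulAction.mem_stabilizer_iff, mul_smul]
      have : n⁻¹ • x = g⁻¹ • x := by
        nth_rewrite 1 [← hnx]
        simp
      rw [this]; simp
    · rw [CfsgLib.FGS.map_conj_mul, CfsgLib.FGS.map_conj_eq_of_mem_normalizer (Subgroup.inv_mem _ hn)]
  · intro h a b ha hb
    obtain ⟨g₁, hg₁⟩ := htrans x a
    obtain ⟨g₂, hg₂⟩ := htrans x b
    have aux : ∀ (g : G) (c : X), g • x = c → (∀ k ∈ K, k • c = c) →
        ∃ h' ∈ MulAction.stabilizer G x, g * h' ∈ Subgroup.normalizer (K : Set G) := by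
      intro g c hgc hc
      have hle : K.map (MulAut.conj g⁻¹).toMonoidHom ≤ MulAction.stabilizer G x := by
        rintro _ ⟨k, hk, rfl⟩
        rw [MulAction.mem_stabilizer_iff]
        have : (MulAut.conj g⁻¹).toMonoidHom k • x = g⁻¹ • (k • (g • x)) := by
          simp [MulAut.conj_apply, mul_smul]
        rw [this, hgc, hc k hk, ← hgc]
        simp
      obtain ⟨h', hh', heq⟩ := h g⁻¹ hle
      refine ⟨h', hh', CfsgLib.FGS.mem_normalizer_of_map_conj_eq ?_⟩
      rw [CfsgLib.FGS.map_conj_mul, ← heq, CfsgLib.FGS.map_conj_map_conj_inv]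
    obtain ⟨h₁, hh₁, hn₁⟩ := aux g₁ a hg₁ ha
    obtain ⟨h₂, hh₂, hn₂⟩ := aux g₂ b hg₂ hb
    refine ⟨(g₂ * h₂) * (g₁ * h₁)⁻¹, Subgroup.mul_mem _ hn₂ (Subgroup.inv_mem _ hn₁), ?_⟩
    rw [MulAction.mem_stabilizer_iff] at hh₁ hh₂
    have hh₁' : h₁⁻¹ • x = x := by
      nth_rewrite 1 [← hh₁]
      simp
    calc ((g₂ * h₂) * (g₁ * h₁)⁻¹) • a = g₂ • h₂ • h₁⁻¹ • (g₁⁻¹ • a) := by simp [mul_smul]
      _ = b := by
        rw [← hg₁]
        simp only [inv_smul_smul]
        rw [hh₁', hh₂, hg₂]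

end Cfsg.Agent.S3760
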