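import Cfsg.Statements.S3761
import Cfsg.Agent.Lib.H3.CycMax

set_option autoImplicit false
open Cfsg

namespace Cfsg.Agent.S3761

/-- Let G be a finite non-abelian p-group with a cyclic normal subgroup U of order p^n such that C_G(U) = U. Then either p = 2 and G is dihedral, generalized quaternion or semidihedral of order 2^(n+1); or, writing U₁ for the subgroup generated by the p-th powers of elements of U and M = C_G(U₁), the subgroup U has index p in M and the subgroup Ω₁(M) generated by the elements of M of order dividing p is elementary abelian of order p² and characteristic in G. -/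
theorem result {G : Type*} [Group G] [Finite G] {p : ℕ} [Fact p.Prime] (hG : IsPGroup p G) (hna : ¬ IsMulCommutative G) (U : Subgroup G) [U.Normal] (hU : IsCyclic U) (n : ℕ) (hUn : Nat.card U = p ^ n) (hC : Subgroup.centralizer (U : Set G) = U) : (p = 2 ∧ Nat.card G = 2 ^ (n + 1) ∧ ((∃ m : ℕ, Nonempty (G ≃* DihedralGroup m)) ∨ (∃ m : ℕ, Nonempty (G ≃* QuaternionGroup m)) ∨ Cfsg.IsQuasiDihedral G)) ∨ (U.relIndex (Subgroup.centralizer (Cfsg.powerClosure p 1 U : Set G)) = p ∧ Cfsg.IsElementaryAbelian p (Cfsg.omegaOne p (Subgroup.centralizer (Cfsg.powerClosure p 1 U : Set G))) ∧ Nat.card ↥(Cfsg.omegaOne p (Subgroup.centralizer (Cfsg.powerClosure p 1 U : Set G))) = p ^ 2 ∧ (Cfsg.omegaOne p (Subgroup.centralizer (Cfsg.powerClosure p 1 U : Set G))).Characteristic) := by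
  classical
  obtain ⟨g, hg⟩ := IsCyclic.exists_generator (α := U)
  obtain ⟨a, ha⟩ : ∃ a : G, Subgroup.zpowers a = U := by
    refine ⟨(g : G), ?_⟩
    have h1 : (Subgroup.zpowers g).map U.subtype = Subgroup.zpowers (g : G) :=
      MonoidHom.map_zpowers U.subtype g
    have h2 : Subgroup.zpowers g = ⊤ := eq_top_iff.2 fun x _ => hg x
    rw [← h1, h2, ← MonoidHom.range_eq_map, Subgroup.range_subtype]
  subst ha
  have hord : orderOf a = p ^ n := by rwa [Nat.card_zpowers] at hUn
  have hCen : ∀ g : G, g * a = a * g → g ∈ Subgroup.zpowers a := by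
    intro x hx
    rw [← hC, Subgroup.mem_centralizer_iff]
    rintro _ ⟨i, rfl⟩
    have h1 : Commute x a := hx
    exact (h1.zpow_right i).symm.eq
  rcases CfsgLib.CycMax.structure_main hG hna a n inferInstance hord hCen with
    ⟨h1, h2, h3, -⟩ | ⟨h1, h2, h3, h4, -⟩
  · exact Or.inl ⟨h1, h2, h3⟩
  · right
    rw [CfsgLib.CycMax.centralizer_powerClosure]
    exact ⟨h1, h2, h3, h4⟩

end Cfsg.Agent.S3761
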