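import Cfsg.Statements.S3763
import Cfsg.Agent.Lib.FGS.ExtraTwo

set_option autoImplicit false
open Cfsg
open scoped commutatorElement
open scoped Pointwise

namespace Cfsg.Agent.S3763

/-- Let E be an extraspecial 2-group of order 2^(2n+1). Then the largest elementary abelian subgroups of E have order 2^n or 2^(n+1); and two extraspecial 2-groups of the same order whose largest elementary abelian subgroups have the same order are isomorphic. -/
theorem result {E : Type*} [Group E] [Finite E] (hE : Cfsg.IsExtraspecial 2 E) (n : ℕ) (hn : Nat.card E = 2 ^ (2 * n + 1)) : ((Cfsg.PRankLE 2 n E ∧ ¬ Cfsg.PRankLE 2 (n - 1) E) ∨ (Cfsg.PRankLE 2 (n + 1) E ∧ ¬ Cfsg.PRankLE 2 n E)) ∧ ∀ (E' : Type*) [Group E'] [Finite E'], Cfsg.IsExtraspecial 2 E' → Nat.card E' = Nat.card E → (∀ k : ℕ, Cfsg.PRankLE 2 k E ↔ Cfsg.PRankLE 2 k E') → Nonempty (E ≃* E') := by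
  open CfsgLib.FGS.ExtraTwo CfsgLib.ExS.Rank in
  obtain ⟨m, hm, hc⟩ := exists_m hE
  have hnm : n = m := by
    rw [hn] at hc
    have := Nat.pow_right_injective (le_refl 2) hc
    omega
  subst hnm
  constructor
  · rcases classify hE n hm hn with ⟨⟨f⟩⟩ | ⟨⟨f⟩⟩
    · right
      exact ⟨prank_iso f.symm _ (rank_plus n), fun h => rank_plus' n (prank_iso f _ h)⟩
    · left
      exact ⟨prank_iso f.symm _ (rank_minus n hm), fun h => rank_minus' n hm (prank_iso f _ h)⟩
  · intro E' _ _ hE' hcard hk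
    have hc' : Nat.card E' = 2 ^ (2 * n + 1) := hcard.trans hn
    rcases classify hE n hm hn with ⟨⟨f⟩⟩ | ⟨⟨f⟩⟩ <;> rcases classify hE' n hm hc' with ⟨⟨f'⟩⟩ | ⟨⟨f'⟩⟩
    · exact ⟨f.trans f'.symm⟩
    · exfalso
      have h1 : PRankLE 2 n E' := prank_iso f'.symm _ (rank_minus n hm)
      exact rank_plus' n (prank_iso f _ ((hk n).2 h1))
    · exfalso
      have h1 : PRankLE 2 n E := prank_iso f.symm _ (rank_minus n hm)
      exact rank_plus' n (prank_iso f' _ ((hk n).1 h1))
    · exact ⟨f.trans f'.symm⟩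

end Cfsg.Agent.S3763
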