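import Cfsg.Statements.S3766
import Cfsg.Agent.Lib.FGS.Chief

set_option autoImplicit false
open Cfsg
open scoped commutatorElement
open scoped Pointwise

namespace Cfsg.Agent.S3766

universe u_main

def IsChiefPair {G : Type*} [Group G] (U V : Subgroup G) : Prop :=
  U.Normal ∧ V.Normal ∧ V < U ∧ ∀ W : Subgroup G, W.Normal → V ≤ W → W ≤ U → W = V ∨ W = U

open CfsgLib.FGS CfsgLib.Solv in
theorem key_nil {G : Type u_main} [Group G] [Finite G] [Group.IsSolvable G] (N : Subgroup G) [hNn : N.Normal]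
    (F : Subgroup G) (hF : F = (Cfsg.fittingSubgroup ↥N).map N.subtype) (g : G) (hgN : g ∈ N)
    (hg : ∀ U V : Subgroup G, IsChiefPair U V → U ≤ F → ∀ u ∈ U, u * g * u⁻¹ * g⁻¹ ∈ V) : g ∈ F := by
  classical
  have hFN : F ≤ N := hF ▸ Subgroup.map_subtype_le _
  haveI hFn : F.Normal := by
    rw [hF]
    infer_instance
  have hFnil : Group.IsNilpotent F := by
    have h1 : Group.IsNilpotent (Cfsg.fittingSubgroup ↥N) := fitting_nilpotent
    rw [hF]
    exact Group.nilpotent_of_mulEquiv ((Cfsg.fittingSubgroup ↥N).equivMapOfInjective N.subtype N.subtype_injective)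
  -- the subgroup `D`
  let D : Subgroup G :=
    { carrier := {x | x ∈ N ∧ ∀ U V : Subgroup G, IsChiefPair U V → U ≤ F → ∀ u ∈ U, u * x * u⁻¹ * x⁻¹ ∈ V}
      one_mem' := ⟨N.one_mem, fun U V h _ u _ => by
        have e : u * 1 * u⁻¹ * (1 : G)⁻¹ = 1 := by group
        rw [e]
        exact V.one_mem⟩
      mul_mem' := by
        rintro x y ⟨hx1, hx2⟩ ⟨hy1, hy2⟩
        refine ⟨N.mul_mem hx1 hy1, fun U V h hU u hu => ?_⟩
        have e : u * (x * y) * u⁻¹ * (x * y)⁻¹ =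
            (u * x * u⁻¹ * x⁻¹) * (x * (u * y * u⁻¹ * y⁻¹) * x⁻¹) := by group
        rw [e]
        exact V.mul_mem (hx2 U V h hU u hu) (h.2.1.conj_mem _ (hy2 U V h hU u hu) x)
      inv_mem' := by
        rintro x ⟨hx1, hx2⟩
        refine ⟨N.inv_mem hx1, fun U V h hU u hu => ?_⟩
        have e : u * x⁻¹ * u⁻¹ * x⁻¹⁻¹ = x⁻¹ * (u * x * u⁻¹ * x⁻¹)⁻¹ * x⁻¹⁻¹ := by group
        rw [e]
        exact h.2.1.conj_mem _ (V.inv_mem (hx2 U V h hU u hu)) x⁻¹ }
  have hmemD : ∀ x, x ∈ D ↔ x ∈ N ∧ ∀ U V : Subgroup G, IsChiefPair U V → U ≤ F → ∀ u ∈ U, u * x * u⁻¹ * x⁻¹ ∈ V :=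
    fun x => Iff.rfl
  have hgD : g ∈ D := ⟨hgN, hg⟩
  have hFD : F ≤ D := by
    intro f hf
    refine ⟨hFN hf, fun U V h _ u hu => ?_⟩
    haveI := h.1
    haveI := h.2.1
    have h1 := chief_centralized F U V hFnil h.2.2.1 h.2.2.2
    exact h1 (Subgroup.commutator_mem_commutator hu hf)
  haveI hDn : D.Normal := by
    constructor
    intro x hx h
    refine ⟨hNn.conj_mem x hx.1 h, fun U V hc hU u hu => ?_⟩
    haveI := hc.1
    have h1 : h⁻¹ * u * h ∈ U := by
      have := hc.1.conj_mem u hu h⁻¹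
      simpa using this
    have h2 := hx.2 U V hc hU _ h1
    have h3 := hc.2.1.conj_mem _ h2 h
    have e : u * (h * x * h⁻¹) * u⁻¹ * (h * x * h⁻¹)⁻¹ =
        h * (h⁻¹ * u * h * x * (h⁻¹ * u * h)⁻¹ * x⁻¹) * h⁻¹ := by group
    rw [e]
    exact h3
  -- the upper central series of `D`
  let ζ := Subgroup.upperCentralSeries (↥D)
  obtain ⟨n, hnst⟩ := WellFoundedGT.monotone_chain_condition
    (⟨ζ, Subgroup.upperCentralSeries_mono ↥D⟩ : ℕ →o Subgroup ↥D)
  have hst : ζ (n + 1) = ζ n := (hnst (n + 1) (Nat.le_succ n)).symm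
  have hYn : ∀ m, ((ζ m).map D.subtype).Normal := by
    intro m
    constructor
    rintro _ ⟨y, hy, rfl⟩ h
    let e : MulAut ↥D := MulAut.conjNormal h
    have h1 : e y ∈ ζ m := by
      have h2 := Subgroup.comap_upperCentralSeries (G := ↥D) (H := ↥D) e m
      have h3 : y ∈ (Subgroup.upperCentralSeries ↥D m).comap e := by
        rw [h2]
        exact hy
      exact h3
    exact ⟨e y, h1, rfl⟩
  have hFY : F ≤ (ζ n).map D.subtype := by
    by_contra hne
    haveI := hYn n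
    obtain ⟨Z, hZ⟩ : ∃ Z : Subgroup G, Z = (ζ n).map D.subtype ⊓ F := ⟨_, rfl⟩
    haveI hZn : Z.Normal := by rw [hZ]; infer_instance
    have hZF : Z < F := by
      refine lt_of_le_of_ne (hZ ▸ inf_le_right) ?_
      intro h
      apply hne
      rw [← h, hZ]
      exact inf_le_left
    have hfin : ({W : Subgroup G | W.Normal ∧ Z < W ∧ W ≤ F}).Finite := Set.toFinite _
    obtain ⟨W, hW⟩ := hfin.exists_minimal ⟨F, hFn, hZF, le_rfl⟩
    obtain ⟨hWn, hZW, hWF⟩ := hW.1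
    have hchief : IsChiefPair W Z := by
      refine ⟨hWn, hZn, hZW, fun X hX h1 h2 => ?_⟩
      by_cases hXZ : X = Z
      · exact Or.inl hXZ
      · right
        have h3 : Z < X := lt_of_le_of_ne h1 (Ne.symm hXZ)
        exact le_antisymm h2 (hW.2 ⟨hX, h3, h2.trans hWF⟩ h2)
    apply not_le_of_gt hZW
    intro w hw
    have hwF := hWF hw
    have hwD := hFD hwF
    rw [hZ]
    refine ⟨?_, hwF⟩
    refine ⟨⟨w, hwD⟩, ?_, rfl⟩
    rw [← hst]
    show (⟨w, hwD⟩ : ↥D) ∈ Subgroup.upperCentralSeries ↥D (n + 1)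
    rw [Subgroup.mem_upperCentralSeries_succ_iff]
    intro y
    have h1 := y.2.2 W Z hchief hWF w hw
    rw [hZ] at h1
    obtain ⟨z, hz, hze⟩ := Subgroup.mem_map.1 h1.1
    have h2 : z = ⁅(⟨w, hwD⟩ : ↥D), y⁆ := by
      apply Subtype.ext
      rw [Subgroup.coe_subtype] at hze
      rw [hze, commutatorElement_def]
      rfl
    rw [← h2]
    exact hz
  have hHnil : Group.IsNilpotent ↥D := by
    apply nilpotent_of_hypercentral (F.subgroupOf D) n
    · intro x hx
      have h1 : (x : G) ∈ F := hx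
      obtain ⟨z, hz, hze⟩ := Subgroup.mem_map.1 (hFY h1)
      have h2 : z = x := Subtype.ext hze
      rw [← h2]
      exact hz
    · intro x hx
      have hxN : (x : G) ∈ N := x.2.1
      have h1 : (⟨x, hxN⟩ : ↥N) ∈ Subgroup.centralizer (Cfsg.fittingSubgroup ↥N : Set ↥N) := by
        rw [Subgroup.mem_centralizer_iff]
        intro f hf
        have hfF : (f : G) ∈ F := by
          rw [hF]
          exact Subgroup.mem_map_of_mem _ hf
        have h2 := Subgroup.mem_centralizer_iff.1 hx (⟨f, hFD hfF⟩ : ↥D) hfF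
        have h3 : (f : G) * (x : G) = (x : G) * (f : G) := congrArg Subtype.val h2
        apply Subtype.ext
        exact h3
      have h2 := centralizer_fitting_le h1
      show (x : G) ∈ F
      rw [hF]
      exact Subgroup.mem_map.2 ⟨_, h2, rfl⟩
  -- `D` lies in `F`
  have hDN : D ≤ N := fun x hx => hx.1
  have h1 : D.subgroupOf N ≤ Cfsg.fittingSubgroup ↥N := by
    apply le_fittingSubgroup'
    exact Group.nilpotent_of_mulEquiv (Subgroup.subgroupOfEquivOfLe hDN).symm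
  have h2 := h1 (show (⟨g, hgN⟩ : ↥N) ∈ D.subgroupOf N from hgD)
  rw [hF]
  exact Subgroup.mem_map.2 ⟨_, h2, rfl⟩


/-- Let G be a finite solvable group and N a normal subgroup of G. Call a pair V < U of normal subgroups of G a chief factor of G when no normal subgroup of G lies strictly between them; an element g centralizes the chief factor U/V when u g u⁻¹ g⁻¹ ∈ V for all u ∈ U. Then an element of G lies in the Fitting subgroup F(N) if and only if it lies in N and centralizes every chief factor of G; and also if and only if it lies in N and centralizes every chief factor U/V of G with U ≤ F(N). -/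
theorem result {G : Type*} [Group G] [Finite G] (hG : Group.IsSolvable G) (N : Subgroup G) [N.Normal] (g : G) : (g ∈ (Cfsg.fittingSubgroup ↥N).map N.subtype ↔ g ∈ N ∧ ∀ U V : Subgroup G, (U.Normal ∧ V.Normal ∧ V < U ∧ ∀ W : Subgroup G, W.Normal → V ≤ W → W ≤ U → W = V ∨ W = U) → ∀ u ∈ U, u * g * u⁻¹ * g⁻¹ ∈ V) ∧ (g ∈ (Cfsg.fittingSubgroup ↥N).map N.subtype ↔ g ∈ N ∧ ∀ U V : Subgroup G, (U.Normal ∧ V.Normal ∧ V < U ∧ ∀ W : Subgroup G, W.Normal → V ≤ W → W ≤ U → W = V ∨ W = U) → U ≤ (Cfsg.fittingSubgroup ↥N).map N.subtype → ∀ u ∈ U, u * g * u⁻¹ * g⁻¹ ∈ V) := by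
  haveI := hG
  obtain ⟨F, hF⟩ : ∃ F : Subgroup G, F = (Cfsg.fittingSubgroup ↥N).map N.subtype := ⟨_, rfl⟩
  rw [← hF]
  have hFN : F ≤ N := hF ▸ Subgroup.map_subtype_le _
  haveI hFn : F.Normal := by
    rw [hF]
    infer_instance
  have hFnil : Group.IsNilpotent F := by
    have h1 : Group.IsNilpotent (Cfsg.fittingSubgroup ↥N) := CfsgLib.Solv.fitting_nilpotent
    rw [hF]
    exact Group.nilpotent_of_mulEquiv ((Cfsg.fittingSubgroup ↥N).equivMapOfInjective N.subtype N.subtype_injective)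
  have h1 : g ∈ F → g ∈ N ∧ ∀ U V : Subgroup G, (U.Normal ∧ V.Normal ∧ V < U ∧ ∀ W : Subgroup G, W.Normal → V ≤ W → W ≤ U → W = V ∨ W = U) → ∀ u ∈ U, u * g * u⁻¹ * g⁻¹ ∈ V := by
    intro hg
    refine ⟨hFN hg, fun U V h u hu => ?_⟩
    haveI := h.1
    haveI := h.2.1
    have h2 := CfsgLib.FGS.chief_centralized F U V hFnil h.2.2.1 h.2.2.2
    exact h2 (Subgroup.commutator_mem_commutator hu hg)
  have h3 : (g ∈ N ∧ ∀ U V : Subgroup G, (U.Normal ∧ V.Normal ∧ V < U ∧ ∀ W : Subgroup G, W.Normal → V ≤ W → W ≤ U → W = V ∨ W = U) → U ≤ F → ∀ u ∈ U, u * g * u⁻¹ * g⁻¹ ∈ V) → g ∈ F := by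
    rintro ⟨hgN, hg⟩
    exact key_nil N F hF g hgN hg
  refine ⟨⟨h1, fun h => h3 ⟨h.1, fun U V hc _ => h.2 U V hc⟩⟩, ⟨fun hg => ?_, h3⟩⟩
  exact ⟨(h1 hg).1, fun U V hc _ => (h1 hg).2 U V hc⟩

end Cfsg.Agent.S3766
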