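import Cfsg.Statements.S3771
import Cfsg.Agent.Lib.FGS.Pg

set_option autoImplicit false
open Cfsg

namespace Cfsg.Agent.S3771

/-- Let p be a prime and R a finite p-group of p-rank at most 2 (no elementary abelian subgroup of order p³) in which every element has order dividing p. Then R has order at most p³. -/
theorem result {R : Type*} [Group R] [Finite R] {p : ℕ} [Fact p.Prime] (hR : IsPGroup p R) (hrank : Cfsg.PRankLE p 2 R) (hexp : ∀ x : R, x ^ p = 1) : Nat.card R ≤ p ^ 3 := by
  classical
  have hpp : p.Prime := Fact.out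
  haveI : Group.IsNilpotent R := hR.isNilpotent
  obtain ⟨N, -, hNmax⟩ := Finite.exists_le_maximal
    (p := fun M : Subgroup R => M.Normal ∧ IsMulCommutative M) (a := ⊥)
    ⟨inferInstance, ⟨⟨fun a b => by
      have ha : (a : R) = 1 := Subgroup.mem_bot.mp a.2
      have hb : (b : R) = 1 := Subgroup.mem_bot.mp b.2
      exact Subtype.ext (by simp [ha, hb])⟩⟩⟩
  obtain ⟨hNn, hNc⟩ := hNmax.prop
  haveI := hNn
  haveI := hNc
  have hCN : Subgroup.centralizer (N : Set R) = N :=
    CfsgLib.Solv.maximal_abelian_normal_self_centralizing N (fun M hMn hMc hle =>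
      le_antisymm (hNmax.le_of_ge ⟨hMn, hMc⟩ hle) hle)
  have hcard := hrank N hNc (fun a _ => hexp a)
  obtain ⟨i, hi⟩ := IsPGroup.iff_card.mp (hR.to_subgroup N)
  rw [hi] at hcard
  have hi2 : i ≤ 2 := (Nat.pow_le_pow_iff_right hpp.one_lt).mp hcard
  by_cases hi' : i = 2
  · apply CfsgLib.FGS.card_le_cube_of_self_centralizing hR N
    · rw [hi, hi']
    · exact hCN.le
  · -- `N` is central, hence everything
    have hle : N ≤ Subgroup.center R := by
      by_cases hN1 : N = ⊥
      · rw [hN1]; exact bot_le
      · have hne := CfsgLib.Solv.normal_inf_center_ne_bot N hN1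
        have hi1 : i ≤ 1 := by omega
        have hdv : Nat.card (N ⊓ Subgroup.center R : Subgroup R) ∣ p ^ i := by
          rw [← hi]; exact Subgroup.card_dvd_of_le inf_le_left
        obtain ⟨j, hj, hje⟩ := (Nat.dvd_prime_pow hpp).mp hdv
        have hj0 : j ≠ 0 := by
          rintro rfl
          rw [pow_zero] at hje
          exact hne (Subgroup.card_eq_one.mp hje)
        have hji : j = i := by omega
        have hEq := Subgroup.eq_of_le_of_card_ge (inf_le_left : N ⊓ Subgroup.center R ≤ N)
          (by rw [hi, hje, hji])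
        rw [← hEq]
        exact inf_le_right
    have htop : N = ⊤ := by
      rw [eq_top_iff, ← hCN]
      intro y _
      rw [Subgroup.mem_centralizer_iff]
      intro x hx
      exact (Subgroup.mem_center_iff.mp (hle hx) y).symm
    have h1 : Nat.card R = p ^ i := by
      rw [← hi, htop, Subgroup.card_top]
    rw [h1]
    exact Nat.pow_le_pow_right hpp.pos (by omega)

end Cfsg.Agent.S3771
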