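import Cfsg.Statements.S3772
import Cfsg.Agent.Lib.FGS.Basic
import Cfsg.Agent.Lib.Solv.PGroup
import Cfsg.Agent.Lib.Solv.Nilp

set_option autoImplicit false
open Cfsg
open scoped commutatorElement
open scoped Pointwise

namespace Cfsg.Agent.S3772

section core
variable {G : Type*} [Group G]

private lemma exists_coatom_not_mem [Finite G] (z : G) (hz1 : z ≠ 1) (hab : ∀ x y : G, x * y = y * x)
    (hsq : ∀ x : G, x ^ 2 = 1) : ∃ M : Subgroup G, IsCoatom M ∧ z ∉ M := by
  have hfin : ({M : Subgroup G | z ∉ M}).Finite := Set.toFinite _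
  obtain ⟨M, hM⟩ := hfin.exists_maximal ⟨⊥, by simpa using hz1⟩
  refine ⟨M, ⟨?_, ?_⟩, hM.1⟩
  · rintro rfl
    exact hM.1 (Subgroup.mem_top z)
  intro N hN
  have hzN : z ∈ N := by
    by_contra hc
    exact absurd (hM.2 hc hN.le) (not_le_of_gt hN)
  rw [eq_top_iff]
  intro g _
  by_cases hg : g ∈ M
  · exact hN.le hg
  have hgg : g * g = 1 := by rw [← pow_two]; exact hsq g
  let L : Subgroup G :=
    { carrier := {x | x ∈ M ∨ g * x ∈ M}
      one_mem' := Or.inl M.one_mem
      mul_mem' := by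
        rintro x y (hx | hx) (hy | hy)
        · exact Or.inl (M.mul_mem hx hy)
        · right
          have : g * (x * y) = x * (g * y) := by
            rw [← mul_assoc, ← mul_assoc, hab g x]
          rw [this]; exact M.mul_mem hx hy
        · right
          rw [← mul_assoc]; exact M.mul_mem hx hy
        · left
          have : x * y = (g * x) * (g * y) := by
            calc x * y = (g * g) * x * y := by rw [hgg, one_mul]
              _ = g * (g * x) * y := by group
              _ = (g * x) * g * y := by rw [hab g (g * x)]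
              _ = (g * x) * (g * y) := by group
          rw [this]; exact M.mul_mem hx hy
      inv_mem' := by
        intro x hx
        have hxx : x * x = 1 := by rw [← pow_two]; exact hsq x
        have : x⁻¹ = x := inv_eq_of_mul_eq_one_left hxx
        change x⁻¹ ∈ M ∨ g * x⁻¹ ∈ M
        rw [this]; exact hx }
  have hML : M ≤ L := fun x hx => Or.inl hx
  have hgL : g ∈ L := Or.inr (by rw [hgg]; exact M.one_mem)
  have hlt : M < M ⊔ Subgroup.zpowers g := by
    refine lt_of_le_of_ne le_sup_left ?_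
    intro h
    apply hg
    rw [h]
    exact Subgroup.mem_sup_right (Subgroup.mem_zpowers g)
  have hz2 : z ∈ M ⊔ Subgroup.zpowers g := by
    by_contra hc
    exact absurd (hM.2 hc hlt.le) (not_le_of_gt hlt)
  have hz3 : z ∈ L := (sup_le hML ((Subgroup.zpowers_le).2 hgL)) hz2
  rcases hz3 with h | h
  · exact absurd h hM.1
  · have h1 : g = (g * z) * z⁻¹ := by group
    rw [h1]
    exact N.mul_mem (hN.le h) (N.inv_mem hzN)

open scoped Classical in
private noncomputable def chi (x : G) : ℤ := if x ^ 2 = 1 then 1 else -1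

open scoped Classical in
private noncomputable def bet (x w : G) : ℤ := if w * x * w⁻¹ * x⁻¹ = 1 then 1 else -1

variable (z : G) (hz1 : z ≠ 1) (hz2 : z * z = 1) (hzc : ∀ g : G, g * z = z * g)
  (hsq : ∀ x : G, x ^ 2 = 1 ∨ x ^ 2 = z)
  (hcomm : ∀ x w : G, w * x * w⁻¹ * x⁻¹ = 1 ∨ w * x * w⁻¹ * x⁻¹ = z)

include hzc hcomm in
private lemma c_central (x w g : G) : g * (w * x * w⁻¹ * x⁻¹) = (w * x * w⁻¹ * x⁻¹) * g := by
  rcases hcomm x w with h | h <;> rw [h]
  · simp
  · exact hzc g

include hz1 hz2 hzc hsq hcomm in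
private lemma chi_mul (x w : G) : chi (x * w) = chi x * chi w * bet x w := by
  have hc := c_central z hzc hcomm x w
  have h0 : (x * w) ^ 2 = (w * x * w⁻¹ * x⁻¹) * x ^ 2 * w ^ 2 := by
    calc (x * w) ^ 2 = (x * (w * x * w⁻¹ * x⁻¹)) * (x * w) * w := by rw [pow_two]; group
      _ = ((w * x * w⁻¹ * x⁻¹) * x) * (x * w) * w := by rw [hc x]
      _ = _ := by rw [pow_two, pow_two]; group
  unfold chi bet
  rcases hcomm x w with h | h <;> rcases hsq x with h' | h' <;> rcases hsq w with h'' | h'' <;>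
    rw [h0, h, h', h''] <;> simp [hz1, hz2, mul_assoc]

variable [Fintype G]

include hz1 hz2 hzc hsq hcomm in
private lemma sum_bet (w : G) (hw : w ∉ Subgroup.center G) : ∑ x : G, bet x w = 0 := by
  -- a non-trivial character sums to zero
  have hex : ∃ x₀ : G, w * x₀ * w⁻¹ * x₀⁻¹ ≠ 1 := by
    by_contra hcon
    push Not at hcon
    apply hw
    rw [Subgroup.mem_center_iff]
    intro g
    have := hcon g
    rw [mul_inv_eq_one, mul_inv_eq_iff_eq_mul] at this
    exact this.symm
  obtain ⟨x₀, hx₀⟩ := hex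
  have h0 : bet x₀ w = -1 := by
    unfold bet; simp [hx₀]
  have hmul : ∀ x : G, bet (x₀ * x) w = bet x₀ w * bet x w := by
    intro x
    have h1 : w * (x₀ * x) * w⁻¹ * (x₀ * x)⁻¹ = (w * x₀ * w⁻¹ * x₀⁻¹) * (w * x * w⁻¹ * x⁻¹) := by
      have hc := c_central z hzc hcomm x w x₀
      calc w * (x₀ * x) * w⁻¹ * (x₀ * x)⁻¹ = (w * x₀ * w⁻¹ * x₀⁻¹) * (x₀ * (w * x * w⁻¹ * x⁻¹)) * x₀⁻¹ := by group
        _ = (w * x₀ * w⁻¹ * x₀⁻¹) * ((w * x * w⁻¹ * x⁻¹) * x₀) * x₀⁻¹ := by rw [hc]
        _ = _ := by group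
    unfold bet
    rw [h1]
    rcases hcomm x w with h | h <;> rcases hcomm x₀ w with h' | h' <;> rw [h, h'] <;> simp [hz1, hz2]
  have h1 : ∑ x : G, bet x w = ∑ x : G, bet (x₀ * x) w :=
    (Equiv.sum_comp (Equiv.mulLeft x₀) (fun x => bet x w)).symm
  simp only [hmul, h0] at h1
  rw [← Finset.mul_sum] at h1
  linarith

private lemma sum_bet_center (w : G) (hw : w ∈ Subgroup.center G) :
    ∑ x : G, bet x w = Fintype.card G := by
  have : ∀ x : G, bet x w = 1 := by
    intro x
    unfold bet
    have h1 : w * x = x * w := (Subgroup.mem_center_iff.1 hw x).symm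
    rw [h1]; simp
  simp [this]

open scoped Classical in
include hz1 hz2 hzc hsq hcomm in
private lemma sq_sum : (∑ x : G, chi x) ^ 2 = Fintype.card G *
    ∑ w : G, (if w ∈ Subgroup.center G then chi w else 0) := by
  have hchi2 : ∀ x : G, chi x * chi x = 1 := by
    intro x; unfold chi; split_ifs <;> simp
  calc (∑ x : G, chi x) ^ 2 = ∑ x : G, ∑ y : G, chi x * chi y := by
        rw [pow_two, Finset.sum_mul_sum]
    _ = ∑ x : G, ∑ w : G, chi x * chi (x * w) := by
        refine Finset.sum_congr rfl fun x _ => ?_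
        exact (Equiv.sum_comp (Equiv.mulLeft x) (fun y => chi x * chi y)).symm
    _ = ∑ x : G, ∑ w : G, chi w * bet x w := by
        refine Finset.sum_congr rfl fun x _ => Finset.sum_congr rfl fun w _ => ?_
        rw [chi_mul z hz1 hz2 hzc hsq hcomm]
        calc chi x * (chi x * chi w * bet x w) = (chi x * chi x) * (chi w * bet x w) := by ring
          _ = chi w * bet x w := by rw [hchi2, one_mul]
    _ = ∑ w : G, chi w * ∑ x : G, bet x w := by
        rw [Finset.sum_comm]
        refine Finset.sum_congr rfl fun w _ => ?_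
        rw [Finset.mul_sum]
    _ = _ := by
        rw [Finset.mul_sum]
        refine Finset.sum_congr rfl fun w _ => ?_
        by_cases hw : w ∈ Subgroup.center G
        · rw [sum_bet_center w hw, if_pos hw]; ring
        · rw [sum_bet z hz1 hz2 hzc hsq hcomm w hw, if_neg hw]; ring

open scoped Classical in
include hz1 hz2 hzc hsq hcomm in
private lemma sum_center :
    (∑ w : G, (if w ∈ Subgroup.center G then chi w else 0) = 0) ∨
    ((∑ w : G, (if w ∈ Subgroup.center G then chi w else 0) = (Nat.card (Subgroup.center G) : ℤ)) ∧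
      ∀ w ∈ Subgroup.center G, w ^ 2 = 1) := by
  by_cases h : ∀ w ∈ Subgroup.center G, w ^ 2 = 1
  · right
    refine ⟨?_, h⟩
    have h1 : ∀ w : G, (if w ∈ Subgroup.center G then chi w else 0) = if w ∈ Subgroup.center G then 1 else 0 := by
      intro w
      split_ifs with hw
      · unfold chi; rw [if_pos (h w hw)]
      · rfl
    simp only [h1]
    rw [Finset.sum_boole]
    congr 1
    exact (Nat.subtype_card _ (by simp)).symm
  · left
    push Not at h
    obtain ⟨w₀, hw₀, hw₀2⟩ := h
    have h0 : chi w₀ = -1 := by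
      unfold chi; rw [if_neg hw₀2]
    let f : G → ℤ := fun w => if w ∈ Subgroup.center G then chi w else 0
    have hT := Equiv.sum_comp (Equiv.mulLeft w₀) f
    have h2 : ∀ w : G, f (w₀ * w) = - f w := by
      intro w
      show (if w₀ * w ∈ Subgroup.center G then chi (w₀ * w) else 0) =
        - (if w ∈ Subgroup.center G then chi w else 0)
      have h3 : w₀ * w ∈ Subgroup.center G ↔ w ∈ Subgroup.center G := by
        constructor
        · intro h4
          have : w = w₀⁻¹ * (w₀ * w) := by group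
          rw [this]
          exact Subgroup.mul_mem _ (Subgroup.inv_mem _ hw₀) h4
        · exact fun h4 => Subgroup.mul_mem _ hw₀ h4
      by_cases hw : w ∈ Subgroup.center G
      · rw [if_pos (h3.2 hw), if_pos hw, chi_mul z hz1 hz2 hzc hsq hcomm, h0]
        have h4 : bet w₀ w = 1 := by
          unfold bet
          rw [Subgroup.mem_center_iff.1 hw₀ w]
          simp
        rw [h4]; ring
      · rw [if_neg (fun h4 => hw (h3.1 h4)), if_neg hw]; simp
    have h5 : ∑ i, f i = -∑ i, f i := by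
      calc ∑ i, f i = ∑ i, f (Equiv.mulLeft w₀ i) := hT.symm
        _ = ∑ i, - f i := Finset.sum_congr rfl fun w _ => h2 w
        _ = _ := Finset.sum_neg_distrib _
    show ∑ i, f i = 0
    linarith

end core

private lemma int_sq_pow (S : ℤ) (m : ℕ) (h : S ^ 2 = 2 ^ m) : ∃ k, m = 2 * k ∧ (S = 2 ^ k ∨ S = - 2 ^ k) := by
  have h1 : S.natAbs ^ 2 = 2 ^ m := by
    zify
    rw [sq_abs, h]
  have h2 : S.natAbs ∣ 2 ^ m := ⟨S.natAbs, by rw [← h1, pow_two]⟩
  obtain ⟨k, -, hk⟩ := (Nat.dvd_prime_pow Nat.prime_two).1 h2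
  rw [hk, ← pow_mul] at h1
  have h3 := Nat.pow_right_injective (le_refl 2) h1
  refine ⟨k, by omega, ?_⟩
  rcases Int.natAbs_eq S with h4 | h4
  · left; rw [h4, hk]; simp
  · right; rw [h4, hk]; simp

/-- Let G be a finite 2-group whose Frattini subgroup Φ(G) has order 2, with |G : Φ(G)| = 2^d, and let j be the number of elements x of G with x² = 1. Then j = 2^d, or j = 2^d + 2^(d−r) or j = 2^d − 2^(d−r) for some positive integer r with 2r ≤ d. Moreover if d = 2r and j is 2^d + 2^r or 2^d − 2^r, then G is extraspecial. -/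
theorem result {G : Type*} [Group G] [Finite G] (hG : IsPGroup 2 G) (hΦ : Nat.card (frattini G) = 2) (d : ℕ) (hd : (frattini G).index = 2 ^ d) : (Nat.card {x : G // x ^ 2 = 1} = 2 ^ d ∨ ∃ r : ℕ, 1 ≤ r ∧ 2 * r ≤ d ∧ (Nat.card {x : G // x ^ 2 = 1} = 2 ^ d + 2 ^ (d - r) ∨ Nat.card {x : G // x ^ 2 = 1} + 2 ^ (d - r) = 2 ^ d)) ∧ (∀ r : ℕ, d = 2 * r → (Nat.card {x : G // x ^ 2 = 1} = 2 ^ d + 2 ^ r ∨ Nat.card {x : G // x ^ 2 = 1} + 2 ^ r = 2 ^ d) → Cfsg.IsExtraspecial 2 G) := by
  have hfr := CfsgLib.Solv.pgroup_commutator_pow_le_frattini hG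
  haveI : Fact (Nat.Prime 2) := ⟨Nat.prime_two⟩
  -- the element `z`
  have hΦ0 : frattini G ≠ ⊥ := by
    intro h
    rw [h, Subgroup.card_bot] at hΦ
    omega
  haveI : Nontrivial G := by
    by_contra hn
    have : Subsingleton G := not_nontrivial_iff_subsingleton.1 hn
    exact hΦ0 (Subsingleton.elim _ _)
  have hΦZ0 : frattini G ⊓ Subgroup.center G ≠ ⊥ := by
    haveI := hG.isNilpotent
    exact CfsgLib.Solv.normal_inf_center_ne_bot _ hΦ0
  obtain ⟨z, hzin, hz1⟩ := (Subgroup.bot_or_exists_ne_one (frattini G ⊓ Subgroup.center G)).resolve_left hΦZ0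
  have hzΦ : z ∈ frattini G := hzin.1
  have hzZ : z ∈ Subgroup.center G := hzin.2
  have hΦmem : ∀ x ∈ frattini G, x = 1 ∨ x = z := by
    intro x hx
    by_contra hcon
    push Not at hcon
    classical
    have h1 : Nat.card ({1, ⟨z, hzΦ⟩, ⟨x, hx⟩} : Finset (frattini G)) ≤ Nat.card (frattini G) :=
      Nat.card_le_card_of_injective (fun a => a.1) (fun a b h => Subtype.ext h)
    rw [Nat.card_eq_fintype_card, Fintype.card_coe, hΦ] at h1
    have h2 : ({1, ⟨z, hzΦ⟩, ⟨x, hx⟩} : Finset (frattini G)).card = 3 := by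
      rw [Finset.card_eq_three]
      refine ⟨1, ⟨z, hzΦ⟩, ⟨x, hx⟩, ?_, ?_, ?_, rfl⟩
      · intro h; exact hz1 (congrArg Subtype.val h).symm
      · intro h; exact hcon.1 (congrArg Subtype.val h).symm
      · intro h; exact hcon.2 (congrArg Subtype.val h).symm
    omega
  have hz2 : z * z = 1 := by
    rcases hΦmem (z * z) ((frattini G).mul_mem hzΦ hzΦ) with h | h
    · exact h
    · exact absurd (mul_eq_left.1 h) hz1
  have hzc : ∀ g : G, g * z = z * g := fun g => (Subgroup.mem_center_iff.1 hzZ g)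
  have hsq : ∀ x : G, x ^ 2 = 1 ∨ x ^ 2 = z := fun x => hΦmem _ (hfr.2 x)
  have hcomm : ∀ x w : G, w * x * w⁻¹ * x⁻¹ = 1 ∨ w * x * w⁻¹ * x⁻¹ = z := by
    intro x w
    apply hΦmem
    exact hfr.1 (Subgroup.commutator_mem_commutator (Subgroup.mem_top w) (Subgroup.mem_top x))
  classical
  haveI := Fintype.ofFinite G
  have hS2 := sq_sum z hz1 hz2 hzc hsq hcomm
  have hT := sum_center z hz1 hz2 hzc hsq hcomm
  obtain ⟨S, hS⟩ : ∃ S : ℤ, S = ∑ x : G, chi x := ⟨_, rfl⟩
  obtain ⟨j, hj⟩ : ∃ j, j = Nat.card {x : G // x ^ 2 = 1} := ⟨_, rfl⟩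
  have hGcard : Nat.card G = 2 ^ (d + 1) := by
    have := Subgroup.card_mul_index (frattini G)
    rw [hΦ, hd] at this
    rw [← this, pow_succ]; ring
  have hSj : S = 2 * (j : ℤ) - 2 ^ (d + 1) := by
    rw [hS]
    have h1 : ∀ x : G, chi x = 2 * (if x ^ 2 = 1 then 1 else 0) - 1 := by
      intro x; unfold chi; split_ifs <;> simp
    simp only [h1]
    rw [Finset.sum_sub_distrib, ← Finset.mul_sum, Finset.sum_boole]
    have h2 : ((Finset.univ.filter fun x : G => x ^ 2 = 1).card : ℤ) = j := by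
      rw [hj, Nat.card_eq_fintype_card, Fintype.card_subtype]
    rw [h2]
    have h3 : (∑ x : G, (1 : ℤ)) = 2 ^ (d + 1) := by
      rw [Finset.sum_const, Finset.card_univ, ← Nat.card_eq_fintype_card, hGcard]
      simp
    rw [h3]
  rw [← hS] at hS2
  have hGcard' : (Fintype.card G : ℤ) = 2 ^ (d + 1) := by
    rw [← Nat.card_eq_fintype_card, hGcard]; simp
  rw [hGcard'] at hS2
  rw [← hj]
  have hCase : S = 0 ∨ ((∀ w ∈ Subgroup.center G, w ^ 2 = 1) ∧ S ^ 2 = 2 ^ (d + 1) * (Nat.card (Subgroup.center G) : ℤ)) := by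
    rcases hT with h | ⟨h, h2⟩
    · left
      rw [h, mul_zero] at hS2
      exact pow_eq_zero_iff (two_ne_zero) |>.1 hS2
    · right
      exact ⟨h2, by rw [hS2, h]⟩
  -- common facts when the second case holds
  have hNe : (∀ w ∈ Subgroup.center G, w ^ 2 = 1) → Subgroup.center G ≠ ⊤ := by
    intro hc ht
    have hall : ∀ g : G, g ∈ Subgroup.center G := fun g => by rw [ht]; exact Subgroup.mem_top g
    obtain ⟨M, hM, hzM⟩ := exists_coatom_not_mem z hz1
      (fun x y => (Subgroup.mem_center_iff.1 (hall x) y).symm) (fun x => hc x (hall x))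
    exact hzM ((CfsgLib.Solv.mem_frattini_iff.1 hzΦ) M hM)
  obtain ⟨zz, hzz⟩ := (hG.to_subgroup (Subgroup.center G)).exists_card_eq
  have hzz1 : 1 ≤ zz := by
    by_contra hlt
    have h0 : zz = 0 := by omega
    rw [h0, pow_zero] at hzz
    have := (Subgroup.card_eq_one (H := Subgroup.center G)).1 hzz
    rw [this] at hzZ
    exact hz1 hzZ
  refine ⟨?_, ?_⟩
  · rcases hCase with h0 | ⟨hc, h2⟩
    · left
      rw [hSj] at h0
      have h3 : (j : ℤ) = 2 ^ d := by
        rw [pow_succ] at h0; linarith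
      exact_mod_cast h3
    · right
      have hzzle : zz ≤ d := by
        have h1 := hNe hc
        have h3 : Nat.card (Subgroup.center G) ≠ Nat.card G := by
          intro h
          exact h1 (Subgroup.eq_top_of_card_eq _ h)
        have h4 : 2 ^ zz ∣ 2 ^ (d + 1) := by
          rw [← hzz, ← hGcard]; exact Subgroup.card_subgroup_dvd_card _
        have h5 := (Nat.pow_dvd_pow_iff_le_right (by norm_num : 1 < 2)).1 h4
        rw [hzz, hGcard] at h3
        by_contra hcon
        have : zz = d + 1 := by omega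
        exact h3 (by rw [this])
      rw [hzz] at h2
      push_cast at h2
      rw [← pow_add] at h2
      obtain ⟨k, hk, hSk⟩ := int_sq_pow S _ h2
      have hk1 : 1 ≤ k := by omega
      have hkd : k ≤ d := by omega
      refine ⟨d + 1 - k, by omega, by omega, ?_⟩
      have e : d - (d + 1 - k) = k - 1 := by omega
      rw [e]
      obtain ⟨l, rfl⟩ : ∃ l, k = l + 1 := ⟨k - 1, by omega⟩
      rw [Nat.add_sub_cancel]
      rcases hSk with h3 | h3
      · left
        rw [h3] at hSj
        have h4 : (j : ℤ) = 2 ^ d + 2 ^ l := by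
          rw [pow_succ, pow_succ] at hSj; linarith
        exact_mod_cast h4
      · right
        rw [h3] at hSj
        have h4 : (j : ℤ) + 2 ^ l = 2 ^ d := by
          rw [pow_succ, pow_succ] at hSj; linarith
        exact_mod_cast h4
  · intro r hr hjr
    have hS' : S = 2 ^ (r + 1) ∨ S = - 2 ^ (r + 1) := by
      rcases hjr with h | h
      · left
        have h4 : (j : ℤ) = 2 ^ d + 2 ^ r := by exact_mod_cast h
        rw [hSj, h4, pow_succ, pow_succ]; ring
      · right
        have h4 : (j : ℤ) + 2 ^ r = 2 ^ d := by exact_mod_cast h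
        rw [hSj, pow_succ, pow_succ, ← h4]; ring
    have hS0 : S ≠ 0 := by
      rcases hS' with h | h <;> rw [h] <;> simp
    obtain ⟨hc, h2⟩ := hCase.resolve_left hS0
    have hsq' : S ^ 2 = 2 ^ (2 * r + 2) := by
      rcases hS' with h | h <;> rw [h] <;> ring
    rw [hsq', hr] at h2
    have hZcard : Nat.card (Subgroup.center G) = 2 := by
      have h3 : (2 : ℤ) ^ (2 * r + 2) = 2 ^ (2 * r + 1) * 2 := by rw [pow_succ]
      rw [h3] at h2
      have h4 := mul_left_cancel₀ (by positivity) h2
      exact_mod_cast h4.symm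
    have hΦle : frattini G ≤ Subgroup.center G := by
      intro x hx
      rcases hΦmem x hx with h | h
      · rw [h]; exact Subgroup.one_mem _
      · rw [h]; exact hzZ
    have hΦeq : frattini G = Subgroup.center G :=
      Subgroup.eq_of_le_of_card_ge hΦle (by rw [hZcard, hΦ])
    have hcomm0 : commutator G ≠ ⊥ := by
      intro h
      apply hNe hc
      rw [Subgroup.eq_top_iff']
      intro g
      rw [Subgroup.mem_center_iff]
      intro x
      have h3 : ⁅x, g⁆ = 1 := by
        have h4 : ⁅x, g⁆ ∈ commutator G :=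
          Subgroup.commutator_mem_commutator (Subgroup.mem_top x) (Subgroup.mem_top g)
        rwa [h, Subgroup.mem_bot] at h4
      exact commutatorElement_eq_one_iff_mul_comm.1 h3
    have hcommeq : commutator G = frattini G := by
      obtain ⟨w, hw, hw1⟩ := (Subgroup.bot_or_exists_ne_one (commutator G)).resolve_left hcomm0
      have hwz : w = z := (hΦmem w (hfr.1 hw)).resolve_left hw1
      apply le_antisymm hfr.1
      intro x hx
      rcases hΦmem x hx with h | h
      · rw [h]; exact Subgroup.one_mem _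
      · rw [h, ← hwz]; exact hw
    exact ⟨⟨hG, hΦeq, hcommeq.trans hΦeq⟩, hZcard⟩

end Cfsg.Agent.S3772
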