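import Cfsg.Statements.S3773
import Cfsg.Agent.Lib.FGS.Basic
import Cfsg.Agent.Lib.Solv.PGroup
import Cfsg.Agent.Lib.OOL.CNTri
import Cfsg.Agent.Lib.Solv.SZ
import Cfsg.Agent.Lib.Solv.Core

set_option autoImplicit false
open Cfsg
open scoped commutatorElement
open scoped Pointwise

namespace Cfsg.Agent.S3773

open Subgroup

section poly
variable {e : ℕ}

private def Rep (D : ℕ) (f : (Fin e → ZMod 2) → ZMod 2) : Prop :=
  ∃ P : MvPolynomial (Fin e) (ZMod 2), P.totalDegree ≤ D ∧ ∀ a, MvPolynomial.eval a P = f a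

private lemma rep_zero (D : ℕ) : Rep D (fun _ : Fin e → ZMod 2 => 0) := ⟨0, by simp, by simp⟩

private lemma rep_add {D : ℕ} {f g : (Fin e → ZMod 2) → ZMod 2} (hf : Rep D f) (hg : Rep D g) :
    Rep D (fun a => f a + g a) := by
  obtain ⟨P, hP, hP'⟩ := hf
  obtain ⟨Q, hQ, hQ'⟩ := hg
  exact ⟨P + Q, (MvPolynomial.totalDegree_add _ _).trans (max_le hP hQ), fun a => by simp [hP', hQ']⟩

private lemma rep_mono {D D' : ℕ} {f : (Fin e → ZMod 2) → ZMod 2} (h : D ≤ D') (hf : Rep D f) : Rep D' f := by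
  obtain ⟨P, hP, hP'⟩ := hf
  exact ⟨P, hP.trans h, hP'⟩

private lemma rep_var (i : Fin e) (c : ZMod 2) : Rep 1 (fun a : Fin e → ZMod 2 => a i * c) := by
  refine ⟨MvPolynomial.X i * MvPolynomial.C c, ?_, fun a => by simp⟩
  refine (MvPolynomial.totalDegree_mul _ _).trans ?_
  rw [MvPolynomial.totalDegree_X, MvPolynomial.totalDegree_C]

private lemma rep_var_mul (i : Fin e) {f : (Fin e → ZMod 2) → ZMod 2} (hf : Rep 1 f) :
    Rep 2 (fun a => a i * f a) := by
  obtain ⟨P, hP, hP'⟩ := hf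
  refine ⟨MvPolynomial.X i * P, ?_, fun a => by simp [hP']⟩
  refine (MvPolynomial.totalDegree_mul _ _).trans ?_
  rw [MvPolynomial.totalDegree_X]
  omega

private lemma exists_zero {t : ℕ} (f : Fin t → (Fin e → ZMod 2) → ZMod 2) (hf : ∀ k, Rep 2 (f k))
    (h0 : ∀ k, f k 0 = 0) (he : 2 * t < e) : ∃ a, a ≠ 0 ∧ ∀ k, f k a = 0 := by
  classical
  haveI : Fact (Nat.Prime 2) := ⟨Nat.prime_two⟩
  choose P hP hP' using hf
  have hsum : ∑ k, (P k).totalDegree < Fintype.card (Fin e) := by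
    calc _ ≤ ∑ k : Fin t, 2 := Finset.sum_le_sum fun k _ => hP k
      _ = 2 * t := by simp [mul_comm]
      _ < e := he
      _ = _ := by simp
  have hd0 := char_dvd_card_solutions_of_fintype_sum_lt 2 hsum
  let z : {x : Fin e → ZMod 2 // ∀ k, MvPolynomial.eval x (P k) = 0} := ⟨0, fun k => by rw [hP', h0]⟩
  have hpos : 0 < Fintype.card {x : Fin e → ZMod 2 // ∀ k, MvPolynomial.eval x (P k) = 0} :=
    Fintype.card_pos_iff.2 ⟨z⟩
  have hd : 2 ∣ Fintype.card {x : Fin e → ZMod 2 // ∀ k, MvPolynomial.eval x (P k) = 0} := by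
    convert hd0
  have h2 : 1 < Fintype.card {x : Fin e → ZMod 2 // ∀ k, MvPolynomial.eval x (P k) = 0} := by
    have := Nat.le_of_dvd hpos hd
    omega
  obtain ⟨w, hw⟩ := Fintype.exists_ne_of_one_lt_card h2 z
  refine ⟨w.1, fun h => hw (Subtype.ext h), fun k => ?_⟩
  rw [← hP']
  exact w.2 k

end poly

private lemma zmod2_cases : ∀ c : ZMod 2, c = 0 ∨ c = 1 := by decide

section grp
variable {G : Type*} [Group G]

private lemma sq_mul_of_central (hcen : ∀ u v g : G, g * ⁅u, v⁆ = ⁅u, v⁆ * g) (x y : G) :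
    (x * y) ^ 2 = x ^ 2 * y ^ 2 * ⁅y, x⁆ := by
  have h1 : y * x = ⁅y, x⁆ * (x * y) := by rw [commutatorElement_def]; group
  calc (x * y) ^ 2 = x * (y * x) * y := by rw [pow_two]; group
    _ = x * (⁅y, x⁆ * (x * y)) * y := by rw [h1]
    _ = (x * ⁅y, x⁆) * (x * y) * y := by group
    _ = (⁅y, x⁆ * x) * (x * y) * y := by rw [hcen y x x]
    _ = ⁅y, x⁆ * (x ^ 2 * y ^ 2) := by rw [pow_two, pow_two]; group
    _ = x ^ 2 * y ^ 2 * ⁅y, x⁆ := (hcen _ _ _).symm

private lemma comm_mul_left (hcen : ∀ u v g : G, g * ⁅u, v⁆ = ⁅u, v⁆ * g) (x x' y : G) :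
    ⁅x * x', y⁆ = ⁅x, y⁆ * ⁅x', y⁆ := by
  calc ⁅x * x', y⁆ = x * ⁅x', y⁆ * (y * x⁻¹ * y⁻¹) := by
        simp only [commutatorElement_def]; group
    _ = ⁅x', y⁆ * x * (y * x⁻¹ * y⁻¹) := by rw [hcen x' y x]
    _ = ⁅x', y⁆ * ⁅x, y⁆ := by simp only [commutatorElement_def]; group
    _ = ⁅x, y⁆ * ⁅x', y⁆ := (hcen _ _ _).symm

private lemma comm_inv_eq (x y : G) : ⁅x, y⁆⁻¹ = ⁅y, x⁆ := commutatorElement_inv x y

private lemma comm_mul_right (hcen : ∀ u v g : G, g * ⁅u, v⁆ = ⁅u, v⁆ * g) (x y y' : G) :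
    ⁅x, y * y'⁆ = ⁅x, y⁆ * ⁅x, y'⁆ := by
  have h := comm_mul_left hcen y y' x
  have h1 : ⁅x, y * y'⁆ = ⁅y * y', x⁆⁻¹ := (comm_inv_eq _ _).symm
  rw [h1, h, mul_inv_rev, comm_inv_eq, comm_inv_eq]
  exact hcen x y ⁅x, y'⁆

private def XX {e : ℕ} (x : Fin e → G) (a : Fin e → ZMod 2) (l : List (Fin e)) : G :=
  (l.map fun i => x i ^ (a i).val).prod

private lemma XX_nil {e : ℕ} (x : Fin e → G) (a : Fin e → ZMod 2) : XX x a [] = 1 := rfl

private lemma XX_cons {e : ℕ} (x : Fin e → G) (a : Fin e → ZMod 2) (i : Fin e) (l : List (Fin e)) :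
    XX x a (i :: l) = x i ^ (a i).val * XX x a l := by
  simp [XX]

private lemma XX_zero {e : ℕ} (x : Fin e → G) (l : List (Fin e)) : XX x 0 l = 1 := by
  induction l with
  | nil => rfl
  | cons i l ih =>
    rw [XX_cons, ih]
    simp

private lemma cw {e t : ℕ} (x : Fin e → G) (hcen : ∀ u v g : G, g * ⁅u, v⁆ = ⁅u, v⁆ * g)
    (L Y : Subgroup G) (hcY : ∀ u v : G, ⁅u, v⁆ ∈ Y) (hsqY : ∀ u ∈ L, u ^ 2 ∈ Y) (hx : ∀ i, x i ∈ L)
    (φ : G → Fin t → ZMod 2) (hφ : ∀ u ∈ Y, ∀ v ∈ Y, φ (u * v) = φ u + φ v) (he : 2 * t < e) :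
    ∃ a : Fin e → ZMod 2, a ≠ 0 ∧ φ ((XX x a (List.finRange e)) ^ 2) = 0 := by
  have hφ1 : φ 1 = 0 := by
    have h := hφ 1 Y.one_mem 1 Y.one_mem
    rw [mul_one] at h
    exact left_eq_add.1 h
  have hXL : ∀ (a : Fin e → ZMod 2) (l : List (Fin e)), XX x a l ∈ L := by
    intro a l
    induction l with
    | nil => exact L.one_mem
    | cons i l ih =>
      rw [XX_cons]
      exact L.mul_mem (L.pow_mem (hx i) _) ih
  have hcomm : ∀ (k : Fin t) (l : List (Fin e)) (y : G),
      Rep 1 (fun a : Fin e → ZMod 2 => φ ⁅XX x a l, y⁆ k) := by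
    intro k l y
    induction l with
    | nil =>
      convert rep_zero (e := e) 1 using 2
      rw [XX_nil, commutatorElement_one_left, hφ1]
      rfl
    | cons i l ih =>
      have h1 : (fun a : Fin e → ZMod 2 => φ ⁅XX x a (i :: l), y⁆ k) =
          fun a => a i * φ ⁅x i, y⁆ k + φ ⁅XX x a l, y⁆ k := by
        funext a
        rw [XX_cons, comm_mul_left hcen, hφ _ (hcY _ _) _ (hcY _ _), Pi.add_apply]
        congr 1
        rcases zmod2_cases (a i) with h | h <;> rw [h]
        · simp [commutatorElement_one_left, hφ1]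
        · simp [ZMod.val_one]
      rw [h1]
      exact rep_add (rep_var i _) ih
  have hsq : ∀ (k : Fin t) (l : List (Fin e)),
      Rep 2 (fun a : Fin e → ZMod 2 => φ ((XX x a l) ^ 2) k) := by
    intro k l
    induction l with
    | nil =>
      convert rep_zero (e := e) 2 using 2
      rw [XX_nil, one_pow, hφ1]
      rfl
    | cons i l ih =>
      have h1 : (fun a : Fin e → ZMod 2 => φ ((XX x a (i :: l)) ^ 2) k) =
          fun a => (a i * φ ((x i) ^ 2) k + φ ((XX x a l) ^ 2) k) + a i * φ ⁅XX x a l, x i⁆ k := by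
        funext a
        rw [XX_cons, sq_mul_of_central hcen]
        have hw : x i ^ (a i).val ∈ L := L.pow_mem (hx i) _
        rw [hφ _ (Y.mul_mem (hsqY _ hw) (hsqY _ (hXL a l))) _ (hcY _ _),
          hφ _ (hsqY _ hw) _ (hsqY _ (hXL a l)), Pi.add_apply, Pi.add_apply]
        rcases zmod2_cases (a i) with h | h <;> rw [h]
        · simp [commutatorElement_one_right, hφ1]
        · simp [ZMod.val_one]
      rw [h1]
      exact rep_add (rep_add (rep_mono (by norm_num) (rep_var i _)) ih) (rep_var_mul i (hcomm k l _))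
  obtain ⟨a, ha, h⟩ := exists_zero (fun k (a : Fin e → ZMod 2) => φ ((XX x a (List.finRange e)) ^ 2) k)
    (fun k => hsq k _) (fun k => by rw [XX_zero, one_pow, hφ1]; rfl) he
  exact ⟨a, ha, funext h⟩

private lemma exists_double [Finite G] (M : Subgroup G) (hcM : commutator G ≤ M) (w : G) (hw2 : w ^ 2 ∈ M)
    (hwM : w ∉ M) : ∃ M' : Subgroup G, commutator G ≤ M' ∧ M ≤ M' ∧ w ∈ M' ∧ Nat.card M' = 2 * Nat.card M ∧
      ∀ g ∈ M', g ∈ M ∨ w⁻¹ * g ∈ M := by
  haveI hMn : M.Normal := by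
    constructor
    intro h hh g
    have h1 : g * h * g⁻¹ = ⁅g, h⁆ * h := by rw [commutatorElement_def]; group
    rw [h1]
    exact M.mul_mem (hcM (Subgroup.commutator_mem_commutator (Subgroup.mem_top g) (Subgroup.mem_top h))) hh
  obtain ⟨wb, hwb⟩ : ∃ wb : G ⧸ M, wb = (w : G ⧸ M) := ⟨_, rfl⟩
  have hwb2 : wb ^ 2 = 1 := by
    rw [hwb, ← QuotientGroup.mk_pow, QuotientGroup.eq_one_iff]
    exact hw2
  have hwb1 : wb ≠ 1 := by
    rw [hwb]
    intro h
    exact hwM ((QuotientGroup.eq_one_iff w).1 h)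
  have hMM' : M ≤ (Subgroup.zpowers wb).comap (QuotientGroup.mk' M) := by
    intro m hm
    have : (QuotientGroup.mk' M) m = 1 := (QuotientGroup.eq_one_iff m).2 hm
    rw [Subgroup.mem_comap, this]
    exact Subgroup.one_mem _
  refine ⟨(Subgroup.zpowers wb).comap (QuotientGroup.mk' M), hcM.trans hMM', hMM', ?_, ?_, ?_⟩
  · rw [Subgroup.mem_comap]
    show (w : G ⧸ M) ∈ Subgroup.zpowers wb
    rw [← hwb]
    exact Subgroup.mem_zpowers wb
  · rw [CfsgLib.OOL.card_comap_mk, Nat.card_zpowers]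
    haveI : Fact (Nat.Prime 2) := ⟨Nat.prime_two⟩
    rw [orderOf_eq_prime hwb2 hwb1]
  · intro g hg
    rw [Subgroup.mem_comap] at hg
    obtain ⟨k, hk⟩ := hg
    replace hk : wb ^ k = (g : G ⧸ M) := hk
    rcases Int.even_or_odd' k with ⟨c, rfl | rfl⟩
    · left
      rw [zpow_mul, zpow_two, ← pow_two, hwb2, one_zpow] at hk
      exact (QuotientGroup.eq_one_iff g).1 hk.symm
    · right
      rw [zpow_add, zpow_mul, zpow_two, ← pow_two, hwb2, one_zpow, one_mul, zpow_one, hwb] at hk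
      exact QuotientGroup.eq.1 hk

private lemma XX_mem {e : ℕ} (x : Fin e → G) (L : Subgroup G) (hx : ∀ i, x i ∈ L) (a : Fin e → ZMod 2)
    (l : List (Fin e)) : XX x a l ∈ L := by
  induction l with
  | nil => exact L.one_mem
  | cons i l ih =>
    rw [XX_cons]
    exact L.mul_mem (L.pow_mem (hx i) _) ih

private lemma exists_basis [Finite G] : ∀ (e : ℕ) (M L : Subgroup G), commutator G ≤ M → M ≤ L →
    (∀ g ∈ L, g ^ 2 ∈ M) → Nat.card L = 2 ^ e * Nat.card M →
    ∃ x : Fin e → G, (∀ i, x i ∈ L) ∧ ∀ a : Fin e → ZMod 2, XX x a (List.finRange e) ∈ M → a = 0 := by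
  intro e
  induction e with
  | zero =>
    intro M L _ _ _ _
    exact ⟨Fin.elim0, fun i => i.elim0, fun a _ => funext fun i => i.elim0⟩
  | succ e ih =>
    intro M L hcM hML hsq hcard
    have hex : ∃ w ∈ L, w ∉ M := by
      by_contra hcon
      push Not at hcon
      have h1 : L ≤ M := hcon
      have h2 : M = L := le_antisymm hML h1
      rw [h2] at hcard
      have h3 : 0 < Nat.card L := Nat.card_pos
      have h4 : 2 ≤ 2 ^ (e + 1) := by
        calc 2 = 2 ^ 1 := by norm_num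
          _ ≤ 2 ^ (e + 1) := Nat.pow_le_pow_right (by norm_num) (by omega)
      nlinarith
    obtain ⟨w, hwL, hwM⟩ := hex
    obtain ⟨M', hcM', hMM', hwM', hM'card, hM'cases⟩ := exists_double M hcM w (hsq w hwL) hwM
    have hM'L : M' ≤ L := by
      intro g hg
      rcases hM'cases g hg with h | h
      · exact hML h
      · have : g = w * (w⁻¹ * g) := by group
        rw [this]
        exact L.mul_mem hwL (hML h)
    obtain ⟨x', hx'L, hx'⟩ := ih M' L hcM' hM'L (fun g hg => hMM' (hsq g hg)) (by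
      rw [hcard, hM'card, pow_succ]; ring)
    refine ⟨Fin.cons w x', ?_, ?_⟩
    · intro i
      refine Fin.cases ?_ (fun j => ?_) i
      · simpa using hwL
      · simpa using hx'L j
    · intro a ha
      have hXX : XX (Fin.cons w x' : Fin (e + 1) → G) a (List.finRange (e + 1)) =
          w ^ (a 0).val * XX x' (fun i => a i.succ) (List.finRange e) := by
        rw [List.finRange_succ, XX_cons]
        congr 1
        simp [XX, List.map_map, Function.comp_def]
      rw [hXX] at ha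
      have hmem : XX x' (fun i => a i.succ) (List.finRange e) ∈ M' := by
        have h1 : XX x' (fun i => a i.succ) (List.finRange e) =
            (w ^ (a 0).val)⁻¹ * (w ^ (a 0).val * XX x' (fun i => a i.succ) (List.finRange e)) := by group
        rw [h1]
        exact M'.mul_mem (M'.inv_mem (M'.pow_mem hwM' _)) (hMM' ha)
      have h0 := hx' _ hmem
      rw [h0, XX_zero, mul_one] at ha
      have ha0 : a 0 = 0 := by
        rcases zmod2_cases (a 0) with h | h
        · exact h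
        · rw [h, ZMod.val_one, pow_one] at ha
          exact absurd ha hwM
      funext i
      refine Fin.cases ha0 (fun j => ?_) i
      exact congrFun h0 j

private lemma exists_coords {W : Type*} [CommGroup W] [Finite W] (hexp : ∀ w : W, w ^ 2 = 1) (t : ℕ)
    (hW : Nat.card W = 2 ^ t) :
    ∃ f : W → Fin t → ZMod 2, (∀ u v, f (u * v) = f u + f v) ∧ ∀ u, f u = 0 → u = 1 := by
  haveI : Fact (Nat.Prime 2) := ⟨Nat.prime_two⟩
  letI : Module (ZMod 2) (Additive W) := AddCommGroup.zmodModule (by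
    intro x
    exact congrArg Additive.ofMul (hexp (Additive.toMul x)))
  have hc : Nat.card (Additive W) = 2 ^ t := by
    rw [← hW]; exact Nat.card_congr Additive.toMul
  have hr := CfsgLib.Solv.finrank_eq_of_card (p := 2) (V := Additive W) t hc
  haveI : Module.Finite (ZMod 2) (Additive W) := Module.Finite.of_finite
  let b := Module.finBasisOfFinrankEq (ZMod 2) (Additive W) hr
  refine ⟨fun u => b.equivFun (Additive.ofMul u), ?_, ?_⟩
  · intro u v
    show b.equivFun (Additive.ofMul u + Additive.ofMul v) = _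
    rw [map_add]
  · intro u hu
    have hu' : b.equivFun (Additive.ofMul u) = 0 := hu
    have h1 : Additive.ofMul u = 0 := b.equivFun.injective (by rw [hu', map_zero])
    exact Additive.ofMul.injective h1

private lemma exists_phi [Finite G] (Y T : Subgroup G) (hT : T ≤ Y) (hYc : ∀ u ∈ Y, ∀ v ∈ Y, u * v = v * u)
    (hY2 : ∀ u ∈ Y, u ^ 2 = 1) (t : ℕ) (hcard : Nat.card Y = 2 ^ t * Nat.card T) :
    ∃ φ : G → Fin t → ZMod 2, (∀ u ∈ Y, ∀ v ∈ Y, φ (u * v) = φ u + φ v) ∧ ∀ u ∈ Y, φ u = 0 → u ∈ T := by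
  classical
  letI : CommGroup Y := { (inferInstance : Group Y) with
    mul_comm := fun a b => Subtype.ext (hYc a a.2 b b.2) }
  have hWc : Nat.card (Y ⧸ T.subgroupOf Y) = 2 ^ t := by
    rw [← Subgroup.index_eq_card]
    have h1 := Subgroup.card_mul_index (T.subgroupOf Y)
    rw [CfsgLib.Solv.card_subgroupOf_of_le hT, hcard, mul_comm] at h1
    exact Nat.eq_of_mul_eq_mul_right Nat.card_pos h1
  obtain ⟨f, hf1, hf2⟩ := exists_coords (W := Y ⧸ T.subgroupOf Y) (by
    intro w
    obtain ⟨y, rfl⟩ := QuotientGroup.mk'_surjective (T.subgroupOf Y) w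
    rw [← map_pow]
    have : y ^ 2 = 1 := Subtype.ext (hY2 y y.2)
    rw [this, map_one]) t hWc
  refine ⟨fun g => if h : g ∈ Y then f (QuotientGroup.mk' (T.subgroupOf Y) ⟨g, h⟩) else 0, ?_, ?_⟩
  · intro u hu v hv
    simp only [dif_pos hu, dif_pos hv, dif_pos (Y.mul_mem hu hv)]
    rw [← hf1, ← map_mul]
    rfl
  · intro u hu h
    simp only [dif_pos hu] at h
    have h1 := hf2 _ h
    rw [QuotientGroup.mk'_apply, QuotientGroup.eq_one_iff, Subgroup.mem_subgroupOf] at h1
    exact h1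

private lemma exists_coatom_not_mem' [Finite G] (z : G) (hz1 : z ≠ 1) (hab : ∀ x y : G, x * y = y * x)
    (hsq : ∀ x : G, x ^ 2 = 1) : ∃ M : Subgroup G, IsCoatom M ∧ z ∉ M := by
  have hfin : ({M : Subgroup G | z ∉ M}).Finite := Set.toFinite _
  obtain ⟨M, hM⟩ := hfin.exists_maximal ⟨⊥, by simpa using hz1⟩
  refine ⟨M, ⟨?_, ?_⟩, hM.1⟩
  · rintro rfl
    exact hM.1 (Subgroup.mem_top z)
  intro N hN
  have hzN : z ∈ N := by
    by_contra hc
    exact absurd (hM.2 hc hN.le) (not_le_of_gt hN)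
  rw [eq_top_iff]
  intro g _
  by_cases hg : g ∈ M
  · exact hN.le hg
  have hgg : g * g = 1 := by rw [← pow_two]; exact hsq g
  let L : Subgroup G :=
    { carrier := {x | x ∈ M ∨ g * x ∈ M}
      one_mem' := Or.inl M.one_mem
      mul_mem' := by
        rintro x y (hx | hx) (hy | hy)
        · exact Or.inl (M.mul_mem hx hy)
        · right
          have : g * (x * y) = x * (g * y) := by
            rw [← mul_assoc, ← mul_assoc, hab g x]
          rw [this]; exact M.mul_mem hx hy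
        · right
          rw [← mul_assoc]; exact M.mul_mem hx hy
        · left
          have : x * y = (g * x) * (g * y) := by
            calc x * y = (g * g) * x * y := by rw [hgg, one_mul]
              _ = g * (g * x) * y := by group
              _ = (g * x) * g * y := by rw [hab g (g * x)]
              _ = (g * x) * (g * y) := by group
          rw [this]; exact M.mul_mem hx hy
      inv_mem' := by
        intro x hx
        have hxx : x * x = 1 := by rw [← pow_two]; exact hsq x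
        have : x⁻¹ = x := inv_eq_of_mul_eq_one_left hxx
        change x⁻¹ ∈ M ∨ g * x⁻¹ ∈ M
        rw [this]; exact hx }
  have hML : M ≤ L := fun x hx => Or.inl hx
  have hgL : g ∈ L := Or.inr (by rw [hgg]; exact M.one_mem)
  have hlt : M < M ⊔ Subgroup.zpowers g := by
    refine lt_of_le_of_ne le_sup_left ?_
    intro h
    apply hg
    rw [h]
    exact Subgroup.mem_sup_right (Subgroup.mem_zpowers g)
  have hz2 : z ∈ M ⊔ Subgroup.zpowers g := by
    by_contra hc
    exact absurd (hM.2 hc hlt.le) (not_le_of_gt hlt)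
  have hz3 : z ∈ L := (sup_le hML ((Subgroup.zpowers_le).2 hgL)) hz2
  rcases hz3 with h | h
  · exact absurd h hM.1
  · have h1 : g = (g * z) * z⁻¹ := by group
    rw [h1]
    exact N.mul_mem (hN.le h) (N.inv_mem hzN)

end grp

/-- Let G be a finite 2-group of nilpotency class at most 2 and exponent dividing 4 in which the elements x with x² = 1 form a subgroup N. Then |G| ≤ |N|³, and |G| < |N|³ unless G is special. -/
theorem result {G : Type*} [Group G] [Finite G] (hG : IsPGroup 2 G) (hcl : (⊤ : Subgroup G).lowerCentralSeries 2 = ⊥) (hexp : ∀ x : G, x ^ 4 = 1) (hN : ∀ x y : G, x ^ 2 = 1 → y ^ 2 = 1 → (x * y) ^ 2 = 1) : Nat.card G ≤ Nat.card {x : G // x ^ 2 = 1} ^ 3 ∧ (¬ Cfsg.IsSpecial 2 G → Nat.card G < Nat.card {x : G // x ^ 2 = 1} ^ 3) := by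
  haveI : Fact (Nat.Prime 2) := ⟨Nat.prime_two⟩
  have hcen : ∀ u v g : G, g * ⁅u, v⁆ = ⁅u, v⁆ * g := by
    intro u v g
    have h1 : ⁅⁅u, v⁆, g⁆ ∈ (⊤ : Subgroup G).lowerCentralSeries 2 :=
      Subgroup.commutator_mem_commutator
        (Subgroup.commutator_mem_commutator (Subgroup.mem_top u) (Subgroup.mem_top v)) (Subgroup.mem_top g)
    rw [hcl, Subgroup.mem_bot] at h1
    exact (commutatorElement_eq_one_iff_mul_comm.1 h1).symm
  have hc2 : ∀ u v : G, ⁅u, v⁆ ^ 2 = 1 := by
    intro v u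
    have h1 := sq_mul_of_central hcen u v
    have h2 : (u * v) ^ 4 = 1 := hexp _
    have h3 : (u * v) ^ 4 = ((u * v) ^ 2) ^ 2 := by rw [← pow_mul]
    rw [h3, h1, sq_mul_of_central hcen, sq_mul_of_central hcen (u ^ 2) (v ^ 2)] at h2
    have h4 : ⁅v ^ 2, u ^ 2⁆ = ⁅v, u⁆ ^ 4 := by
      rw [pow_two v, pow_two u, comm_mul_left hcen, comm_mul_right hcen]
      simp only [pow_succ, pow_zero, one_mul, mul_assoc]
    have h5 : (u ^ 2) ^ 2 = 1 := by rw [← pow_mul]; exact hexp u
    have h6 : (v ^ 2) ^ 2 = 1 := by rw [← pow_mul]; exact hexp v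
    have h7 : ⁅⁅v, u⁆, u ^ 2 * v ^ 2⁆ = 1 :=
      commutatorElement_eq_one_iff_mul_comm.2 (hcen _ _ _).symm
    rw [h5, h6, h4, one_mul, one_mul, h7, mul_one, ← pow_add] at h2
    obtain ⟨k, hk⟩ := hG ⁅v, u⁆
    have h8 : orderOf ⁅v, u⁆ ∣ 2 * 3 := orderOf_dvd_of_pow_eq_one (by simpa using h2)
    have h9 : orderOf ⁅v, u⁆ ∣ 2 ^ k := orderOf_dvd_of_pow_eq_one hk
    have h10 : (orderOf ⁅v, u⁆).Coprime 3 := Nat.Coprime.coprime_dvd_left h9 (Nat.Coprime.pow_left _ (by norm_num))
    exact orderOf_dvd_iff_pow_eq_one.1 (h10.dvd_of_dvd_mul_right h8)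
  -- the subgroup `N`
  obtain ⟨N, hNmem⟩ : ∃ N : Subgroup G, ∀ x, x ∈ N ↔ x ^ 2 = 1 :=
    ⟨{ carrier := {x | x ^ 2 = 1}
       one_mem' := one_pow 2
       mul_mem' := fun {a b} ha hb => hN a b ha hb
       inv_mem' := fun {a} ha => by
         show a⁻¹ ^ 2 = 1
         rw [inv_pow]
         have : a ^ 2 = 1 := ha
         rw [this, inv_one] }, fun x => Iff.rfl⟩
  have hNc : ∀ u ∈ N, ∀ v ∈ N, u * v = v * u := by
    intro u hu v hv
    have h1 := (hNmem _).1 (N.mul_mem hu hv)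
    have h2 := (hNmem _).1 hu
    have h3 := (hNmem _).1 hv
    rw [pow_two] at h1 h2 h3
    have hui : u⁻¹ = u := inv_eq_of_mul_eq_one_left h2
    have hvi : v⁻¹ = v := inv_eq_of_mul_eq_one_left h3
    have huv : (u * v)⁻¹ = u * v := inv_eq_of_mul_eq_one_left h1
    rw [← huv, mul_inv_rev, hui, hvi]
  have hN2 : ∀ u ∈ N, u ^ 2 = 1 := fun u hu => (hNmem u).1 hu
  have hG2 : ∀ g : G, g ^ 2 ∈ N := by
    intro g
    rw [hNmem, ← pow_mul]
    exact hexp g
  have hcN : ∀ u v : G, ⁅u, v⁆ ∈ N := fun u v => (hNmem _).2 (hc2 u v)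
  have hcommN : commutator G ≤ N := by
    rw [_root_.commutator_def, Subgroup.commutator_le]
    intro u _ v _
    exact hcN u v
  have hNcard : Nat.card {x : G // x ^ 2 = 1} = Nat.card N :=
    Nat.card_congr (Equiv.subtypeEquivRight (fun x => (hNmem x).symm))
  rw [hNcard]
  obtain ⟨n, hn⟩ := (hG.to_subgroup N).exists_card_eq
  obtain ⟨k, hk⟩ := hG.exists_card_eq
  obtain ⟨d, -, hd⟩ := (Nat.dvd_prime_pow Nat.prime_two).1 (show N.index ∣ 2 ^ k by
    rw [← hk]; exact Subgroup.index_dvd_card _)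
  have hcardG : Nat.card G = 2 ^ d * Nat.card N := by
    rw [← hd, mul_comm]; exact (Subgroup.card_mul_index N).symm
  have hXN : ∀ (e : ℕ) (x : Fin e → G) (a : Fin e → ZMod 2), (XX x a (List.finRange e)) ^ 2 = 1 →
      XX x a (List.finRange e) ∈ N := fun e x a h => (hNmem _).2 h
  -- the bound
  have hdle : d ≤ 2 * n := by
    by_contra hcon
    push Not at hcon
    obtain ⟨x, -, hx⟩ := exists_basis d N ⊤ hcommN le_top (fun g _ => hG2 g) (by
      rw [Subgroup.card_top]; exact hcardG)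
    obtain ⟨φ, hφ1, hφ2⟩ := exists_phi N ⊥ bot_le hNc hN2 n (by rw [Subgroup.card_bot, hn, mul_one])
    obtain ⟨a, ha, h⟩ := cw x hcen ⊤ N hcN (fun u _ => hG2 u) (fun _ => Subgroup.mem_top _) φ hφ1 hcon
    have h2 := hφ2 _ (hG2 _) h
    rw [Subgroup.mem_bot] at h2
    exact ha (hx a (hXN d x a h2))
  have hGeq : Nat.card G = 2 ^ (d + n) := by
    rw [hcardG, hn, pow_add]
  have hN3 : Nat.card N ^ 3 = 2 ^ (3 * n) := by
    rw [hn, ← pow_mul, mul_comm]
  refine ⟨?_, ?_⟩
  · rw [hGeq, hN3]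
    exact Nat.pow_le_pow_right (by norm_num) (by omega)
  intro hns
  by_contra hcon
  have hdeq : d = 2 * n := by
    by_contra hne
    apply hcon
    rw [hGeq, hN3]
    exact Nat.pow_lt_pow_right (by norm_num) (by omega)
  apply hns
  -- `G' = N`
  have hG'N : commutator G = N := by
    by_contra hne
    have hlt : commutator G < N := lt_of_le_of_ne hcommN hne
    have hfin : ({T : Subgroup G | commutator G ≤ T ∧ T < N}).Finite := Set.toFinite _
    obtain ⟨T, hT⟩ := hfin.exists_maximal ⟨commutator G, le_rfl, hlt⟩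
    obtain ⟨hcT, hTN⟩ := hT.1
    obtain ⟨w, hwN, hwT⟩ : ∃ w ∈ N, w ∉ T := by
      by_contra hc
      push Not at hc
      exact absurd (show N ≤ T from hc) (not_le_of_gt hTN)
    have hw2 : w ^ 2 = 1 := hN2 w hwN
    obtain ⟨T', hcT', hTT', hwT', hT'card, hT'cases⟩ := exists_double T hcT w (by rw [hw2]; exact T.one_mem) hwT
    have hT'N : T' ≤ N := by
      intro g hg
      rcases hT'cases g hg with h | h
      · exact hTN.le h
      · have : g = w * (w⁻¹ * g) := by group
        rw [this]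
        exact N.mul_mem hwN (hTN.le h)
    have hT'eq : T' = N := by
      by_contra hne'
      have hlt' : T' < N := lt_of_le_of_ne hT'N hne'
      have hle := hT.2 (show T' ∈ {T : Subgroup G | commutator G ≤ T ∧ T < N} from ⟨hcT', hlt'⟩) hTT'
      exact hwT (hle hwT')
    rw [hT'eq] at hT'card
    obtain ⟨t₀, ht₀⟩ := (hG.to_subgroup T).exists_card_eq
    have hnt : n = t₀ + 1 := by
      rw [hn, ht₀, ← pow_succ'] at hT'card
      exact Nat.pow_right_injective (le_refl 2) hT'card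
    -- the subgroup `M₂`
    obtain ⟨M₂, hM₂⟩ : ∃ M₂ : Subgroup G, ∀ x, x ∈ M₂ ↔ x ^ 2 ∈ T :=
      ⟨{ carrier := {x | x ^ 2 ∈ T}
         one_mem' := by
           show (1 : G) ^ 2 ∈ T
           rw [one_pow]; exact T.one_mem
         mul_mem' := fun {a b} ha hb => by
           show (a * b) ^ 2 ∈ T
           rw [sq_mul_of_central hcen]
           exact T.mul_mem (T.mul_mem ha hb) (hcT (Subgroup.commutator_mem_commutator (Subgroup.mem_top _) (Subgroup.mem_top _)))
         inv_mem' := fun {a} ha => by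
           show a⁻¹ ^ 2 ∈ T
           rw [inv_pow]
           exact T.inv_mem ha }, fun x => Iff.rfl⟩
    have hNM₂ : N ≤ M₂ := by
      intro x hx
      rw [hM₂, hN2 x hx]
      exact T.one_mem
    -- `|G : M₂| ≤ 2`
    have hM₂card : Nat.card G ≤ 2 * Nat.card M₂ := by
      by_cases htop : M₂ = ⊤
      · rw [htop, Subgroup.card_top]; omega
      obtain ⟨z, hz⟩ : ∃ z, z ∉ M₂ := by
        by_contra hc
        push Not at hc
        exact htop (Subgroup.eq_top_iff' M₂ |>.2 hc)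
      have hzz : z ^ 2 ∈ M₂ := hNM₂ (hG2 z)
      obtain ⟨M₃, hc3, hM₂3, hz3, hM₃card, -⟩ := exists_double M₂ (hcommN.trans hNM₂) z hzz hz
      have hM₃top : M₃ = ⊤ := by
        rw [Subgroup.eq_top_iff']
        intro g
        by_cases hg : g ∈ M₂
        · exact hM₂3 hg
        -- both squares lie outside `T`
        have hgz : z⁻¹ * g ∈ M₂ := by
          rw [hM₂, sq_mul_of_central hcen]
          refine T.mul_mem ?_ (hcT (Subgroup.commutator_mem_commutator (Subgroup.mem_top _) (Subgroup.mem_top _)))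
          rw [inv_pow]
          have hz2T : z ^ 2 ∉ T := fun h => hz ((hM₂ z).2 h)
          have hg2T : g ^ 2 ∉ T := fun h => hg ((hM₂ g).2 h)
          have hz4 : z ^ 2 ∈ T' := by rw [hT'eq]; exact hG2 z
          have hg4 : g ^ 2 ∈ T' := by rw [hT'eq]; exact hG2 g
          have h1 := (hT'cases _ hz4).resolve_left hz2T
          have h2 := (hT'cases _ hg4).resolve_left hg2T
          have h3 : (z ^ 2)⁻¹ * g ^ 2 = (w⁻¹ * z ^ 2)⁻¹ * (w⁻¹ * g ^ 2) := by group
          rw [h3]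
          exact T.mul_mem (T.inv_mem h1) h2
        have : g = z * (z⁻¹ * g) := by group
        rw [this]
        exact M₃.mul_mem hz3 (hM₂3 hgz)
      rw [hM₃top, Subgroup.card_top] at hM₃card
      omega
    obtain ⟨s, hs⟩ := (hG.to_subgroup M₂).exists_card_eq
    have hns' : n ≤ s := by
      have h1 : Nat.card N ∣ Nat.card M₂ := Subgroup.card_dvd_of_le hNM₂
      rw [hn, hs] at h1
      exact (Nat.pow_dvd_pow_iff_le_right (by norm_num)).1 h1
    have hds : d + n ≤ s + 1 := by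
      rw [hGeq, hs, ← pow_succ'] at hM₂card
      exact (Nat.pow_le_pow_iff_right (by norm_num)).1 hM₂card
    obtain ⟨x, hxL, hx⟩ := exists_basis (s - n) N M₂ hcommN hNM₂ (fun g _ => hG2 g) (by
      rw [hs, hn, ← pow_add]; congr 1; omega)
    obtain ⟨φ, hφ1, hφ2⟩ := exists_phi T ⊥ bot_le (fun u hu v hv => hNc u (hTN.le hu) v (hTN.le hv))
      (fun u hu => hN2 u (hTN.le hu)) t₀ (by rw [Subgroup.card_bot, ht₀, mul_one])
    obtain ⟨a, ha, h⟩ := cw x hcen M₂ T
      (fun u v => hcT (Subgroup.commutator_mem_commutator (Subgroup.mem_top _) (Subgroup.mem_top _)))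
      (fun u hu => (hM₂ u).1 hu) hxL φ hφ1 (by omega)
    have hmem : (XX x a (List.finRange (s - n))) ^ 2 ∈ T := (hM₂ _).1 (XX_mem x M₂ hxL a _)
    have h2 := hφ2 _ hmem h
    rw [Subgroup.mem_bot] at h2
    exact ha (hx a (hXN _ x a h2))
  -- `Z(G) ≤ N`
  have hZN : Subgroup.center G ≤ N := by
    by_contra hne
    obtain ⟨z, hzZ, hzN⟩ : ∃ z ∈ Subgroup.center G, z ∉ N := by
      by_contra hc
      push Not at hc
      exact hne hc
    have hz2N : z ^ 2 ∈ N := hG2 z
    have hz2 : z ^ 2 ≠ 1 := fun h => hzN ((hNmem z).2 h)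
    have hzc : ∀ g : G, g * z = z * g := Subgroup.mem_center_iff.1 hzZ
    obtain ⟨M', hcM', hNM', hzM', hM'card, -⟩ := exists_double N hcommN z hz2N hzN
    have hd1 : 1 ≤ d := by
      by_contra hc
      have h0 : d = 0 := by omega
      rw [h0, pow_zero, one_mul] at hcardG
      have h1 : N = ⊤ := Subgroup.eq_top_of_card_eq _ hcardG.symm
      exact hzN (h1 ▸ Subgroup.mem_top z)
    obtain ⟨d', rfl⟩ : ∃ d', d = d' + 1 := ⟨d - 1, by omega⟩
    obtain ⟨x, -, hx⟩ := exists_basis d' M' ⊤ hcM' le_top (fun g _ => hNM' (hG2 g)) (by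
      rw [Subgroup.card_top, hcardG, hM'card, pow_succ]; ring)
    have hTorder : orderOf (z ^ 2) = 2 := orderOf_eq_prime (hN2 _ hz2N) hz2
    have hTcard : Nat.card (Subgroup.zpowers (z ^ 2)) = 2 := by rw [Nat.card_zpowers, hTorder]
    have hTN : Subgroup.zpowers (z ^ 2) ≤ N := (Subgroup.zpowers_le).2 hz2N
    have hn1 : 1 ≤ n := by
      by_contra hc
      have h0 : n = 0 := by omega
      rw [h0, pow_zero] at hn
      have := (Subgroup.card_eq_one (H := N)).1 hn
      rw [this, Subgroup.mem_bot] at hz2N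
      exact hz2 hz2N
    obtain ⟨n', rfl⟩ : ∃ n', n = n' + 1 := ⟨n - 1, by omega⟩
    obtain ⟨φ, hφ1, hφ2⟩ := exists_phi N (Subgroup.zpowers (z ^ 2)) hTN hNc hN2 n' (by
      rw [hn, hTcard, pow_succ])
    obtain ⟨a, ha, h⟩ := cw x hcen ⊤ N hcN (fun u _ => hG2 u) (fun _ => Subgroup.mem_top _) φ hφ1 (by omega)
    have h2 := hφ2 _ (hG2 _) h
    obtain ⟨X, hX⟩ : ∃ X, X = XX x a (List.finRange d') := ⟨_, rfl⟩
    rw [← hX] at h2
    have hXM' : X ∈ M' := by
      obtain ⟨l, hl⟩ := h2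
      replace hl : (z ^ 2) ^ l = X ^ 2 := hl
      rcases Int.even_or_odd' l with ⟨c, rfl | rfl⟩
      · have h3 : X ^ 2 = 1 := by
          rw [← hl, zpow_mul, zpow_two, ← pow_two, hN2 _ hz2N, one_zpow]
        exact hNM' ((hNmem X).2 h3)
      · have h3 : X ^ 2 = z ^ 2 := by
          rw [← hl, zpow_add, zpow_mul, zpow_two, ← pow_two, hN2 _ hz2N, one_zpow, one_mul, zpow_one]
        have h4 : (z⁻¹ * X) ^ 2 = 1 := by
          have hz' : ∀ g : G, g * z⁻¹ = z⁻¹ * g := by
            intro g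
            have := hzc g
            calc g * z⁻¹ = z⁻¹ * (z * g) * z⁻¹ := by group
              _ = z⁻¹ * (g * z) * z⁻¹ := by rw [this]
              _ = z⁻¹ * g := by group
          calc (z⁻¹ * X) ^ 2 = z⁻¹ * (X * z⁻¹) * X := by rw [pow_two]; group
            _ = z⁻¹ * (z⁻¹ * X) * X := by rw [hz']
            _ = (z ^ 2)⁻¹ * X ^ 2 := by rw [pow_two, pow_two]; group
            _ = 1 := by rw [h3]; group
        have h5 : X = z * (z⁻¹ * X) := by group
        rw [h5]
        exact M'.mul_mem hzM' (hNM' ((hNmem _).2 h4))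
    rw [hX] at hXM'
    exact ha (hx a hXM')
  have hNZ : N ≤ Subgroup.center G := by
    rw [← hG'N, _root_.commutator_def, Subgroup.commutator_le]
    intro u _ v _
    rw [Subgroup.mem_center_iff]
    intro g
    exact hcen u v g
  have hZeq : Subgroup.center G = N := le_antisymm hZN hNZ
  -- the Frattini subgroup
  have hΦ : frattini G = N := by
    apply le_antisymm
    · intro x hx
      by_contra hxN
      haveI hNn : N.Normal := by
        rw [← hG'N]; infer_instance
      have hx1 : (x : G ⧸ N) ≠ 1 := fun h => hxN ((QuotientGroup.eq_one_iff x).1 h)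
      obtain ⟨M, hM, hxM⟩ := exists_coatom_not_mem' (x : G ⧸ N) hx1
        (by
          intro a b
          obtain ⟨a, rfl⟩ := QuotientGroup.mk'_surjective N a
          obtain ⟨b, rfl⟩ := QuotientGroup.mk'_surjective N b
          rw [← map_mul, ← map_mul]
          apply QuotientGroup.eq.2
          have h3 : (a * b)⁻¹ * (b * a) = ⁅b⁻¹, a⁻¹⁆ := by
            rw [commutatorElement_def]; group
          rw [h3]
          exact hcN _ _)
        (by
          intro a
          obtain ⟨a, rfl⟩ := QuotientGroup.mk'_surjective N a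
          rw [← map_pow]
          exact (QuotientGroup.eq_one_iff _).2 (hG2 a))
      have h1 := Subgroup.isCoatom_comap_of_surjective (QuotientGroup.mk'_surjective N) hM
      exact hxM ((CfsgLib.Solv.mem_frattini_iff.1 hx) _ h1)
    · rw [← hG'N]
      exact (CfsgLib.Solv.pgroup_commutator_pow_le_frattini hG).1
  exact ⟨hG, hΦ.trans hZeq.symm, hG'N.trans hZeq.symm⟩

end Cfsg.Agent.S3773
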