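import Cfsg.Statements.S3774
import Mathlib
-- import your own Cfsg.Agent.* helpers here

set_option autoImplicit false
open Cfsg

namespace Cfsg.Agent.S3774

theorem two_pow_dvd {n g : ℕ} (h : (2 ^ n - 1) ∣ (2 ^ g - 1)) : n ∣ g := by
  have h1 := Nat.pow_sub_one_gcd_pow_sub_one 2 n g
  rw [Nat.gcd_eq_left h] at h1
  have h2 : 2 ^ n = 2 ^ (Nat.gcd n g) := by
    have h3 : 1 ≤ 2 ^ n := Nat.one_le_two_pow
    have h4 : 1 ≤ 2 ^ (Nat.gcd n g) := Nat.one_le_two_pow
    omega
  have h3 := Nat.pow_right_injective (le_refl 2) h2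
  rw [h3]
  exact Nat.gcd_dvd_right n g

/-- Let G be a nontrivial finite 2-group whose automorphism group permutes the involutions of G transitively. Then every involution of G is central, so that the involutions together with 1 form the subgroup Ω₁(Z(G)), and if this subgroup has order q then |G| is a power of q. -/
theorem result {G : Type*} [Group G] [Finite G] [Nontrivial G] (hG : IsPGroup 2 G) (htrans : ∀ x y : G, x ≠ 1 → x ^ 2 = 1 → y ≠ 1 → y ^ 2 = 1 → ∃ a : MulAut G, a x = y) : (∀ x : G, x ^ 2 = 1 → x ∈ Subgroup.center G) ∧ ∃ m : ℕ, Nat.card G = Nat.card {z : G // z ^ 2 = 1} ^ m := by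
  classical
  haveI : Fact (Nat.Prime 2) := ⟨Nat.prime_two⟩
  haveI := Fintype.ofFinite G
  -- a central involution
  haveI : Nontrivial (Subgroup.center G) := hG.center_nontrivial
  have hc : IsPGroup 2 (Subgroup.center G) := hG.to_subgroup _
  obtain ⟨n₀, hn₀⟩ := IsPGroup.iff_card.mp hc
  have hn₀0 : n₀ ≠ 0 := by
    rintro rfl
    have := Finite.one_lt_card (α := Subgroup.center G)
    rw [hn₀] at this
    simp at this
  have h2 : 2 ∣ Nat.card (Subgroup.center G) := by
    rw [hn₀]; exact dvd_pow_self 2 hn₀0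
  obtain ⟨z₀', hz₀'⟩ := exists_prime_orderOf_dvd_card' 2 h2
  set z₀ : G := (z₀' : Subgroup.center G).1 with hz₀d
  have hz₀c : z₀ ∈ Subgroup.center G := z₀'.2
  have hz₀o : orderOf z₀ = 2 := by rw [hz₀d, Subgroup.orderOf_coe]; exact hz₀'
  have hz₀1 : z₀ ≠ 1 := by
    intro h; rw [h] at hz₀o; simp at hz₀o
  have hz₀2 : z₀ ^ 2 = 1 := by rw [← hz₀o]; exact pow_orderOf_eq_one z₀
  have hcen : ∀ x : G, x ^ 2 = 1 → x ∈ Subgroup.center G := by
    intro x hx
    by_cases hx1 : x = 1
    · rw [hx1]; exact Subgroup.one_mem _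
    obtain ⟨a, ha⟩ := htrans z₀ x hz₀1 hz₀2 hx1 hx
    rw [Subgroup.mem_center_iff]
    intro y
    obtain ⟨y', rfl⟩ := a.surjective y
    rw [← ha, ← map_mul, ← map_mul]
    congr 1
    exact Subgroup.mem_center_iff.1 hz₀c y'
  refine ⟨hcen, ?_⟩
  -- the subgroup of involutions
  let V : Subgroup G :=
    { carrier := {z | z ^ 2 = 1}
      one_mem' := by simp
      inv_mem' := by
        intro a ha
        simp only [Set.mem_ofPred_eq] at ha ⊢
        simp [ha]
      mul_mem' := by
        intro a b ha hb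
        simp only [Set.mem_ofPred_eq] at ha hb ⊢
        have : Commute a b := (Subgroup.mem_center_iff.1 (hcen a ha) b).symm
        rw [this.mul_pow, ha, hb, one_mul] }
  have hVcard : Nat.card {z : G // z ^ 2 = 1} = Nat.card V := rfl
  rw [hVcard]
  obtain ⟨n, hn⟩ := IsPGroup.iff_card.mp (hG.to_subgroup V)
  obtain ⟨g, hg⟩ := IsPGroup.iff_card.mp hG
  -- the fibration
  let f : G → G := fun x => x ^ (orderOf x / 2)
  have hfa : ∀ (a : MulAut G) (x : G), f (a x) = a (f x) := by
    intro a x
    show (a x) ^ (orderOf (a x) / 2) = a (x ^ (orderOf x / 2))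
    rw [map_pow, MulEquiv.orderOf_eq]
  have hford : ∀ x : G, x ≠ 1 → f x ^ 2 = 1 ∧ f x ≠ 1 := by
    intro x hx
    obtain ⟨k, hk⟩ := IsPGroup.iff_orderOf.1 hG x
    have hk0 : k ≠ 0 := by
      rintro rfl
      simp at hk
      exact hx hk
    have h2d : 2 ∣ orderOf x := by rw [hk]; exact dvd_pow_self 2 hk0
    have h3 := orderOf_pow_orderOf_div (orderOf_pos x).ne' h2d
    constructor
    · show (x ^ (orderOf x / 2)) ^ 2 = 1
      have := pow_orderOf_eq_one (x ^ (orderOf x / 2))
      rwa [h3] at this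
    · intro h
      have : orderOf (f x) = 2 := h3
      rw [h] at this
      simp at this
  set W : Finset G := Finset.univ.filter (fun z => z ^ 2 = 1 ∧ z ≠ 1) with hW
  set A : Finset G := Finset.univ.filter (fun x => x ≠ 1) with hAd
  have hAW : ∀ x ∈ A, f x ∈ W := by
    intro x hx
    simp only [hAd, Finset.mem_filter, Finset.mem_univ, true_and] at hx
    simp only [hW, Finset.mem_filter, Finset.mem_univ, true_and]
    exact hford x hx
  have hsum := Finset.card_eq_sum_card_fiberwise hAW
  set c := (A.filter (fun x => f x = z₀)).card with hc'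
  have hfib : ∀ z ∈ W, (A.filter (fun x => f x = z)).card = c := by
    intro z hz
    simp only [hW, Finset.mem_filter, Finset.mem_univ, true_and] at hz
    obtain ⟨a, ha⟩ := htrans z₀ z hz₀1 hz₀2 hz.2 hz.1
    rw [hc']
    apply Finset.card_bij (fun x _ => a.symm x)
    · intro x hx
      simp only [hAd, Finset.mem_filter, Finset.mem_univ, true_and] at hx ⊢
      refine ⟨?_, ?_⟩
      · intro h
        apply hx.1
        have := congrArg a h
        simpa using this
      · apply a.injective
        rw [← hfa, MulEquiv.apply_symm_apply, hx.2, ha]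
    · intro x _ y _ h
      exact a.symm.injective h
    · intro y hy
      simp only [hAd, Finset.mem_filter, Finset.mem_univ, true_and] at hy
      refine ⟨a y, ?_, by simp⟩
      simp only [hAd, Finset.mem_filter, Finset.mem_univ, true_and]
      refine ⟨?_, ?_⟩
      · intro h
        apply hy.1
        apply a.injective
        rw [h, map_one]
      · rw [hfa, hy.2, ha]
  rw [Finset.sum_congr rfl hfib, Finset.sum_const, smul_eq_mul] at hsum
  have hAcard : A.card = Nat.card G - 1 := by
    rw [hAd, Finset.filter_ne', Finset.card_erase_of_mem (Finset.mem_univ _), Finset.card_univ, Nat.card_eq_fintype_card]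
  have hWcard : W.card = Nat.card V - 1 := by
    have h1 : Nat.card V = (Finset.univ.filter (fun z : G => z ^ 2 = 1)).card := by
      rw [Nat.card_eq_fintype_card, Fintype.card_subtype]
      rfl
    have h3 : W = (Finset.univ.filter (fun z : G => z ^ 2 = 1)).erase 1 := by
      ext z
      simp [hW, and_comm]
    rw [h1, h3, Finset.card_erase_of_mem (by simp)]
  have hdvd : (2 ^ n - 1) ∣ (2 ^ g - 1) := by
    rw [← hn, ← hg, ← hAcard, ← hWcard, hsum]
    exact dvd_mul_right _ _
  obtain ⟨m, hm⟩ := two_pow_dvd hdvd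
  refine ⟨m, ?_⟩
  rw [hg, hn, hm, pow_mul]

end Cfsg.Agent.S3774
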