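import Cfsg.Statements.S3775
import Cfsg.Agent.Lib.FGS.Basic

set_option autoImplicit false
open Cfsg
open scoped commutatorElement
open scoped Pointwise

namespace Cfsg.Agent.S3775

section h8sec
variable {A : Type*} [CommGroup A] [Finite A] {p : ℕ}

theorem h8_compl [hpf : Fact p.Prime] (F Y D : Subgroup A) (hFY : F ≤ Y) (hYD : Y ≤ D) (hexp : ∀ d ∈ D, d ^ p ∈ F) :
    ∃ W : Subgroup A, F ≤ W ∧ W ≤ D ∧ W ⊓ Y = F ∧ W ⊔ Y = D := by
  classical
  have hpp : p.Prime := hpf.out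
  obtain ⟨W, -, hW⟩ := Finite.exists_le_maximal (α := Subgroup A) (p := fun W => F ≤ W ∧ W ≤ D ∧ W ⊓ Y = F) (a := F)
    ⟨le_rfl, hFY.trans hYD, inf_eq_left.2 hFY⟩
  obtain ⟨hFW, hWD, hWY⟩ := hW.prop
  refine ⟨W, hFW, hWD, hWY, le_antisymm (sup_le hWD hYD) ?_⟩
  intro d hd
  by_contra hdn
  set W' := W ⊔ Subgroup.zpowers d with hW'
  have hW'D : W' ≤ D := sup_le hWD ((Subgroup.zpowers_le).2 hd)
  have hW'Y : W' ⊓ Y = F := by
    apply le_antisymm _ (le_inf (hFW.trans le_sup_left) hFY)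
    rintro u ⟨hu1, hu2⟩
    obtain ⟨w, hw, z, hz, rfl⟩ := Subgroup.mem_sup.1 hu1
    obtain ⟨i, rfl⟩ := hz
    by_cases hdi : d ^ i ∈ W
    · have : w * d ^ i ∈ W ⊓ Y := ⟨W.mul_mem hw hdi, hu2⟩
      rwa [hWY] at this
    · exfalso
      apply hdn
      have hdp : ¬ (p : ℤ) ∣ i := by
        rintro ⟨k, rfl⟩
        apply hdi
        rw [zpow_mul]
        apply hFW
        exact F.zpow_mem (by simpa using hexp d hd) k
      have hcop : IsCoprime (p : ℤ) i := by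
        rw [Int.isCoprime_iff_gcd_eq_one]
        have := (Nat.prime_iff_prime_int.1 hpp)
        exact Int.isCoprime_iff_gcd_eq_one.1 ((Prime.coprime_iff_not_dvd this).2 hdp)
      obtain ⟨a, b, hab⟩ := hcop
      have hdd : d = (d ^ p) ^ a * (d ^ i) ^ b := by
        rw [← zpow_natCast, ← zpow_mul, ← zpow_mul, ← zpow_add]
        have : (p : ℤ) * a + i * b = 1 := by linarith
        rw [this, zpow_one]
      rw [hdd]
      refine Subgroup.mul_mem _ (Subgroup.zpow_mem _ (Subgroup.mem_sup_left (hFW (hexp d hd))) a) (Subgroup.zpow_mem _ ?_ b)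
      have h1 : d ^ i = w⁻¹ * (w * d ^ i) := by group
      rw [h1]
      exact Subgroup.mul_mem _ (Subgroup.mem_sup_left (W.inv_mem hw)) (Subgroup.mem_sup_right hu2)
  have hlt : W ≤ W' := le_sup_left
  have := hW.2 (y := W') ⟨hFW.trans hlt, hW'D, hW'Y⟩ hlt
  apply hdn
  exact Subgroup.mem_sup_left (this (Subgroup.mem_sup_right (Subgroup.mem_zpowers d)))

theorem h8_avg [hpf : Fact p.Prime] (X : Subgroup (MulAut A)) (hX : (Nat.card X).Coprime p) (F Y D : Subgroup A)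
    (hFY : F ≤ Y) (hYD : Y ≤ D) (hexp : ∀ d ∈ D, d ^ p ∈ F)
    (hF : ∀ x ∈ X, ∀ f ∈ F, x f ∈ F) (hY : ∀ x ∈ X, ∀ f ∈ Y, x f ∈ Y) (hD : ∀ x ∈ X, ∀ f ∈ D, x f ∈ D) :
    ∃ E : Subgroup A, F ≤ E ∧ E ≤ D ∧ E ⊓ Y = F ∧ E ⊔ Y = D ∧ ∀ x ∈ X, ∀ e ∈ E, x e ∈ E := by
  classical
  haveI := Fintype.ofFinite X
  have hpp : p.Prime := hpf.out
  obtain ⟨W, hFW, hWD, hWY, hWYs⟩ := h8_compl F Y D hFY hYD hexp
  have hpre : ∀ u, u ∈ D → ∃ y, y ∈ Y ∧ u * y⁻¹ ∈ W := by
    intro u hu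
    rw [← hWYs] at hu
    obtain ⟨w, hw, y, hy, rfl⟩ := Subgroup.mem_sup.1 hu
    refine ⟨y, hy, ?_⟩
    simpa using hw
  choose! pr hprY hprW using hpre
  have huniq : ∀ u y y', y ∈ Y → y' ∈ Y → u * y⁻¹ ∈ W → u * y'⁻¹ ∈ W → y * y'⁻¹ ∈ F := by
    intro u y y' hy hy' h1 h2
    have h3 : y * y'⁻¹ = (u * y'⁻¹) * (u * y⁻¹)⁻¹ := by
      apply Additive.ofMul.injective; simp only [ofMul_mul, ofMul_inv]; abel
    have h4 : y * y'⁻¹ ∈ W ⊓ Y := ⟨by rw [h3]; exact W.mul_mem h2 (W.inv_mem h1), Y.mul_mem hy (Y.inv_mem hy')⟩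
    rwa [hWY] at h4
  -- the lift of the average
  set Θ : A → A := fun d => ∏ x : X, (x : MulAut A)⁻¹ (pr ((x : MulAut A) d)) with hΘ
  have hinvX : ∀ x : X, ∀ f ∈ F, (x : MulAut A)⁻¹ f ∈ F := fun x f hf => hF _ (X.inv_mem x.2) f hf
  have hinvY : ∀ x : X, ∀ f ∈ Y, (x : MulAut A)⁻¹ f ∈ Y := fun x f hf => hY _ (X.inv_mem x.2) f hf
  have hΘY : ∀ d ∈ D, Θ d ∈ Y := fun d hd => Subgroup.prod_mem _ fun x _ =>
    hinvY x _ (hprY _ (hD _ x.2 d hd))
  -- multiplicativity modulo `F`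
  have hprmul : ∀ u ∈ D, ∀ v ∈ D, pr (u * v) * (pr u * pr v)⁻¹ ∈ F := by
    intro u hu v hv
    refine huniq (u * v) _ _ (hprY _ (D.mul_mem hu hv)) (Y.mul_mem (hprY _ hu) (hprY _ hv)) (hprW _ (D.mul_mem hu hv)) ?_
    have h1 : u * v * (pr u * pr v)⁻¹ = (u * (pr u)⁻¹) * (v * (pr v)⁻¹) := by
      apply Additive.ofMul.injective; simp only [ofMul_mul, ofMul_inv]; abel
    rw [h1]
    exact W.mul_mem (hprW _ hu) (hprW _ hv)
  have hgF : ∀ u ∈ D, ∀ v ∈ D, Θ (u * v) * (Θ u * Θ v)⁻¹ ∈ F := by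
    intro u hu v hv
    have h1 : Θ (u * v) * (Θ u * Θ v)⁻¹ = ∏ x : X, ((x : MulAut A)⁻¹ (pr ((x : MulAut A) (u * v))) *
        ((x : MulAut A)⁻¹ (pr ((x : MulAut A) u)) * (x : MulAut A)⁻¹ (pr ((x : MulAut A) v)))⁻¹) := by
      simp only [hΘ, Finset.prod_mul_distrib, Finset.prod_inv_distrib]
    rw [h1]
    refine Subgroup.prod_mem _ fun x _ => ?_
    have h2 := hinvX x _ (hprmul _ (hD _ x.2 u hu) _ (hD _ x.2 v hv))
    simpa only [map_mul, map_inv] using h2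
  have hprF : ∀ u ∈ F, pr u ∈ F := by
    intro u hu
    have huD : u ∈ D := hYD (hFY hu)
    have h1 : pr u = u * (u * (pr u)⁻¹)⁻¹ := by
      apply Additive.ofMul.injective; simp only [ofMul_mul, ofMul_inv]; abel
    have h2 : pr u ∈ W ⊓ Y := ⟨by rw [h1]; exact W.mul_mem (hFW hu) (W.inv_mem (hprW _ huD)), hprY _ huD⟩
    rwa [hWY] at h2
  have hΘF : ∀ u ∈ F, Θ u ∈ F := fun u hu => Subgroup.prod_mem _ fun x _ => hinvX x _ (hprF _ (hF _ x.2 u hu))
  set n := Nat.card X with hn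
  have hΘYn : ∀ y ∈ Y, Θ y * (y ^ n)⁻¹ ∈ F := by
    intro y hy
    have h1 : Θ y * (y ^ n)⁻¹ = ∏ x : X, ((x : MulAut A)⁻¹ (pr ((x : MulAut A) y)) * y⁻¹) := by
      rw [Finset.prod_mul_distrib, Finset.prod_const, Finset.card_univ, hn, Nat.card_eq_fintype_card, inv_pow]
    rw [h1]
    refine Subgroup.prod_mem _ fun x _ => ?_
    have hxy : (x : MulAut A) y ∈ Y := hY _ x.2 y hy
    have h2 := huniq ((x : MulAut A) y) (pr ((x : MulAut A) y)) ((x : MulAut A) y) (hprY _ (hYD hxy)) hxy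
      (hprW _ (hYD hxy)) (by simp)
    have h3 := hinvX x _ h2
    simpa only [map_mul, map_inv, MulAut.inv_apply_self] using h3
  have hΘz : ∀ z ∈ X, ∀ d : A, Θ (z d) = z (Θ d) := by
    intro z hz d
    simp only [hΘ, map_prod]
    refine Fintype.prod_equiv (Equiv.mulRight (⟨z, hz⟩ : X)) _ _ (fun x => ?_)
    simp only [Equiv.coe_mulRight, Subgroup.coe_mul, MulAut.mul_apply, mul_inv_rev]
    simp
  have hzpow : ∀ y : A, y ^ n ∈ F → y ^ p ∈ F → y ∈ F := by
    intro y h1 h2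
    have hcop : IsCoprime (n : ℤ) (p : ℤ) := Nat.isCoprime_iff_coprime.2 hX
    obtain ⟨a, b, hab⟩ := hcop
    have hy : y = (y ^ n) ^ a * (y ^ p) ^ b := by
      rw [← zpow_natCast, ← zpow_natCast, ← zpow_mul, ← zpow_mul, ← zpow_add]
      have : (n : ℤ) * a + p * b = 1 := by linarith
      rw [this, zpow_one]
    rw [hy]
    exact F.mul_mem (F.zpow_mem h1 a) (F.zpow_mem h2 b)
  let E : Subgroup A :=
    { carrier := {d | d ∈ D ∧ Θ d ∈ F}
      mul_mem' := by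
        rintro u v ⟨hu, hu2⟩ ⟨hv, hv2⟩
        refine ⟨D.mul_mem hu hv, ?_⟩
        have h1 := hgF u hu v hv
        have h2 : Θ (u * v) = (Θ (u * v) * (Θ u * Θ v)⁻¹) * (Θ u * Θ v) := (inv_mul_cancel_right _ _).symm
        rw [h2]
        exact F.mul_mem h1 (F.mul_mem hu2 hv2)
      one_mem' := ⟨D.one_mem, hΘF 1 F.one_mem⟩
      inv_mem' := by
        rintro u ⟨hu, hu2⟩
        refine ⟨D.inv_mem hu, ?_⟩
        have h1 := hgF u hu u⁻¹ (D.inv_mem hu)
        rw [mul_inv_cancel] at h1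
        have h3 := hΘF 1 F.one_mem
        have h2 : Θ u⁻¹ = ((Θ 1 * (Θ u * Θ u⁻¹)⁻¹)⁻¹ * (Θ 1)) * (Θ u)⁻¹ := by
          apply Additive.ofMul.injective; simp only [ofMul_mul, ofMul_inv]; abel
        rw [h2]
        exact F.mul_mem (F.mul_mem (F.inv_mem h1) h3) (F.inv_mem hu2) }
  have hEmem : ∀ d, d ∈ E ↔ d ∈ D ∧ Θ d ∈ F := fun d => Iff.rfl
  refine ⟨E, ?_, ?_, ?_, ?_, ?_⟩
  · intro f hf
    exact ⟨hYD (hFY hf), hΘF f hf⟩
  · intro d hd
    exact hd.1
  · apply le_antisymm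
    · rintro y ⟨⟨hy1, hy2⟩, hy3⟩
      have h1 := hΘYn y hy3
      have h2 : y ^ n = (Θ y * (y ^ n)⁻¹)⁻¹ * Θ y := by simp
      refine hzpow y ?_ (hexp y hy1)
      rw [h2]
      exact F.mul_mem (F.inv_mem h1) hy2
    · exact le_inf (fun f hf => ⟨hYD (hFY hf), hΘF f hf⟩) hFY
  · apply le_antisymm
    · exact sup_le (fun d hd => hd.1) hYD
    · intro d hd
      set t := Θ d with ht
      have htY : t ∈ Y := hΘY d hd
      have hcop : IsCoprime (n : ℤ) (p : ℤ) := Nat.isCoprime_iff_coprime.2 hX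
      obtain ⟨a, b, hab⟩ := hcop
      set y := t ^ a with hy
      have hyY : y ∈ Y := Y.zpow_mem htY a
      have hyD := hYD hyY
      set e := d * y⁻¹ with he
      have heD : e ∈ D := D.mul_mem hd (D.inv_mem hyD)
      have hey : e * y = d := by simp [he]
      have h1 := hgF e heD y hyD
      rw [hey, ← ht] at h1
      have h2 := hΘYn y hyY
      have h3 : y ^ n * t⁻¹ ∈ F := by
        have h4 : y ^ n * t⁻¹ = ((t ^ p) ^ b)⁻¹ := by
          have e1 : y ^ n = t ^ (a * (n : ℤ)) := by rw [hy, ← zpow_natCast, ← zpow_mul]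
          have e2 : (t ^ p) ^ b = t ^ ((p : ℤ) * b) := by rw [← zpow_natCast t p, ← zpow_mul]
          rw [e1, e2, ← zpow_neg, ← zpow_neg_one t, ← zpow_add]
          congr 1
          linarith
        rw [h4]
        exact F.inv_mem (F.zpow_mem (hexp t (hYD htY)) b)
      have h5 : Θ e = ((t * (Θ e * Θ y)⁻¹) * (Θ y * (y ^ n)⁻¹) * (y ^ n * t⁻¹))⁻¹ := by
        apply Additive.ofMul.injective; simp only [ofMul_mul, ofMul_inv]; abel
      have h6 : e ∈ E := ⟨heD, by rw [h5]; exact F.inv_mem (F.mul_mem (F.mul_mem h1 h2) h3)⟩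
      rw [← hey]
      exact Subgroup.mul_mem _ (Subgroup.mem_sup_left h6) (Subgroup.mem_sup_right hyY)
  · rintro z hz e ⟨he1, he2⟩
    refine ⟨hD z hz e he1, ?_⟩
    rw [hΘz z hz e]
    exact hF z hz _ he2

theorem h8_decomp [hpf : Fact p.Prime] (hA : IsPGroup p A) (X : Subgroup (MulAut A)) (hX : (Nat.card X).Coprime p) :
    ∀ (n : ℕ) (D S : Subgroup A), Nat.card D ≤ n → (∀ x ∈ X, ∀ f ∈ D, x f ∈ D) → (∀ x ∈ X, ∀ f ∈ S, x f ∈ S) →
      S ≤ D → (∀ s ∈ S, s ^ p = 1) → S ≠ ⊥ → (∃ u ∈ D, u ^ p = 1 ∧ u ∉ S) →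
      ∃ C1 C2 : Subgroup A, (∀ x ∈ X, ∀ f ∈ C1, x f ∈ C1) ∧ (∀ x ∈ X, ∀ f ∈ C2, x f ∈ C2) ∧
        C1 ≠ ⊥ ∧ C2 ≠ ⊥ ∧ C1 ⊓ C2 = ⊥ ∧ C1 ⊔ C2 = D := by
  classical
  have hpp : p.Prime := hpf.out
  intro n
  induction n with
  | zero =>
    intro D S hn
    exact absurd hn (by have := Nat.card_pos (α := D); omega)
  | succ n ih =>
    intro D S hn hID hIS hSD hSe hSne hu
    set P : A →* A := powMonoidHom p with hP
    have hPa : ∀ a, P a = a ^ p := fun a => rfl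
    set K := P.ker with hK
    have hKmem : ∀ a, a ∈ K ↔ a ^ p = 1 := fun a => MonoidHom.mem_ker
    have hIK : ∀ x ∈ X, ∀ f ∈ K, x f ∈ K := by
      intro x _ f hf
      rw [hKmem] at hf ⊢
      rw [← map_pow, hf, map_one]
    have hImap : ∀ B : Subgroup A, (∀ x ∈ X, ∀ f ∈ B, x f ∈ B) → ∀ x ∈ X, ∀ f ∈ B.map P, x f ∈ B.map P := by
      rintro B hB x hx f ⟨b, hb, rfl⟩
      refine ⟨x b, hB x hx b hb, ?_⟩
      simp [hPa]
    have hIcomap : ∀ B : Subgroup A, (∀ x ∈ X, ∀ f ∈ B, x f ∈ B) → ∀ x ∈ X, ∀ f ∈ B.comap P, x f ∈ B.comap P := by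
      rintro B hB x hx f hf
      rw [Subgroup.mem_comap, hPa] at hf ⊢
      rw [← map_pow]
      exact hB x hx _ hf
    have hIinf : ∀ B C : Subgroup A, (∀ x ∈ X, ∀ f ∈ B, x f ∈ B) → (∀ x ∈ X, ∀ f ∈ C, x f ∈ C) →
        ∀ x ∈ X, ∀ f ∈ B ⊓ C, x f ∈ B ⊓ C := fun B C hB hC x hx f hf => ⟨hB x hx f hf.1, hC x hx f hf.2⟩
    have hIsup : ∀ B C : Subgroup A, (∀ x ∈ X, ∀ f ∈ B, x f ∈ B) → (∀ x ∈ X, ∀ f ∈ C, x f ∈ C) →
        ∀ x ∈ X, ∀ f ∈ B ⊔ C, x f ∈ B ⊔ C := by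
      intro B C hB hC x hx f hf
      obtain ⟨b, hb, c, hc, rfl⟩ := Subgroup.mem_sup.1 hf
      rw [map_mul]
      exact Subgroup.mul_mem _ (Subgroup.mem_sup_left (hB x hx b hb)) (Subgroup.mem_sup_right (hC x hx c hc))
    set F := D.map P with hF
    have hFD : F ≤ D := by
      rintro _ ⟨d, hd, rfl⟩
      exact D.pow_mem hd p
    have hpowF : ∀ d ∈ D, d ^ p ∈ F := fun d hd => ⟨d, hd, rfl⟩
    have hIF := hImap D hID
    by_cases hF0 : F = ⊥
    · obtain ⟨E, -, hED, hEinf, hEsup, hEI⟩ := h8_avg X hX ⊥ S D bot_le hSD (hF0 ▸ hpowF)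
        (by
          intro x _ f hf
          rw [Subgroup.mem_bot] at hf ⊢
          rw [hf, map_one]) hIS hID
      refine ⟨E, S, hEI, hIS, ?_, hSne, hEinf, hEsup⟩
      rintro rfl
      obtain ⟨u, huD, -, huS⟩ := hu
      apply huS
      rw [bot_sup_eq] at hEsup
      rw [hEsup]
      exact huD
    -- `F` is nontrivial
    set S0 := F ⊓ K with hS0
    have hIS0 := hIinf F K hIF hIK
    set O := D ⊓ K with hO
    have hIO := hIinf D K hID hIK
    have hS0O : S0 ≤ O := inf_le_inf hFD le_rfl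
    obtain ⟨W, -, hWO, hWinf, hWsup, hWI⟩ := h8_avg X hX ⊥ S0 O bot_le hS0O
      (by
        intro d hd
        have := (hKmem d).1 hd.2
        rw [this]
        exact Subgroup.one_mem _)
      (by
        intro x _ f hf
        rw [Subgroup.mem_bot] at hf ⊢
        rw [hf, map_one]) hIS0 hIO
    by_cases hW0 : W = ⊥
    · -- the main case: lift a decomposition of `F`
      have hOS0 : O = S0 := by
        rw [← hWsup, hW0, bot_sup_eq]
      have hOF : ∀ u ∈ D, u ^ p = 1 → u ∈ F := by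
        intro u hu1 hu2
        have : u ∈ O := ⟨hu1, (hKmem u).2 hu2⟩
        rw [hOS0] at this
        exact this.1
      have hSK : S ≤ K := fun s hs => (hKmem s).2 (hSe s hs)
      have hSF : S ≤ F := fun s hs => hOF s (hSD hs) (hSe s hs)
      have hcardF : Nat.card F ≤ n := by
        have hlt : Nat.card F < Nat.card D := by
          by_contra hcon
          push Not at hcon
          set f := P.subgroupMap D with hf
          have hfs : Function.Surjective f := P.subgroupMap_surjective D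
          have hfb := (Nat.bijective_iff_surjective_and_card f).2 ⟨hfs, le_antisymm (Nat.card_le_card_of_surjective f hfs) hcon |>.symm⟩
          obtain ⟨s, hs, hs1⟩ : ∃ s ∈ S, s ≠ 1 := by
            by_contra hall
            push Not at hall
            exact hSne ((Subgroup.eq_bot_iff_forall _).2 hall)
          have h1 : f ⟨s, hSD hs⟩ = f 1 := by
            apply Subtype.ext
            simp [hf, hPa, hSe s hs]
          have h2 := hfb.1 h1
          exact hs1 (congrArg Subtype.val h2)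
        omega
      obtain ⟨u, huD, hup, huS⟩ := hu
      obtain ⟨C1, C2, hC1, hC2, hC1b, hC2b, hCinf, hCsup⟩ := ih F S hcardF hIF hIS hSF hSe hSne
        ⟨u, hOF u huD hup, hup, huS⟩
      have hC1F : C1 ≤ F := hCsup ▸ le_sup_left
      have hC2F : C2 ≤ F := hCsup ▸ le_sup_right
      set S1 := C1 ⊓ K with hS1
      set S2 := C2 ⊓ K with hS2
      have hIS1 := hIinf C1 K hC1 hIK
      have hIS2 := hIinf C2 K hC2 hIK
      set D1 := D ⊓ C1.comap P with hD1
      set D2 := D ⊓ C2.comap P with hD2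
      have hID1 := hIinf D _ hID (hIcomap C1 hC1)
      have hID2 := hIinf D _ hID (hIcomap C2 hC2)
      have hC1D1 : C1 ≤ D1 := fun c hc => ⟨hFD (hC1F hc), show c ^ p ∈ C1 from C1.pow_mem hc p⟩
      have hC2D2 : C2 ≤ D2 := fun c hc => ⟨hFD (hC2F hc), show c ^ p ∈ C2 from C2.pow_mem hc p⟩
      have hS2D1 : S2 ≤ D1 := fun s hs => ⟨hFD (hC2F hs.1), show s ^ p ∈ C1 by
        rw [(hKmem s).1 hs.2]
        exact C1.one_mem⟩
      have hS1D2 : S1 ≤ D2 := fun s hs => ⟨hFD (hC1F hs.1), show s ^ p ∈ C2 by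
        rw [(hKmem s).1 hs.2]
        exact C2.one_mem⟩
      obtain ⟨E1, hCE1, hE1D, hE1inf, hE1sup, hE1I⟩ := h8_avg X hX C1 (C1 ⊔ S2) D1 le_sup_left (sup_le hC1D1 hS2D1)
        (fun d hd => hd.2) hC1 (hIsup C1 S2 hC1 hIS2) hID1
      obtain ⟨E2, hCE2, hE2D, hE2inf, hE2sup, hE2I⟩ := h8_avg X hX C2 (C2 ⊔ S1) D2 le_sup_left (sup_le hC2D2 hS1D2)
        (fun d hd => hd.2) hC2 (hIsup C2 S1 hC2 hIS1) hID2
      have hsplit : ∀ u ∈ D, u ^ p = 1 → ∃ s1 ∈ S1, ∃ s2 ∈ S2, u = s1 * s2 := by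
        intro u hu1 hu2
        have hu3 := hOF u hu1 hu2
        rw [← hCsup] at hu3
        obtain ⟨c1, hc1, c2, hc2, rfl⟩ := Subgroup.mem_sup.1 hu3
        rw [mul_pow] at hu2
        have h1 : c1 ^ p = (c2 ^ p)⁻¹ := eq_inv_of_mul_eq_one_left hu2
        have h2 : c1 ^ p ∈ C1 ⊓ C2 := ⟨C1.pow_mem hc1 p, by rw [h1]; exact C2.inv_mem (C2.pow_mem hc2 p)⟩
        rw [hCinf, Subgroup.mem_bot] at h2
        have h3 : c2 ^ p = 1 := by
          rw [h2, one_mul] at hu2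
          exact hu2
        exact ⟨c1, ⟨hc1, (hKmem _).2 h2⟩, c2, ⟨hc2, (hKmem _).2 h3⟩, rfl⟩
      refine ⟨E1, E2, hE1I, hE2I, ?_, ?_, ?_, ?_⟩
      · rintro rfl
        exact hC1b (le_bot_iff.1 hCE1)
      · rintro rfl
        exact hC2b (le_bot_iff.1 hCE2)
      · rw [eq_bot_iff]
        rintro x ⟨hx1, hx2⟩
        have hx1' := hE1D hx1
        have hx2' := hE2D hx2
        have hxp : x ^ p ∈ C1 ⊓ C2 := ⟨hx1'.2, hx2'.2⟩
        rw [hCinf, Subgroup.mem_bot] at hxp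
        obtain ⟨s1, hs1, s2, hs2, rfl⟩ := hsplit x hx1'.1 hxp
        have h1 : s2 ∈ E1 := by
          have : s2 = s1⁻¹ * (s1 * s2) := by group
          rw [this]
          exact E1.mul_mem (E1.inv_mem (hCE1 hs1.1)) hx1
        have h2 : s1 ∈ E2 := by
          have : s1 = (s1 * s2) * s2⁻¹ := by group
          rw [this]
          exact E2.mul_mem hx2 (E2.inv_mem (hCE2 hs2.1))
        have h3 : s2 ∈ E1 ⊓ (C1 ⊔ S2) := ⟨h1, Subgroup.mem_sup_right hs2⟩
        rw [hE1inf] at h3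
        have h4 : s1 ∈ E2 ⊓ (C2 ⊔ S1) := ⟨h2, Subgroup.mem_sup_right hs1⟩
        rw [hE2inf] at h4
        have h5 : s2 ∈ C1 ⊓ C2 := ⟨h3, hs2.1⟩
        have h6 : s1 ∈ C1 ⊓ C2 := ⟨hs1.1, h4⟩
        rw [hCinf, Subgroup.mem_bot] at h5 h6
        rw [h5, h6, one_mul]
        exact Subgroup.one_mem _
      · apply le_antisymm
        · exact sup_le (fun x hx => (hE1D hx).1) (fun x hx => (hE2D hx).1)
        · intro d hd
          have h1 : D1 ≤ E1 ⊔ E2 := by
            rw [← hE1sup]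
            exact sup_le le_sup_left (sup_le (hCE1.trans le_sup_left)
              ((inf_le_left.trans hCE2).trans le_sup_right))
          have h2 : D2 ≤ E1 ⊔ E2 := by
            rw [← hE2sup]
            refine sup_le le_sup_right (sup_le (hCE2.trans le_sup_right)
              ((inf_le_left.trans hCE1).trans le_sup_left))
          have h3 := hpowF d hd
          rw [← hCsup] at h3
          obtain ⟨c1, hc1, c2, hc2, hc⟩ := Subgroup.mem_sup.1 h3
          obtain ⟨d1, hd1, hd1e⟩ := hC1F hc1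
          obtain ⟨d2, hd2, hd2e⟩ := hC2F hc2
          have hd1' : d1 ∈ D1 := ⟨hd1, show P d1 ∈ C1 by rw [hd1e]; exact hc1⟩
          have hd2' : d2 ∈ D2 := ⟨hd2, show P d2 ∈ C2 by rw [hd2e]; exact hc2⟩
          rw [hPa] at hd1e hd2e
          set u := d * d1⁻¹ * d2⁻¹ with hu
          have huD : u ∈ D := D.mul_mem (D.mul_mem hd (D.inv_mem hd1)) (D.inv_mem hd2)
          have hup : u ^ p = 1 := by
            rw [hu, mul_pow, mul_pow, inv_pow, inv_pow, ← hc, ← hd1e, ← hd2e]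
            apply Additive.ofMul.injective; simp only [ofMul_mul, ofMul_inv, ofMul_one]; abel
          obtain ⟨s1, hs1, s2, hs2, hus⟩ := hsplit u huD hup
          have hdd : d = s1 * s2 * d1 * d2 := by
            rw [← hus, hu]; group
            apply Additive.ofMul.injective; simp only [ofMul_mul, ofMul_inv, ofMul_zpow]; abel
          rw [hdd]
          have h5 : s1 ∈ E1 ⊔ E2 := Subgroup.mem_sup_left (hCE1 hs1.1)
          have h6 : s2 ∈ E1 ⊔ E2 := Subgroup.mem_sup_right (hCE2 hs2.1)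
          exact Subgroup.mul_mem _ (Subgroup.mul_mem _ (Subgroup.mul_mem _ h5 h6) (h1 hd1')) (h2 hd2')
    · -- a complement of `Ω₁(F)` in `Ω₁(D)`
      have hWK : W ≤ K := hWO.trans inf_le_right
      have hWD : W ≤ D := hWO.trans inf_le_left
      obtain ⟨E, hFE, hED, hEinf, hEsup, hEI⟩ := h8_avg X hX F (F ⊔ W) D le_sup_left (sup_le hFD hWD) hpowF hIF
        (hIsup F W hIF hWI) hID
      refine ⟨E, W, hEI, hWI, ?_, hW0, ?_, ?_⟩
      · rintro rfl
        exact hF0 (le_bot_iff.1 hFE)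
      · rw [eq_bot_iff]
        rintro x ⟨hx1, hx2⟩
        have h1 : x ∈ E ⊓ (F ⊔ W) := ⟨hx1, Subgroup.mem_sup_right hx2⟩
        rw [hEinf] at h1
        have h2 : x ∈ W ⊓ S0 := ⟨hx2, h1, hWK hx2⟩
        rwa [hWinf] at h2
      · rw [← sup_assoc, sup_eq_left.2 hFE] at hEsup
        exact hEsup

theorem h8_omega [hpf : Fact p.Prime] (hA : IsPGroup p A) (X : Subgroup (MulAut A))
    (h3 : ∀ B : Subgroup A, (∀ x ∈ X, ∀ f ∈ B, x f ∈ B) → (∀ b ∈ B, b ^ p = 1) → B = ⊥ ∨ ∀ a : A, a ∈ B ↔ a ^ p = 1) :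
    ∀ (n : ℕ) (B : Subgroup A), Nat.card B ≤ n → (∀ x ∈ X, ∀ f ∈ B, x f ∈ B) → ∃ i : ℕ, ∀ a : A, a ∈ B ↔ a ^ p ^ i = 1 := by
  classical
  have hpp : p.Prime := hpf.out
  intro n
  induction n with
  | zero =>
    intro B hn
    exact absurd hn (by have := Nat.card_pos (α := B); omega)
  | succ n ih =>
    intro B hn hIB
    by_cases hB0 : B = ⊥
    · refine ⟨0, fun a => ?_⟩
      rw [hB0, Subgroup.mem_bot]
      simp
    set P : A →* A := powMonoidHom p with hP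
    have hPa : ∀ a, P a = a ^ p := fun a => rfl
    -- elements of order `p` in `B`
    obtain ⟨s, hs, hs1, hsp⟩ : ∃ s ∈ B, s ≠ 1 ∧ s ^ p = 1 := by
      have hcard : 1 < Nat.card B := by
        have h1 : Nat.card B ≠ 1 := fun h => hB0 (Subgroup.eq_bot_of_card_eq B h)
        have := Nat.card_pos (α := B)
        omega
      obtain ⟨k, hk⟩ := IsPGroup.iff_card.1 (hA.to_subgroup B)
      have hk0 : k ≠ 0 := by
        rintro rfl
        rw [pow_zero] at hk
        omega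
      have hd : p ∣ Nat.card B := by
        rw [hk]
        exact dvd_pow_self p hk0
      obtain ⟨x, hx⟩ := exists_prime_orderOf_dvd_card' (G := B) p hd
      refine ⟨x, x.2, ?_, ?_⟩
      · intro h
        have h2 : x = 1 := Subtype.ext h
        rw [h2, orderOf_one] at hx
        exact hpp.one_lt.ne hx
      · have := pow_orderOf_eq_one x
        rw [hx] at this
        exact_mod_cast congrArg Subtype.val this
    have hB0' : B ⊓ P.ker ≠ ⊥ := by
      intro h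
      have : s ∈ B ⊓ P.ker := ⟨hs, MonoidHom.mem_ker.2 hsp⟩
      rw [h, Subgroup.mem_bot] at this
      exact hs1 this
    have hI0 : ∀ x ∈ X, ∀ f ∈ B ⊓ P.ker, x f ∈ B ⊓ P.ker := by
      intro x hx f hf
      refine ⟨hIB x hx f hf.1, ?_⟩
      have h1 : f ∈ P.ker := hf.2
      have h2 := MonoidHom.mem_ker.1 h1
      rw [hPa] at h2
      show x f ∈ P.ker
      rw [MonoidHom.mem_ker, hPa, ← map_pow, h2, map_one]
    have hK : ∀ a : A, a ^ p = 1 → a ∈ B := by
      rcases h3 _ hI0 (fun b hb => MonoidHom.mem_ker.1 hb.2) with h | h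
      · exact absurd h hB0'
      · intro a ha
        exact ((h a).2 ha).1
    have hIm : ∀ x ∈ X, ∀ f ∈ B.map P, x f ∈ B.map P := by
      rintro x hx f ⟨b, hb, rfl⟩
      refine ⟨x b, hIB x hx b hb, ?_⟩
      simp [hPa]
    have hcardF : Nat.card (B.map P) ≤ n := by
      have hlt : Nat.card (B.map P) < Nat.card B := by
        by_contra hcon
        push Not at hcon
        set f := P.subgroupMap B with hf
        have hfs : Function.Surjective f := P.subgroupMap_surjective B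
        have hfb := (Nat.bijective_iff_surjective_and_card f).2 ⟨hfs, le_antisymm (Nat.card_le_card_of_surjective f hfs) hcon |>.symm⟩
        have h1 : f ⟨s, hs⟩ = f 1 := by
          apply Subtype.ext
          simp [hf, hPa, hsp]
        have h2 := hfb.1 h1
        exact hs1 (congrArg Subtype.val h2)
      omega
    obtain ⟨j, hj⟩ := ih (B.map P) hcardF hIm
    refine ⟨j + 1, fun a => ?_⟩
    constructor
    · intro ha
      have : a ^ p ∈ B.map P := ⟨a, ha, rfl⟩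
      have h2 := (hj _).1 this
      rw [pow_succ', pow_mul]
      exact h2
    · intro ha
      rw [pow_succ', pow_mul] at ha
      obtain ⟨b, hb, hbe⟩ := (hj _).2 ha
      rw [hPa] at hbe
      have h1 : (a * b⁻¹) ^ p = 1 := by
        rw [mul_pow, inv_pow, hbe, mul_inv_cancel]
      have h2 := hK _ h1
      have : a = a * b⁻¹ * b := by group
      rw [this]
      exact B.mul_mem h2 hb

end h8sec

/-- Let A be a finite abelian p-group and X a group of automorphisms of A of order prime to p. Call a subgroup of A invariant when every element of X maps it onto itself. Then the following are equivalent: (i) A is not the direct product of two nontrivial invariant subgroups; (ii) every invariant subgroup of A is one of the subgroups Ω_i(A) = {a : a^(p^i) = 1}; (iii) the subgroup Ω₁(A) of elements of order dividing p has no invariant subgroups other than 1 and itself. -/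
theorem result {A : Type*} [CommGroup A] [Finite A] {p : ℕ} [Fact p.Prime] (hA : IsPGroup p A) (X : Subgroup (MulAut A)) (hX : (Nat.card X).Coprime p) : ((¬ ∃ B C : Subgroup A, B ≠ ⊥ ∧ C ≠ ⊥ ∧ (∀ x ∈ X, B.map x.toMonoidHom = B) ∧ (∀ x ∈ X, C.map x.toMonoidHom = C) ∧ B ⊓ C = ⊥ ∧ B ⊔ C = ⊤) ↔ (∀ B : Subgroup A, (∀ x ∈ X, B.map x.toMonoidHom = B) → ∃ i : ℕ, ∀ a : A, a ∈ B ↔ a ^ p ^ i = 1)) ∧ ((∀ B : Subgroup A, (∀ x ∈ X, B.map x.toMonoidHom = B) → ∃ i : ℕ, ∀ a : A, a ∈ B ↔ a ^ p ^ i = 1) ↔ (∀ B : Subgroup A, (∀ x ∈ X, B.map x.toMonoidHom = B) → (∀ b ∈ B, b ^ p = 1) → B = ⊥ ∨ ∀ a : A, a ∈ B ↔ a ^ p = 1)) := by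
  classical
  have hconv : ∀ B : Subgroup A, (∀ x ∈ X, ∀ f ∈ B, x f ∈ B) → ∀ x ∈ X, B.map x.toMonoidHom = B := by
    intro B hB x hx
    apply le_antisymm
    · rintro _ ⟨b, hb, rfl⟩
      exact hB x hx b hb
    · intro b hb
      refine ⟨x⁻¹ b, hB _ (X.inv_mem hx) b hb, ?_⟩
      simp
  have hconv' : ∀ B : Subgroup A, (∀ x ∈ X, B.map x.toMonoidHom = B) → ∀ x ∈ X, ∀ f ∈ B, x f ∈ B := by
    intro B hB x hx f hf
    have := Subgroup.mem_map_of_mem x.toMonoidHom hf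
    rw [hB x hx] at this
    exact this
  have h32 : (∀ B : Subgroup A, (∀ x ∈ X, B.map x.toMonoidHom = B) → (∀ b ∈ B, b ^ p = 1) → B = ⊥ ∨ ∀ a : A, a ∈ B ↔ a ^ p = 1) →
      ∀ B : Subgroup A, (∀ x ∈ X, B.map x.toMonoidHom = B) → ∃ i : ℕ, ∀ a : A, a ∈ B ↔ a ^ p ^ i = 1 := by
    intro h3 B hB
    exact h8_omega hA X (fun B hB hb => h3 B (hconv B hB) hb) (Nat.card B) B le_rfl (hconv' B hB)
  refine ⟨⟨?_, ?_⟩, ?_, h32⟩
  · intro hi
    apply h32
    intro B hB hb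
    by_contra hcon
    push Not at hcon
    obtain ⟨hB0, a, ha⟩ := hcon
    have ha2 : a ^ p = 1 ∧ a ∉ B := by
      by_cases ha3 : a ∈ B
      · rcases ha with ⟨h1, h2⟩ | ⟨h1, h2⟩
        · exact absurd (hb a h1) h2
        · exact absurd ha3 h1
      · rcases ha with ⟨h1, h2⟩ | ⟨h1, h2⟩
        · exact absurd h1 ha3
        · exact ⟨h2, ha3⟩
    obtain ⟨C1, C2, h1, h2, h3, h4, h5, h6⟩ := h8_decomp hA X hX (Nat.card (⊤ : Subgroup A)) ⊤ B le_rfl
      (fun _ _ _ _ => Subgroup.mem_top _) (hconv' B hB) le_top hb hB0 ⟨a, Subgroup.mem_top a, ha2.1, ha2.2⟩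
    exact hi ⟨C1, C2, h3, h4, hconv C1 h1, hconv C2 h2, h5, h6⟩
  · rintro hii ⟨B, C, hB0, hC0, hB, hC, hinf, -⟩
    obtain ⟨i, hi⟩ := hii B hB
    obtain ⟨j, hj⟩ := hii C hC
    rcases le_total i j with hij | hij
    · apply hB0
      rw [eq_bot_iff, ← hinf]
      intro a ha
      refine ⟨ha, (hj a).2 ?_⟩
      obtain ⟨k, rfl⟩ := Nat.exists_eq_add_of_le hij
      rw [pow_add, pow_mul, (hi a).1 ha, one_pow]
    · apply hC0
      rw [eq_bot_iff, ← hinf]
      intro a ha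
      refine ⟨(hi a).2 ?_, ha⟩
      obtain ⟨k, rfl⟩ := Nat.exists_eq_add_of_le hij
      rw [pow_add, pow_mul, (hj a).1 ha, one_pow]
  · intro hii B hB hb
    obtain ⟨i, hi⟩ := hii B hB
    rcases i with _ | i
    · left
      rw [eq_bot_iff]
      intro a ha
      have := (hi a).1 ha
      simpa using this
    · right
      intro a
      constructor
      · exact hb a
      · intro ha
        rw [hi a, pow_succ', pow_mul, ha, one_pow]

end Cfsg.Agent.S3775
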