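import Cfsg.Statements.S3778
import Cfsg.Agent.Lib.FGS.Basic

set_option autoImplicit false
open Cfsg
open scoped commutatorElement
open scoped Pointwise

namespace Cfsg.Agent.S3778

theorem h8_csub {G : Type*} [Group G] (A B : Subgroup G) [B.Normal] :
    ∃ C : Subgroup G, ∀ x, x ∈ C ↔ ∀ u ∈ A, ⁅u, x⁆ ∈ B := by
  refine ⟨{ carrier := {x | ∀ u ∈ A, ⁅u, x⁆ ∈ B}, mul_mem' := ?_, one_mem' := ?_, inv_mem' := ?_ }, fun x => Iff.rfl⟩
  · intro x y hx hy u hu
    have h : ⁅u, x * y⁆ = ⁅u, x⁆ * (x * ⁅u, y⁆ * x⁻¹) := by
      simp only [commutatorElement_def]; group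
    rw [h]
    exact B.mul_mem (hx u hu) (‹B.Normal›.conj_mem _ (hy u hu) x)
  · intro u _
    simp [commutatorElement_def]
  · intro x hx u hu
    have h : ⁅u, x⁻¹⁆ = x⁻¹ * ⁅u, x⁆⁻¹ * x⁻¹⁻¹ := by
      simp only [commutatorElement_def]; group
    rw [h]
    exact ‹B.Normal›.conj_mem _ (B.inv_mem (hx u hu)) x⁻¹

theorem h8_idx {G : Type*} [Group G] [Finite G] {p : ℕ} [Fact p.Prime] (hG : IsPGroup p G)
    (H K : Subgroup G) (hHK : H ≤ K) (hne : ¬ K ≤ H) : p * K.index ≤ H.index := by
  have h1 := Subgroup.relIndex_mul_index hHK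
  obtain ⟨k, hk⟩ := (IsPGroup.to_subgroup hG K).index (H.subgroupOf K)
  have h2 : H.relIndex K = p ^ k := hk
  have h3 : k ≠ 0 := by
    rintro rfl
    rw [pow_zero, Subgroup.relIndex_eq_one] at h2
    exact hne h2
  have h4 : p ≤ H.relIndex K := by
    rw [h2]
    calc p = p ^ 1 := (pow_one p).symm
      _ ≤ p ^ k := Nat.pow_le_pow_right (Fact.out : p.Prime).pos (Nat.pos_of_ne_zero h3)
  rw [← h1]
  exact Nat.mul_le_mul_right _ h4


/-- If G is a finite p-group in which every conjugacy class has at most p^b elements (every element has centralizer of index at most p^b), then G is abelian when b = 0, and when b ≥ 1 its nilpotency class c satisfies (c − 1)(p − 1) < bp, that is c < bp/(p − 1) + 1, and hence c ≤ 2b. -/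
theorem result {G : Type*} [Group G] [Finite G] {p : ℕ} [Fact p.Prime] (hG : IsPGroup p G) (b : ℕ) (hb : ∀ x : G, (Subgroup.centralizer ({x} : Set G)).index ≤ p ^ b) : ∃ c : ℕ, (⊤ : Subgroup G).lowerCentralSeries c = ⊥ ∧ (b ≠ 0 → (c - 1) * (p - 1) < b * p ∧ c ≤ 2 * b) ∧ (b = 0 → c ≤ 1) := by
  classical
  haveI := Fintype.ofFinite G
  have hpp : p.Prime := Fact.out
  haveI : Group.IsNilpotent G := hG.isNilpotent
  set L : ℕ → Subgroup G := fun i => (⊤ : Subgroup G).lowerCentralSeries i with hLdef
  have hLnorm : ∀ i, (L i).Normal := fun i => by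
    simp only [hLdef]; infer_instance
  have hLs : ∀ i, L (i + 1) = ⁅L i, (⊤ : Subgroup G)⁆ := fun i => Subgroup.lowerCentralSeries_succ _ i
  refine ⟨Group.nilpotencyClass G, ?_, ?_, ?_⟩
  · exact Subgroup.lowerCentralSeries_eq_bot_iff_nilpotencyClass_le.2 le_rfl
  · intro hb0
    set c := Group.nilpotencyClass G with hc
    have hcbot : L c = ⊥ := Subgroup.lowerCentralSeries_eq_bot_iff_nilpotencyClass_le.2 le_rfl
    have hne : ∀ j, j < c → L j ≠ ⊥ := by
      intro j hj h
      have := Subgroup.lowerCentralSeries_eq_bot_iff_nilpotencyClass_le.1 h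
      omega
    have hbpos : 1 ≤ b := Nat.pos_of_ne_zero hb0
    by_cases hc2 : c ≤ 1
    · refine ⟨?_, by omega⟩
      have : c - 1 = 0 := by omega
      rw [this, zero_mul]
      exact Nat.mul_pos hbpos hpp.pos
    obtain ⟨n, hn⟩ : ∃ n, c = n + 1 := ⟨c - 1, by omega⟩
    have hn1 : 1 ≤ n := by omega
    have hCex : ∀ i, ∃ C : Subgroup G, ∀ x, x ∈ C ↔ ∀ u ∈ L i, ⁅u, x⁆ ∈ L (i + 2) := fun i => by
      haveI := hLnorm (i + 2)
      exact h8_csub _ _
    choose C hC using hCex
    have hCne : ∀ i ∈ Finset.range n, p * Nat.card (C i) ≤ Nat.card G := by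
      intro i hi
      have hi' : i < n := Finset.mem_range.1 hi
      have hnt : ¬ (⊤ : Subgroup G) ≤ C i := by
        intro htop
        have h1 : L (i + 1) ≤ L (i + 2) := by
          rw [hLs i, Subgroup.commutator_le]
          intro u hu x _
          exact (hC i x).1 (htop (Subgroup.mem_top x)) u hu
        have h2 : ∀ k, L (i + 1) ≤ L (i + 1 + k) := by
          intro k
          induction k with
          | zero => exact le_rfl
          | succ k ih =>
            refine h1.trans ?_
            have h3 : L (i + 2) = ⁅L (i + 1), (⊤ : Subgroup G)⁆ := hLs (i + 1)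
            have h4 : L (i + 1 + (k + 1)) = ⁅L (i + 1 + k), (⊤ : Subgroup G)⁆ := hLs (i + 1 + k)
            rw [h3, h4]
            exact Subgroup.commutator_mono ih le_rfl
        have h5 := h2 (n - i)
        have h6 : i + 1 + (n - i) = c := by omega
        rw [h6, hcbot] at h5
        exact hne (i + 1) (by omega) (le_bot_iff.1 h5)
      have h7 := h8_idx hG (C i) ⊤ le_top hnt
      rw [Subgroup.index_top, mul_one] at h7
      have h8 := Subgroup.card_mul_index (C i)
      calc p * Nat.card (C i) ≤ (C i).index * Nat.card (C i) := Nat.mul_le_mul_right _ h7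
        _ = Nat.card G := by rw [mul_comm]; exact h8
    -- the double count
    set cnt : G → ℕ := fun x => ((Finset.range n).filter (fun i => x ∈ C i)).card with hcnt
    have hsum : ∑ x : G, p * cnt x = ∑ i ∈ Finset.range n, p * Nat.card (C i) := by
      simp only [hcnt, Finset.card_filter, Finset.mul_sum]
      rw [Finset.sum_comm]
      refine Finset.sum_congr rfl fun i _ => ?_
      rw [← Finset.mul_sum]
      congr 1
      rw [← Finset.card_filter, Nat.card_eq_fintype_card]
      rw [Fintype.card_subtype]
    have hsum2 : ∑ x : G, p * cnt x ≤ n * Fintype.card G := by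
      rw [hsum]
      calc ∑ i ∈ Finset.range n, p * Nat.card (C i) ≤ ∑ i ∈ Finset.range n, Nat.card G :=
            Finset.sum_le_sum hCne
        _ = n * Fintype.card G := by
            rw [Finset.sum_const, Finset.card_range, smul_eq_mul, Nat.card_eq_fintype_card]
    obtain ⟨x, hx⟩ : ∃ x : G, p * cnt x < n := by
      by_contra hcon
      push Not at hcon
      have h1 : cnt 1 = n := by
        simp only [hcnt]
        rw [Finset.filter_true_of_mem (fun i _ => (C i).one_mem), Finset.card_range]
      have h2 : n < p * cnt 1 := by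
        rw [h1]
        have := hpp.two_le
        nlinarith
      have h3 : ∑ x : G, n < ∑ x : G, p * cnt x :=
        Finset.sum_lt_sum (fun x _ => hcon x) ⟨1, Finset.mem_univ _, h2⟩
      rw [Finset.sum_const, Finset.card_univ, smul_eq_mul] at h3
      rw [mul_comm] at h3
      omega
    -- index growth
    set D : Subgroup G := Subgroup.centralizer ({x} : Set G) with hD
    set s : ℕ → ℕ := fun j => ((Finset.range j).filter (fun i => x ∉ C i)).card with hs
    have hgrow : ∀ j, p ^ s j ≤ (D ⊔ L j).index := by
      intro j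
      induction j with
      | zero =>
        have h0 : L 0 = ⊤ := rfl
        simp [hs, h0]
      | succ j ih =>
        haveI := hLnorm (j + 1)
        haveI := hLnorm j
        have hle : D ⊔ L (j + 1) ≤ D ⊔ L j := by
          refine sup_le_sup le_rfl ?_
          exact Subgroup.lowerCentralSeries_antitone _ (Nat.le_succ j)
        by_cases hj : x ∈ C j
        · have h1 : s (j + 1) = s j := by
            simp only [hs]
            rw [Finset.range_add_one, Finset.filter_insert, if_neg (not_not.2 hj)]
          rw [h1]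
          refine ih.trans (Nat.le_of_dvd (Nat.pos_of_ne_zero Subgroup.index_ne_zero_of_finite)
            (Subgroup.index_dvd_of_le hle))
        · have h1 : s (j + 1) = s j + 1 := by
            simp only [hs]
            rw [Finset.range_add_one, Finset.filter_insert, if_pos hj, Finset.card_insert_of_notMem]
            simp
          rw [h1, pow_succ]
          have hnot : ¬ D ⊔ L j ≤ D ⊔ L (j + 1) := by
            intro hcon
            have hj' := mt (hC j x).2 hj
            push Not at hj'
            obtain ⟨u, hu, hu2⟩ := hj'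
            apply hu2
            have hu3 : u ∈ D ⊔ L (j + 1) := hcon (Subgroup.mem_sup_right hu)
            obtain ⟨v, hv, w, hw, rfl⟩ := Subgroup.mem_sup_of_normal_right.1 hu3
            have hvx : v * x = x * v := Subgroup.mem_centralizer_singleton_iff.1 hv
            have h2 : ⁅v * w, x⁆ = v * ⁅w, x⁆ * v⁻¹ := by
              simp only [commutatorElement_def]
              have h3 : v⁻¹ * x⁻¹ = x⁻¹ * v⁻¹ := by
                rw [← mul_inv_rev, ← mul_inv_rev, hvx]
              simp only [mul_assoc, mul_inv_rev]
              rw [h3]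
            rw [h2]
            haveI := hLnorm (j + 2)
            refine (hLnorm (j + 2)).conj_mem _ ?_ v
            have : L (j + 2) = ⁅L (j + 1), (⊤ : Subgroup G)⁆ := hLs (j + 1)
            rw [this]
            exact Subgroup.commutator_mem_commutator hw (Subgroup.mem_top x)
          have h3 := h8_idx hG (D ⊔ L (j + 1)) (D ⊔ L j) hle hnot
          calc p ^ s j * p = p * p ^ s j := mul_comm _ _
            _ ≤ p * (D ⊔ L j).index := Nat.mul_le_mul_left _ ih
            _ ≤ _ := h3
    have hsn : s n ≤ b := by
      have h1 := hgrow n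
      have h2 : (D ⊔ L n).index ≤ D.index :=
        Nat.le_of_dvd (Nat.pos_of_ne_zero Subgroup.index_ne_zero_of_finite)
          (Subgroup.index_dvd_of_le le_sup_left)
      have h3 := (h1.trans h2).trans (hb x)
      exact (Nat.pow_le_pow_iff_right hpp.one_lt).1 h3
    have hadd : cnt x + s n = n := by
      simp only [hcnt, hs]
      rw [Finset.card_filter_add_card_filter_not, Finset.card_range]
    have hcm : c - 1 = n := by omega
    rw [hcm]
    have hp2 := hpp.two_le
    have hmain : n * (p - 1) < b * p := by
      obtain ⟨q, hq⟩ : ∃ q, p = q + 1 := ⟨p - 1, by omega⟩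
      have hq' : p - 1 = q := by omega
      rw [hq']
      have h1 : p * cnt x < n := hx
      have h2 : p * s n ≤ p * b := Nat.mul_le_mul_left _ hsn
      have h3 : p * (cnt x + s n) = p * n := by rw [hadd]
      rw [mul_add] at h3
      subst hq
      nlinarith
    refine ⟨hmain, ?_⟩
    by_contra hcon
    push Not at hcon
    have h1 : 2 * b ≤ n := by omega
    obtain ⟨q, hq⟩ : ∃ q, p = q + 2 := ⟨p - 2, by omega⟩
    have hq' : p - 1 = q + 1 := by omega
    rw [hq'] at hmain
    subst hq
    nlinarith
  · intro hb0
    subst hb0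
    rw [← Subgroup.lowerCentralSeries_eq_bot_iff_nilpotencyClass_le]
    rw [Subgroup.top_lowerCentralSeries_one]
    rw [commutator_eq_bot_iff_center_eq_top]
    rw [eq_top_iff]
    intro x _
    have h1 := hb x
    rw [pow_zero] at h1
    have h2 : (Subgroup.centralizer ({x} : Set G)).index = 1 :=
      le_antisymm h1 (Nat.pos_of_ne_zero Subgroup.index_ne_zero_of_finite)
    rw [Subgroup.index_eq_one] at h2
    rw [Subgroup.mem_center_iff]
    intro y
    have h3 : y ∈ Subgroup.centralizer ({x} : Set G) := by rw [h2]; trivial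
    exact Subgroup.mem_centralizer_singleton_iff.1 h3

end Cfsg.Agent.S3778
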