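import Cfsg.Statements.S3780
import Cfsg.Agent.Lib.FGS.Basic
import Cfsg.Agent.Lib.Solv.PGroup

set_option autoImplicit false
open Cfsg
open scoped commutatorElement
open scoped Pointwise

namespace Cfsg.Agent.S3780

open Polynomial in
private lemma sub_one_pow_eq {p : ℕ} [Fact p.Prime] {M : Type*} [AddCommGroup M] [Module (ZMod p) M]
    (A : Module.End (ZMod p) M) (hA : A ^ p = 1) : (A - 1) ^ p = 0 := by
  have h1 : ((X : (ZMod p)[X]) - 1) ^ p = X ^ p - 1 := by
    rw [sub_pow_char, one_pow]
  have h2 := congrArg (Polynomial.aeval A) h1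
  simp only [map_pow, map_sub, aeval_X, map_one] at h2
  rw [h2, hA, sub_self]

private lemma card_ker_comp_le {M : Type*} [AddGroup M] [Finite M] (f g : M →+ M) :
    Nat.card (g.comp f).ker ≤ Nat.card f.ker * Nat.card g.ker := by
  classical
  rw [← Nat.card_prod]
  have hs : ∀ x : M, f (Function.invFun f (f x)) = f x := fun x => Function.invFun_eq ⟨x, rfl⟩
  refine Nat.card_le_card_of_injective (fun x : (g.comp f).ker =>
     ((⟨-(Function.invFun f (f x)) + x, ?_⟩ : f.ker), (⟨f x, ?_⟩ : g.ker))) ?_
  · rw [AddMonoidHom.mem_ker, map_add, map_neg, hs, neg_add_cancel]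
  · exact x.2
  · intro x y hxy
    simp only [Prod.mk.injEq, Subtype.mk.injEq] at hxy
    obtain ⟨h1, h2⟩ := hxy
    have h2' : f (x : M) = f (y : M) := congrArg Subtype.val h2
    rw [h2'] at h1
    exact Subtype.ext (add_left_cancel h1)

private lemma card_ker_pow_le {p : ℕ} {M : Type*} [AddCommGroup M] [Finite M] [Module (ZMod p) M]
    (T : Module.End (ZMod p) M) (k : ℕ) :
    Nat.card (T ^ k).toAddMonoidHom.ker ≤ Nat.card T.toAddMonoidHom.ker ^ k := by
  induction k with
  | zero =>
    rw [pow_zero]
    have : (1 : Module.End (ZMod p) M).toAddMonoidHom.ker = ⊥ := by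
      ext x; simp [AddMonoidHom.mem_ker]
    rw [this]; simp
  | succ k ih =>
    have h1 : (T ^ (k + 1)).toAddMonoidHom = (T ^ k).toAddMonoidHom.comp T.toAddMonoidHom := by
      rw [pow_succ]; rfl
    rw [h1, pow_succ]
    refine (card_ker_comp_le _ _).trans ?_
    rw [mul_comm]
    exact Nat.mul_le_mul_right _ ih

private lemma key_bound_mod {M : Type*} [AddCommGroup M] [Finite M] {p : ℕ} [Fact p.Prime]
    [Module (ZMod p) M] (A : Module.End (ZMod p) M) (hap : ∀ w : M, A^[p] w = w) :
    Nat.card M ≤ Nat.card {w : M // A w = w} ^ p := by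
  have hA : A ^ p = 1 := by
    ext x
    rw [Module.End.pow_apply, hap]
    rfl
  have hT := sub_one_pow_eq A hA
  have h1 := card_ker_pow_le (A - 1) p
  rw [hT] at h1
  have h2 : (0 : Module.End (ZMod p) M).toAddMonoidHom.ker = ⊤ := by
    ext x; simp [AddMonoidHom.mem_ker]
  rw [h2, AddSubgroup.card_top] at h1
  refine h1.trans (Nat.pow_le_pow_left ?_ p)
  refine Nat.card_le_card_of_injective (fun x => ⟨(x : M), ?_⟩) ?_
  · have h4 := x.2
    rw [AddMonoidHom.mem_ker] at h4
    have h5 : A x.1 - x.1 = 0 := h4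
    have h6 : A x.1 = x.1 := sub_eq_zero.1 h5
    exact h6
  · intro x y hxy
    exact Subtype.ext (by have h := congrArg Subtype.val hxy; exact h)

private lemma key_bound_add {M : Type*} [AddCommGroup M] [Finite M] {p : ℕ} [Fact p.Prime]
    (hexp : ∀ w : M, p • w = 0) (a : M →+ M) (hap : ∀ w : M, a^[p] w = w) :
    Nat.card M ≤ Nat.card {w : M // a w = w} ^ p := by
  letI : Module (ZMod p) M := AddCommGroup.zmodModule hexp
  exact key_bound_mod (a.toZModLinearMap p) hap

private lemma key_bound {W : Type*} [CommGroup W] [Finite W] {p : ℕ} [Fact p.Prime]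
    (hexp : ∀ w : W, w ^ p = 1) (a : W →* W) (hap : ∀ w : W, a^[p] w = w) :
    Nat.card W ≤ Nat.card {w : W // a w = w} ^ p := by
  have hk : ∀ (k : ℕ) (x : Additive W), (MonoidHom.toAdditive a)^[k] x = Additive.ofMul (a^[k] (Additive.toMul x)) := by
    intro k
    induction k with
    | zero => intro x; rfl
    | succ k ih =>
      intro x
      rw [Function.iterate_succ_apply', ih, Function.iterate_succ_apply']
      rfl
  have h := key_bound_add (M := Additive W) (p := p) (fun x => congrArg Additive.ofMul (hexp (Additive.toMul x)))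
    (MonoidHom.toAdditive a) (fun x => by rw [hk, hap]; rfl)
  have h3 : Nat.card (Additive W) = Nat.card W := Nat.card_congr Additive.toMul
  rw [h3] at h
  refine h.trans (Nat.pow_le_pow_left ?_ p)
  refine Nat.card_le_card_of_injective (fun x => ⟨Additive.toMul (x : Additive W), ?_⟩) ?_
  · exact congrArg Additive.toMul x.2
  · intro x y hxy
    exact Subtype.ext (Additive.toMul.injective (by have h := congrArg Subtype.val hxy; exact h))

/-- Let V be a finite abelian p-group and α an automorphism of V of order p whose fixed-point subgroup has order p^n. Then V can be generated by pn elements: some subset of V with at most pn elements generates V. -/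
theorem result {V : Type*} [CommGroup V] [Finite V] {p : ℕ} [Fact p.Prime] (hV : IsPGroup p V) (α : MulAut V) (hα : orderOf α = p) (n : ℕ) (hfix : Nat.card {v : V // α v = v} = p ^ n) : ∃ S : Finset V, S.card ≤ p * n ∧ Subgroup.closure (S : Set V) = ⊤ := by
  have hp : p.Prime := Fact.out
  obtain ⟨W, hW⟩ : ∃ W : Subgroup V, W = (powMonoidHom p : V →* V).ker := ⟨_, rfl⟩
  have hWmem : ∀ v : V, v ∈ W ↔ v ^ p = 1 := by
    intro v; rw [hW, MonoidHom.mem_ker]; rfl
  have hαW : ∀ v : W, α v ∈ W := by
    intro v
    rw [hWmem, ← map_pow, (hWmem v).1 v.2, map_one]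
  let a : W →* W := (α.toMonoidHom.comp W.subtype).codRestrict W hαW
  have hak : ∀ (k : ℕ) (w : W), ((a^[k] w : W) : V) = (α ^ k) w := by
    intro k
    induction k with
    | zero => intro w; rfl
    | succ k ih =>
      intro w
      rw [Function.iterate_succ_apply', pow_succ']
      show α ((a^[k] w : W) : V) = _
      rw [ih]; rfl
  have hap : ∀ w : W, a^[p] w = w := by
    intro w
    apply Subtype.ext
    rw [hak, ← hα, pow_orderOf_eq_one]; rfl
  have hbound := key_bound (p := p) (fun w : W => Subtype.ext ((hWmem w).1 w.2)) a hap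
  have hfixle : Nat.card {w : W // a w = w} ≤ p ^ n := by
    rw [← hfix]
    refine Nat.card_le_card_of_injective (fun x => ⟨(x.1 : V), ?_⟩) ?_
    · exact congrArg Subtype.val x.2
    · intro x y hxy
      exact Subtype.ext (Subtype.ext (by have h := congrArg Subtype.val hxy; exact h))
  have hWcard : Nat.card W ≤ p ^ (n * p) := by
    rw [pow_mul]; exact hbound.trans (Nat.pow_le_pow_left hfixle p)
  obtain ⟨w, hw⟩ := (hV.to_subgroup W).exists_card_eq
  have hwle : w ≤ n * p := by
    rw [hw] at hWcard
    exact (Nat.pow_le_pow_iff_right hp.one_lt).1 hWcard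
  obtain ⟨k, hk⟩ := hV.exists_card_eq
  obtain ⟨r, -, hr⟩ := (Nat.dvd_prime_pow hp).1 (show (frattini V).index ∣ p ^ k from by
    rw [← hk]; exact Subgroup.index_dvd_card _)
  have hrange : (powMonoidHom p : V →* V).range ≤ frattini V := by
    rintro _ ⟨x, rfl⟩
    exact (CfsgLib.Solv.pgroup_commutator_pow_le_frattini hV).2 x
  have hidx : (powMonoidHom p : V →* V).range.index = Nat.card W := by
    have e1 := Subgroup.card_mul_index W
    have e2 := Subgroup.card_mul_index (powMonoidHom p : V →* V).range
    have e3 : W.index = Nat.card (powMonoidHom p : V →* V).range := by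
      rw [hW, Subgroup.index_ker]
    rw [e3, mul_comm] at e1
    rw [← e2] at e1
    exact (Nat.eq_of_mul_eq_mul_left Nat.card_pos e1).symm
  have hdvd : p ^ r ∣ p ^ w := by
    rw [← hr, ← hw, ← hidx]
    exact Subgroup.index_dvd_of_le hrange
  have hrw : r ≤ w := (Nat.pow_dvd_pow_iff_le_right hp.one_lt).1 hdvd
  classical
  haveI := Fintype.ofFinite V
  obtain ⟨T, -, hTc, hT⟩ := CfsgLib.Solv.burnside_basis_exists hV r hr Finset.univ (by simp)
  refine ⟨T, ?_, hT⟩
  rw [hTc, mul_comm]
  exact hrw.trans hwle

end Cfsg.Agent.S3780
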