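import Cfsg.Statements.S3781
import Cfsg.Agent.Lib.FGS.Elem
import Cfsg.Agent.Lib.Solv.Nilp

set_option autoImplicit false
open Cfsg
open scoped commutatorElement
open scoped Pointwise

namespace Cfsg.Agent.S3781

theorem h8_chain {G : Type*} [Group G] [Finite G] {p : ℕ} [Fact p.Prime] (hG : IsPGroup p G) :
    ∀ (l : ℕ) (X Y : Subgroup G), X.Normal → Y.Normal → Y ≤ X → Y.relIndex X ≤ p ^ l →
      ∃ c : ℕ → Subgroup G, c 0 = X ∧ (∀ i, (c i).Normal) ∧ (∀ i, ⁅c i, (⊤ : Subgroup G)⁆ ≤ c (i + 1)) ∧
        c l ≤ Y ∧ c (l + 1) ≤ ⁅Y, (⊤ : Subgroup G)⁆ := by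
  classical
  haveI : Group.IsNilpotent G := hG.isNilpotent
  intro l
  induction l with
  | zero =>
    intro X Y hX hY hYX hrel
    have h1 : X ≤ Y := by
      have h2 : Y.relIndex X = 1 := by
        have : 0 < Y.relIndex X := Nat.pos_of_ne_zero Subgroup.index_ne_zero_of_finite
        simp only [pow_zero] at hrel
        omega
      exact Subgroup.relIndex_eq_one.1 h2
    refine ⟨fun i => if i = 0 then X else ⁅Y, (⊤ : Subgroup G)⁆, by simp, ?_, ?_, by simpa using h1, by simp⟩
    · intro i
      by_cases h : i = 0
      · simpa [h] using hX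
      · simp only [h, if_false]
        exact Subgroup.commutator_normal _ _
    · intro i
      by_cases h : i = 0
      · simp only [h, if_true, Nat.succ_ne_zero, zero_add, one_ne_zero, if_false]
        exact Subgroup.commutator_mono h1 le_rfl
      · simp only [h, if_false, Nat.succ_ne_zero]
        exact Subgroup.commutator_le_left _ _
  | succ l ih =>
    intro X Y hX hY hYX hrel
    by_cases hXY : X ≤ Y
    · refine ⟨fun i => if i = 0 then X else ⁅Y, (⊤ : Subgroup G)⁆, by simp, ?_, ?_, ?_, by simp⟩
      · intro i
        by_cases h : i = 0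
        · simpa [h] using hX
        · simp only [h, if_false]
          exact Subgroup.commutator_normal _ _
      · intro i
        by_cases h : i = 0
        · simp only [h, if_true, Nat.succ_ne_zero, zero_add, one_ne_zero, if_false]
          exact Subgroup.commutator_mono hXY le_rfl
        · simp only [h, if_false, Nat.succ_ne_zero]
          exact Subgroup.commutator_le_left _ _
      · simp only [Nat.succ_ne_zero, if_false]
        exact Subgroup.commutator_le_left _ _
    · have hlt : Y < X := lt_of_le_not_ge hYX hXY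
      obtain ⟨x, hxX, hxY, hxc⟩ := CfsgLib.Solv.exists_central_mod Y X hlt
      set W : Subgroup G := Y ⊔ Subgroup.zpowers x with hW
      have hWc : ⁅W, (⊤ : Subgroup G)⁆ ≤ Y := by
        have hq : ∀ u ∈ W, ∀ t : G, ⁅u, t⁆ ∈ Y := by
          intro u hu t
          rw [hW, Subgroup.sup_eq_closure] at hu
          induction hu using Subgroup.closure_induction with
          | mem u hu =>
            rcases hu with hu | hu
            · have hu' : u ∈ Y := hu
              rw [commutatorElement_def]
              have e : u * t * u⁻¹ * t⁻¹ = u * (t * u⁻¹ * t⁻¹) := by group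
              rw [e]
              exact Y.mul_mem hu' (hY.conj_mem _ (Y.inv_mem hu') t)
            · obtain ⟨k, rfl⟩ := hu
              simp only
              have hc : QuotientGroup.mk' Y (x ^ k) * QuotientGroup.mk' Y t = QuotientGroup.mk' Y t * QuotientGroup.mk' Y (x ^ k) := by
                have h3 : QuotientGroup.mk' Y x * QuotientGroup.mk' Y t = QuotientGroup.mk' Y t * QuotientGroup.mk' Y x := by
                  have h4 : QuotientGroup.mk' Y ⁅x, t⁆ = 1 := (QuotientGroup.eq_one_iff _).2 (hxc t)
                  rw [commutatorElement_def, map_mul, map_mul, map_mul, map_inv, map_inv] at h4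
                  have h5 := mul_inv_eq_one.1 h4
                  have h6 := mul_inv_eq_iff_eq_mul.1 h5
                  exact h6
                rw [map_zpow]
                exact ((show Commute (QuotientGroup.mk' Y x) (QuotientGroup.mk' Y t) from h3).zpow_left k)
              rw [← QuotientGroup.eq_one_iff]
              rw [commutatorElement_def]
              simp only [QuotientGroup.mk_mul, QuotientGroup.mk_inv]
              have hc' : ((x ^ k : G) : G ⧸ Y) * (t : G ⧸ Y) = (t : G ⧸ Y) * ((x ^ k : G) : G ⧸ Y) := hc
              rw [hc']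
              group
          | one => simp [Y.one_mem]
          | mul a b _ _ ha hb =>
            have e : ⁅a * b, t⁆ = a * ⁅b, t⁆ * a⁻¹ * ⁅a, t⁆ := by
              simp only [commutatorElement_def]
              group
            rw [e]
            exact Y.mul_mem (hY.conj_mem _ hb a) ha
          | inv a _ ha =>
            have e : ⁅a⁻¹, t⁆ = a⁻¹ * ⁅a, t⁆⁻¹ * a⁻¹⁻¹ := by
              simp only [commutatorElement_def]
              group
            rw [e]
            exact hY.conj_mem _ (Y.inv_mem ha) _
        rw [Subgroup.commutator_le]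
        intro u hu t _
        exact hq u hu t
      have hWX : W ≤ X := sup_le hYX ((Subgroup.zpowers_le).2 hxX)
      have hYW : Y < W := by
        refine lt_of_le_of_ne le_sup_left ?_
        intro h
        apply hxY
        rw [h]
        exact (le_sup_right : Subgroup.zpowers x ≤ W) (Subgroup.mem_zpowers x)
      have hWn : W.Normal := by
        constructor
        intro n hn g
        have e : g * n * g⁻¹ = ⁅g, n⁆ * n := by
          rw [commutatorElement_def]
          group
        rw [e]
        refine W.mul_mem ?_ hn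
        have h6 : ⁅n, g⁆ ∈ Y := (Subgroup.commutator_le.1 hWc) n hn g (Subgroup.mem_top g)
        have h7 : ⁅g, n⁆ = ⁅n, g⁆⁻¹ := by
          rw [commutatorElement_inv]
        rw [h7]
        exact (le_sup_left : Y ≤ W) (Y.inv_mem h6)
      have hrelW : W.relIndex X ≤ p ^ l := by
        have hm : Y.relIndex W * W.relIndex X = Y.relIndex X := Subgroup.relIndex_mul_relIndex Y W X hYW.le hWX
        have h8 : p ≤ Y.relIndex W := by
          have h9 : Y.relIndex W ≠ 1 := by
            intro h
            exact (not_le_of_gt hYW) (Subgroup.relIndex_eq_one.1 h)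
          have h10 : Y.relIndex W ∣ Nat.card W := Subgroup.relIndex_dvd_card Y W
          obtain ⟨n, hn⟩ := IsPGroup.iff_card.1 (hG.to_subgroup W)
          rw [hn] at h10
          obtain ⟨j, -, hj⟩ := (Nat.dvd_prime_pow (Fact.out : p.Prime)).1 h10
          rw [hj] at h9 ⊢
          have h11 : j ≠ 0 := by
            rintro rfl
            simp at h9
          exact Nat.le_self_pow h11 p
        have h12 : p * W.relIndex X ≤ p ^ (l + 1) := by
          calc p * W.relIndex X ≤ Y.relIndex W * W.relIndex X := Nat.mul_le_mul_right _ h8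
            _ = Y.relIndex X := hm
            _ ≤ p ^ (l + 1) := hrel
        rw [pow_succ'] at h12
        exact Nat.le_of_mul_le_mul_left h12 (Fact.out : p.Prime).pos
      obtain ⟨c, hc0, hcn, hcc, hcl, hcl1⟩ := ih X W hX hWn hWX hrelW
      refine ⟨fun i => if i ≤ l + 1 then c i else ⁅Y, (⊤ : Subgroup G)⁆, by simpa using hc0, ?_, ?_, ?_, ?_⟩
      · intro i
        by_cases h : i ≤ l + 1
        · simpa [h] using hcn i
        · simp only [h, if_false]
          exact Subgroup.commutator_normal _ _
      · intro i
        by_cases h : i + 1 ≤ l + 1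
        · have h' : i ≤ l + 1 := by omega
          simp only [h, h', if_true]
          exact hcc i
        · by_cases h2 : i ≤ l + 1
          · have h3 : i = l + 1 := by omega
            subst h3
            simp only [le_refl, if_true, h, if_false]
            exact Subgroup.commutator_mono (hcl1.trans hWc) le_rfl
          · simp only [h, h2, if_false]
            exact Subgroup.commutator_le_left _ _
      · simp only [le_refl, if_true]
        exact hcl1.trans hWc
      · have h : ¬ (l + 1 + 1 ≤ l + 1) := by omega
        simp only [h, if_false]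
        exact le_rfl

theorem h8_chain_comm {G : Type*} [Group G] (c : ℕ → Subgroup G) (hn : ∀ i, (c i).Normal)
    (hc : ∀ i, ⁅c i, (⊤ : Subgroup G)⁆ ≤ c (i + 1)) :
    ∀ j i, ⁅c i, (⊤ : Subgroup G).lowerCentralSeries j⁆ ≤ c (i + j + 1) := by
  intro j
  induction j with
  | zero =>
    intro i
    exact hc i
  | succ j ih =>
    intro i
    rw [Subgroup.lowerCentralSeries_succ, Subgroup.commutator_comm]
    haveI := hn (i + (j + 1) + 1)
    apply CfsgLib.FGS.three_subgroups_mod
    · have h1 : ⁅⁅(⊤ : Subgroup G), c i⁆, (⊤ : Subgroup G).lowerCentralSeries j⁆ ≤ c (i + 1 + j + 1) := by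
        rw [Subgroup.commutator_comm (⊤ : Subgroup G)]
        exact (Subgroup.commutator_mono (hc i) le_rfl).trans (ih (i + 1))
      have e : i + 1 + j + 1 = i + (j + 1) + 1 := by omega
      rwa [e] at h1
    · have h1 : ⁅⁅c i, (⊤ : Subgroup G).lowerCentralSeries j⁆, (⊤ : Subgroup G)⁆ ≤ c (i + j + 1 + 1) :=
        (Subgroup.commutator_mono (ih i) le_rfl).trans (hc _)
      have e : i + j + 1 + 1 = i + (j + 1) + 1 := by omega
      rwa [e] at h1


/-- Let G be a finite p-group and n ≥ 1, and write γ_1(G) = G, γ_{k+1}(G) = [γ_k(G), G], and likewise γ_k(N) for a subgroup N. Let N be a normal subgroup of G contained in γ_n(G). If i > 1 and γ_{i+1}(N) ≠ 1, then |γ_i(N) : γ_{i+1}(N)| ≥ p^n. -/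
theorem result {G : Type*} [Group G] [Finite G] {p : ℕ} [Fact p.Prime] (hG : IsPGroup p G) (n : ℕ) (hn : 1 ≤ n) (N : Subgroup G) [N.Normal] (hN : N ≤ (⊤ : Subgroup G).lowerCentralSeries (n - 1)) (i : ℕ) (hi : 1 < i) (hne : N.lowerCentralSeries i ≠ ⊥) : p ^ n ≤ (N.lowerCentralSeries i).relIndex (N.lowerCentralSeries (i - 1)) := by
  classical
  by_contra hlt
  push Not at hlt
  haveI hnil : Group.IsNilpotent G := hG.isNilpotent
  set A := N.lowerCentralSeries (i - 1) with hA
  set B := N.lowerCentralSeries i with hB
  have hBA : B = ⁅A, N⁆ := by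
    rw [hB, hA]
    have e : i = (i - 1) + 1 := by omega
    conv_lhs => rw [e]
    rfl
  have hBleA : B ≤ A := N.lowerCentralSeries_antitone (by omega)
  haveI hAn : A.Normal := Subgroup.lowerCentralSeries_normal N (i - 1)
  haveI hBn : B.Normal := Subgroup.lowerCentralSeries_normal N i
  have hrel : B.relIndex A ≤ p ^ (n - 1) := by
    have h10 : B.relIndex A ∣ Nat.card A := Subgroup.relIndex_dvd_card B A
    obtain ⟨m, hm⟩ := IsPGroup.iff_card.1 (hG.to_subgroup A)
    rw [hm] at h10
    obtain ⟨j, -, hj⟩ := (Nat.dvd_prime_pow (Fact.out : p.Prime)).1 h10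
    rw [hj] at hlt ⊢
    have h11 : j < n := (Nat.pow_lt_pow_iff_right (Fact.out : p.Prime).one_lt).1 hlt
    exact Nat.pow_le_pow_right (Fact.out : p.Prime).pos (by omega)
  obtain ⟨c, hc0, hcn, hcc, -, hcl1⟩ := h8_chain hG (n - 1) A B hAn hBn hBleA hrel
  have h1 := h8_chain_comm c hcn hcc (n - 1) 0
  rw [hc0] at h1
  have h2 : B ≤ ⁅B, (⊤ : Subgroup G)⁆ := by
    rw [hBA] at hcl1 ⊢
    refine (Subgroup.commutator_mono le_rfl hN).trans (h1.trans ?_)
    have e : 0 + (n - 1) + 1 = n - 1 + 1 := by omega
    rw [e]
    exact hcl1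
  apply hne
  obtain ⟨K, hK⟩ := Subgroup.nilpotent_iff_lowerCentralSeries.1 hnil
  have h3 : ∀ k, B ≤ (⊤ : Subgroup G).lowerCentralSeries k := by
    intro k
    induction k with
    | zero => exact le_top
    | succ k ih => exact h2.trans (Subgroup.commutator_mono ih le_rfl)
  have h4 := h3 K
  rw [hK] at h4
  exact le_bot_iff.1 h4

end Cfsg.Agent.S3781
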