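import Cfsg.Statements.S3784
import Cfsg.Agent.Lib.FGS.Elem

set_option autoImplicit false
open Cfsg

namespace Cfsg.Agent.S3784

/-- Let p, q be primes and a, b positive integers with p^a = q^b + 1. Then either p = 2, b = 1, a is prime and q = 2^a − 1; or q = 2, a = 1, b is a power of 2 and p = 2^b + 1; or p^a = 9 and q^b = 8. -/
theorem result (p q a b : ℕ) (hp : p.Prime) (hq : q.Prime) (ha : 1 ≤ a) (hb : 1 ≤ b) (h : p ^ a = q ^ b + 1) : (p = 2 ∧ b = 1 ∧ a.Prime ∧ q + 1 = 2 ^ a) ∨ (q = 2 ∧ a = 1 ∧ (∃ m : ℕ, b = 2 ^ m) ∧ p = 2 ^ b + 1) ∨ (p ^ a = 9 ∧ q ^ b = 8) := by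
  -- one of `p`, `q` is even
  have hcases : p = 2 ∨ q = 2 := by
    by_contra hcon
    simp only [not_or] at hcon
    have hpo : Odd p := hp.odd_of_ne_two hcon.1
    have hqo : Odd q := hq.odd_of_ne_two hcon.2
    have h1 : Odd (p ^ a) := hpo.pow
    have h2 : Odd (q ^ b) := hqo.pow
    rw [h] at h1
    exact (Nat.not_odd_iff_even.mpr h2.add_one) h1
  rcases hcases with rfl | rfl
  · -- `2 ^ a = q ^ b + 1`
    left
    have hq3 : q ≠ 2 := by
      rintro rfl
      have h1 : Even (2 ^ a) := (even_two).pow_of_ne_zero (by omega)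
      have h2 : Even (2 ^ b) := (even_two).pow_of_ne_zero (by omega)
      rw [h] at h1
      exact (Nat.not_even_iff_odd.mpr h2.add_one) h1
    have hqo : Odd q := hq.odd_of_ne_two hq3
    have ha2 : 2 ≤ a := by
      by_contra hlt
      have : a = 1 := by omega
      rw [this, pow_one] at h
      have : 2 ≤ q ^ b := (hq.two_le).trans (Nat.le_self_pow (by omega) q)
      omega
    -- `b` is odd
    have hbodd : Odd b := by
      by_contra hb2
      rw [Nat.not_odd_iff_even] at hb2
      obtain ⟨c, hc⟩ := hb2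
      have h8 : (q ^ b) % 4 = 1 := by
        rw [hc, ← two_mul, pow_mul]
        have : q ^ 2 % 4 = 1 := by
          obtain ⟨k, rfl⟩ := hqo
          ring_nf
          omega
        rw [Nat.pow_mod, this]
        simp
      have h4 : 2 ^ a % 4 = 0 := by
        obtain ⟨k, rfl⟩ : ∃ k, a = k + 2 := ⟨a - 2, by omega⟩
        rw [pow_add]
        omega
      omega
    -- `q ^ b = q + 2 (q + 1) k`
    obtain ⟨r, hr⟩ := hqo
    have hpow : ∀ n : ℕ, ∃ k : ℕ, q ^ (2 * n + 1) = q + 4 * (r + 1) * k := by
      intro n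
      induction n with
      | zero => exact ⟨0, by simp⟩
      | succ n ih =>
        obtain ⟨k, hk⟩ := ih
        refine ⟨k + r * q + 4 * r * (r + 1) * k, ?_⟩
        have h1 : q ^ (2 * (n + 1) + 1) = q ^ (2 * n + 1) * q ^ 2 := by ring
        rw [h1, hk]
        have h2 : q ^ 2 = 1 + 4 * (r + 1) * r := by rw [hr]; ring
        rw [h2]
        ring
    obtain ⟨n, hn⟩ := hbodd
    obtain ⟨k, hk⟩ := hpow n
    rw [← hn] at hk
    have h2a : 2 ^ a = (q + 1) * (1 + 2 * k) := by
      rw [h, hk]
      have : q + 1 = 2 * (r + 1) := by omega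
      rw [this]
      nlinarith [hr, this]
    have hd : 1 + 2 * k ∣ 2 ^ a := ⟨q + 1, by rw [h2a]; ring⟩
    obtain ⟨i, -, hi⟩ := (Nat.dvd_prime_pow Nat.prime_two).mp hd
    have hi0 : i = 0 := by
      rcases i with _ | i
      · rfl
      · rw [pow_succ] at hi
        omega
    have hk0 : k = 0 := by
      rw [hi0, pow_zero] at hi
      omega
    have hb1 : b = 1 := by
      rw [hk0, mul_zero, add_zero] at hk
      have h3 : q ^ b = q ^ 1 := by rw [pow_one]; exact hk
      exact Nat.pow_right_injective hq.two_le h3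
    subst hb1
    rw [pow_one] at h
    refine ⟨rfl, rfl, ?_, h.symm⟩
    have h4 : 2 ^ a - 1 = q := by omega
    have h5 : (2 ^ a - 1).Prime := h4 ▸ hq
    exact (Nat.prime_of_pow_sub_one_prime (by omega) h5).2
  · -- `p ^ a = 2 ^ b + 1`
    right
    have hp2 : p ≠ 2 := by
      rintro rfl
      have h1 : Even (2 ^ a) := (even_two).pow_of_ne_zero (by omega)
      have h2 : Even (2 ^ b) := (even_two).pow_of_ne_zero (by omega)
      rw [h] at h1
      exact (Nat.not_even_iff_odd.mpr h2.add_one) h1
    have hpo : Odd p := hp.odd_of_ne_two hp2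
    rcases Nat.even_or_odd a with ha2 | ha2
    · -- `a` even
      right
      obtain ⟨c, hc⟩ := ha2
      have hc0 : c ≠ 0 := by omega
      set u := p ^ c with hu
      have hu3 : 3 ≤ u := by
        have h1 : p ≤ p ^ c := Nat.le_self_pow hc0 p
        have h2 : 3 ≤ p := by
          have := hp.two_le
          omega
        omega
      have hsq : p ^ a = u * u := by rw [hc, pow_add]
      have hprod : (u - 1) * (u + 1) = 2 ^ b := by
        obtain ⟨v, hv⟩ : ∃ v, u = v + 1 := ⟨u - 1, by omega⟩
        rw [hv] at hsq ⊢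
        simp only [Nat.add_sub_cancel]
        have : (v + 1) * (v + 1) = v * (v + 1 + 1) + 1 := by ring
        rw [hsq, this] at h
        omega
      have hd1 : u - 1 ∣ 2 ^ b := ⟨u + 1, hprod.symm⟩
      have hd2 : u + 1 ∣ 2 ^ b := ⟨u - 1, by rw [← hprod]; ring⟩
      obtain ⟨i, -, hi⟩ := (Nat.dvd_prime_pow Nat.prime_two).mp hd1
      obtain ⟨j, -, hj⟩ := (Nat.dvd_prime_pow Nat.prime_two).mp hd2
      have hrel : 2 ^ j = 2 ^ i + 2 := by omega
      have hi1 : i = 1 := by
        rcases i with _ | _ | i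
        · simp at hi
          omega
        · rfl
        · exfalso
          have hj2 : i + 1 + 1 < j := by
            have : 2 ^ (i + 1 + 1) < 2 ^ j := by omega
            exact (Nat.pow_lt_pow_iff_right (by norm_num)).mp this
          obtain ⟨l, hl⟩ : ∃ l, j = l + 2 := ⟨j - 2, by omega⟩
          rw [hl, pow_add] at hrel
          rw [pow_add] at hrel
          omega
      have hu' : u = 3 := by
        rw [hi1] at hi
        omega
      have h9 : p ^ a = 9 := by rw [hsq, hu']
      exact ⟨h9, by omega⟩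
    · -- `a` odd
      left
      obtain ⟨r, hr⟩ := hpo
      have hr1 : 1 ≤ r := by
        have := hp.two_le
        omega
      have hpow : ∀ n : ℕ, ∃ k : ℕ, p ^ (2 * n + 1) = p + 4 * r * k := by
        intro n
        induction n with
        | zero => exact ⟨0, by simp⟩
        | succ n ih =>
          obtain ⟨k, hk⟩ := ih
          refine ⟨k + (r + 1) * p + 4 * r * (r + 1) * k, ?_⟩
          have h1 : p ^ (2 * (n + 1) + 1) = p ^ (2 * n + 1) * p ^ 2 := by ring
          rw [h1, hk]
          have h2 : p ^ 2 = 1 + 4 * r * (r + 1) := by rw [hr]; ring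
          rw [h2]
          ring
      obtain ⟨n, hn⟩ := ha2
      obtain ⟨k, hk⟩ := hpow n
      rw [← hn] at hk
      have h2b : 2 ^ b = (2 * r) * (1 + 2 * k) := by
        have h3 : 2 ^ b + 1 = p + 4 * r * k := by rw [← h, hk]
        have h4 : p = 2 * r + 1 := hr
        have h5 : 2 ^ b = 2 * r + 4 * r * k := by omega
        rw [h5]
        ring
      have hd : 1 + 2 * k ∣ 2 ^ b := ⟨2 * r, by rw [h2b]; ring⟩
      obtain ⟨i, -, hi⟩ := (Nat.dvd_prime_pow Nat.prime_two).mp hd
      have hi0 : i = 0 := by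
        rcases i with _ | i
        · rfl
        · rw [pow_succ] at hi
          omega
      have hk0 : k = 0 := by
        rw [hi0, pow_zero] at hi
        omega
      have ha1 : a = 1 := by
        rw [hk0, mul_zero, add_zero] at hk
        have h3 : p ^ a = p ^ 1 := by rw [pow_one]; exact hk
        exact Nat.pow_right_injective hp.two_le h3
      subst ha1
      rw [pow_one] at h
      refine ⟨rfl, rfl, ?_, h⟩
      exact Nat.pow_of_pow_add_prime (by norm_num) (by omega) (h ▸ hp)

end Cfsg.Agent.S3784
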