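import Cfsg.Statements.S3785
import Cfsg.Agent.Lib.FGS.Cyc
import Cfsg.Agent.Lib.FGS.Basic
import Cfsg.Agent.Lib.Trans.Crit
import Cfsg.Agent.Lib.SS.System

set_option autoImplicit false
open Cfsg

namespace Cfsg.Agent.S3785

theorem h8_central_of_prime_fix {G : Type*} [Group G] [Finite G] {p : ℕ} [Fact p.Prime] (hodd : p ≠ 2) (c : G)
    (hc : (orderOf c).Coprime p)
    (hfix : ∀ y ∈ Cfsg.pCore p G, (orderOf y).Prime → c * y = y * c) :
    ∀ y ∈ Cfsg.pCore p G, c * y = y * c := by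
  classical
  haveI hn : (Cfsg.pCore p G).Normal := CfsgLib.Solv.pCore_normal' p
  have h1 := CfsgLib.Trans.aut_trivial_of_omega hodd (CfsgLib.Solv.pCore_isPGroup p (G := G))
    (MulAut.conjNormal c) (Nat.Coprime.coprime_dvd_left (orderOf_map_dvd _ c) hc) (by
      intro x hx
      by_cases hx1 : x = 1
      · rw [hx1, map_one]
      have ho : orderOf (x : G) = p := by
        rw [Subgroup.orderOf_coe]
        exact orderOf_eq_prime hx hx1
      have h2 := hfix x x.2 (by rw [ho]; exact Fact.out)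
      apply Subtype.ext
      show c * (x : G) * c⁻¹ = x
      rw [h2]; group)
  intro y hy
  have h2 := congrArg (fun α : MulAut ↥(Cfsg.pCore p G) => ((α ⟨y, hy⟩ : ↥(Cfsg.pCore p G)) : G)) h1
  have h3 : c * y * c⁻¹ = y := h2
  calc c * y = c * y * c⁻¹ * c := by group
    _ = y * c := by rw [h3]


/-- Let G be a finite solvable group whose Fitting subgroup F(G) has odd order. If an element g of G commutes with every element of prime order of F(G), then g ∈ F(G). -/
theorem result {G : Type*} [Group G] [Finite G] (hG : Group.IsSolvable G) (hodd : Odd (Nat.card (Cfsg.fittingSubgroup G))) (g : G) (hg : ∀ x ∈ Cfsg.fittingSubgroup G, (orderOf x).Prime → g * x = x * g) : g ∈ Cfsg.fittingSubgroup G := by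
  classical
  by_contra hgF
  haveI hFn : (Cfsg.fittingSubgroup G).Normal := CfsgLib.Solv.fittingSubgroup_normal'
  -- the centralizer of the elements of prime order of `F`
  obtain ⟨S, hS⟩ : ∃ S : Set G, S = {y | y ∈ Cfsg.fittingSubgroup G ∧ (orderOf y).Prime} := ⟨_, rfl⟩
  have hSconj : ∀ u : G, ∀ y ∈ S, u * y * u⁻¹ ∈ S := by
    intro u y hy
    rw [hS] at hy ⊢
    refine ⟨hFn.conj_mem y hy.1 u, ?_⟩
    rw [CfsgLib.FGS.orderOf_conj_eq]
    exact hy.2
  obtain ⟨C, hC⟩ : ∃ C : Subgroup G, C = Subgroup.centralizer S := ⟨_, rfl⟩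
  have hCmem : ∀ x, x ∈ C ↔ ∀ y ∈ S, y * x = x * y := by
    intro x
    rw [hC, Subgroup.mem_centralizer_iff]
  haveI hCn : C.Normal := by
    constructor
    intro x hx u
    rw [hCmem] at hx ⊢
    intro y hy
    have h1 := hx _ (hSconj u⁻¹ y hy)
    calc y * (u * x * u⁻¹) = u * (u⁻¹ * y * u⁻¹⁻¹ * x) * u⁻¹ := by group
      _ = u * (x * (u⁻¹ * y * u⁻¹⁻¹)) * u⁻¹ := by rw [h1]
      _ = _ := by group
  have hgC : g ∈ C := by
    rw [hCmem]
    intro y hy
    rw [hS] at hy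
    exact (hg y hy.1 hy.2).symm
  -- pass to the quotient
  have hTne : (Cfsg.fittingSubgroup G ⊔ C).map (QuotientGroup.mk' (Cfsg.fittingSubgroup G)) ≠ ⊥ := by
    intro h
    have h1 : (g : G ⧸ Cfsg.fittingSubgroup G) ∈ (Cfsg.fittingSubgroup G ⊔ C).map (QuotientGroup.mk' (Cfsg.fittingSubgroup G)) :=
      ⟨g, Subgroup.mem_sup_right hgC, rfl⟩
    rw [h, Subgroup.mem_bot, QuotientGroup.eq_one_iff] at h1
    exact hgF h1
  haveI hTnorm : ((Cfsg.fittingSubgroup G ⊔ C).map (QuotientGroup.mk' (Cfsg.fittingSubgroup G))).Normal :=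
    Subgroup.Normal.map inferInstance _ (QuotientGroup.mk'_surjective _)
  obtain ⟨Lb, hLbn, hLb0, hLbT, hLbmin⟩ := CfsgLib.SS.exists_minimal_normal_le _ hTne
  haveI := hLbn
  obtain ⟨-, r, hr, hLbr⟩ := CfsgLib.Solv.minimal_normal_elementary Lb hLb0 hLbmin
  haveI : Fact r.Prime := ⟨hr⟩
  obtain ⟨L, hL⟩ : ∃ L : Subgroup G, L = Lb.comap (QuotientGroup.mk' (Cfsg.fittingSubgroup G)) := ⟨_, rfl⟩
  have hLmem : ∀ x, x ∈ L ↔ (x : G ⧸ Cfsg.fittingSubgroup G) ∈ Lb := by
    intro x; rw [hL]; rfl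
  haveI hLn : L.Normal := by rw [hL]; exact Subgroup.Normal.comap hLbn _
  have hFL : Cfsg.fittingSubgroup G ≤ L := by
    intro x hx
    rw [hLmem, (QuotientGroup.eq_one_iff x).2 hx]
    exact Lb.one_mem
  have hLT : L ≤ Cfsg.fittingSubgroup G ⊔ C := by
    intro x hx
    rw [hLmem] at hx
    obtain ⟨t, ht, hxt⟩ := hLbT hx
    have h1 : t⁻¹ * x ∈ Cfsg.fittingSubgroup G := QuotientGroup.eq.1 hxt
    have e : x = t * (t⁻¹ * x) := by group
    rw [e]
    exact Subgroup.mul_mem _ ht (Subgroup.mem_sup_left h1)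
  have hLF : ¬ L ≤ Cfsg.fittingSubgroup G := by
    intro h
    apply hLb0
    rw [eq_bot_iff]
    intro x hx
    obtain ⟨y, rfl⟩ := QuotientGroup.mk_surjective x
    have h1 : y ∈ L := (hLmem y).2 hx
    exact Subgroup.mem_bot.2 ((QuotientGroup.eq_one_iff y).2 (h h1))
  have hFact1 : ∀ x ∈ L, x ^ r ∈ Cfsg.fittingSubgroup G := by
    intro x hx
    have h1 := hLbr _ ((hLmem x).1 hx)
    have h2 : ((x ^ r : G) : G ⧸ Cfsg.fittingSubgroup G) = 1 := h1
    exact (QuotientGroup.eq_one_iff _).1 h2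
  -- the `r'`-part of `F`
  obtain ⟨W, hW⟩ : ∃ W : Subgroup G, W = ⨆ p : {p : Nat.Primes // (p : ℕ) ≠ r}, Cfsg.pCore ((p : Nat.Primes) : ℕ) G := ⟨_, rfl⟩
  haveI hWn : W.Normal := by
    rw [hW]
    haveI : ∀ p : {p : Nat.Primes // (p : ℕ) ≠ r}, (Cfsg.pCore ((p : Nat.Primes) : ℕ) G).Normal :=
      fun p => CfsgLib.Solv.pCore_normal' _
    exact Subgroup.iSup_normal _
  have hFdec : Cfsg.fittingSubgroup G ≤ Cfsg.pCore r G ⊔ W := by
    rw [CfsgLib.Solv.fitting_eq_iSup_pCore]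
    refine iSup_le fun q => ?_
    by_cases hq : (q : ℕ) = r
    · rw [hq]; exact le_sup_left
    · refine le_trans ?_ le_sup_right
      rw [hW]
      exact le_iSup (fun p : {p : Nat.Primes // (p : ℕ) ≠ r} => Cfsg.pCore ((p : Nat.Primes) : ℕ) G) ⟨q, hq⟩
  have hWF : W ≤ Cfsg.fittingSubgroup G := by
    rw [hW, CfsgLib.Solv.fitting_eq_iSup_pCore]
    refine iSup_le fun q => ?_
    exact le_iSup (fun p : Nat.Primes => Cfsg.pCore (p : ℕ) G) q.1
  have hFact2a : ∀ x ∈ Cfsg.fittingSubgroup G, ∃ n : ℕ, x ^ r ^ n ∈ W := by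
    intro x hx
    have h1 := hFdec hx
    rw [sup_comm, ← SetLike.mem_coe, Subgroup.normal_mul, Set.mem_mul] at h1
    obtain ⟨w, hw, u, hu, rfl⟩ := h1
    obtain ⟨n, hn⟩ := (CfsgLib.Solv.pCore_isPGroup r (G := G)) ⟨u, hu⟩
    have hn' : u ^ r ^ n = 1 := congrArg Subtype.val hn
    refine ⟨n, ?_⟩
    have h2 : ((w * u) ^ r ^ n : G) ∈ W ↔ ((((w * u) ^ r ^ n : G) : G) : G ⧸ W) = 1 := (QuotientGroup.eq_one_iff _).symm
    rw [h2]
    have h3 : ((w : G) : G ⧸ W) = 1 := (QuotientGroup.eq_one_iff _).2 hw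
    have h4 : (((w * u) ^ r ^ n : G) : G ⧸ W) = (((w : G) : G ⧸ W) * ((u : G) : G ⧸ W)) ^ r ^ n := rfl
    rw [h4, h3, one_mul]
    have h5 : (((u ^ r ^ n : G)) : G ⧸ W) = ((u : G) : G ⧸ W) ^ r ^ n := rfl
    rw [← h5, hn']
    rfl
  have hFact2 : ∀ x ∈ L, ∃ n : ℕ, x ^ r ^ n ∈ W := by
    intro x hx
    obtain ⟨n, hn⟩ := hFact2a _ (hFact1 x hx)
    refine ⟨n + 1, ?_⟩
    rw [pow_succ', pow_mul]
    exact hn
  -- `r`-elements of `C` centralize `W`
  have hFact3 : ∀ c ∈ C, (∃ k : ℕ, orderOf c = r ^ k) → ∀ y ∈ W, c * y = y * c := by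
    intro c hc ⟨k, hk⟩ y hy
    have hle : W ≤ Subgroup.centralizer ({c} : Set G) := by
      rw [hW]
      refine iSup_le ?_
      rintro ⟨q, hq⟩ z hz
      rw [Subgroup.mem_centralizer_singleton_iff]
      haveI : Fact (q : ℕ).Prime := ⟨q.2⟩
      have hzF : z ∈ Cfsg.fittingSubgroup G := by
        rw [CfsgLib.Solv.fitting_eq_iSup_pCore]
        exact (le_iSup (fun p : Nat.Primes => Cfsg.pCore (p : ℕ) G) q) hz
      by_cases hq2 : (q : ℕ) = 2
      · -- the `2`-core is trivial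
        have hz1 : orderOf z ∣ Nat.card (Cfsg.fittingSubgroup G) := Subgroup.orderOf_dvd_natCard _ hzF
        have hzp : (Cfsg.pCore ((q : Nat.Primes) : ℕ) G : Subgroup G) ≤ _ := le_rfl
        obtain ⟨m, hm⟩ := (CfsgLib.Solv.pCore_isPGroup (q : ℕ) (G := G)) ⟨z, hz⟩
        have hm' : z ^ (q : ℕ) ^ m = 1 := congrArg Subtype.val hm
        rw [hq2] at hm'
        have hz2 : orderOf z ∣ 2 ^ m := orderOf_dvd_of_pow_eq_one hm'
        have hcop : (Nat.card (Cfsg.fittingSubgroup G)).Coprime (2 ^ m) :=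
          Nat.Coprime.pow_right m (Nat.coprime_two_right.2 hodd)
        have h1 : orderOf z = 1 := Nat.dvd_one.1 (by
          have := Nat.dvd_gcd hz1 hz2
          rwa [hcop] at this)
        rw [orderOf_eq_one_iff.1 h1]
        simp
      · have hcop : (orderOf c).Coprime (q : ℕ) := by
          rw [hk]
          apply Nat.Coprime.pow_left
          exact (Nat.coprime_primes hr q.2).2 (Ne.symm hq)
        have h1 := h8_central_of_prime_fix hq2 c hcop (by
          intro t ht hto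
          have h2 : t ∈ Cfsg.fittingSubgroup G := by
            rw [CfsgLib.Solv.fitting_eq_iSup_pCore]
            exact (le_iSup (fun p : Nat.Primes => Cfsg.pCore (p : ℕ) G) q) ht
          have h3 := (hCmem c).1 hc t (by rw [hS]; exact ⟨h2, hto⟩)
          exact h3.symm) z hz
        exact h1.symm
    have := hle hy
    rw [Subgroup.mem_centralizer_singleton_iff] at this
    exact this.symm
  -- `K = C_L(W)` is nilpotent
  obtain ⟨K, hK⟩ : ∃ K : Subgroup G, K = L ⊓ Subgroup.centralizer (W : Set G) := ⟨_, rfl⟩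
  have hKmem : ∀ x, x ∈ K ↔ x ∈ L ∧ ∀ y ∈ W, y * x = x * y := by
    intro x
    rw [hK, Subgroup.mem_inf, Subgroup.mem_centralizer_iff]
    exact Iff.rfl
  haveI hKn : K.Normal := by
    rw [hK]
    haveI : (Subgroup.centralizer (W : Set G)).Normal := Subgroup.normal_centralizer
    infer_instance
  haveI hKnil : Group.IsNilpotent K := by
    apply Group.of_quotient_center_nilpotent
    have : IsPGroup r (K ⧸ Subgroup.center K) := by
      intro x
      obtain ⟨k, rfl⟩ := QuotientGroup.mk_surjective x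
      obtain ⟨n, hn⟩ := hFact2 k ((hKmem k).1 k.2).1
      refine ⟨n, ?_⟩
      have h1 : ((k ^ r ^ n : K) : K ⧸ Subgroup.center K) = 1 := by
        rw [QuotientGroup.eq_one_iff, Subgroup.mem_center_iff]
        intro u
        apply Subtype.ext
        exact (((hKmem u).1 u.2).2 _ hn).symm
      exact h1
    exact this.isNilpotent
  have hKF : K ≤ Cfsg.fittingSubgroup G := CfsgLib.Solv.le_fittingSubgroup' K hKnil
  -- all of `L ∩ C` lies in `F`
  have hFact4 : ∀ x ∈ L, x ∈ C → x ∈ Cfsg.fittingSubgroup G := by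
    intro x hxL hxC
    obtain ⟨s, t, hs, ht, rfl, -, hsk, htc⟩ := CfsgLib.FGS.exists_primary_decomp r hr x
    have hzL : Subgroup.zpowers (s * t) ≤ L := (Subgroup.zpowers_le).2 hxL
    have hzC : Subgroup.zpowers (s * t) ≤ C := (Subgroup.zpowers_le).2 hxC
    refine Subgroup.mul_mem _ ?_ ?_
    · apply hKF
      rw [hKmem]
      refine ⟨hzL hs, fun y hy => (hFact3 s (hzC hs) hsk y hy).symm⟩
    · obtain ⟨n, hn⟩ := hFact2 t (hzL ht)
      have hcop : (orderOf t).Coprime (r ^ n) := Nat.Coprime.pow_right n htc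
      -- `t` is a power of `t ^ r ^ n`
      have h1 : t ∈ Subgroup.zpowers (t ^ r ^ n) := by
        by_cases ho : orderOf t = 1
        · rw [orderOf_eq_one_iff.1 ho]
          exact Subgroup.one_mem _
        · have ho1 : 1 < orderOf t := lt_of_le_of_ne (orderOf_pos t) (Ne.symm ho)
          obtain ⟨m, -, hm⟩ := Nat.exists_mul_mod_eq_one_of_coprime hcop.symm ho1
          have h2 : (t ^ r ^ n) ^ m = t := by
            rw [← pow_mul, ← pow_mod_orderOf, hm, pow_one]
          exact ⟨(m : ℤ), by simpa using h2⟩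
      exact hWF ((Subgroup.zpowers_le).2 hn h1)
  apply hLF
  intro l hl
  have h1 := hLT hl
  rw [← SetLike.mem_coe, Subgroup.normal_mul, Set.mem_mul] at h1
  obtain ⟨f, hf, c, hc, rfl⟩ := h1
  refine Subgroup.mul_mem _ hf (hFact4 c ?_ hc)
  have e : c = f⁻¹ * (f * c) := by group
  rw [e]
  exact L.mul_mem (L.inv_mem (hFL hf)) hl

end Cfsg.Agent.S3785
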