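import Cfsg.Statements.S3790
import Cfsg.Agent.Lib.FGS.PLen
import Cfsg.Agent.Lib.Solv.SZ

set_option autoImplicit false
open Cfsg
open scoped commutatorElement
open scoped Pointwise

namespace Cfsg.Agent.S3790

universe u_1

open CfsgLib.FGS.PLen in
theorem h8_main {p : ℕ} [Fact p.Prime] : ∀ (r : ℕ) (q l : Fin r → ℕ), (∀ i, (q i).Prime ∧ q i ≠ p) →
    ∀ (G : Type u_1) [Group G] [Finite G],
      (∀ s : ℕ, s.Prime → s ∣ Nat.card G → s ≠ p → ∃ i, q i = s) → (∀ i, Cfsg.PLengthLE (q i) (l i) G) →
      Cfsg.PLengthLE p (Finset.univ.prod fun i => 1 + l i) G := by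
  intro r
  induction r with
  | zero =>
    intro q l hq G _ _ hcover hl
    simp only [Finset.univ_eq_empty, Finset.prod_empty]
    apply plength_of_pgroup
    have hpp : p.Prime := Fact.out
    obtain ⟨k, hk⟩ : ∃ k, Nat.card G = p ^ k := by
      refine ⟨_, Nat.eq_prime_pow_of_unique_prime_dvd (Nat.card_pos (α := G)).ne' (fun {d} hd hdm => ?_)⟩
      by_contra hne
      obtain ⟨i, -⟩ := hcover d hd hdm hne
      exact i.elim0
    exact IsPGroup.of_card hk
  | succ r ih =>
    intro q l hq
    set q0 := q (Fin.last r) with hq0
    have hq0p : q0.Prime := (hq _).1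
    haveI : Fact q0.Prime := ⟨hq0p⟩
    have hq0ne : q0 ≠ p := (hq _).2
    set q' : Fin r → ℕ := fun i => q i.castSucc with hq'
    set l' : Fin r → ℕ := fun i => l i.castSucc with hl'
    have hq'p : ∀ i, (q' i).Prime ∧ q' i ≠ p := fun i => hq _
    set m := Finset.univ.prod fun i => 1 + l' i with hm
    -- groups of order prime to `q0`
    have hbase : ∀ (G : Type u_1) [Group G] [Finite G], (Nat.card G).Coprime q0 →
        (∀ s : ℕ, s.Prime → s ∣ Nat.card G → s ≠ p → ∃ i, q i = s) → (∀ i, Cfsg.PLengthLE (q' i) (l' i) G) →
        Cfsg.PLengthLE p m G := by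
      intro G _ _ hc hcover hl
      refine ih q' l' hq'p G ?_ hl
      intro s hs hsd hsp
      obtain ⟨i, hi⟩ := hcover s hs hsd hsp
      induction i using Fin.lastCases with
      | last =>
        exfalso
        have h1 : s = q0 := hi.symm
        rw [h1] at hsd
        exact hq0p.one_lt.ne' (hc.symm.eq_one_of_dvd hsd)
      | cast j => exact ⟨j, hi⟩
    have hstep : ∀ n : ℕ, ∀ (G : Type u_1) [Group G] [Finite G],
        (∀ s : ℕ, s.Prime → s ∣ Nat.card G → s ≠ p → ∃ i, q i = s) → Cfsg.PLengthLE q0 n G →
        (∀ i, Cfsg.PLengthLE (q' i) (l' i) G) → Cfsg.PLengthLE p ((n + 1) * m) G := by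
      intro n
      induction n with
      | zero =>
        intro G _ _ hcover h0 hl
        rw [zero_add, one_mul]
        refine hbase G ?_ hcover hl
        obtain ⟨U, hn, h00, htop, hle, hc, hP⟩ := pch_of_plength h0
        have := hc 0
        simp only [mul_zero, zero_add] at htop
        simpa [h00, htop] using this
      | succ n ihn =>
        intro G _ _ hcover h0 hl
        obtain ⟨U, hn, h00, htop, hle, hc, hP⟩ := pch_of_plength h0
        haveI hB : (U 2).Normal := hn 2
        -- the quotient
        have hQ : Cfsg.PLengthLE p ((n + 1) * m) (G ⧸ U 2) := by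
          refine ihn (G ⧸ U 2) ?_ (plength_of_pch (pch_shift hn htop hle hc hP (U 2) le_rfl)) ?_
          · intro s hs hsd hsp
            exact hcover s hs (hsd.trans (Subgroup.card_quotient_dvd_card (U 2))) hsp
          · intro i
            haveI : Fact (q' i).Prime := ⟨(hq'p i).1⟩
            exact plength_quotient _ (hl i)
        -- the middle
        have h12 : U 1 ≤ U 2 := hle 1
        have hcard : Nat.card ↥((U 1).subgroupOf (U 2)) = Nat.card (U 1) :=
          CfsgLib.Solv.card_subgroupOf_of_le h12
        have hA : Cfsg.PLengthLE p m ↥((U 1).subgroupOf (U 2)) := by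
          refine hbase _ ?_ ?_ ?_
          · rw [hcard]
            have := hc 0
            simpa [h00] using this
          · intro s hs hsd hsp
            refine hcover s hs ?_ hsp
            exact hsd.trans ((Subgroup.card_subgroup_dvd_card _).trans (Subgroup.card_subgroup_dvd_card _))
          · intro i
            haveI : Fact (q' i).Prime := ⟨(hq'p i).1⟩
            exact plength_subgroup _ (plength_subgroup _ (hl i))
        haveI : ((U 1).subgroupOf (U 2)).Normal := by
          haveI := hn 1
          infer_instance
        have hM : Cfsg.PLengthLE p 0 (↥(U 2) ⧸ (U 1).subgroupOf (U 2)) := by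
          apply plength_of_coprime
          obtain ⟨k, hk⟩ := hP 0
          have h1 : Nat.card (↥(U 2) ⧸ (U 1).subgroupOf (U 2)) = (U 1).relIndex (U 2) := rfl
          rw [h1]
          simp only [mul_zero, zero_add] at hk
          rw [hk]
          refine Nat.Coprime.pow_left _ ?_
          exact (Nat.coprime_primes hq0p (Fact.out : p.Prime)).2 hq0ne
        have hB2 := plength_add ((U 1).subgroupOf (U 2)) hA hM
        have hG2 := plength_add (U 2) hB2 hQ
        have hfin : m + 0 + (n + 1) * m = (n + 1 + 1) * m := by ring
        rwa [hfin] at hG2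
    have hlast := fun (G : Type u_1) [Group G] [Finite G] => hstep (l (Fin.last r)) G
    intro G _ _ hcover hl
    rw [Fin.prod_univ_castSucc]
    have h1 := hlast G hcover (hl _) (fun i => hl _)
    have h2 : (Finset.univ.prod fun i : Fin r => 1 + l i.castSucc) * (1 + l (Fin.last r)) = (l (Fin.last r) + 1) * m := by
      rw [mul_comm, add_comm]
    rw [h2]
    exact h1


/-- Let G be a finite solvable group and p a prime. Suppose p₁, …, p_r are distinct primes, all different from p, that include every prime dividing the order of G other than p, and that G has p_i-length at most l_i for each i. Then G has p-length at most the product of the numbers 1 + l_i. -/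
theorem result {G : Type*} [Group G] [Finite G] (hG : Group.IsSolvable G) (p : ℕ) [Fact p.Prime] (r : ℕ) (q : Fin r → ℕ) (hq : ∀ i, (q i).Prime ∧ q i ≠ p) (hinj : Function.Injective q) (hcover : ∀ s : ℕ, s.Prime → s ∣ Nat.card G → s ≠ p → ∃ i, q i = s) (l : Fin r → ℕ) (hl : ∀ i, Cfsg.PLengthLE (q i) (l i) G) : Cfsg.PLengthLE p (Finset.univ.prod fun i => 1 + l i) G := by
  exact h8_main r q l hq G hcover hl

end Cfsg.Agent.S3790
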