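import Cfsg.Statements.S3791
import Cfsg.Agent.Lib.FGS.PLen
import Cfsg.Agent.Lib.Solv.SZ

set_option autoImplicit false
open Cfsg
open scoped commutatorElement
open scoped Pointwise

namespace Cfsg.Agent.S3791

universe u_1

theorem h8_derived_mono {G : Type*} [Group G] {H K : Subgroup G} (h : H ≤ K) (n : ℕ) :
    (derivedSeries H n).map H.subtype ≤ (derivedSeries K n).map K.subtype := by
  induction n with
  | zero =>
    simp only [derivedSeries_zero]
    rw [← MonoidHom.range_eq_map, ← MonoidHom.range_eq_map, Subgroup.range_subtype, Subgroup.range_subtype]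
    exact h
  | succ n ih =>
    simp only [derivedSeries_succ]
    rw [Subgroup.map_commutator, Subgroup.map_commutator]
    exact Subgroup.commutator_mono ih ih

theorem h8_derived_add {G : Type*} [Group G] (T : Subgroup G) (a b : ℕ) (h : derivedSeries G a ≤ T) :
    derivedSeries G (a + b) ≤ (derivedSeries T b).map T.subtype := by
  induction b with
  | zero =>
    simp only [add_zero, derivedSeries_zero]
    rw [← MonoidHom.range_eq_map, Subgroup.range_subtype]
    exact h
  | succ b ih =>
    rw [← add_assoc, derivedSeries_succ, derivedSeries_succ, Subgroup.map_commutator]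
    exact Subgroup.commutator_mono ih ih

open CfsgLib.FGS.PLen in
theorem h8_main {r : ℕ} (q : Fin r → ℕ) (hq : ∀ i, (q i).Prime) (d : Fin r → ℕ) :
    ∀ (n : ℕ) (G : Type u_1) [Group G] [Finite G], Nat.card G ≤ n → ∀ l : Fin r → ℕ,
      (∀ s : ℕ, s.Prime → s ∣ Nat.card G → ∃ i, q i = s) →
      (∀ i, ∀ P : Subgroup G, (haveI := Fact.mk (hq i); ∃ S : Sylow (q i) G, (S : Subgroup G) = P) →
        derivedSeries ↥P (d i) = ⊥) →
      (∀ i, Cfsg.PLengthLE (q i) (l i) G) →
      derivedSeries G (Finset.univ.sum fun i => d i * l i) = ⊥ := by
  intro n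
  induction n with
  | zero =>
    intro G _ _ hn
    exact absurd hn (by have := Nat.card_pos (α := G); omega)
  | succ n ih =>
    intro G _ _ hn l hcover hd hl
    classical
    by_cases hG1 : Nat.card G = 1
    · haveI : Subsingleton G := (Nat.card_eq_one_iff_unique.1 hG1).1
      exact Subsingleton.elim _ _
    set D := derivedSeries G (Finset.univ.sum fun i => d i * l i) with hD
    -- it suffices to show `D ≤ O_{q_i'}(G)` for each `i`
    have hiInf : ∀ x : G, (∀ i, x ∈ Cfsg.pPrimeCore (q i) G) → x = 1 := by
      intro x hx
      by_contra hne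
      have ho : orderOf x ≠ 1 := by
        intro h
        exact hne (orderOf_eq_one_iff.1 h)
      obtain ⟨s, hs, hsd⟩ := Nat.exists_prime_and_dvd ho
      obtain ⟨i, rfl⟩ := hcover s hs (hsd.trans (orderOf_dvd_natCard x))
      haveI : Fact (q i).Prime := ⟨hq i⟩
      have h1 := CfsgLib.Solv.pPrimeCore_coprime (G := G) (q i)
      have h2 : orderOf x ∣ Nat.card (Cfsg.pPrimeCore (q i) G) := Subgroup.orderOf_dvd_natCard _ (hx i)
      have h3 : q i ∣ Nat.card (Cfsg.pPrimeCore (q i) G) := hsd.trans h2
      exact hs.one_lt.ne' (h1.symm.eq_one_of_dvd h3)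
    suffices hsuff : ∀ i, D ≤ Cfsg.pPrimeCore (q i) G by
      rw [eq_bot_iff]
      intro x hx
      exact hiInf x (fun i => hsuff i hx)
    intro i
    haveI hfi : Fact (q i).Prime := ⟨hq i⟩
    set K := Cfsg.pPrimeCore (q i) G with hK
    haveI hKn : K.Normal := inferInstance
    -- hypotheses on quotients
    have hquot : ∀ (N : Subgroup G) [N.Normal], (∀ j, ∀ P : Subgroup (G ⧸ N),
        (haveI := Fact.mk (hq j); ∃ S : Sylow (q j) (G ⧸ N), (S : Subgroup (G ⧸ N)) = P) →
        derivedSeries ↥P (d j) = ⊥) := by
      intro N _ j P hP
      haveI : Fact (q j).Prime := ⟨hq j⟩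
      obtain ⟨S, rfl⟩ := hP
      obtain ⟨S0, rfl⟩ := Sylow.mapSurjective_surjective (QuotientGroup.mk'_surjective N) (q j) S
      have h1 := hd j S0 ⟨S0, rfl⟩
      set f := (QuotientGroup.mk' N).subgroupMap (S0 : Subgroup G) with hf
      have hfs : Function.Surjective f := (QuotientGroup.mk' N).subgroupMap_surjective _
      have h2 := map_derivedSeries_eq hfs (d j)
      have h3 : (derivedSeries ↥(S0 : Subgroup G) (d j)).map f = ⊥ := by rw [h1, Subgroup.map_bot]
      rw [h2] at h3
      exact h3
    have hcovq : ∀ (N : Subgroup G) [N.Normal], ∀ s : ℕ, s.Prime → s ∣ Nat.card (G ⧸ N) → ∃ i, q i = s := by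
      intro N _ s hs hsd
      exact hcover s hs (hsd.trans (Subgroup.card_quotient_dvd_card N))
    have hcard : ∀ (N : Subgroup G) [N.Normal], N ≠ ⊥ → Nat.card (G ⧸ N) ≤ n := by
      intro N _ hN
      have h1 := Subgroup.card_mul_index N
      have h2 : 2 ≤ Nat.card N := by
        by_contra hcon
        have h3 : Nat.card N = 1 := by have := Nat.card_pos (α := N); omega
        exact hN (Subgroup.eq_bot_of_card_eq N h3)
      have h4 : N.index = Nat.card (G ⧸ N) := rfl
      rw [← h4]
      have h5 := Nat.card_pos (α := G)
      have h6 : 0 < N.index := Nat.pos_of_ne_zero Subgroup.index_ne_zero_of_finite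
      nlinarith
    by_cases hK0 : K = ⊥
    · -- here `O_{q_i'}(G) = 1`
      obtain ⟨U, hUn, hU0, htop, hle, hc, hP⟩ := pch_of_plength (hl i)
      have hU1 : U 1 = ⊥ := by
        have h1 := hc 0
        simp only [mul_zero, zero_add, hU0, Subgroup.relIndex_bot_left] at h1
        haveI := hUn 1
        have h2 := CfsgLib.FGS.le_pPrimeCore (U 1) h1
        rw [← hK, hK0] at h2
        exact le_bot_iff.1 h2
      set T := Cfsg.pCore (q i) G with hT
      haveI hTn : T.Normal := inferInstance
      have hU2 : U 2 ≤ T := by
        obtain ⟨m, hm⟩ := hP 0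
        simp only [mul_zero, zero_add, hU1, Subgroup.relIndex_bot_left] at hm
        haveI := hUn 2
        exact CfsgLib.FGS.le_pCore (U 2) (IsPGroup.of_card hm)
      have hTne : T ≠ ⊥ := by
        intro hT0
        have hall : ∀ j, U j = ⊥ := by
          intro j
          induction j using Nat.strong_induction_on with
          | _ j ihj =>
            rcases j with _ | j
            · exact hU0
            rcases Nat.even_or_odd' j with ⟨k, rfl | rfl⟩
            · have h1 := hc k
              rw [ihj (2 * k) (by omega), Subgroup.relIndex_bot_left] at h1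
              haveI := hUn (2 * k + 1)
              have h2 := CfsgLib.FGS.le_pPrimeCore (U (2 * k + 1)) h1
              rw [← hK, hK0] at h2
              exact le_bot_iff.1 h2
            · obtain ⟨m, hm⟩ := hP k
              rw [ihj (2 * k + 1) (by omega), Subgroup.relIndex_bot_left] at hm
              haveI := hUn (2 * k + 2)
              have h2 := CfsgLib.FGS.le_pCore (U (2 * k + 2)) (IsPGroup.of_card hm)
              rw [← hT, hT0] at h2
              exact le_bot_iff.1 h2
        have h1 := hall (2 * l i + 1)
        rw [htop] at h1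
        apply hG1
        have h2 : Nat.card (⊤ : Subgroup G) = 1 := by rw [h1]; exact Subgroup.card_bot
        rwa [Subgroup.card_top] at h2
      -- `l i ≠ 0`
      have hli : l i ≠ 0 := by
        intro h0
        rw [h0] at htop
        simp only [mul_zero, zero_add, hU1] at htop
        apply hG1
        have h2 : Nat.card (⊤ : Subgroup G) = 1 := by rw [← htop]; exact Subgroup.card_bot
        rwa [Subgroup.card_top] at h2
      obtain ⟨m, hm⟩ : ∃ m, l i = m + 1 := ⟨l i - 1, by omega⟩
      set l' : Fin r → ℕ := Function.update l i m with hl'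
      have hIH : derivedSeries (G ⧸ T) (Finset.univ.sum fun j => d j * l' j) = ⊥ := by
        refine ih (G ⧸ T) (hcard T hTne) l' (hcovq T) (hquot T) ?_
        intro j
        by_cases hj : j = i
        · subst hj
          simp only [hl', Function.update_self]
          rw [hm] at htop
          exact plength_of_pch (pch_shift hUn htop hle hc hP T hU2)
        · simp only [hl', Function.update_of_ne hj]
          haveI : Fact (q j).Prime := ⟨hq j⟩
          exact plength_quotient _ (hl j)
      have hle2 : derivedSeries G (Finset.univ.sum fun j => d j * l' j) ≤ T := by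
        have h1 := map_derivedSeries_eq (QuotientGroup.mk'_surjective T) (Finset.univ.sum fun j => d j * l' j)
        rw [hIH] at h1
        intro x hx
        have h2 : QuotientGroup.mk' T x ∈ ((derivedSeries G (Finset.univ.sum fun j => d j * l' j)).map (QuotientGroup.mk' T)) :=
          Subgroup.mem_map_of_mem _ hx
        rw [h1, Subgroup.mem_bot] at h2
        exact (QuotientGroup.eq_one_iff x).1 h2
      have hadd := h8_derived_add T _ (d i) hle2
      have hsum : (Finset.univ.sum fun j => d j * l' j) + d i = Finset.univ.sum fun j => d j * l j := by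
        have h1 : (Finset.univ.sum fun j => d j * l j) = d i * l i + ((Finset.univ.erase i).sum fun j => d j * l j) :=
          (Finset.add_sum_erase _ _ (Finset.mem_univ i)).symm
        have h2 : (Finset.univ.sum fun j => d j * l' j) = d i * l' i + ((Finset.univ.erase i).sum fun j => d j * l' j) :=
          (Finset.add_sum_erase _ _ (Finset.mem_univ i)).symm
        have h3 : ((Finset.univ.erase i).sum fun j => d j * l' j) = ((Finset.univ.erase i).sum fun j => d j * l j) := by
          refine Finset.sum_congr rfl fun j hj => ?_
          have : j ≠ i := Finset.ne_of_mem_erase hj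
          simp only [hl', Function.update_of_ne this]
        have h4 : l' i = m := by simp [hl']
        rw [h1, h2, h3, h4, hm]
        ring
      rw [hsum] at hadd
      -- a Sylow subgroup containing `T`
      obtain ⟨S, hS⟩ := (CfsgLib.Solv.pCore_isPGroup (G := G) (q i)).exists_le_sylow
      have h5 := h8_derived_mono hS (d i)
      have h6 := hd i S ⟨S, rfl⟩
      rw [h6, Subgroup.map_bot] at h5
      have h7 : D = ⊥ := le_bot_iff.1 (hadd.trans h5)
      rw [h7]
      exact bot_le
    · -- the quotient by `K` is smaller
      have hIH := ih (G ⧸ K) (hcard K hK0) l (hcovq K) (hquot K) (fun j => by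
        haveI : Fact (q j).Prime := ⟨hq j⟩
        exact plength_quotient _ (hl j))
      have h1 := map_derivedSeries_eq (QuotientGroup.mk'_surjective K) (Finset.univ.sum fun j => d j * l j)
      rw [hIH] at h1
      intro x hx
      have h2 : QuotientGroup.mk' K x ∈ ((derivedSeries G (Finset.univ.sum fun j => d j * l j)).map (QuotientGroup.mk' K)) :=
        Subgroup.mem_map_of_mem _ hx
      rw [h1, Subgroup.mem_bot] at h2
      exact (QuotientGroup.eq_one_iff x).1 h2


/-- The Hall–Higman bound on derived length: let G be a finite solvable group, let p₁, …, p_r be distinct primes that include every prime dividing the order of G, and suppose that for each i the Sylow p_i-subgroups of G have derived length at most d_i and G has p_i-length at most l_i. Then G has derived length at most Σ d_i l_i. -/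
theorem result {G : Type*} [Group G] [Finite G] (hG : Group.IsSolvable G) (r : ℕ) (q : Fin r → ℕ) (hq : ∀ i, (q i).Prime) (hinj : Function.Injective q) (hcover : ∀ s : ℕ, s.Prime → s ∣ Nat.card G → ∃ i, q i = s) (d l : Fin r → ℕ) (hd : ∀ i, ∀ P : Subgroup G, (haveI := Fact.mk (hq i); ∃ S : Sylow (q i) G, (S : Subgroup G) = P) → derivedSeries ↥P (d i) = ⊥) (hl : ∀ i, Cfsg.PLengthLE (q i) (l i) G) : derivedSeries G (Finset.univ.sum fun i => d i * l i) = ⊥ := by
  exact h8_main q hq d (Nat.card G) G le_rfl l hcover hd hl

end Cfsg.Agent.S3791
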