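import Cfsg.Statements.S3798
import Cfsg.Agent.Lib.FGS.KP
import Cfsg.Agent.Lib.OOL.PLength
import Cfsg.Agent.Lib.OOL.CNTri
import Cfsg.Agent.Lib.H3.PSolv
import Cfsg.Agent.Lib.H3.Comp2
import Cfsg.Agent.Lib.Trans.Crit
import Cfsg.Agent.Lib.Solv.Coprime
import Cfsg.Agent.Lib.Solv.Fit

set_option autoImplicit false
open Cfsg
open scoped commutatorElement
open scoped Pointwise

namespace Cfsg.Agent.S3798

private theorem gy_core {G : Type*} [Group G] [Finite G] {p : ℕ} [Fact p.Prime] (hp : p ≠ 2)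
    (hG : Cfsg.IsPSolvable p G) (hO : Cfsg.pPrimeCore p G = ⊥)
    (htrans : ∀ U V : Subgroup G, Nat.card U = p → Nat.card V = p → ∃ a : MulAut G, U.map a.toMonoidHom = V) :
    (Cfsg.pCore p G).index.Coprime p := by
  classical
  have hpp : p.Prime := Fact.out
  by_cases hnt : Nontrivial G
  swap
  · rw [not_nontrivial_iff_subsingleton] at hnt
    have : Cfsg.pCore p G = ⊤ := Subsingleton.elim _ _
    rw [this, Subgroup.index_top]
    exact Nat.coprime_one_left p
  -- notation
  obtain ⟨B, hBdef⟩ : ∃ B, B = Cfsg.pCore p G := ⟨_, rfl⟩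
  rw [← hBdef]
  haveI hBn : B.Normal := by rw [hBdef]; infer_instance
  have hBp : IsPGroup p B := by rw [hBdef]; exact CfsgLib.Solv.pCore_isPGroup p
  haveI hBchar : B.Characteristic := by rw [hBdef]; exact CfsgLib.Comp.pCore_char p
  have hBa : ∀ (a : MulAut G) (x : G), x ∈ B → a x ∈ B := fun a x hx =>
    (Subgroup.characteristic_iff_le_comap.1 hBchar a) hx
  have hB0 : B ≠ ⊥ := by
    rcases CfsgLib.PSolv.core_ne_bot hG with h | h
    · rwa [← hBdef] at h
    · exact absurd hO h
  have hCB : Subgroup.centralizer (B : Set G) ≤ B := by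
    rw [hBdef]; exact CfsgLib.PSolv.centralizer_pCore_le hG hO
  -- transitivity
  have star : ∀ (W : Subgroup G), (∀ (a : MulAut G) (x : G), x ∈ W → a x ∈ W) →
      ∀ x₀ ∈ W, orderOf x₀ = p → ∀ y : G, orderOf y = p → y ∈ W := by
    intro W hW x₀ hx₀ hx₀p y hy
    obtain ⟨a, ha⟩ := htrans (Subgroup.zpowers x₀) (Subgroup.zpowers y)
      (by rw [Nat.card_zpowers, hx₀p]) (by rw [Nat.card_zpowers, hy])
    have h1 : y ∈ (Subgroup.zpowers x₀).map a.toMonoidHom := by
      rw [ha]; exact Subgroup.mem_zpowers y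
    obtain ⟨z, hz, rfl⟩ := h1
    obtain ⟨k, rfl⟩ := hz
    exact hW a _ (W.zpow_mem hx₀ k)
  -- the subgroup A
  obtain ⟨A, hA⟩ : ∃ A : Subgroup G, ∀ z, z ∈ A ↔ z ∈ B ∧ (∀ b ∈ B, z * b = b * z) ∧ z ^ p = 1 := by
    refine ⟨{ carrier := {z | z ∈ B ∧ (∀ b ∈ B, z * b = b * z) ∧ z ^ p = 1}
              one_mem' := ⟨B.one_mem, fun b _ => by simp, one_pow p⟩
              mul_mem' := ?_
              inv_mem' := ?_ }, fun z => Iff.rfl⟩
    · rintro x y ⟨h1, h2, h3⟩ ⟨h4, h5, h6⟩
      refine ⟨B.mul_mem h1 h4, fun b hb => ?_, ?_⟩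
      · rw [mul_assoc, h5 b hb, ← mul_assoc, h2 b hb, mul_assoc]
      · rw [(show Commute x y from h2 y h4).mul_pow, h3, h6, one_mul]
    · rintro x ⟨h1, h2, h3⟩
      refine ⟨B.inv_mem h1, fun b hb => ?_, by rw [inv_pow, h3, inv_one]⟩
      have := h2 b hb
      calc x⁻¹ * b = x⁻¹ * (b * x) * x⁻¹ := by group
        _ = x⁻¹ * (x * b) * x⁻¹ := by rw [this]
        _ = b * x⁻¹ := by group
  have hAa : ∀ (a : MulAut G) (x : G), x ∈ A → a x ∈ A := by
    intro a x hx
    obtain ⟨h1, h2, h3⟩ := (hA x).1 hx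
    refine (hA _).2 ⟨hBa a x h1, fun b hb => ?_, by rw [← map_pow, h3, map_one]⟩
    have h4 := h2 (a⁻¹ b) (hBa a⁻¹ b hb)
    have h5 := congrArg a h4
    simpa [map_mul] using h5
  -- an element of order `p` in `A`
  obtain ⟨x₀, hx₀A, hx₀p⟩ : ∃ x₀ ∈ A, orderOf x₀ = p := by
    haveI : Nontrivial B := (Subgroup.nontrivial_iff_ne_bot B).2 hB0
    haveI := hBp.center_nontrivial
    obtain ⟨n, hn, hcard⟩ := (hBp.to_subgroup (Subgroup.center B)).nontrivial_iff_card.1 inferInstance
    have hdvd : p ∣ Nat.card (Subgroup.center B) := by rw [hcard]; exact dvd_pow_self p hn.ne'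
    obtain ⟨z, hz⟩ := exists_prime_orderOf_dvd_card' p hdvd
    have hz' : orderOf ((z : B) : G) = p := by
      rw [Subgroup.orderOf_coe, Subgroup.orderOf_coe]; exact hz
    refine ⟨((z : B) : G), (hA _).2 ⟨(z : B).2, fun b hb => ?_, ?_⟩, hz'⟩
    · have := (Subgroup.mem_center_iff.1 z.2) ⟨b, hb⟩
      exact (congrArg Subtype.val this).symm
    · rw [← hz']; exact pow_orderOf_eq_one _
  have hAll : ∀ y : G, orderOf y = p → y ∈ A := star A hAa x₀ hx₀A hx₀p
  -- the subgroup K'
  obtain ⟨K', hK'⟩ : ∃ K', K' = (Cfsg.pPrimeCore p (G ⧸ B)).comap (QuotientGroup.mk' B) := ⟨_, rfl⟩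
  haveI hK'n : K'.Normal := by
    rw [hK']
    haveI : (Cfsg.pPrimeCore p (G ⧸ B)).Normal := inferInstance
    exact Subgroup.Normal.comap inferInstance _
  have hBK' : B ≤ K' := by
    intro x hx
    rw [hK']
    show QuotientGroup.mk' B x ∈ Cfsg.pPrimeCore p (G ⧸ B)
    rw [show QuotientGroup.mk' B x = 1 from (QuotientGroup.eq_one_iff x).2 hx]
    exact Subgroup.one_mem _
  have hK'a : ∀ (a : MulAut G) (x : G), x ∈ K' → a x ∈ K' := by
    intro a x hx
    have hmap : B.map a.toMonoidHom = B := by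
      apply le_antisymm
      · rintro _ ⟨y, hy, rfl⟩
        exact hBa a y hy
      · intro y hy
        exact ⟨a⁻¹ y, hBa a⁻¹ y hy, by simp⟩
    let a' : (G ⧸ B) ≃* (G ⧸ B) := QuotientGroup.congr B B a hmap
    haveI hc : (Cfsg.pPrimeCore p (G ⧸ B)).Characteristic := CfsgLib.Comp.pPrimeCore_char p
    have h1 : a' (QuotientGroup.mk' B x) ∈ Cfsg.pPrimeCore p (G ⧸ B) := by
      have h2 : QuotientGroup.mk' B x ∈ Cfsg.pPrimeCore p (G ⧸ B) := by rw [hK'] at hx; exact hx
      exact (Subgroup.characteristic_iff_le_comap.1 hc a') h2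
    rw [hK']
    exact h1
  have hK'cop : (B.relIndex K').Coprime p := by
    have h0 : B.relIndex K' = Nat.card (K'.map (QuotientGroup.mk' B)) := by
      have := Subgroup.relIndex_ker (K := K') (QuotientGroup.mk' B)
      rwa [QuotientGroup.ker_mk'] at this
    have : K'.map (QuotientGroup.mk' B) = Cfsg.pPrimeCore p (G ⧸ B) := by
      rw [hK', Subgroup.map_comap_eq_self_of_surjective (QuotientGroup.mk'_surjective B)]
    rw [h0, this]
    exact CfsgLib.Solv.pPrimeCore_coprime p
  -- the dichotomy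
  by_cases hcase : ∃ z ∈ A, z ≠ 1 ∧ ∀ k ∈ K', z * k = k * z
  · -- case (b): `K'` centralizes all elements of order `p`
    obtain ⟨z, hzA, hz1, hzK⟩ := hcase
    obtain ⟨D₀, hD₀⟩ : ∃ D₀ : Subgroup G, ∀ y, y ∈ D₀ ↔ y ∈ A ∧ ∀ k ∈ K', y * k = k * y := by
      refine ⟨{ carrier := {y | y ∈ A ∧ ∀ k ∈ K', y * k = k * y}
                one_mem' := ⟨A.one_mem, fun b _ => by simp⟩
                mul_mem' := ?_
                inv_mem' := ?_ }, fun z => Iff.rfl⟩
      · rintro x y ⟨h1, h2⟩ ⟨h3, h4⟩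
        refine ⟨A.mul_mem h1 h3, fun k hk => ?_⟩
        rw [mul_assoc, h4 k hk, ← mul_assoc, h2 k hk, mul_assoc]
      · rintro x ⟨h1, h2⟩
        refine ⟨A.inv_mem h1, fun k hk => ?_⟩
        have := h2 k hk
        calc x⁻¹ * k = x⁻¹ * (k * x) * x⁻¹ := by group
          _ = x⁻¹ * (x * k) * x⁻¹ := by rw [this]
          _ = k * x⁻¹ := by group
    have hD₀a : ∀ (a : MulAut G) (x : G), x ∈ D₀ → a x ∈ D₀ := by
      intro a x hx
      obtain ⟨h1, h2⟩ := (hD₀ x).1 hx
      refine (hD₀ _).2 ⟨hAa a x h1, fun k hk => ?_⟩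
      have h4 := h2 (a⁻¹ k) (hK'a a⁻¹ k hk)
      have h5 := congrArg a h4
      simpa [map_mul] using h5
    have hzord : orderOf z = p := orderOf_eq_prime ((hA z).1 hzA).2.2 hz1
    have hAllD : ∀ y : G, orderOf y = p → y ∈ D₀ := star D₀ hD₀a z ((hD₀ z).2 ⟨hzA, hzK⟩) hzord
    -- a `p'`-element of `K'` is trivial
    have hkey : ∀ k ∈ K', (orderOf k).Coprime p → k = 1 := by
      intro k hk hcop
      let φ : MulAut B := MulAut.conjNormal k
      have hφ : ∀ y : B, ((φ y : B) : G) = k * y * k⁻¹ := fun y => rfl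
      have hordφ : orderOf φ ∣ orderOf k := orderOf_map_dvd (MulAut.conjNormal (H := B)) k
      have hφ1 : φ = 1 := CfsgLib.Trans.aut_trivial_of_omega hp hBp φ
        (Nat.Coprime.coprime_dvd_left hordφ hcop) (by
          intro x hx
          by_cases hx1 : x = 1
          · rw [hx1, map_one]
          have hxord : orderOf x = p := orderOf_eq_prime hx hx1
          have h2 : (x : G) ∈ D₀ := hAllD _ (by rw [Subgroup.orderOf_coe]; exact hxord)
          have h3 := ((hD₀ _).1 h2).2 k hk
          apply Subtype.ext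
          rw [hφ, ← h3]
          group)
      have hkC : k ∈ Subgroup.centralizer (B : Set G) := by
        rw [Subgroup.mem_centralizer_iff]
        intro b hb
        have h3 : ((φ ⟨b, hb⟩ : B) : G) = b := by rw [hφ1]; rfl
        rw [hφ] at h3
        calc b * k = (k * b * k⁻¹) * k := by rw [h3]
          _ = k * b := by group
      have hkB := hCB hkC
      obtain ⟨m, hm⟩ := (IsPGroup.iff_orderOf.1 hBp) ⟨k, hkB⟩
      have hm' : orderOf k = p ^ m := by rw [← Subgroup.orderOf_mk k hkB]; exact hm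
      rw [hm'] at hcop
      have : orderOf k = 1 := by
        rw [hm']
        by_contra hne
        have hm0 : m ≠ 0 := by
          rintro rfl
          exact hne (pow_zero p)
        exact hpp.one_lt.ne' (Nat.Coprime.eq_one_of_dvd hcop.symm (dvd_pow_self p hm0))
      exact orderOf_eq_one_iff.1 this
    -- so `K'` is a `p`-group
    have hK'p : IsPGroup p K' := by
      refine IsPGroup.of_card (Nat.eq_prime_pow_of_unique_prime_dvd Nat.card_pos.ne' ?_)
      intro q hq hqd
      haveI : Fact q.Prime := ⟨hq⟩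
      by_contra hne
      obtain ⟨k, hk⟩ := exists_prime_orderOf_dvd_card' q hqd
      have hk' : orderOf (k : G) = q := by rw [Subgroup.orderOf_coe]; exact hk
      have hk1 := hkey k k.2 (by rw [hk']; exact (Nat.coprime_primes hq hpp).2 hne)
      rw [hk1, orderOf_one] at hk'
      exact hq.one_lt.ne hk'
    have hK'B : K' ≤ B := by
      rw [hBdef]; exact CfsgLib.Solv.le_pCore' K' hK'p
    -- the quotient is trivial
    have hq1 : Cfsg.pPrimeCore p (G ⧸ B) = ⊥ := by
      rw [eq_bot_iff]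
      intro y hy
      obtain ⟨x, rfl⟩ := QuotientGroup.mk'_surjective B y
      have : x ∈ K' := by rw [hK']; exact hy
      exact (QuotientGroup.eq_one_iff x).2 (hK'B this)
    have hq2 : Cfsg.pCore p (G ⧸ B) = ⊥ := by
      subst hBdef
      exact CfsgLib.OOL.pCore_quotient_pCore_eq_bot p
    have hsub : Subsingleton (G ⧸ B) := by
      by_contra hns
      rw [not_subsingleton_iff_nontrivial] at hns
      rcases CfsgLib.PSolv.core_ne_bot (CfsgLib.PSolv.quotient hpp hG B) with h | h
      · exact h hq2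
      · exact h hq1
    have : B.index = 1 := by
      rw [Subgroup.index]
      exact Nat.card_of_subsingleton (1 : G ⧸ B)
    rw [this]
    exact Nat.coprime_one_left p
  · -- case (a)
    push Not at hcase
    -- the complement `T`
    have hcop : (Nat.card (B.subgroupOf K')).Coprime (B.subgroupOf K').index := by
      have h1 : (B.subgroupOf K').index = B.relIndex K' := rfl
      rw [CfsgLib.Solv.card_subgroupOf_of_le hBK', h1]
      obtain ⟨n, hn⟩ := IsPGroup.iff_card.1 hBp
      rw [hn]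
      exact Nat.Coprime.pow_left n hK'cop.symm
    obtain ⟨T', hT'⟩ := Subgroup.exists_right_complement'_of_coprime hcop
    obtain ⟨T, hT⟩ : ∃ T, T = T'.map K'.subtype := ⟨_, rfl⟩
    have hTK' : T ≤ K' := by
      rw [hT]; exact Subgroup.map_subtype_le T'
    have hTT' : T.subgroupOf K' = T' := by
      rw [hT]; exact Subgroup.comap_map_eq_self_of_injective K'.subtype_injective T'
    have hTcard : Nat.card T = (B.subgroupOf K').index := by
      rw [hT'.symm.index_eq_card, ← hTT']
      exact (CfsgLib.Solv.card_subgroupOf_of_le hTK').symm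
    have hTB : Disjoint B T := by
      have h1 : (Nat.card B).Coprime (Nat.card T) := by
        rw [hTcard, ← CfsgLib.Solv.card_subgroupOf_of_le hBK']
        exact hcop
      exact Subgroup.disjoint_of_coprime_natCard h1
    -- products
    have hprod : ∀ k ∈ K', ∃ b ∈ B, ∃ t ∈ T, k = b * t := by
      intro k hk
      have h1 : (⟨k, hk⟩ : K') ∈ (B.subgroupOf K') ⊔ T' := by
        rw [hT'.sup_eq_top]; exact Subgroup.mem_top _
      rw [Subgroup.mem_sup_of_normal_left] at h1
      obtain ⟨b, hb, t, ht, h2⟩ := h1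
      refine ⟨b, hb, t, ?_, ?_⟩
      · rw [hT]; exact ⟨t, ht, rfl⟩
      · exact (congrArg Subtype.val h2).symm
    -- Frattini
    have hsolv : Group.IsSolvable (B.subgroupOf K') := by
      have : IsPGroup p (B.subgroupOf K') := by
        rw [IsPGroup.iff_card]
        obtain ⟨n, hn⟩ := IsPGroup.iff_card.1 hBp
        exact ⟨n, by rw [CfsgLib.Solv.card_subgroupOf_of_le hBK', hn]⟩
      haveI := this.isNilpotent
      infer_instance
    have hfr : ∀ g : G, ∃ b ∈ B, b * g ∈ Subgroup.normalizer (T : Set G) := by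
      intro g
      obtain ⟨H', hH'⟩ : ∃ H', H' = MulAut.conj g • T := ⟨_, rfl⟩
      have hH'K : H' ≤ K' := by
        rw [hH']
        intro x hx
        rw [CfsgLib.Solv.mem_conj_smul] at hx
        have := hK'n.conj_mem _ (hTK' hx) g
        simpa [mul_assoc] using this
      have hH'card : Nat.card (H'.subgroupOf K') = (B.subgroupOf K').index := by
        rw [CfsgLib.Solv.card_subgroupOf_of_le hH'K, hH', CfsgLib.Solv.card_conj_smul, hTcard]
      obtain ⟨n, hn, hnc⟩ := CfsgLib.Solv.schur_conj_mem (B.subgroupOf K') hcop (Or.inl hsolv)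
        (H'.subgroupOf K') (T.subgroupOf K')
        (CfsgLib.Solv.complement_of_card _ _ hcop hH'card)
        (by rw [hTT']; exact hT')
      have h2 := CfsgLib.Solv.conj_of_subgroupOf hH'K hTK' n hnc
      refine ⟨(n : G), hn, ?_⟩
      rw [hH', ← CfsgLib.Solv.conj_mul_smul] at h2
      rw [CfsgLib.Solv.mem_normalizer_iff_conj_smul]
      exact h2
    -- `B ∩ N = 1`
    have hBN : Disjoint B (Subgroup.normalizer (T : Set G)) := by
      rw [Subgroup.disjoint_def]
      intro b hb hbN
      by_contra hb1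
      -- `b` centralizes `T`
      have hbT : ∀ t ∈ T, b * t = t * b := by
        intro t ht
        have h1 : b * t * b⁻¹ ∈ T := (Subgroup.mem_normalizer_iff.1 hbN t).1 ht
        have h2 : b * t * b⁻¹ * t⁻¹ ∈ T := T.mul_mem h1 (T.inv_mem ht)
        have h3 : b * t * b⁻¹ * t⁻¹ ∈ B := by
          have h4 : t * b⁻¹ * t⁻¹ ∈ B := hBn.conj_mem _ (B.inv_mem hb) t
          have h5 : b * t * b⁻¹ * t⁻¹ = b * (t * b⁻¹ * t⁻¹) := by group
          rw [h5]
          exact B.mul_mem hb h4
        have h6 := Subgroup.disjoint_def.1 hTB h3 h2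
        have h7 : b * t * b⁻¹ = t := mul_inv_eq_one.1 h6
        calc b * t = (b * t * b⁻¹) * b := by group
          _ = t * b := by rw [h7]
      -- a power of order `p`
      obtain ⟨m, hm⟩ := (IsPGroup.iff_orderOf.1 hBp) ⟨b, hb⟩
      have hm' : orderOf b = p ^ m := by rw [← Subgroup.orderOf_mk b hb]; exact hm
      have hm0 : m ≠ 0 := by
        rintro rfl
        rw [pow_zero] at hm'
        exact hb1 (orderOf_eq_one_iff.1 hm')
      obtain ⟨m', rfl⟩ := Nat.exists_eq_succ_of_ne_zero hm0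
      have hord : orderOf (b ^ p ^ m') = p := by
        rw [orderOf_pow_of_dvd (pow_ne_zero _ hpp.ne_zero) (by rw [hm']; exact pow_dvd_pow p (Nat.le_succ m')), hm',
          pow_succ, Nat.mul_div_cancel_left _ (pow_pos hpp.pos m')]
      have hzA := hAll _ hord
      have hz1 : b ^ p ^ m' ≠ 1 := by
        intro h
        rw [h, orderOf_one] at hord
        exact hpp.one_lt.ne hord
      obtain ⟨k, hk, hne⟩ := hcase _ hzA hz1
      apply hne
      obtain ⟨b', hb', t, ht, rfl⟩ := hprod k hk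
      have h1 := ((hA _).1 hzA).2.1 b' hb'
      have h2 : Commute (b ^ p ^ m') t := Commute.pow_left (hbT t ht) _
      rw [← mul_assoc, h1, mul_assoc, h2.eq, mul_assoc]
    have hsup : (B : Set G) * ((Subgroup.normalizer (T : Set G) : Subgroup G) : Set G) = Set.univ := by
      rw [Set.eq_univ_iff_forall]
      intro g
      obtain ⟨b, hb, hbg⟩ := hfr g
      refine Set.mem_mul.2 ⟨b⁻¹, B.inv_mem hb, b * g, hbg, by group⟩
    have hcomp : Subgroup.IsComplement' B (Subgroup.normalizer (T : Set G)) :=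
      Subgroup.isComplement'_of_disjoint_and_mul_eq_univ hBN hsup
    -- conclusion
    rw [hcomp.symm.index_eq_card]
    rw [Nat.coprime_comm, Nat.Prime.coprime_iff_not_dvd hpp]
    intro hdvd
    obtain ⟨y, hy⟩ := exists_prime_orderOf_dvd_card' p hdvd
    have hy' : orderOf (y : G) = p := by rw [Subgroup.orderOf_coe]; exact hy
    have h1 := ((hA _).1 (hAll _ hy')).1
    have h2 := Subgroup.disjoint_def.1 hBN h1 y.2
    rw [h2, orderOf_one] at hy'
    exact hpp.one_lt.ne hy'

/-- The Gaschütz–Yen Theorem: let G be a finite p-soluble group, p an odd prime dividing its order, such that the automorphism group of G permutes the subgroups of G of order p transitively. Then G has p-length at most 1. -/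
theorem result {G : Type*} [Group G] [Finite G] {p : ℕ} [Fact p.Prime] (hp : p ≠ 2) (hdvd : p ∣ Nat.card G) (hG : Cfsg.IsPSolvable p G) (htrans : ∀ U V : Subgroup G, Nat.card U = p → Nat.card V = p → ∃ a : MulAut G, U.map a.toMonoidHom = V) : Cfsg.PLengthLE p 1 G := by
  classical
  have hpp : p.Prime := Fact.out
  obtain ⟨K, hK⟩ : ∃ K, K = Cfsg.pPrimeCore p G := ⟨_, rfl⟩
  haveI hKn : K.Normal := by rw [hK]; infer_instance
  have hKcop : (Nat.card K).Coprime p := by rw [hK]; exact CfsgLib.Solv.pPrimeCore_coprime p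
  haveI hKc : K.Characteristic := by rw [hK]; exact CfsgLib.Comp.pPrimeCore_char p
  have hKa : ∀ (a : MulAut G) (x : G), x ∈ K → a x ∈ K := fun a x hx =>
    (Subgroup.characteristic_iff_le_comap.1 hKc a) hx
  have hKelt : ∀ x ∈ K, ∀ k : ℕ, orderOf x = p ^ k → x = 1 := by
    intro x hx k hk
    have h1 : orderOf x ∣ Nat.card K := by
      rw [← Subgroup.orderOf_mk x hx]
      exact orderOf_dvd_natCard _
    rw [hk] at h1
    have h2 : Nat.Coprime (p ^ k) (Nat.card K) := (hKcop.symm).pow_left k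
    have h3 := Nat.Coprime.eq_one_of_dvd h2 h1
    rw [← hk] at h3
    exact orderOf_eq_one_iff.1 h3
  -- every subgroup of order `p` of the quotient lifts
  have hlift : ∀ U : Subgroup (G ⧸ K), Nat.card U = p →
      ∃ W : Subgroup G, Nat.card W = p ∧ W.map (QuotientGroup.mk' K) = U := by
    intro U hU
    haveI : Fact (Nat.card U).Prime := ⟨by rw [hU]; exact hpp⟩
    obtain ⟨u, hu⟩ := isCyclic_of_prime_card (α := U) rfl |>.exists_generator
    have hUz : U = Subgroup.zpowers (u : G ⧸ K) := by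
      apply le_antisymm
      · intro y hy
        obtain ⟨k, hk⟩ := Subgroup.mem_zpowers_iff.1 (hu ⟨y, hy⟩)
        exact Subgroup.mem_zpowers_iff.2 ⟨k, by simpa using congrArg Subtype.val hk⟩
      · rw [Subgroup.zpowers_le]
        exact u.2
    have huord : orderOf (u : G ⧸ K) = p := by
      rw [← Nat.card_zpowers, ← hUz, hU]
    obtain ⟨x, hx⟩ := QuotientGroup.mk'_surjective K (u : G ⧸ K)
    obtain ⟨a, b, hab, hcomm, ⟨k, hk⟩, hrb, hbx⟩ := CfsgLib.FGS.KP.exists_decomp hpp x
    -- the image of `b` is trivial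
    have hab' : QuotientGroup.mk' K a * QuotientGroup.mk' K b = (u : G ⧸ K) := by
      rw [← map_mul, ← hab, hx]
    have hbar : QuotientGroup.mk' K b = 1 := by
      have h1 : orderOf (QuotientGroup.mk' K b) ∣ orderOf b := orderOf_map_dvd _ b
      have hc : Commute (QuotientGroup.mk' K a) (QuotientGroup.mk' K b) := by
        show _ * _ = _ * _
        rw [← map_mul, ← map_mul, hcomm]
      have h2 : QuotientGroup.mk' K b = (QuotientGroup.mk' K a)⁻¹ * (u : G ⧸ K) := by
        rw [← hab']; group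
      have h3 : (QuotientGroup.mk' K b) ^ (p ^ (k + 1)) = 1 := by
        have hc2 : Commute (QuotientGroup.mk' K a)⁻¹ (u : G ⧸ K) := by
          rw [← hab']
          exact (Commute.refl _).inv_left.mul_right hc.inv_left
        rw [h2, hc2.mul_pow]
        have h4 : (QuotientGroup.mk' K a) ^ (p ^ (k + 1)) = 1 := by
          rw [← map_pow, pow_succ, pow_mul, ← hk, pow_orderOf_eq_one, one_pow, map_one]
        have h5 : (u : G ⧸ K) ^ (p ^ (k + 1)) = 1 := by
          have hup : (u : G ⧸ K) ^ p = 1 := by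
            conv_lhs => rw [← huord]
            exact pow_orderOf_eq_one _
          rw [pow_succ' p k, pow_mul, hup, one_pow]
        rw [inv_pow, h4, h5, inv_one, one_mul]
      have h6 := orderOf_dvd_of_pow_eq_one h3
      have h7 : Nat.Coprime (p ^ (k + 1)) (orderOf b) :=
        Nat.Coprime.pow_left _ ((Nat.Prime.coprime_iff_not_dvd hpp).2 hrb)
      exact orderOf_eq_one_iff.1 (Nat.eq_one_of_dvd_coprimes h7 h6 h1)
    have hau : QuotientGroup.mk' K a = (u : G ⧸ K) := by
      rw [← hab', hbar, mul_one]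
    have ha1 : a ≠ 1 := by
      rintro rfl
      rw [map_one] at hau
      rw [← hau, orderOf_one] at huord
      exact hpp.one_lt.ne huord
    have hap : a ^ p = 1 := by
      have h1 : a ^ p ∈ K := by
        rw [← QuotientGroup.ker_mk' K, MonoidHom.mem_ker, map_pow, hau, ← huord, pow_orderOf_eq_one]
      by_cases hk0 : k = 0
      · subst hk0
        rw [pow_zero, orderOf_eq_one_iff] at hk
        exact absurd hk ha1
      obtain ⟨k', rfl⟩ := Nat.exists_eq_succ_of_ne_zero hk0
      refine hKelt _ h1 k' ?_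
      rw [orderOf_pow_of_dvd hpp.ne_zero (by rw [hk]; exact dvd_pow_self p (Nat.succ_ne_zero k')), hk, pow_succ,
        Nat.mul_div_cancel _ hpp.pos]
    refine ⟨Subgroup.zpowers a, ?_, ?_⟩
    · rw [Nat.card_zpowers, orderOf_eq_prime hap ha1]
    · rw [MonoidHom.map_zpowers, hau, ← hUz]
  -- transitivity on the quotient
  have htrans' : ∀ U V : Subgroup (G ⧸ K), Nat.card U = p → Nat.card V = p →
      ∃ a : MulAut (G ⧸ K), U.map a.toMonoidHom = V := by
    intro U V hU hV
    obtain ⟨U', hU', rfl⟩ := hlift U hU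
    obtain ⟨V', hV', rfl⟩ := hlift V hV
    obtain ⟨a, ha⟩ := htrans U' V' hU' hV'
    have hmap : K.map a.toMonoidHom = K := by
      apply le_antisymm
      · rintro _ ⟨y, hy, rfl⟩
        exact hKa a y hy
      · intro y hy
        exact ⟨a⁻¹ y, hKa a⁻¹ y hy, by simp⟩
    refine ⟨QuotientGroup.congr K K a hmap, ?_⟩
    rw [← ha]
    ext y
    constructor
    · rintro ⟨_, ⟨x, hx, rfl⟩, rfl⟩
      exact ⟨a x, ⟨x, hx, rfl⟩, rfl⟩
    · rintro ⟨_, ⟨x, hx, rfl⟩, rfl⟩
      exact ⟨QuotientGroup.mk' K x, ⟨x, hx, rfl⟩, rfl⟩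
  have hO' : Cfsg.pPrimeCore p (G ⧸ K) = ⊥ := by
    subst hK; exact CfsgLib.Solv.pPrimeCore_quotient_eq_bot p
  have hmain := gy_core hp (CfsgLib.PSolv.quotient hpp hG K) hO' htrans'
  -- back to `G`
  have hidx : (Cfsg.pPrimePCore p G).index.Coprime p := by
    have h1 : Cfsg.pPrimePCore p G = (Cfsg.pCore p (G ⧸ K)).comap (QuotientGroup.mk' K) := by
      subst hK; rfl
    rw [h1, Subgroup.index_comap_of_surjective _ (QuotientGroup.mk'_surjective K)]
    exact hmain
  show (Cfsg.upperPSeries p G 3).1 = ⊤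
  have h0 : (Cfsg.upperPSeries p G 3).1 = (Cfsg.pPrimeCore p (G ⧸ (Cfsg.upperPSeries p G 2).1)).comap (QuotientGroup.mk' _) := rfl
  rw [h0, CfsgLib.OOL.comap_pPrimeCore_congr p inferInstance CfsgLib.OOL.pPrimePCore_normal' (CfsgLib.OOL.upperPSeries_two p)]
  haveI := CfsgLib.OOL.pPrimePCore_normal' (G := G) (p := p)
  have h4 : Cfsg.pPrimeCore p (G ⧸ Cfsg.pPrimePCore p G) = ⊤ := by
    rw [eq_top_iff]
    refine CfsgLib.Solv.le_pPrimeCore' ⊤ ?_
    rw [Subgroup.card_top]
    exact hidx
  rw [h4, Subgroup.comap_top]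

end Cfsg.Agent.S3798
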