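import Cfsg.Statements.S3799
import Cfsg.Agent.Lib.FGS.Basic
import Cfsg.Agent.Lib.Solv.PGroup

set_option autoImplicit false
open Cfsg

namespace Cfsg.Agent.S3799

theorem crit {E : Type*} [Group E] [Finite E] {p : ℕ} [hp : Fact p.Prime] (hP : IsPGroup p E)
    (hZ : Nat.card (Subgroup.center E) = p)
    (h1 : ∀ x y : E, x * y * x⁻¹ * y⁻¹ ∈ Subgroup.center E)
    (h2 : ∀ x : E, x ^ p ∈ Subgroup.center E) (h3 : ∃ x y : E, x * y ≠ y * x) :
    Cfsg.IsExtraspecial p E := by
  have hpp : p.Prime := hp.out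
  have hcle : commutator E ≤ Subgroup.center E := by
    rw [commutator_def, Subgroup.commutator_le]
    intro x _ y _
    rw [commutatorElement_def]
    exact h1 x y
  have hceq : commutator E = Subgroup.center E := by
    apply Subgroup.eq_of_le_of_card_ge hcle
    rw [hZ]
    have hd : Nat.card (commutator E) ∣ p := hZ ▸ Subgroup.card_dvd_of_le hcle
    rcases (Nat.dvd_prime hpp).mp hd with h | h
    · exfalso
      obtain ⟨x, y, hxy⟩ := h3
      have hb : commutator E = ⊥ := (Subgroup.eq_bot_of_card_eq _ h)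
      have hm : x * y * x⁻¹ * y⁻¹ ∈ commutator E := by
        rw [commutator_def]
        have := Subgroup.commutator_mem_commutator (Subgroup.mem_top x) (Subgroup.mem_top y)
        rwa [commutatorElement_def] at this
      rw [hb, Subgroup.mem_bot] at hm
      apply hxy
      have : x * y = (x * y * x⁻¹ * y⁻¹) * (y * x) := by group
      rw [this, hm, one_mul]
    · exact h.ge
  refine ⟨⟨hP, ?_, hceq⟩, hZ⟩
  apply le_antisymm
  · exact CfsgLib.Solv.frattini_le_of_commutator_pow hP _ hcle h2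
  · rw [← hceq]
    exact (CfsgLib.Solv.pgroup_commutator_pow_le_frattini hP).1

section heis
variable {n : ℕ} {F : Type} [Field F]

abbrev Ix (n : ℕ) := (Unit ⊕ Fin n) ⊕ Unit

def M (a b : Fin n → F) (c : F) : Matrix (Ix n) (Ix n) F :=
  Matrix.of fun i j => match i, j with
   | .inl (.inl _), .inl (.inl _) => 1
   | .inl (.inl _), .inl (.inr k) => a k
   | .inl (.inl _), .inr _ => c
   | .inl (.inr _), .inl (.inl _) => 0
   | .inl (.inr k), .inl (.inr l) => if k = l then 1 else 0
   | .inl (.inr k), .inr _ => b k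
   | .inr _, .inl _ => 0
   | .inr _, .inr _ => 1

theorem M_mul (a b a' b' : Fin n → F) (c c' : F) :
    M a b c * M a' b' c' = M (a + a') (b + b') (c + c' + dotProduct a b') := by
  ext i j
  rw [Matrix.mul_apply, Fintype.sum_sum_type, Fintype.sum_sum_type]
  rcases i with (_ | k) | _ <;> rcases j with (_ | l) | _ <;> simp [M, dotProduct] <;> ring

theorem M_zero : M (0 : Fin n → F) 0 0 = 1 := by
  ext i j
  rcases i with (_ | k) | _ <;> rcases j with (_ | l) | _ <;> simp [M, Matrix.one_apply]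

end heis



section heis2
variable {n : ℕ} {F : Type} [Field F]

def U (a b : Fin n → F) (c : F) : (Matrix (Ix n) (Ix n) F)ˣ :=
  { val := M a b c
    inv := M (-a) (-b) (dotProduct a b - c)
    val_inv := by
      rw [M_mul, ← M_zero]
      congr 1
      · simp
      · simp
      · simp [dotProduct_neg]
    inv_val := by
      rw [M_mul, ← M_zero]
      congr 1
      · simp
      · simp
      · simp [neg_dotProduct] }

noncomputable def eIx (n : ℕ) : Ix n ≃ Fin (n + 2) :=
  Fintype.equivFinOfCardEq (by simp; omega)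

noncomputable def θ (n : ℕ) (F : Type) [Field F] : (Matrix (Ix n) (Ix n) F)ˣ ≃* Matrix.GeneralLinearGroup (Fin (n + 2)) F :=
  Units.mapEquiv (Matrix.reindexAlgEquiv F F (eIx n)).toMulEquiv

noncomputable def GG (a b : Fin n → F) (c : F) : Matrix.GeneralLinearGroup (Fin (n + 2)) F :=
  θ n F (U a b c)

theorem GG_mul (a b a' b' : Fin n → F) (c c' : F) :
    GG a b c * GG a' b' c' = GG (a + a') (b + b') (c + c' + dotProduct a b') := by
  rw [GG, GG, GG, ← map_mul]
  congr 1
  apply Units.ext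
  exact M_mul a b a' b' c c'

theorem GG_zero : GG (0 : Fin n → F) 0 0 = 1 := by
  rw [GG]
  have : U (0 : Fin n → F) 0 0 = 1 := Units.ext M_zero
  rw [this, map_one]

theorem GG_inv (a b : Fin n → F) (c : F) : (GG a b c)⁻¹ = GG (-a) (-b) (dotProduct a b - c) := by
  apply inv_eq_of_mul_eq_one_right
  rw [GG_mul, ← GG_zero]
  congr 1
  · simp
  · simp
  · simp [dotProduct_neg]

theorem GG_inj {a b a' b' : Fin n → F} {c c' : F} (h : GG a b c = GG a' b' c') :
    a = a' ∧ b = b' ∧ c = c' := by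
  have h1 : U a b c = U a' b' c' := (θ n F).injective h
  have h2 : M a b c = M a' b' c' := congrArg Units.val h1
  refine ⟨?_, ?_, ?_⟩
  · funext k
    have := congrFun (congrFun h2 (.inl (.inl ()))) (.inl (.inr k))
    simpa [M] using this
  · funext k
    have := congrFun (congrFun h2 (.inl (.inr k))) (.inr ())
    simpa [M] using this
  · have := congrFun (congrFun h2 (.inl (.inl ()))) (.inr ())
    simpa [M] using this

theorem GG_pow (a b : Fin n → F) (c : F) (k : ℕ) :
    (GG a b c) ^ k = GG (k • a) (k • b) (k • c + (k.choose 2) • dotProduct a b) := by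
  induction k with
  | zero => simp [GG_zero]
  | succ k ih =>
    rw [pow_succ, ih, GG_mul]
    congr 1
    · rw [succ_nsmul]
    · rw [succ_nsmul]
    · have h1 : (k + 1).choose 2 = k.choose 2 + k := by
        rw [Nat.choose_succ_succ' k 1, Nat.choose_one_right]
        ring
      rw [h1, smul_dotProduct, succ_nsmul, add_nsmul]
      abel

/-- The Heisenberg subgroup. -/
noncomputable def EE (n : ℕ) (F : Type) [Field F] : Subgroup (Matrix.GeneralLinearGroup (Fin (n + 2)) F) where
  carrier := {g | ∃ a b c, g = GG a b c}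
  mul_mem' := by
    rintro _ _ ⟨a, b, c, rfl⟩ ⟨a', b', c', rfl⟩
    exact ⟨_, _, _, GG_mul a b a' b' c c'⟩
  one_mem' := ⟨0, 0, 0, GG_zero.symm⟩
  inv_mem' := by
    rintro _ ⟨a, b, c, rfl⟩
    exact ⟨_, _, _, GG_inv a b c⟩

theorem mem_EE {g : Matrix.GeneralLinearGroup (Fin (n + 2)) F} : g ∈ EE n F ↔ ∃ a b c, g = GG a b c := Iff.rfl

theorem GG_mem (a b : Fin n → F) (c : F) : GG a b c ∈ EE n F := ⟨a, b, c, rfl⟩

end heis2

/-- For every odd prime p and every n ≥ 1 there is an extraspecial p-group of order p^(1+2n) and exponent p; concretely, the general linear group of degree n + 2 over the field with p elements contains such a subgroup. -/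
theorem result (p : ℕ) [Fact p.Prime] (hp : p ≠ 2) (n : ℕ) (hn : 1 ≤ n) : ∃ E : Subgroup (Matrix.GeneralLinearGroup (Fin (n + 2)) (ZMod p)), Cfsg.IsExtraspecial p ↥E ∧ Nat.card E = p ^ (1 + 2 * n) ∧ ∀ x ∈ E, x ^ p = 1 := by
  classical
  have hpp : p.Prime := Fact.out
  have hp3 : 2 < p := lt_of_le_of_ne hpp.two_le (Ne.symm hp)
  haveI : Finite (Matrix.GeneralLinearGroup (Fin (n + 2)) (ZMod p)) := inferInstance
  have hz : ∀ (m : ℕ), p ∣ m → ∀ x : ZMod p, m • x = 0 := by
    rintro m ⟨t, rfl⟩ x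
    rw [nsmul_eq_mul]
    simp
  have hzf : ∀ (m : ℕ), p ∣ m → ∀ x : Fin n → ZMod p, m • x = 0 := by
    intro m hm x
    funext k
    exact hz m hm (x k)
  have hexp : ∀ x ∈ EE n (ZMod p), x ^ p = 1 := by
    rintro _ ⟨a, b, c, rfl⟩
    rw [GG_pow, hzf p dvd_rfl, hzf p dvd_rfl, hz p dvd_rfl,
      hz (p.choose 2) (hpp.dvd_choose_self two_ne_zero hp3), add_zero, GG_zero]
  have hcard : Nat.card (EE n (ZMod p)) = p ^ (1 + 2 * n) := by
    let f : (Fin n → ZMod p) × (Fin n → ZMod p) × ZMod p → EE n (ZMod p) :=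
      fun t => ⟨GG t.1 t.2.1 t.2.2, GG_mem _ _ _⟩
    have hf : Function.Bijective f := by
      constructor
      · rintro ⟨a, b, c⟩ ⟨a', b', c'⟩ h
        obtain ⟨h1, h2, h3⟩ := GG_inj (congrArg Subtype.val h)
        exact Prod.ext h1 (Prod.ext h2 h3)
      · rintro ⟨_, a, b, c, rfl⟩
        exact ⟨(a, b, c), rfl⟩
    rw [← Nat.card_eq_of_bijective f hf, Nat.card_prod, Nat.card_prod, Nat.card_fun, Nat.card_zmod,
      Nat.card_eq_fintype_card (α := Fin n), Fintype.card_fin]
    ring
  refine ⟨EE n (ZMod p), ?_, hcard, hexp⟩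
  have hE : ∀ x : EE n (ZMod p), ∃ a b c, (x : Matrix.GeneralLinearGroup (Fin (n + 2)) (ZMod p)) = GG a b c := fun x => x.2
  have hcen : ∀ x : EE n (ZMod p), x ∈ Subgroup.center (EE n (ZMod p)) ↔ ∃ c, (x : Matrix.GeneralLinearGroup (Fin (n + 2)) (ZMod p)) = GG 0 0 c := by
    intro x
    rw [Subgroup.mem_center_iff]
    constructor
    · intro h
      obtain ⟨a, b, c, hx⟩ := hE x
      have ha : a = 0 := by
        funext k
        have h1 := congrArg Subtype.val (h ⟨GG 0 (Pi.single k 1) 0, GG_mem _ _ _⟩)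
        simp only [Subgroup.coe_mul, hx, GG_mul] at h1
        obtain ⟨-, -, h3⟩ := GG_inj h1
        simp at h3
        simpa using h3
      have hb : b = 0 := by
        funext k
        have h1 := congrArg Subtype.val (h ⟨GG (Pi.single k 1) 0 0, GG_mem _ _ _⟩)
        simp only [Subgroup.coe_mul, hx, GG_mul] at h1
        obtain ⟨-, -, h3⟩ := GG_inj h1
        simp at h3
        simpa using h3
      exact ⟨c, by rw [hx, ha, hb]⟩
    · rintro ⟨c, hc⟩ y
      obtain ⟨a, b, d, hy⟩ := hE y
      apply Subtype.ext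
      simp only [Subgroup.coe_mul, hc, hy, GG_mul]
      congr 1
      · simp
      · simp
      · simp; ring
  apply crit
  · -- p-group
    exact fun x => ⟨1, by rw [pow_one]; exact Subtype.ext (hexp x.1 x.2)⟩
  · let f : ZMod p → Subgroup.center (EE n (ZMod p)) :=
      fun c => ⟨⟨GG 0 0 c, GG_mem _ _ _⟩, (hcen _).mpr ⟨c, rfl⟩⟩
    have hf : Function.Bijective f := by
      constructor
      · intro c c' h
        exact (GG_inj (congrArg (fun z : Subgroup.center (EE n (ZMod p)) => ((z : EE n (ZMod p)) : Matrix.GeneralLinearGroup (Fin (n + 2)) (ZMod p))) h)).2.2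
      · rintro ⟨x, hx⟩
        obtain ⟨c, hc⟩ := (hcen x).mp hx
        exact ⟨c, Subtype.ext (Subtype.ext hc.symm)⟩
    rw [← Nat.card_eq_of_bijective f hf, Nat.card_zmod]
  · intro x y
    obtain ⟨a, b, c, hx⟩ := hE x
    obtain ⟨a', b', c', hy⟩ := hE y
    rw [hcen]
    simp only [Subgroup.coe_mul, Subgroup.coe_inv, hx, hy, GG_inv, GG_mul]
    have h1 : a + a' + -a + -a' = 0 := by abel
    have h2 : b + b' + -b + -b' = 0 := by abel
    rw [h1, h2]
    exact ⟨_, rfl⟩
  · intro x
    have : x ^ p = 1 := Subtype.ext (hexp x.1 x.2)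
    rw [this]
    exact Subgroup.one_mem _
  · let k0 : Fin n := ⟨0, hn⟩
    refine ⟨⟨GG (Pi.single k0 1) 0 0, GG_mem _ _ _⟩, ⟨GG 0 (Pi.single k0 1) 0, GG_mem _ _ _⟩, ?_⟩
    intro h
    have h1 := congrArg Subtype.val h
    simp only [Subgroup.coe_mul, GG_mul] at h1
    obtain ⟨-, -, h3⟩ := GG_inj h1
    simp at h3

end Cfsg.Agent.S3799
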