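import Cfsg.Statements.S3800
import Cfsg.Agent.Lib.FGS.Syl

set_option autoImplicit false
open Cfsg

namespace Cfsg.Agent.S3800

/-- Let G be a finite group, N a normal subgroup of G whose order is prime to p, and P a p-subgroup of G. Then in G/N the normalizer of the image of P is the image of N_G(P), and the centralizer of the image of P is the image of C_G(P). -/
theorem result {G : Type*} [Group G] [Finite G] {p : ℕ} [Fact p.Prime] (N : Subgroup G) [N.Normal] (hN : (Nat.card N).Coprime p) (P : Subgroup G) (hP : IsPGroup p P) : Subgroup.normalizer ((P.map (QuotientGroup.mk' N)) : Set (G ⧸ N)) = (Subgroup.normalizer (P : Set G)).map (QuotientGroup.mk' N) ∧ Subgroup.centralizer ((P.map (QuotientGroup.mk' N)) : Set (G ⧸ N)) = (Subgroup.centralizer (P : Set G)).map (QuotientGroup.mk' N) := by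
  classical
  set π := QuotientGroup.mk' N with hπ
  have hπn : ∀ n ∈ N, π n = 1 := fun n hn => (QuotientGroup.eq_one_iff n).mpr hn
  have hker : ∀ x, π x = 1 → x ∈ N := fun x hx => (QuotientGroup.eq_one_iff x).mp hx
  have hsurj : Function.Surjective π := QuotientGroup.mk'_surjective N
  have hinf : ∀ x ∈ P, x ∈ N → x = 1 := by
    intro x hx1 hx2
    obtain ⟨k, hk⟩ := hP ⟨x, hx1⟩
    have h1 : x ^ (p ^ k) = 1 := by simpa using congrArg Subtype.val hk
    have h2 := orderOf_dvd_of_pow_eq_one h1
    have h3 : orderOf x ∣ Nat.card N := Subgroup.orderOf_dvd_natCard N hx2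
    have h4 : Nat.Coprime (Nat.card N) (p ^ k) := Nat.Coprime.pow_right k hN
    have h5 : orderOf x = 1 := Nat.dvd_one.mp (h4.gcd_eq_one ▸ Nat.dvd_gcd h3 h2)
    exact orderOf_eq_one_iff.mp h5
  have key : ∀ g : G, π g ∈ Subgroup.normalizer ((P.map π : Subgroup (G ⧸ N)) : Set (G ⧸ N)) →
      ∃ w ∈ Subgroup.normalizer (P : Set G), π w = π g := by
    intro g hg
    have hQL : P.map (MulAut.conj g).toMonoidHom ≤ P ⊔ N := by
      rintro _ ⟨a, ha, rfl⟩
      have h1 : π g * π a * (π g)⁻¹ ∈ P.map π :=
        (Subgroup.mem_normalizer_iff.mp hg (π a)).mp ⟨a, ha, rfl⟩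
      obtain ⟨b, hb, hbe⟩ := h1
      have h2 : b⁻¹ * (g * a * g⁻¹) ∈ N := by
        apply hker
        rw [map_mul, map_inv, map_mul, map_mul, map_inv, hbe]
        group
      have h3 : (MulAut.conj g).toMonoidHom a = b * (b⁻¹ * (g * a * g⁻¹)) := by
        simp [MulAut.conj_apply]
      rw [h3]
      exact Subgroup.mul_mem _ (Subgroup.mem_sup_left hb) (Subgroup.mem_sup_right h2)
    obtain ⟨n, hn, hnx⟩ := CfsgLib.FGS.exists_conj_of_coprime_normal hN hP
      (hP.map (MulAut.conj g).toMonoidHom)
      (Nat.card_congr (P.equivMapOfInjective _ (MulAut.conj g).injective).symm.toEquiv) hQL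
    have hw : g⁻¹ * n ∈ Subgroup.normalizer (P : Set G) := by
      apply CfsgLib.FGS.mem_normalizer_of_conj_le
      intro a ha
      have h1 := CfsgLib.FGS.mem_map_conj_iff.mp (hnx a ha)
      have h2 : g⁻¹ * n * a * (g⁻¹ * n)⁻¹ = g⁻¹ * (n * a * n⁻¹) * g := by group
      rwa [h2]
    refine ⟨(g⁻¹ * n)⁻¹, Subgroup.inv_mem _ hw, ?_⟩
    rw [map_inv, map_mul, map_inv, hπn n hn, mul_one, inv_inv]
  constructor
  · apply le_antisymm
    · intro x hx
      obtain ⟨g, rfl⟩ := hsurj x
      obtain ⟨w, hw, hwe⟩ := key g hx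
      exact ⟨w, hw, hwe⟩
    · rintro _ ⟨w, hw, rfl⟩
      rw [Subgroup.mem_normalizer_iff]
      intro y
      have hw' := Subgroup.mem_normalizer_iff.mp hw
      constructor
      · rintro ⟨b, hb, rfl⟩
        exact ⟨w * b * w⁻¹, (hw' b).mp hb, by simp [map_mul]⟩
      · rintro ⟨b, hb, hbe⟩
        refine ⟨w⁻¹ * b * w, (hw' _).mpr (by
          have : w * (w⁻¹ * b * w) * w⁻¹ = b := by group
          rwa [this]), ?_⟩
        rw [map_mul, map_mul, map_inv, hbe]
        group
  · apply le_antisymm
    · intro x hx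
      obtain ⟨g, rfl⟩ := hsurj x
      have hgC : ∀ a ∈ P, π a * π g = π g * π a := fun a ha =>
        Subgroup.mem_centralizer_iff.mp hx (π a) ⟨a, ha, rfl⟩
      have hgN : π g ∈ Subgroup.normalizer ((P.map π : Subgroup (G ⧸ N)) : Set (G ⧸ N)) := by
        rw [Subgroup.mem_normalizer_iff]
        intro y
        constructor
        · rintro ⟨a, ha, rfl⟩
          rw [← hgC a ha]
          simpa using (⟨a, ha, rfl⟩ : π a ∈ P.map π)
        · intro hy
          obtain ⟨b, hb, hbe⟩ := hy
          have h1 : y = π b := by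
            have h2 := hgC b hb
            rw [hbe] at h2
            have h3 : π g * y * (π g)⁻¹ * π g = π g * (π g * y * (π g)⁻¹) := h2
            have h4 : π g * y = π g * (π g * y * (π g)⁻¹) := by
              rw [← h3]
              group
            have h5 := mul_left_cancel h4
            rw [h5, hbe]
          rw [h1]
          exact ⟨b, hb, rfl⟩
      obtain ⟨w, hw, hwe⟩ := key g hgN
      refine ⟨w, Subgroup.mem_centralizer_iff.mpr ?_, hwe⟩
      intro a ha
      have h1 : w * a * w⁻¹ * a⁻¹ ∈ P :=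
        P.mul_mem ((Subgroup.mem_normalizer_iff.mp hw a).mp ha) (P.inv_mem ha)
      have h2 : w * a * w⁻¹ * a⁻¹ ∈ N := by
        apply hker
        rw [map_mul, map_mul, map_mul, map_inv, map_inv, hwe, ← hgC a ha]
        group
      have h3 := hinf _ h1 h2
      have h4 : w * a * w⁻¹ * a⁻¹ * (a * w) = w * a := by group
      rw [h3, one_mul] at h4
      exact h4
    · rintro _ ⟨w, hw, rfl⟩
      rw [Subgroup.mem_centralizer_iff]
      rintro _ ⟨a, ha, rfl⟩
      have h1 := Subgroup.mem_centralizer_iff.mp hw a ha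
      change π a * π w = π w * π a
      rw [← map_mul, ← map_mul, h1]

end Cfsg.Agent.S3800
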