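import Cfsg.Statements.S3950
import Cfsg.Agent.Lib.FGS.Schur3

set_option autoImplicit false
open Cfsg
open scoped commutatorElement
open scoped Pointwise

namespace Cfsg.Agent.S3950

/-- Noncyclic finite abelian groups have two independent characters modulo a prime. -/
theorem h8_two_chars {G : Type*} [CommGroup G] [Finite G] (hG : ¬ IsCyclic G) :
    ∃ (p : ℕ) (_ : p.Prime) (χ₁ χ₂ : G →* Multiplicative (ZMod p)) (g h : G),
      χ₁ g = Multiplicative.ofAdd 1 ∧ χ₂ g = 1 ∧ χ₁ h = 1 ∧ χ₂ h = Multiplicative.ofAdd 1 := by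
  classical
  obtain ⟨ι, _, n, hn, ⟨e⟩⟩ := CommGroup.equiv_prod_multiplicative_zmod_of_finite G
  have hcop : ¬ Pairwise (Function.onFun Nat.Coprime n) := by
    intro hcop
    apply hG
    let e2 : ZMod (∏ i, n i) ≃+* ((i : ι) → ZMod (n i)) := ZMod.prodEquivPi n hcop
    have : Multiplicative (ZMod (∏ i, n i)) ≃* G :=
      (AddEquiv.toMultiplicative e2.toAddEquiv).trans
        ({ toFun := fun x i => Multiplicative.ofAdd (Multiplicative.toAdd x i)
           invFun := fun x => Multiplicative.ofAdd (fun i => Multiplicative.toAdd (x i))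
           left_inv := fun _ => rfl
           right_inv := fun _ => rfl
           map_mul' := fun _ _ => rfl } : Multiplicative ((i : ι) → ZMod (n i)) ≃* ((i : ι) → Multiplicative (ZMod (n i)))) |>.trans e.symm
    have hpos : NeZero (∏ i, n i) := ⟨by
      apply Finset.prod_ne_zero_iff.2
      intro i _
      have := hn i
      omega⟩
    exact isCyclic_of_surjective this.toMonoidHom this.surjective
  simp only [Pairwise, not_forall] at hcop
  obtain ⟨i, j, hij, hnc⟩ := hcop
  have hnc' : ¬ Nat.Coprime (n i) (n j) := hnc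
  obtain ⟨p, hp, hpi, hpj⟩ := Nat.Prime.not_coprime_iff_dvd.1 hnc'
  haveI : Fact p.Prime := ⟨hp⟩
  let ρ : (k : ι) → p ∣ n k → (((k : ι) → Multiplicative (ZMod (n k))) →* Multiplicative (ZMod p)) :=
    fun k hk => (AddMonoidHom.toMultiplicative (ZMod.castHom hk (ZMod p)).toAddMonoidHom).comp
      (Pi.evalMonoidHom _ k)
  refine ⟨p, hp, (ρ i hpi).comp e.toMonoidHom, (ρ j hpj).comp e.toMonoidHom,
    e.symm (Pi.mulSingle i (Multiplicative.ofAdd 1)), e.symm (Pi.mulSingle j (Multiplicative.ofAdd 1)),
    ?_, ?_, ?_, ?_⟩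
  · show ρ i hpi (e (e.symm _)) = _
    rw [e.apply_symm_apply]
    show Multiplicative.ofAdd (ZMod.castHom hpi (ZMod p) (Multiplicative.toAdd ((Pi.mulSingle i (Multiplicative.ofAdd 1) : (k : ι) → Multiplicative (ZMod (n k))) i))) = _
    rw [Pi.mulSingle_eq_same]
    exact congrArg Multiplicative.ofAdd (map_one (ZMod.castHom hpi (ZMod p)))
  · show ρ j hpj (e (e.symm _)) = _
    rw [e.apply_symm_apply]
    show Multiplicative.ofAdd (ZMod.castHom hpj (ZMod p) (Multiplicative.toAdd ((Pi.mulSingle i (Multiplicative.ofAdd 1) : (k : ι) → Multiplicative (ZMod (n k))) j))) = _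
    rw [Pi.mulSingle_eq_of_ne hij.symm]
    simp
  · show ρ i hpi (e (e.symm _)) = _
    rw [e.apply_symm_apply]
    show Multiplicative.ofAdd (ZMod.castHom hpi (ZMod p) (Multiplicative.toAdd ((Pi.mulSingle j (Multiplicative.ofAdd 1) : (k : ι) → Multiplicative (ZMod (n k))) i))) = _
    rw [Pi.mulSingle_eq_of_ne hij]
    simp
  · show ρ j hpj (e (e.symm _)) = _
    rw [e.apply_symm_apply]
    show Multiplicative.ofAdd (ZMod.castHom hpj (ZMod p) (Multiplicative.toAdd ((Pi.mulSingle j (Multiplicative.ofAdd 1) : (k : ι) → Multiplicative (ZMod (n k))) j))) = _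
    rw [Pi.mulSingle_eq_same]
    exact congrArg Multiplicative.ofAdd (map_one (ZMod.castHom hpj (ZMod p)))


/-- A finite abelian group has trivial Schur multiplier if and only if it is cyclic. -/
theorem result {G : Type*} [CommGroup G] [Finite G] : Cfsg.HasCyclicSchurMultiplier G 1 ↔ IsCyclic G := by
  classical
  constructor
  · intro h
    by_contra hG
    obtain ⟨p, hp, χ₁, χ₂, g, h', h1, h2, h3, h4⟩ := h8_two_chars hG
    haveI : Fact p.Prime := ⟨hp⟩
    -- the bilinear form
    let β : G →* (G →* Multiplicative (ZMod p)) :=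
      { toFun := fun x =>
          { toFun := fun y => Multiplicative.ofAdd (Multiplicative.toAdd (χ₁ x) * Multiplicative.toAdd (χ₂ y))
            map_one' := by simp
            map_mul' := fun y z => by
              rw [χ₂.map_mul, toAdd_mul, mul_add, ofAdd_add] }
        map_one' := by
          ext y
          simp
        map_mul' := fun x z => by
          ext y
          simp [add_mul] }
    let σ := CfsgLib.FGS.Schur.Heis.pr β
    have hσ : Cfsg.IsStemExtension σ := by
      refine ⟨CfsgLib.FGS.Schur.Heis.pr_surj β, CfsgLib.FGS.Schur.Heis.ker_central β, ?_⟩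
      intro x hx
      obtain ⟨t, rfl⟩ := (CfsgLib.FGS.Schur.Heis.mem_ker_iff β x).1 hx
      have h5 := CfsgLib.FGS.Schur.Heis.commutator_sec β g h' (mul_comm _ _)
      have h6 : β g h' * (β h' g)⁻¹ = Multiplicative.ofAdd 1 := by
        show Multiplicative.ofAdd (Multiplicative.toAdd (χ₁ g) * Multiplicative.toAdd (χ₂ h')) *
          (Multiplicative.ofAdd (Multiplicative.toAdd (χ₁ h') * Multiplicative.toAdd (χ₂ g)))⁻¹ = _
        rw [h1, h2, h3, h4]
        simp
      rw [h6] at h5
      have h7 : CfsgLib.FGS.Schur.Heis.inc β (Multiplicative.ofAdd 1) ∈ commutator (CfsgLib.FGS.Schur.Heis β) := by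
        rw [← h5]
        exact Subgroup.commutator_mem_commutator (Subgroup.mem_top _) (Subgroup.mem_top _)
      have h8 : t = (Multiplicative.ofAdd 1) ^ (Multiplicative.toAdd t).val := by
        rw [← ofAdd_nsmul]
        simp
      rw [h8, map_pow]
      exact Subgroup.pow_mem _ h7 _
    have hb := CfsgLib.FGS.Schur.ker_eq_bot_of_hasCyclic_one h _ σ hσ
    have h9 : CfsgLib.FGS.Schur.Heis.inc β (Multiplicative.ofAdd 1) ∈ σ.ker :=
      (CfsgLib.FGS.Schur.Heis.mem_ker_iff β _).2 ⟨_, rfl⟩
    rw [hb] at h9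
    have h10 : CfsgLib.FGS.Schur.Heis.inc β (Multiplicative.ofAdd 1) = 1 := h9
    have h11 : (Multiplicative.ofAdd (1 : ZMod p)) = 1 :=
      CfsgLib.FGS.Schur.Heis.inc_inj β (by rw [h10, map_one])
    have h12 : (1 : ZMod p) = 0 := congrArg Multiplicative.toAdd h11
    exact one_ne_zero h12
  · intro hG
    apply CfsgLib.FGS.Schur.hasCyclic_one_of
    intro Γ _ _ σ hσ
    have hcomm : ∀ a b : Γ, a * b = b * a := (MonoidHom.isMulCommutative_of_isCyclic_of_ker_le_center σ hσ.2.1).is_comm.comm
    have htriv : commutator Γ = ⊥ := by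
      rw [eq_bot_iff, _root_.commutator_def, Subgroup.commutator_le]
      intro a _ b _
      exact (commutatorElement_eq_one_iff_mul_comm.2 (hcomm a b))
    rw [eq_bot_iff]
    exact hσ.2.2.trans htriv.le

end Cfsg.Agent.S3950
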