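import Cfsg.Statements.S3951
import Cfsg.Agent.Lib.FGS.Schur3

set_option autoImplicit false
open Cfsg
open scoped commutatorElement
open scoped Pointwise

namespace Cfsg.Agent.S3951

/-- For positive integers `m` and `n` with `n` dividing `m`, the Schur multiplier of the abelian group `ZMod m × ZMod n` (written multiplicatively) is cyclic of order `n`. In particular the elementary abelian group of order `p ^ 2` has multiplier of order `p`. -/
theorem result (m n : ℕ) [NeZero m] [NeZero n] (hnm : n ∣ m) : Cfsg.HasCyclicSchurMultiplier (Multiplicative (ZMod m × ZMod n)) n := by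
  classical
  have hstem : ∀ (Γ : Type) [Group Γ] [Finite Γ] (τ : Γ →* Multiplicative (ZMod m × ZMod n)), Cfsg.IsStemExtension τ →
      ∃ π : Multiplicative (ZMod n) →* τ.ker, Function.Surjective π := by
    intro Γ _ _ τ hτ
    -- generators
    obtain ⟨A, hA⟩ : ∃ A : Multiplicative (ZMod m × ZMod n), A = Multiplicative.ofAdd ((1 : ZMod m), (0 : ZMod n)) := ⟨_, rfl⟩
    obtain ⟨B, hB⟩ : ∃ B : Multiplicative (ZMod m × ZMod n), B = Multiplicative.ofAdd ((0 : ZMod m), (1 : ZMod n)) := ⟨_, rfl⟩
    obtain ⟨a, ha⟩ := hτ.1 A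
    obtain ⟨b, hb⟩ := hτ.1 B
    have hcommK : commutator Γ ≤ τ.ker := by
      rw [_root_.commutator_def, Subgroup.commutator_le]
      intro x _ y _
      show τ ⁅x, y⁆ = 1
      rw [map_commutatorElement, commutatorElement_eq_one_iff_mul_comm]
      exact mul_comm _ _
    obtain ⟨c, hc⟩ : ∃ c, c = ⁅a, b⁆ := ⟨_, rfl⟩
    have hcK : c ∈ τ.ker := by
      rw [hc]
      exact hcommK (Subgroup.commutator_mem_commutator (Subgroup.mem_top _) (Subgroup.mem_top _))
    have hcZ : c ∈ Subgroup.center Γ := hτ.2.1 hcK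
    have hnorm : (Subgroup.zpowers c).Normal := by
      constructor
      intro y hy g
      obtain ⟨i, rfl⟩ := hy
      have : g * c ^ i = c ^ i * g := by
        have h1 : c ^ i ∈ Subgroup.center Γ := Subgroup.zpow_mem _ hcZ i
        exact Subgroup.mem_center_iff.1 h1 g
      rw [this]
      exact ⟨i, by group⟩
    have hS : Subgroup.closure ({a, b} ∪ (τ.ker : Set Γ)) = ⊤ := by
      apply CfsgLib.FGS.Schur.closure_eq_top_of_lift τ ({A, B} : Set (Multiplicative (ZMod m × ZMod n)))
      · rw [eq_top_iff]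
        intro x _
        have h1 : x = A ^ (Multiplicative.toAdd x).1.val * B ^ (Multiplicative.toAdd x).2.val := by
          rw [hA, hB]
          apply Multiplicative.toAdd.injective
          rw [toAdd_mul, toAdd_pow, toAdd_pow]
          apply Prod.ext
          · simp
          · simp
        rw [h1]
        have hm1 : A ∈ Subgroup.closure ({A, B} : Set (Multiplicative (ZMod m × ZMod n))) :=
          Subgroup.subset_closure (Set.mem_insert _ _)
        have hm2 : B ∈ Subgroup.closure ({A, B} : Set (Multiplicative (ZMod m × ZMod n))) :=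
          Subgroup.subset_closure (Set.mem_insert_of_mem _ (Set.mem_singleton _))
        exact Subgroup.mul_mem _ (Subgroup.pow_mem _ hm1 _) (Subgroup.pow_mem _ hm2 _)
      · rintro t (rfl | rfl)
        · exact ⟨a, Or.inl (Or.inl rfl), ha⟩
        · exact ⟨b, Or.inl (Or.inr rfl), hb⟩
      · intro k hk
        exact Subgroup.subset_closure (Or.inr hk)
    have hle : commutator Γ ≤ Subgroup.zpowers c := by
      apply CfsgLib.FGS.Schur.commutator_le_of_gen _ hS
      have hz1 : ∀ x y : Γ, y ∈ τ.ker → ⁅x, y⁆ ∈ Subgroup.zpowers c := by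
        intro x y hy
        rw [commutatorElement_eq_one_iff_mul_comm.2 (Subgroup.mem_center_iff.1 (hτ.2.1 hy) x)]
        exact Subgroup.one_mem _
      have hz2 : ∀ x y : Γ, x ∈ τ.ker → ⁅x, y⁆ ∈ Subgroup.zpowers c := by
        intro x y hx
        rw [commutatorElement_eq_one_iff_mul_comm.2 (Subgroup.mem_center_iff.1 (hτ.2.1 hx) y).symm]
        exact Subgroup.one_mem _
      rintro x ((rfl | rfl) | hx) y ((rfl | rfl) | hy)
      · rw [commutatorElement_self]; exact Subgroup.one_mem _
      · rw [← hc]; exact Subgroup.mem_zpowers c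
      · exact hz1 _ _ hy
      · rw [← commutatorElement_inv, ← hc]; exact Subgroup.inv_mem _ (Subgroup.mem_zpowers c)
      · rw [commutatorElement_self]; exact Subgroup.one_mem _
      · exact hz1 _ _ hy
      · exact hz2 _ _ hx
      · exact hz2 _ _ hx
      · exact hz2 _ _ hx
    have hbn : τ (b ^ n) = 1 := by
      rw [map_pow, hb, hB, ← ofAdd_nsmul]
      apply Multiplicative.toAdd.injective
      show (n • ((0 : ZMod m), (1 : ZMod n))) = (0, 0)
      apply Prod.ext
      · simp
      · simp
    have hcn : c ^ n = 1 := by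
      rw [hc, ← CfsgLib.FGS.Schur.commutator_pow_right a b (hc ▸ hcZ) n]
      exact commutatorElement_eq_one_iff_mul_comm.2 (Subgroup.mem_center_iff.1 (hτ.2.1 hbn) a)
    apply CfsgLib.FGS.Schur.exists_surj_zmod (⟨c, hcK⟩ : τ.ker) n
    · exact Subtype.ext hcn
    · intro k
      obtain ⟨i, hi⟩ := hle (hτ.2.2 k.2)
      exact ⟨i, Subtype.ext hi⟩
  constructor
  · -- existence
    let φ := ZMod.castHom hnm (ZMod n)
    let β : Multiplicative (ZMod m × ZMod n) →* (Multiplicative (ZMod m × ZMod n) →* Multiplicative (ZMod n)) :=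
      { toFun := fun x =>
          { toFun := fun y => Multiplicative.ofAdd (φ (Multiplicative.toAdd x).1 * (Multiplicative.toAdd y).2)
            map_one' := by
              show Multiplicative.ofAdd (φ (Multiplicative.toAdd x).1 * (0 : ZMod n)) = 1
              rw [mul_zero]; rfl
            map_mul' := fun y z => by
              show Multiplicative.ofAdd (φ (Multiplicative.toAdd x).1 * ((Multiplicative.toAdd y).2 + (Multiplicative.toAdd z).2)) = _
              rw [mul_add, ofAdd_add] }
        map_one' := by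
          ext y
          show Multiplicative.ofAdd (φ (0 : ZMod m) * (Multiplicative.toAdd y).2) = 1
          rw [map_zero, zero_mul]; rfl
        map_mul' := fun x z => by
          ext y
          show Multiplicative.ofAdd (φ ((Multiplicative.toAdd x).1 + (Multiplicative.toAdd z).1) * (Multiplicative.toAdd y).2) = _
          rw [φ.map_add, add_mul, ofAdd_add]
          rfl }
    refine ⟨CfsgLib.FGS.Schur.Heis β, inferInstance, inferInstance, CfsgLib.FGS.Schur.Heis.pr β, ⟨CfsgLib.FGS.Schur.Heis.pr_surj β, CfsgLib.FGS.Schur.Heis.ker_central β, ?_⟩, ⟨(CfsgLib.FGS.Schur.Heis.kerEquiv β).symm⟩⟩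
    intro x hx
    obtain ⟨t, rfl⟩ := (CfsgLib.FGS.Schur.Heis.mem_ker_iff β x).1 hx
    have h5 := CfsgLib.FGS.Schur.Heis.commutator_sec β (Multiplicative.ofAdd ((1 : ZMod m), (0 : ZMod n))) (Multiplicative.ofAdd ((0 : ZMod m), (1 : ZMod n))) (mul_comm _ _)
    have h6 : β (Multiplicative.ofAdd ((1 : ZMod m), (0 : ZMod n))) (Multiplicative.ofAdd ((0 : ZMod m), (1 : ZMod n))) *
        (β (Multiplicative.ofAdd ((0 : ZMod m), (1 : ZMod n))) (Multiplicative.ofAdd ((1 : ZMod m), (0 : ZMod n))))⁻¹ = Multiplicative.ofAdd 1 := by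
      show Multiplicative.ofAdd (φ (1 : ZMod m) * (1 : ZMod n)) * (Multiplicative.ofAdd (φ (0 : ZMod m) * (0 : ZMod n)))⁻¹ = _
      rw [map_zero, map_one, zero_mul, mul_one]
      simp
    rw [h6] at h5
    have h7 : CfsgLib.FGS.Schur.Heis.inc β (Multiplicative.ofAdd 1) ∈ commutator (CfsgLib.FGS.Schur.Heis β) := by
      rw [← h5]
      exact Subgroup.commutator_mem_commutator (Subgroup.mem_top _) (Subgroup.mem_top _)
    have h8 : t = (Multiplicative.ofAdd 1) ^ (Multiplicative.toAdd t).val := by
      rw [← ofAdd_nsmul]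
      simp
    rw [h8, map_pow]
    exact Subgroup.pow_mem _ h7 _
  · intro Γ _ _ τ hτ
    exact hstem Γ τ hτ

end Cfsg.Agent.S3951
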