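import Cfsg.Statements.S3954
import Cfsg.Agent.Lib.FGS.SchurTr

set_option autoImplicit false
open Cfsg
open scoped commutatorElement
open scoped Pointwise

namespace Cfsg.Agent.S3954

/-- Let `U` be a subgroup of index `m` in the finite group `G`, let `A` be the Schur multiplier of `G` and `B` that of `U`. Then the subgroup of `m`-th powers of `A` is isomorphic to a subgroup of `B`. -/
theorem result {G : Type*} [Group G] [Finite G] (U : Subgroup G) {A B : Type*} [CommGroup A] [CommGroup B] (hA : Cfsg.HasSchurMultiplier G A) (hB : Cfsg.HasSchurMultiplier U B) : ∃ C : Subgroup B, Nonempty ((powMonoidHom U.index : A →* A).range ≃* C) := by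
  classical
  obtain ⟨T, ν, h⟩ := CfsgLib.FGS.Schur.exists_T_nu_of U hA hB
  obtain ⟨⟨Γ, _, _, σ, _, ⟨e⟩⟩, _⟩ := hB
  haveI : Finite B := Finite.of_equiv _ e.toEquiv
  let θ : T.range →* (powMonoidHom U.index : A →* A).range :=
    MonoidHom.codRestrict (ν.comp T.range.subtype) _ (by
      rintro ⟨_, a, rfl⟩
      exact ⟨a, (h a).symm⟩)
  have hθ : Function.Surjective θ := by
    rintro ⟨_, a, rfl⟩
    exact ⟨⟨T a, a, rfl⟩, Subtype.ext (h a)⟩
  obtain ⟨C, ⟨E⟩⟩ := CfsgLib.FGS.Schur.embed_of_surj θ hθ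
  exact ⟨C.map T.range.subtype, ⟨E.trans (C.equivMapOfInjective _ T.range.subtype_injective)⟩⟩

end Cfsg.Agent.S3954
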