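import Cfsg.Statements.S3957
import Cfsg.Agent.Lib.FGS.Schur2

set_option autoImplicit false
universe u v
open Cfsg
open scoped commutatorElement
open scoped Pointwise

namespace Cfsg.Agent.S3957

/-- Let `Q` be a finite group with Schur multiplier `A` and let `τ : Δ →* Q` be a finite stem extension, `Δ` in the universe of `Q`. Then there is a finite stem extension `σ : Γ →* Q` with kernel isomorphic to `A` (a Schur covering group) and a surjective homomorphism `β : Γ →* Δ` with `τ ∘ β = σ`. -/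
theorem result {Q : Type u} [Group Q] [Finite Q] {A : Type v} [CommGroup A] (hA : Cfsg.HasSchurMultiplier Q A) {Δ : Type u} [Group Δ] [Finite Δ] (τ : Δ →* Q) (hτ : Cfsg.IsStemExtension τ) : ∃ (Γ : Type u) (_ : Group Γ) (_ : Finite Γ) (σ : Γ →* Q), Cfsg.IsStemExtension σ ∧ Nonempty (σ.ker ≃* A) ∧ ∃ β : Γ →* Δ, Function.Surjective β ∧ τ.comp β = σ := by
  classical
  obtain ⟨φ, hφ, π₂, hπ₂, hπ₂2⟩ := CfsgLib.FGS.Schur.stem_image (CfsgLib.FGS.Schur.fQ Q) (CfsgLib.FGS.Schur.fQ_surj Q) τ hτ.1 hτ.2.1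
  have hφs : Function.Surjective φ :=
    CfsgLib.FGS.Schur.lift_surjective _ τ hτ.2.1 φ hφ (CfsgLib.FGS.Schur.fQ_surj Q) hτ.2.2
  have hL : φ.ker ≤ (CfsgLib.FGS.Schur.pE (CfsgLib.FGS.Schur.fQ Q)).ker := by
    intro x hx
    show CfsgLib.FGS.Schur.pE _ x = 1
    rw [← hφ]
    show τ (φ x) = 1
    rw [show φ x = 1 from hx, map_one]
  have hsup : φ.ker ⊔ CfsgLib.FGS.Schur.Mb (CfsgLib.FGS.Schur.fQ Q) = (CfsgLib.FGS.Schur.pE (CfsgLib.FGS.Schur.fQ Q)).ker := by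
    apply le_antisymm
    · exact sup_le hL (CfsgLib.FGS.Schur.Mb_le_ker _)
    · intro x hx
      have h1 : τ (φ x) = 1 := by
        rw [CfsgLib.FGS.Schur.pE_eq _ τ φ hφ]; exact hx
      have h2 : φ x ∈ commutator Δ ⊓ τ.ker := ⟨hτ.2.2 h1, h1⟩
      obtain ⟨m, hm⟩ := hπ₂ ⟨φ x, h2⟩
      have h3 : φ m.1 = φ x := by
        rw [← hπ₂2, hm]
      have h4 : x = m.1 * (m.1⁻¹ * x) := by group
      rw [h4, sup_comm]
      refine Subgroup.mul_mem_sup m.2 ?_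
      show φ (m.1⁻¹ * x) = 1
      rw [map_mul, map_inv, h3]
      group
  obtain ⟨C, hCL, hinf, hsup2⟩ := CfsgLib.FGS.Schur.exists_complement _ φ.ker hL hsup
  obtain ⟨Γ, i1, i2, σ, β, hσ, hσβ, hβk, hβs, ⟨e⟩⟩ := CfsgLib.FGS.Schur.exists_cover _
    (CfsgLib.FGS.Schur.fQ_surj Q) C (hCL.trans hL) hinf hsup2
  obtain ⟨e2⟩ := CfsgLib.FGS.Schur.mulEquiv_Mb _ (CfsgLib.FGS.Schur.fQ_surj Q) hA
  refine ⟨Γ, i1, i2, σ, hσ, ⟨e.trans e2.symm⟩, ?_⟩
  have hle : β.ker ≤ φ.ker := by rw [hβk]; exact hCL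
  let b : Γ →* Δ := β.liftOfSurjective hβs ⟨φ, hle⟩
  have hb : ∀ x, b (β x) = φ x := fun x => MonoidHom.liftOfRightInverse_comp_apply _ _ _ _ _
  refine ⟨b, ?_, ?_⟩
  · intro y
    obtain ⟨x, rfl⟩ := hφs y
    exact ⟨β x, hb x⟩
  · apply MonoidHom.ext
    intro y
    obtain ⟨x, rfl⟩ := hβs y
    show τ (b (β x)) = σ (β x)
    rw [hb]
    have h1 : σ (β x) = CfsgLib.FGS.Schur.pE _ x := by rw [← hσβ]; rfl
    rw [h1, CfsgLib.FGS.Schur.pE_eq _ τ φ hφ]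

end Cfsg.Agent.S3957
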