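import Cfsg.Statements.S3958
import Cfsg.Agent.Lib.FGS.Schur2

set_option autoImplicit false
universe u v
open Cfsg
open scoped commutatorElement
open scoped Pointwise

namespace Cfsg.Agent.S3958

/-- Let `σ : Γ →* Q` be a finite stem extension of the finite group `Q` with `Γ` of trivial Schur multiplier. Then `σ` is a Schur covering group of `Q`: for every finite stem extension `τ : Δ →* Q` with `Δ` in the same universe as `Q`, the kernel of `τ` is a homomorphic image of the kernel of `σ`. -/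
theorem result {Q : Type u} [Group Q] [Finite Q] {Γ : Type v} [Group Γ] [Finite Γ] (σ : Γ →* Q) (hσ : Cfsg.IsStemExtension σ) (hΓ : Cfsg.HasCyclicSchurMultiplier Γ 1) (Δ : Type u) [Group Δ] [Finite Δ] (τ : Δ →* Q) (hτ : Cfsg.IsStemExtension τ) : ∃ π : σ.ker →* τ.ker, Function.Surjective π := by
  classical
  obtain ⟨ψ, hψ, π₁, hπ₁, hπ₁2⟩ := CfsgLib.FGS.Schur.stem_image (CfsgLib.FGS.Schur.fQ Q) (CfsgLib.FGS.Schur.fQ_surj Q) σ hσ.1 hσ.2.1
  obtain ⟨φ, hφ, π₂, hπ₂, hπ₂2⟩ := CfsgLib.FGS.Schur.stem_image (CfsgLib.FGS.Schur.fQ Q) (CfsgLib.FGS.Schur.fQ_surj Q) τ hτ.1 hτ.2.1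
  have hψs : Function.Surjective ψ :=
    CfsgLib.FGS.Schur.lift_surjective _ σ hσ.2.1 ψ hψ (CfsgLib.FGS.Schur.fQ_surj Q) hσ.2.2
  have hkc : ψ.ker ≤ Subgroup.center _ := by
    intro x hx
    apply CfsgLib.FGS.Schur.ker_pE_central
    show CfsgLib.FGS.Schur.pE _ x = 1
    rw [← hψ]
    show σ (ψ x) = 1
    rw [show ψ x = 1 from hx, map_one]
  have hbot := CfsgLib.FGS.Schur.commutator_inf_ker_eq_bot hΓ ψ hψs hkc
  -- `π₁` is injective
  have hinj : Function.Injective π₁ := by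
    rw [injective_iff_map_eq_one]
    intro m hm
    have h1 : ψ m.1 = 1 := by
      rw [← hπ₁2, hm]; rfl
    have h2 : m.1 ∈ commutator _ ⊓ ψ.ker := ⟨CfsgLib.FGS.Schur.Mb_le_commutator _ m.2, h1⟩
    rw [hbot] at h2
    exact Subtype.ext h2
  have hk : ∀ y : σ.ker, (y : Γ) ∈ commutator Γ ⊓ σ.ker := fun y => ⟨hσ.2.2 y.2, y.2⟩
  let e : σ.ker →* ↥(commutator Γ ⊓ σ.ker) :=
    MonoidHom.codRestrict σ.ker.subtype _ (fun y => hk y)
  have he : Function.Surjective e := fun y => ⟨⟨y, y.2.2⟩, rfl⟩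
  let E := MulEquiv.ofBijective π₁ ⟨hinj, hπ₁⟩
  have hk2 : ∀ y : τ.ker, (y : Δ) ∈ commutator Δ ⊓ τ.ker := fun y => ⟨hτ.2.2 y.2, y.2⟩
  let r : ↥(commutator Δ ⊓ τ.ker) →* τ.ker :=
    MonoidHom.codRestrict (commutator Δ ⊓ τ.ker).subtype _ (fun y => y.2.2)
  have hr : Function.Surjective r := fun y => ⟨⟨y, hk2 y⟩, rfl⟩
  refine ⟨r.comp (π₂.comp (E.symm.toMonoidHom.comp e)), hr.comp (hπ₂.comp (E.symm.surjective.comp he))⟩

end Cfsg.Agent.S3958
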