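import Cfsg.Statements.S3960
import Cfsg.Agent.Lib.FGS.Schur2

set_option autoImplicit false
universe u
open Cfsg
open scoped commutatorElement
open scoped Pointwise

namespace Cfsg.Agent.S3960

/-- A finite perfect group `Q` has a universal central extension: a finite perfect group `G` in the universe of `Q` and a surjective homomorphism `π : G →* Q` with central kernel such that for every group `X` in that universe and every surjective homomorphism `ξ : X →* Q` with central kernel there is exactly one homomorphism `η : G →* X` with `ξ ∘ η = π`. -/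
theorem result {Q : Type u} [Group Q] [Finite Q] (hQ : Group.IsPerfect Q) : ∃ (G : Type u) (_ : Group G) (_ : Finite G) (π : G →* Q), Group.IsPerfect G ∧ Function.Surjective π ∧ π.ker ≤ Subgroup.center G ∧ ∀ (X : Type u) [Group X] (ξ : X →* Q), Function.Surjective ξ → ξ.ker ≤ Subgroup.center X → ∃! η : G →* X, ξ.comp η = π := by
  classical
  haveI hfin : Finite (commutator (CfsgLib.FGS.Schur.EE (CfsgLib.FGS.Schur.fQ Q))) :=
    CfsgLib.FGS.Schur.finite_commutator _ (CfsgLib.FGS.Schur.fQ_surj Q)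
  obtain ⟨E, hE⟩ : ∃ E, E = CfsgLib.FGS.Schur.EE (CfsgLib.FGS.Schur.fQ Q) := ⟨_, rfl⟩
  let p := CfsgLib.FGS.Schur.pE (CfsgLib.FGS.Schur.fQ Q)
  have hp : Function.Surjective p := CfsgLib.FGS.Schur.pE_surj _ (CfsgLib.FGS.Schur.fQ_surj Q)
  have hpc : p.ker ≤ Subgroup.center _ := CfsgLib.FGS.Schur.ker_pE_central _
  have hQtop : commutator Q = ⊤ := hQ.commutator_eq_top
  -- every element is commutator times kernel
  have hdec : ∀ a : CfsgLib.FGS.Schur.EE (CfsgLib.FGS.Schur.fQ Q), ∃ c ∈ commutator (CfsgLib.FGS.Schur.EE (CfsgLib.FGS.Schur.fQ Q)), ∃ z ∈ p.ker, a = c * z := by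
    intro a
    have h1 : p a ∈ (commutator (CfsgLib.FGS.Schur.EE (CfsgLib.FGS.Schur.fQ Q))).map p := by
      rw [CfsgLib.FGS.Schur.map_commutator_of_surj p hp, hQtop]; trivial
    obtain ⟨c, hc, hca⟩ := h1
    refine ⟨c, hc, c⁻¹ * a, ?_, by group⟩
    show p (c⁻¹ * a) = 1
    rw [map_mul, map_inv, hca]; group
  -- perfectness
  have hperf : Group.IsPerfect (commutator (CfsgLib.FGS.Schur.EE (CfsgLib.FGS.Schur.fQ Q))) := by
    rw [Subgroup.isPerfect_iff]
    apply le_antisymm
    · exact Subgroup.commutator_le_left _ _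
    · nth_rewrite 1 [commutator_def]
      rw [Subgroup.commutator_le]
      intro a _ b _
      obtain ⟨c, hc, z, hz, rfl⟩ := hdec a
      obtain ⟨d, hd, w, hw, rfl⟩ := hdec b
      rw [CfsgLib.FGS.Schur.commutator_mul_central (hpc hz) (hpc hw)]
      exact Subgroup.commutator_mem_commutator hc hd
  refine ⟨commutator (CfsgLib.FGS.Schur.EE (CfsgLib.FGS.Schur.fQ Q)), inferInstance, hfin, p.comp (Subgroup.subtype _), hperf, ?_, ?_, ?_⟩
  · intro q
    have h1 : q ∈ (commutator (CfsgLib.FGS.Schur.EE (CfsgLib.FGS.Schur.fQ Q))).map p := by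
      rw [CfsgLib.FGS.Schur.map_commutator_of_surj p hp, hQtop]; trivial
    obtain ⟨c, hc, hca⟩ := h1
    exact ⟨⟨c, hc⟩, hca⟩
  · intro x hx
    rw [Subgroup.mem_center_iff]
    intro g
    have h1 : (x : CfsgLib.FGS.Schur.EE (CfsgLib.FGS.Schur.fQ Q)) ∈ p.ker := hx
    exact Subtype.ext (Subgroup.mem_center_iff.1 (hpc h1) g)
  · intro X _ ξ hξ hξc
    obtain ⟨φ, hφ⟩ := CfsgLib.FGS.Schur.exists_lift (CfsgLib.FGS.Schur.fQ Q) ξ hξ hξc
    refine ⟨φ.comp (Subgroup.subtype _), ?_, ?_⟩
    · apply MonoidHom.ext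
      intro g
      show ξ (φ g) = p g
      exact CfsgLib.FGS.Schur.pE_eq _ ξ φ hφ _
    · intro η hη
      -- agreement on commutators
      have hagree : ∀ g, ∃ z ∈ Subgroup.center X, η g = (φ.comp (Subgroup.subtype _)) g * z := by
        intro g
        refine ⟨((φ.comp (Subgroup.subtype _)) g)⁻¹ * η g, ?_, by group⟩
        apply hξc
        show ξ (((φ.comp (Subgroup.subtype _)) g)⁻¹ * η g) = 1
        have h1 : ξ (η g) = p g := by rw [← MonoidHom.comp_apply, hη]; rfl
        have h2 : ξ (φ g) = p g := CfsgLib.FGS.Schur.pE_eq _ ξ φ hφ _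
        rw [map_mul, map_inv, h1]
        show (ξ (φ g))⁻¹ * p g = 1
        rw [h2]; group
      have htop : commutator (commutator (CfsgLib.FGS.Schur.EE (CfsgLib.FGS.Schur.fQ Q))) = ⊤ := hperf.commutator_eq_top
      have hle : commutator (commutator (CfsgLib.FGS.Schur.EE (CfsgLib.FGS.Schur.fQ Q))) ≤ MonoidHom.eqLocus η (φ.comp (Subgroup.subtype _)) := by
        refine (commutator_def _).le.trans (Subgroup.commutator_le.2 ?_)
        intro a _ b _
        show η ⁅a, b⁆ = (φ.comp (Subgroup.subtype _)) ⁅a, b⁆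
        obtain ⟨z, hz, hza⟩ := hagree a
        obtain ⟨w, hw, hwa⟩ := hagree b
        rw [map_commutatorElement, map_commutatorElement, hza, hwa, CfsgLib.FGS.Schur.commutator_mul_central hz hw]
      apply MonoidHom.ext
      intro g
      have : g ∈ commutator (commutator (CfsgLib.FGS.Schur.EE (CfsgLib.FGS.Schur.fQ Q))) := by rw [htop]; trivial
      exact hle this

end Cfsg.Agent.S3960
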