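import Cfsg.Statements.S3961
import Cfsg.Agent.Lib.FGS.Schur2

set_option autoImplicit false
universe u v
open Cfsg
open scoped commutatorElement
open scoped Pointwise

namespace Cfsg.Agent.S3961

/-- Let `π : G →* Q` be a surjective homomorphism with central kernel from a finite perfect group `G` (a perfect cover of `Q`). Then `π` is universal, in the sense that every surjective homomorphism `ξ : X →* Q` with central kernel from a group `X` in the universe of `G` admits a homomorphism `η : G →* X` with `ξ ∘ η = π`, if and only if `G` has trivial Schur multiplier. -/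
theorem result {G : Type u} {Q : Type v} [Group G] [Group Q] [Finite G] (hG : Group.IsPerfect G) (π : G →* Q) (hπ : Function.Surjective π) (hker : π.ker ≤ Subgroup.center G) : (∀ (X : Type u) [Group X] (ξ : X →* Q), Function.Surjective ξ → ξ.ker ≤ Subgroup.center X → ∃ η : G →* X, ξ.comp η = π) ↔ Cfsg.HasCyclicSchurMultiplier G 1 := by
  classical
  have hGtop : commutator G = ⊤ := hG.commutator_eq_top
  constructor
  · intro huniv
    apply CfsgLib.FGS.Schur.hasCyclic_one_of
    intro Γ _ _ τ hτ
    have hτs := hτ.1
    -- `Γ` is perfect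
    have hΓtop : commutator Γ = ⊤ := by
      rw [eq_top_iff]
      intro a _
      have h1 : τ a ∈ (commutator Γ).map τ := by
        rw [CfsgLib.FGS.Schur.map_commutator_of_surj τ hτs, hGtop]; trivial
      obtain ⟨c, hc, hca⟩ := h1
      have h2 : c⁻¹ * a ∈ τ.ker := by
        show τ (c⁻¹ * a) = 1
        rw [map_mul, map_inv, hca]; group
      have h3 : a = c * (c⁻¹ * a) := by group
      rw [h3]
      exact Subgroup.mul_mem _ hc (hτ.2.2 h2)
    -- the composite has central kernel
    have hcentral : (π.comp τ).ker ≤ Subgroup.center Γ := by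
      intro x hx
      have hx1 : τ x ∈ Subgroup.center G := hker hx
      -- the map `y ↦ [y, x]` into the centre
      have hval : ∀ y : Γ, ⁅y, x⁆ ∈ τ.ker := by
        intro y
        show τ ⁅y, x⁆ = 1
        rw [map_commutatorElement, commutatorElement_def, (Subgroup.mem_center_iff.1 hx1 (τ y))]
        group
      have hcen : ∀ y : Γ, ⁅y, x⁆ ∈ Subgroup.center Γ := fun y => hτ.2.1 (hval y)
      let d : Γ →* Subgroup.center Γ :=
        { toFun := fun y => ⟨⁅y, x⁆, hcen y⟩
          map_one' := Subtype.ext (by simp)
          map_mul' := fun a b => Subtype.ext (by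
            show ⁅a * b, x⁆ = ⁅a, x⁆ * ⁅b, x⁆
            have h1 := Subgroup.mem_center_iff.1 (hcen b) a
            calc ⁅a * b, x⁆ = a * ⁅b, x⁆ * a⁻¹ * ⁅a, x⁆ := by
                  simp only [commutatorElement_def]; group
              _ = ⁅b, x⁆ * a * a⁻¹ * ⁅a, x⁆ := by rw [h1.symm]
              _ = ⁅b, x⁆ * ⁅a, x⁆ := by group
              _ = ⁅a, x⁆ * ⁅b, x⁆ := (Subgroup.mem_center_iff.1 (hcen a) _)) }
      have hd : commutator Γ ≤ d.ker := by
        rw [commutator_def, Subgroup.commutator_le]
        intro a _ b _
        show d ⁅a, b⁆ = 1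
        have hcomm : d a * d b = d b * d a := Subtype.ext (Subgroup.mem_center_iff.1 (d a).2 (d b : Γ)).symm
        rw [map_commutatorElement, commutatorElement_def, hcomm]
        simp
      rw [Subgroup.mem_center_iff]
      intro y
      have h1 : y ∈ commutator Γ := by rw [hΓtop]; trivial
      have h2 : ⁅y, x⁆ = 1 := congrArg Subtype.val (hd h1)
      exact (commutatorElement_eq_one_iff_mul_comm.1 h2)
    obtain ⟨η, hη⟩ := huniv Γ (π.comp τ) (hπ.comp hτs) hcentral
    -- `τ ∘ η = id`
    let ε : G →* G := τ.comp η
    have hε : ∀ g, ∃ z ∈ Subgroup.center G, ε g = g * z := by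
      intro g
      refine ⟨g⁻¹ * ε g, hker ?_, by group⟩
      show π (g⁻¹ * ε g) = 1
      have h1 : π (ε g) = π g := by
        have := congrArg (fun k => k g) hη
        exact this
      rw [map_mul, map_inv, h1]; group
    have hεid : ε = MonoidHom.id G := by
      have hle : commutator G ≤ MonoidHom.eqLocus ε (MonoidHom.id G) := by
        rw [commutator_def, Subgroup.commutator_le]
        intro a _ b _
        show ε ⁅a, b⁆ = ⁅a, b⁆
        obtain ⟨z, hz, hza⟩ := hε a
        obtain ⟨w, hw, hwa⟩ := hε b
        rw [map_commutatorElement, hza, hwa, CfsgLib.FGS.Schur.commutator_mul_central hz hw]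
      apply MonoidHom.ext
      intro g
      have : g ∈ commutator G := by rw [hGtop]; trivial
      exact hle this
    -- all commutators are images of `η`
    have hdecΓ : ∀ a : Γ, ∃ g, ∃ z ∈ τ.ker, a = η g * z := by
      intro a
      refine ⟨τ a, (η (τ a))⁻¹ * a, ?_, by group⟩
      show τ ((η (τ a))⁻¹ * a) = 1
      have h1 : τ (η (τ a)) = τ a := by
        have := congrArg (fun k => k (τ a)) hεid
        exact this
      rw [map_mul, map_inv, h1]; group
    have hle2 : commutator Γ ≤ η.range := by
      rw [commutator_def, Subgroup.commutator_le]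
      intro a _ b _
      obtain ⟨g, z, hz, rfl⟩ := hdecΓ a
      obtain ⟨h, w, hw, rfl⟩ := hdecΓ b
      rw [CfsgLib.FGS.Schur.commutator_mul_central (hτ.2.1 hz) (hτ.2.1 hw), ← map_commutatorElement]
      exact ⟨_, rfl⟩
    rw [eq_bot_iff]
    intro k hk
    obtain ⟨g, hg⟩ := hle2 (hτ.2.2 hk)
    have h1 : τ (η g) = g := by
      have := congrArg (fun k => k g) hεid
      exact this
    rw [hg, show τ k = 1 from hk] at h1
    rw [← hg, ← h1, map_one]
    exact Subgroup.one_mem _
  · intro hM X _ ξ hξ hξc
    -- the pullback
    let P : Subgroup (G × X) :=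
      { carrier := {p | π p.1 = ξ p.2}
        mul_mem' := by
          intro a b ha hb
          show π (a.1 * b.1) = ξ (a.2 * b.2)
          rw [map_mul, map_mul, show π a.1 = ξ a.2 from ha, show π b.1 = ξ b.2 from hb]
        one_mem' := by
          show π 1 = ξ 1
          simp
        inv_mem' := by
          intro a ha
          show π a.1⁻¹ = ξ a.2⁻¹
          rw [map_inv, map_inv, show π a.1 = ξ a.2 from ha] }
    let r : P →* G := (MonoidHom.fst G X).comp P.subtype
    have hrs : Function.Surjective r := by
      intro g
      obtain ⟨x, hx⟩ := hξ (π g)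
      exact ⟨⟨(g, x), hx.symm⟩, rfl⟩
    have hrc : r.ker ≤ Subgroup.center P := by
      intro p hp
      have hp1 : (p : G × X).1 = 1 := hp
      have hp2 : ξ (p : G × X).2 = 1 := by
        have := p.2
        have h3 : π (p : G × X).1 = ξ (p : G × X).2 := this
        rw [← h3, hp1, map_one]
      rw [Subgroup.mem_center_iff]
      intro q
      apply Subtype.ext
      apply Prod.ext
      · show (q : G × X).1 * (p : G × X).1 = (p : G × X).1 * (q : G × X).1
        rw [hp1]; simp
      · show (q : G × X).2 * (p : G × X).2 = (p : G × X).2 * (q : G × X).2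
        exact Subgroup.mem_center_iff.1 (hξc hp2) _
    have hbot := CfsgLib.FGS.Schur.commutator_inf_ker_eq_bot hM r hrs hrc
    have hmap := CfsgLib.FGS.Schur.map_commutator_of_surj r hrs
    rw [hGtop] at hmap
    -- section of `r` on the commutator subgroup
    let r₁ : commutator P →* G := r.comp (Subgroup.subtype _)
    have hr₁ : Function.Bijective r₁ := by
      constructor
      · rw [injective_iff_map_eq_one]
        intro c hc
        have h2 : (c : P) ∈ commutator P ⊓ r.ker := ⟨c.2, hc⟩
        rw [hbot] at h2
        exact Subtype.ext h2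
      · intro g
        have : g ∈ (commutator P).map r := by rw [hmap]; trivial
        obtain ⟨c, hc, hcg⟩ := this
        exact ⟨⟨c, hc⟩, hcg⟩
    let e := MulEquiv.ofBijective r₁ hr₁
    let pr2 : P →* X := (MonoidHom.snd G X).comp P.subtype
    refine ⟨pr2.comp ((Subgroup.subtype _).comp e.symm.toMonoidHom), ?_⟩
    apply MonoidHom.ext
    intro g
    have h1 : ((e.symm g : commutator P) : P).1 ∈ P := ((e.symm g : commutator P) : P).2
    have h2 : π (((e.symm g : commutator P) : P) : G × X).1 = ξ (((e.symm g : commutator P) : P) : G × X).2 := h1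
    have h3 : (((e.symm g : commutator P) : P) : G × X).1 = g := e.apply_symm_apply g
    rw [h3] at h2
    exact h2.symm

end Cfsg.Agent.S3961
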