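import Cfsg.Statements.S3962
import Cfsg.Agent.Lib.FGS.Basic

set_option autoImplicit false
open Cfsg

namespace Cfsg.Agent.S3962

/-- Let `G` be a perfect group and `π : G →* Q` a surjective homomorphism whose kernel is central. Then `π` maps the centre of `G` onto the centre of `Q`. Taking `π` to be the map to `G ⧸ Z(G)` shows that the central quotient of a perfect group has trivial centre. -/
theorem result {G Q : Type*} [Group G] [Group Q] (hG : Group.IsPerfect G) (π : G →* Q) (hπ : Function.Surjective π) (hker : π.ker ≤ Subgroup.center G) : (Subgroup.center G).map π = Subgroup.center Q := by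
  apply le_antisymm
  · rintro _ ⟨g, hg, rfl⟩
    rw [Subgroup.mem_center_iff]
    intro y
    obtain ⟨x, rfl⟩ := hπ y
    rw [← map_mul, ← map_mul, (Subgroup.mem_center_iff.mp hg) x]
  · intro z hz
    obtain ⟨g, rfl⟩ := hπ z
    refine ⟨g, ?_, rfl⟩
    have hc : ∀ x : G, g * x * g⁻¹ * x⁻¹ ∈ Subgroup.center G := by
      intro x
      apply hker
      rw [MonoidHom.mem_ker]
      have := (Subgroup.mem_center_iff.mp hz) (π x)
      simp only [map_mul, map_inv]
      rw [← this]
      group
    have hmul : ∀ a b : G, g * (a * b) * g⁻¹ * (a * b)⁻¹ = (g * a * g⁻¹ * a⁻¹) * (g * b * g⁻¹ * b⁻¹) := by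
      intro a b
      have h1 := (Subgroup.mem_center_iff.mp (hc b)) a
      have h2 : a * (g * b * g⁻¹ * b⁻¹) * a⁻¹ = g * b * g⁻¹ * b⁻¹ := by
        rw [h1]; group
      have h3 : g * (a * b) * g⁻¹ * (a * b)⁻¹ = (g * a * g⁻¹ * a⁻¹) * (a * (g * b * g⁻¹ * b⁻¹) * a⁻¹) := by group
      rw [h3, h2]
    obtain ⟨f, hf⟩ : ∃ f : G →* Subgroup.center G, ∀ x, (f x : G) = g * x * g⁻¹ * x⁻¹ :=
      ⟨{ toFun := fun x => ⟨g * x * g⁻¹ * x⁻¹, hc x⟩
         map_one' := by ext; simp
         map_mul' := by
          intro a b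
          ext
          exact hmul a b }, fun x => rfl⟩
    have hk : commutator G ≤ f.ker := by
      rw [commutator_def, Subgroup.commutator_le]
      intro a _ b _
      rw [MonoidHom.mem_ker, Subtype.ext_iff]
      simp only [commutatorElement_def, map_mul, map_inv, Subgroup.coe_mul, Subgroup.coe_inv, Subgroup.coe_one]
      have := (Subgroup.mem_center_iff.mp (f b).2) (f a : G)
      rw [this]; group
    have htop : commutator G = ⊤ := hG.commutator_eq_top
    rw [htop, top_le_iff] at hk
    show g ∈ Subgroup.center G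
    rw [Subgroup.mem_center_iff]
    intro x
    have hx : x ∈ f.ker := hk ▸ Subgroup.mem_top x
    rw [MonoidHom.mem_ker] at hx
    have h3 : g * x * g⁻¹ * x⁻¹ = 1 := by rw [← hf, hx]; rfl
    have h4 : g * x = x * g := by
      have := mul_inv_eq_one.mp h3
      exact mul_inv_eq_iff_eq_mul.mp this
    exact h4.symm

end Cfsg.Agent.S3962
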