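import Cfsg.Statements.S3963
import Cfsg.Agent.Lib.FGS.Schur3

set_option autoImplicit false
open Cfsg
open scoped commutatorElement
open scoped Pointwise

namespace Cfsg.Agent.S3963

/-- For every `n ≥ 1` the dicyclic (generalized quaternion) group of order `4 n` has trivial Schur multiplier. -/
theorem result (n : ℕ) [NeZero n] : Cfsg.HasCyclicSchurMultiplier (QuaternionGroup n) 1 := by
  classical
  haveI h2n : NeZero (2 * n) := ⟨by have := NeZero.ne n; omega⟩
  apply CfsgLib.FGS.Schur.hasCyclic_one_of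
  intro Γ _ _ τ hτ
  obtain ⟨r, hr⟩ := hτ.1 (QuaternionGroup.a 1)
  obtain ⟨s, hs⟩ := hτ.1 (QuaternionGroup.xa 0)
  have hnn : (n : ZMod (2 * n)) + n = 0 := by
    have := ZMod.natCast_self (2 * n)
    rw [two_mul] at this
    rw [two_mul]
    exact_mod_cast this
  have hgen : Subgroup.closure ({τ r, τ s} : Set (QuaternionGroup n)) = ⊤ := by
    rw [hr, hs, eq_top_iff]
    have ha : ∀ i, (QuaternionGroup.a i : QuaternionGroup n) ∈ Subgroup.closure ({QuaternionGroup.a 1, QuaternionGroup.xa 0} : Set (QuaternionGroup n)) := by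
      intro i
      have h1 : (QuaternionGroup.a i : QuaternionGroup n) = (QuaternionGroup.a 1) ^ i.val := by
        rw [QuaternionGroup.a_one_pow, ZMod.natCast_zmod_val]
      rw [h1]
      exact Subgroup.pow_mem _ (Subgroup.subset_closure (Set.mem_insert _ _)) _
    rintro (i | i) _
    · exact ha i
    · have h2 : (QuaternionGroup.xa i : QuaternionGroup n) = QuaternionGroup.xa 0 * QuaternionGroup.a i := by
        rw [QuaternionGroup.xa_mul_a, zero_add]
      rw [h2]
      exact Subgroup.mul_mem _ (Subgroup.subset_closure (Set.mem_insert_of_mem _ rfl)) (ha i)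
  have hainv : ∀ i : ZMod (2 * n), (QuaternionGroup.a i : QuaternionGroup n)⁻¹ = QuaternionGroup.a (-i) := by
    intro i
    apply inv_eq_of_mul_eq_one_right
    rw [QuaternionGroup.a_mul_a, add_neg_cancel, QuaternionGroup.a_zero]
  have hxinv : (QuaternionGroup.xa 0 : QuaternionGroup n)⁻¹ = QuaternionGroup.xa (n : ZMod (2 * n)) := by
    apply inv_eq_of_mul_eq_one_right
    rw [QuaternionGroup.xa_mul_xa, sub_zero, hnn, QuaternionGroup.a_zero]
  have hrel : τ (s * r * s⁻¹) = (τ r)⁻¹ := by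
    rw [map_mul, map_mul, map_inv, hr, hs, hxinv, hainv, QuaternionGroup.xa_mul_a,
      QuaternionGroup.xa_mul_xa]
    congr 1
    rw [show (n : ZMod (2 * n)) + (n : ZMod (2 * n)) - (0 + 1) = ((n : ZMod (2 * n)) + n) - 1 by ring, hnn]
    ring
  have hn : s * r ^ n = r ^ n * s := by
    have h1 : τ (s * s * (r ^ n)⁻¹) = 1 := by
      rw [map_mul, map_mul, map_inv, map_pow, hr, hs, QuaternionGroup.a_one_pow, QuaternionGroup.xa_mul_xa,
        hainv, QuaternionGroup.a_mul_a]
      rw [QuaternionGroup.one_def]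
      congr 1
      ring
    have h2 := hτ.2.1 h1
    have h3 : r ^ n = (s * s * (r ^ n)⁻¹)⁻¹ * (s * s) := by group
    rw [h3]
    have h4 := Subgroup.mem_center_iff.1 h2 s
    have h5 : Commute s (s * s * (r ^ n)⁻¹)⁻¹ := Commute.inv_right h4
    calc s * ((s * s * (r ^ n)⁻¹)⁻¹ * (s * s)) = (s * (s * s * (r ^ n)⁻¹)⁻¹) * (s * s) := (mul_assoc _ _ _).symm
      _ = ((s * s * (r ^ n)⁻¹)⁻¹ * s) * (s * s) := by rw [h5.eq]
      _ = (s * s * (r ^ n)⁻¹)⁻¹ * (s * s) * s := by simp only [mul_assoc]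
  obtain ⟨c, hc1, hc2, hc3⟩ := CfsgLib.FGS.Schur.dih_core τ hτ r s hgen hrel n hn
  rw [eq_bot_iff]
  intro k hk
  have hk1 := CfsgLib.FGS.Schur.dih_finish τ c (τ r) hc1 n (by
    intro i hi
    rw [hr, ← orderOf_dvd_iff_zpow_eq_one, QuaternionGroup.orderOf_a_one] at hi
    push_cast at hi
    have hn2 : (2 : ℤ) ≠ 0 := by norm_num
    exact (mul_dvd_mul_iff_left hn2).1 hi) k hk (hc3 hk)
  rw [hc2] at hk1
  exact (Subgroup.mem_bot).2 (by simpa using hk1)

end Cfsg.Agent.S3963
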