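import Cfsg.Statements.S3964
import Cfsg.Agent.Lib.FGS.Schur3

set_option autoImplicit false
open Cfsg
open scoped commutatorElement
open scoped Pointwise

namespace Cfsg.Agent.S3964

/-- For odd `n` the dihedral group of order `2 n` has trivial Schur multiplier. -/
theorem result (n : ℕ) (hn : Odd n) : Cfsg.HasCyclicSchurMultiplier (DihedralGroup n) 1 := by
  classical
  haveI hn0 : NeZero n := ⟨hn.pos.ne'⟩
  apply CfsgLib.FGS.Schur.hasCyclic_one_of
  intro Γ _ _ τ hτ
  obtain ⟨r, hr⟩ := hτ.1 (DihedralGroup.r 1)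
  obtain ⟨s, hs⟩ := hτ.1 (DihedralGroup.sr 0)
  have hgen : Subgroup.closure ({τ r, τ s} : Set (DihedralGroup n)) = ⊤ := by
    rw [hr, hs, eq_top_iff]
    have ha : ∀ i, (DihedralGroup.r i : DihedralGroup n) ∈ Subgroup.closure ({DihedralGroup.r 1, DihedralGroup.sr 0} : Set (DihedralGroup n)) := by
      intro i
      have h1 : (DihedralGroup.r i : DihedralGroup n) = (DihedralGroup.r 1) ^ i.val := by
        rw [DihedralGroup.r_one_pow, ZMod.natCast_zmod_val]
      rw [h1]
      exact Subgroup.pow_mem _ (Subgroup.subset_closure (Set.mem_insert _ _)) _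
    rintro (i | i) _
    · exact ha i
    · have h2 : (DihedralGroup.sr i : DihedralGroup n) = DihedralGroup.sr 0 * DihedralGroup.r i := by
        rw [DihedralGroup.sr_mul_r, zero_add]
      rw [h2]
      exact Subgroup.mul_mem _ (Subgroup.subset_closure (Set.mem_insert_of_mem _ rfl)) (ha i)
  have hrel : τ (s * r * s⁻¹) = (τ r)⁻¹ := by
    rw [map_mul, map_mul, map_inv, hr, hs, DihedralGroup.inv_sr, DihedralGroup.inv_r, DihedralGroup.sr_mul_r,
      DihedralGroup.sr_mul_sr]
    congr 1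
    ring
  have hn' : s * r ^ n = r ^ n * s := by
    have h1 : τ (r ^ n) = 1 := by
      rw [map_pow, hr, DihedralGroup.r_one_pow_n]
    exact (Subgroup.mem_center_iff.1 (hτ.2.1 h1) s)
  obtain ⟨c, hc1, hc2, hc3⟩ := CfsgLib.FGS.Schur.dih_core τ hτ r s hgen hrel n hn'
  rw [eq_bot_iff]
  intro k hk
  have hk1 := CfsgLib.FGS.Schur.dih_finish τ c (τ r) hc1 n (by
    intro i hi
    rw [hr, ← orderOf_dvd_iff_zpow_eq_one, DihedralGroup.orderOf_r_one] at hi
    have hcop : IsCoprime (n : ℤ) 2 := by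
      have h5 : Nat.Coprime n 2 := Nat.Coprime.symm (Nat.coprime_two_left.2 hn)
      exact_mod_cast Nat.isCoprime_iff_coprime.2 h5
    exact hcop.dvd_of_dvd_mul_left hi) k hk (hc3 hk)
  rw [hc2] at hk1
  exact (Subgroup.mem_bot).2 (by simpa using hk1)

end Cfsg.Agent.S3964
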