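import Cfsg.Statements.S3966
import Cfsg.Agent.Lib.FGS.Basic

set_option autoImplicit false
open Cfsg
open scoped commutatorElement

namespace Cfsg.Agent.S3966

/-- For even `n ≥ 2` the dicyclic group of order `4 n` is a stem extension of the dihedral group of order `2 n` with kernel of order `2`: there is a surjective homomorphism `QuaternionGroup n →* DihedralGroup n` whose kernel is central, lies in the commutator subgroup and has two elements. Together with the order of the multiplier this exhibits the dicyclic group as a Schur covering group of the dihedral group. -/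
theorem result (n : ℕ) [NeZero n] (hn : Even n) : ∃ σ : QuaternionGroup n →* DihedralGroup n, Cfsg.IsStemExtension σ ∧ Nat.card σ.ker = 2 := by
  classical
  have h2n : NeZero (2 * n) := ⟨by have := NeZero.ne n; omega⟩
  let c : ZMod (2 * n) →+* ZMod n := ZMod.castHom (Dvd.intro_left 2 rfl) (ZMod n)
  have hcn : c (n : ZMod (2 * n)) = 0 := by simp [c]
  have hcs : Function.Surjective c := ZMod.castHom_surjective _
  let f : QuaternionGroup n → DihedralGroup n := fun q => match q with
    | QuaternionGroup.a i => DihedralGroup.r (c i)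
    | QuaternionGroup.xa i => DihedralGroup.sr (c i)
  have hf : ∀ x y, f (x * y) = f x * f y := by
    rintro (i | i) (j | j)
    · simp [f]
    · simp [f]
    · simp [f]
    · simp [f, hcn]
  let σ : QuaternionGroup n →* DihedralGroup n := MonoidHom.mk' f hf
  have hσa : ∀ i, σ (QuaternionGroup.a i) = DihedralGroup.r (c i) := fun i => rfl
  have hσx : ∀ i, σ (QuaternionGroup.xa i) = DihedralGroup.sr (c i) := fun i => rfl
  have hker : ∀ q : QuaternionGroup n, q ∈ σ.ker ↔ q = 1 ∨ q = QuaternionGroup.a (n : ZMod (2 * n)) := by
    intro q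
    rw [MonoidHom.mem_ker]
    constructor
    · rcases q with i | i
      · intro h
        rw [hσa, DihedralGroup.one_def] at h
        have h1 : c i = 0 := DihedralGroup.r.inj h
        have h2 : ((i.val : ℕ) : ZMod n) = 0 := by
          have h3 : ((i.val : ℕ) : ZMod (2 * n)) = i := ZMod.natCast_zmod_val i
          rw [← h3, map_natCast] at h1
          exact h1
        obtain ⟨k, hk⟩ := (ZMod.natCast_eq_zero_iff _ _).mp h2
        have h3 : i.val < 2 * n := ZMod.val_lt i
        have hnpos : 0 < n := Nat.pos_of_ne_zero (NeZero.ne n)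
        have hk2 : k < 2 := by
          rw [hk] at h3
          exact Nat.lt_of_mul_lt_mul_left (a := n) (by rw [mul_comm n 2]; exact h3)
        have h4 : i = ((i.val : ℕ) : ZMod (2 * n)) := (ZMod.natCast_zmod_val i).symm
        have hk' : k = 0 ∨ k = 1 := by omega
        rcases hk' with rfl | rfl
        · left
          rw [h4, hk]
          simp
        · right
          rw [h4, hk]
          simp
      · intro h
        rw [hσx, DihedralGroup.one_def] at h
        cases h
    · rintro (rfl | rfl)
      · exact map_one σ
      · rw [hσa, hcn]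
        rfl
  have hne : QuaternionGroup.a (n : ZMod (2 * n)) ≠ (1 : QuaternionGroup n) := by
    rw [QuaternionGroup.one_def]
    intro h
    have h1 := QuaternionGroup.a.inj h
    have h2 := (ZMod.natCast_eq_zero_iff n (2 * n)).mp h1
    have hnpos : 0 < n := Nat.pos_of_ne_zero (NeZero.ne n)
    have := Nat.le_of_dvd hnpos h2
    omega
  refine ⟨σ, ⟨?_, ?_, ?_⟩, ?_⟩
  · rintro (j | j)
    · obtain ⟨i, rfl⟩ := hcs j
      exact ⟨QuaternionGroup.a i, rfl⟩
    · obtain ⟨i, rfl⟩ := hcs j
      exact ⟨QuaternionGroup.xa i, rfl⟩
  · intro q hq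
    rcases (hker q).mp hq with rfl | rfl
    · exact Subgroup.one_mem _
    · rw [Subgroup.mem_center_iff]
      have h2n0 : ((2 * n : ℕ) : ZMod (2 * n)) = 0 := ZMod.natCast_self _
      have h2n0' : (n : ZMod (2 * n)) + n = 0 := by
        rw [← Nat.cast_add, ← two_mul]
        exact h2n0
      rintro (j | j)
      · simp [add_comm]
      · simp only [QuaternionGroup.xa_mul_a, QuaternionGroup.a_mul_xa]
        congr 1
        have : (n : ZMod (2 * n)) = - n := eq_neg_of_add_eq_zero_left h2n0'
        rw [sub_eq_add_neg, ← this]
  · intro q hq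
    rcases (hker q).mp hq with rfl | rfl
    · exact Subgroup.one_mem _
    · obtain ⟨m, hm⟩ := hn
      have h1 : (QuaternionGroup.a (1 : ZMod (2 * n))) ^ 2 ∈ commutator (QuaternionGroup n) := by
        have h3 : ⁅(QuaternionGroup.a (1 : ZMod (2 * n)) : QuaternionGroup n), QuaternionGroup.xa (0 : ZMod (2 * n))⁆ = (QuaternionGroup.a (1 : ZMod (2 * n))) ^ 2 := by
          have h2n0 : ((2 * n : ℕ) : ZMod (2 * n)) = 0 := ZMod.natCast_self _
          have h2n0' : (n : ZMod (2 * n)) + n = 0 := by
            rw [← Nat.cast_add, ← two_mul]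
            exact h2n0
          have hi1 : (QuaternionGroup.a (1 : ZMod (2 * n)) : QuaternionGroup n)⁻¹ = QuaternionGroup.a (-1) := by
            apply inv_eq_of_mul_eq_one_right
            simp
          have hi2 : (QuaternionGroup.xa (0 : ZMod (2 * n)) : QuaternionGroup n)⁻¹ = QuaternionGroup.xa (n : ZMod (2 * n)) := by
            apply inv_eq_of_mul_eq_one_right
            simp [h2n0']
          rw [commutatorElement_def, sq, hi1, hi2]
          simp only [QuaternionGroup.a_mul_xa, QuaternionGroup.xa_mul_a, QuaternionGroup.a_mul_a,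
            QuaternionGroup.xa_mul_xa]
          congr 1
          linear_combination h2n0'
        rw [← h3]
        exact Subgroup.commutator_mem_commutator (Subgroup.mem_top _) (Subgroup.mem_top _)
      have h4 : QuaternionGroup.a (n : ZMod (2 * n)) = ((QuaternionGroup.a (1 : ZMod (2 * n))) ^ 2) ^ m := by
        rw [← pow_mul, QuaternionGroup.a_one_pow]
        congr 2
        omega
      rw [h4]
      exact Subgroup.pow_mem _ h1 m
  · rw [Nat.card_eq_two_iff]
    refine ⟨⟨1, Subgroup.one_mem _⟩, ⟨QuaternionGroup.a (n : ZMod (2 * n)), (hker _).mpr (Or.inr rfl)⟩, ?_, ?_⟩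
    · intro h
      exact hne (congrArg Subtype.val h).symm
    · ext ⟨q, hq⟩
      simp only [Set.mem_insert_iff, Set.mem_singleton_iff, Set.mem_univ, iff_true]
      rcases (hker q).mp hq with rfl | rfl
      · left; rfl
      · right; rfl

end Cfsg.Agent.S3966
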