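import Cfsg.Statements.S3965
import Cfsg.Agent.Lib.FGS.Schur3
import Cfsg.Agent.S3966

set_option autoImplicit false
open Cfsg
open scoped commutatorElement
open scoped Pointwise

namespace Cfsg.Agent.S3965

/-- For even `n ≥ 2` the dihedral group of order `2 n` has Schur multiplier cyclic of order `2`. -/
theorem result (n : ℕ) [NeZero n] (hn : Even n) : Cfsg.HasCyclicSchurMultiplier (DihedralGroup n) 2 := by
  classical
  obtain ⟨m, hm⟩ := hn
  have hm0 : m ≠ 0 := by
    intro h
    have := NeZero.ne n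
    omega
  haveI hm' : NeZero m := ⟨hm0⟩
  have hn2 : n = 2 * m := by omega
  constructor
  · obtain ⟨σ, hσ, hcard⟩ := Cfsg.Agent.S3966.result n ⟨m, hm⟩
    refine ⟨QuaternionGroup n, inferInstance, inferInstance, σ, hσ, ?_⟩
    -- a group of order two
    haveI : Fact (Nat.Prime 2) := ⟨Nat.prime_two⟩
    haveI : IsCyclic σ.ker := isCyclic_of_prime_card hcard
    haveI : IsCyclic (Multiplicative (ZMod 2)) := inferInstance
    have hc2 : Nat.card (Multiplicative (ZMod 2)) = 2 := by
      rw [Nat.card_eq_fintype_card]; simp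
    exact ⟨mulEquivOfCyclicCardEq (hcard.trans hc2.symm)⟩
  · intro Γ _ _ τ hτ
    obtain ⟨r, hr⟩ := hτ.1 (DihedralGroup.r 1)
    obtain ⟨s, hs⟩ := hτ.1 (DihedralGroup.sr 0)
    have hgen : Subgroup.closure ({τ r, τ s} : Set (DihedralGroup n)) = ⊤ := by
      rw [hr, hs, eq_top_iff]
      have ha : ∀ i, (DihedralGroup.r i : DihedralGroup n) ∈ Subgroup.closure ({DihedralGroup.r 1, DihedralGroup.sr 0} : Set (DihedralGroup n)) := by
        intro i
        have h1 : (DihedralGroup.r i : DihedralGroup n) = (DihedralGroup.r 1) ^ i.val := by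
          rw [DihedralGroup.r_one_pow, ZMod.natCast_zmod_val]
        rw [h1]
        exact Subgroup.pow_mem _ (Subgroup.subset_closure (Set.mem_insert _ _)) _
      rintro (i | i) _
      · exact ha i
      · have h2 : (DihedralGroup.sr i : DihedralGroup n) = DihedralGroup.sr 0 * DihedralGroup.r i := by
          rw [DihedralGroup.sr_mul_r, zero_add]
        rw [h2]
        exact Subgroup.mul_mem _ (Subgroup.subset_closure (Set.mem_insert_of_mem _ rfl)) (ha i)
    have hrel : τ (s * r * s⁻¹) = (τ r)⁻¹ := by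
      rw [map_mul, map_mul, map_inv, hr, hs, DihedralGroup.inv_sr, DihedralGroup.inv_r, DihedralGroup.sr_mul_r,
        DihedralGroup.sr_mul_sr]
      congr 1
      ring
    have hn' : s * r ^ n = r ^ n * s := by
      have h1 : τ (r ^ n) = 1 := by
        rw [map_pow, hr, DihedralGroup.r_one_pow_n]
      exact (Subgroup.mem_center_iff.1 (hτ.2.1 h1) s)
    obtain ⟨c, hc1, hc2, hc3⟩ := CfsgLib.FGS.Schur.dih_core τ hτ r s hgen hrel n hn'
    have hdK : τ (c ^ m) = 1 := by
      rw [map_pow, hc1, ← pow_mul, inv_pow, hr]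
      rw [show 2 * m = n by omega, DihedralGroup.r_one_pow_n, inv_one]
    have hd2 : (c ^ m) ^ 2 = 1 := by
      rw [← pow_mul, show m * 2 = n by omega, hc2]
    have hall : ∀ k : τ.ker, (k : Γ) ∈ Subgroup.zpowers (c ^ m) := by
      intro k
      apply CfsgLib.FGS.Schur.dih_finish τ c (τ r) hc1 m (by
        intro i hi
        rw [hr, ← orderOf_dvd_iff_zpow_eq_one, DihedralGroup.orderOf_r_one, hn2] at hi
        push_cast at hi
        have h2 : (2 : ℤ) ≠ 0 := by norm_num
        exact (mul_dvd_mul_iff_left h2).1 hi) k k.2 (hc3 k.2)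
    have hdmem : c ^ m ∈ τ.ker := hdK
    apply CfsgLib.FGS.Schur.exists_surj_zmod (⟨c ^ m, hdmem⟩ : τ.ker) 2
    · exact Subtype.ext hd2
    · intro k
      obtain ⟨i, hi⟩ := hall k
      exact ⟨i, Subtype.ext hi⟩

end Cfsg.Agent.S3965
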