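import Cfsg.Statements.S3969
import Cfsg.Agent.Lib.FGS.AutP2
import Cfsg.Agent.Lib.FGS.Cyc
import Cfsg.Agent.Lib.FGS.Syl

set_option autoImplicit false
open Cfsg
open scoped commutatorElement
open scoped Pointwise

namespace Cfsg.Agent.S3969

/-- Let `P` be an abelian Sylow `p`-subgroup of the finite group `G`, generated by `d` elements (`d` its minimal number of generators). If the order of `G` is coprime to `(p - 1)(p ^ 2 - 1) ⋯ (p ^ d - 1)`, then `G` has a normal `p`-complement. (The classical statement needs only the largest number of cyclic factors of `P` of equal order in place of `d`; the form here follows from it.) -/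
theorem result {G : Type*} [Group G] [Finite G] (p : ℕ) [Fact p.Prime] (P : Sylow p G) (hab : IsMulCommutative (P : Subgroup G)) (hcop : Nat.Coprime (Nat.card G) (∏ i ∈ Finset.Icc 1 (Group.rank (P : Subgroup G)), (p ^ i - 1))) : Cfsg.HasNormalPComplement p G := by
  classical
  have hp : p.Prime := Fact.out
  have hPp : IsPGroup p (P : Subgroup G) := P.isPGroup'
  obtain ⟨s, hs⟩ := IsPGroup.iff_card.1 hPp
  -- the Frattini exponent
  obtain ⟨r, hr⟩ : ∃ r, (frattini (P : Subgroup G)).index = p ^ r := by
    have hd : (frattini (P : Subgroup G)).index ∣ p ^ s := by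
      rw [← hs]
      exact Subgroup.index_dvd_card _
    obtain ⟨r, -, hr⟩ := (Nat.dvd_prime_pow hp).1 hd
    exact ⟨r, hr⟩
  have hrle := CfsgLib.FGS.frattini_exp_le_rank hPp hr
  have hkey : Subgroup.normalizer ((P : Subgroup G) : Set G) ≤ Subgroup.centralizer ((P : Subgroup G) : Set G) := by
    intro g hg
    obtain ⟨a, b, ha, hb, hgab, hcomm, ⟨k, hk⟩, hbc⟩ := CfsgLib.FGS.exists_primary_decomp p hp g
    have hgN : Subgroup.zpowers g ≤ Subgroup.normalizer ((P : Subgroup G) : Set G) := by
      rw [Subgroup.zpowers_le]; exact hg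
    have haP : a ∈ (P : Subgroup G) := by
      have hPa : IsPGroup p (Subgroup.zpowers a) := by
        apply IsPGroup.of_card (n := k)
        rw [Nat.card_zpowers, hk]
      have h1 := P.isPGroup'.to_sup_of_normal_left' hPa (by
        rw [Subgroup.zpowers_le]; exact hgN ha)
      have h2 := P.3 h1 le_sup_left
      rw [← h2]
      exact Subgroup.mem_sup_right (Subgroup.mem_zpowers a)
    have hac : a ∈ Subgroup.centralizer ((P : Subgroup G) : Set G) := by
      rw [Subgroup.mem_centralizer_iff]
      intro u hu
      have := hab.is_comm.comm ⟨u, hu⟩ ⟨a, haP⟩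
      exact congrArg Subtype.val this
    have hbN : b ∈ Subgroup.normalizer ((P : Subgroup G) : Set G) := hgN hb
    have hbc2 : b ∈ Subgroup.centralizer ((P : Subgroup G) : Set G) := by
      apply CfsgLib.FGS.centralizes_of_normalizes_coprime (p := p) (r := r) (P : Subgroup G) hPp hr b hbN hbc
      intro i hi1 hi2
      have hd1 : p ^ i - 1 ∣ ∏ i ∈ Finset.Icc 1 (Group.rank (P : Subgroup G)), (p ^ i - 1) :=
        Finset.dvd_prod_of_mem _ (Finset.mem_Icc.2 ⟨hi1, hi2.trans hrle⟩)
      have h2 : (Nat.card G).Coprime (p ^ i - 1) := Nat.Coprime.coprime_dvd_right hd1 hcop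
      exact Nat.Coprime.coprime_dvd_left (orderOf_dvd_natCard b) h2
    rw [hgab]
    exact Subgroup.mul_mem _ hac hbc2
  exact ⟨P, _, inferInstance, MonoidHom.ker_transferSylow_isComplement' P hkey⟩

end Cfsg.Agent.S3969
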