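import Cfsg.Statements.S3970
import Cfsg.Agent.Lib.FGS.AutP2
import Cfsg.Agent.Lib.FGS.Cyc
import Cfsg.Agent.Lib.FGS.Syl

set_option autoImplicit false
open Cfsg
open scoped commutatorElement
open scoped Pointwise

namespace Cfsg.Agent.S3970

universe u_main

theorem key_main (n : ℕ) : ∀ (G : Type u_main) [Group G] [Finite G], Nat.card G = n →
    (∀ p : ℕ, p.Prime → p ∣ Nat.card G → (∃ q : ℕ, q.Prime ∧ q ∣ Nat.card G ∧ p < q) →
      ∀ P : Sylow p G, IsMulCommutative (P : Subgroup G) ∧ Group.rank (P : Subgroup G) ≤ 2) →
    ¬ 12 ∣ Nat.card G → Group.IsSolvable G := by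
  induction n using Nat.strong_induction_on with
  | _ n ih =>
  intro G _ _ hn h h12
  classical
  have hpos : 0 < Nat.card G := Nat.card_pos
  by_cases h1 : Nat.card G = 1
  · haveI : Subsingleton G := (Nat.card_eq_one_iff_unique.1 h1).1
    infer_instance
  set p := (Nat.card G).minFac with hpdef
  have hp : p.Prime := Nat.minFac_prime h1
  haveI : Fact p.Prime := ⟨hp⟩
  have hpd : p ∣ Nat.card G := Nat.minFac_dvd _
  have hmin : ∀ l : ℕ, l.Prime → l ∣ Nat.card G → p ≤ l := fun l hl hd =>
    Nat.minFac_le_of_dvd hl.two_le hd
  by_cases hq : ∃ q : ℕ, q.Prime ∧ q ∣ Nat.card G ∧ p < q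
  · let P : Sylow p G := default
    obtain ⟨hab, hrk⟩ := h p hp hpd hq P
    have hPp : IsPGroup p (P : Subgroup G) := P.isPGroup'
    obtain ⟨s, hs⟩ := IsPGroup.iff_card.1 hPp
    obtain ⟨r, hr⟩ : ∃ r, (frattini (P : Subgroup G)).index = p ^ r := by
      have hd : (frattini (P : Subgroup G)).index ∣ p ^ s := by
        rw [← hs]
        exact Subgroup.index_dvd_card _
      obtain ⟨r, -, hr⟩ := (Nat.dvd_prime_pow hp).1 hd
      exact ⟨r, hr⟩
    have hrle : r ≤ 2 := (CfsgLib.FGS.frattini_exp_le_rank hPp hr).trans hrk
    have hkey : Subgroup.normalizer ((P : Subgroup G) : Set G) ≤ Subgroup.centralizer ((P : Subgroup G) : Set G) := by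
      intro g hg
      obtain ⟨a, b, ha, hb, hgab, hcomm, ⟨k, hk⟩, hbc⟩ := CfsgLib.FGS.exists_primary_decomp p hp g
      have hgN : Subgroup.zpowers g ≤ Subgroup.normalizer ((P : Subgroup G) : Set G) := by
        rw [Subgroup.zpowers_le]; exact hg
      have haP : a ∈ (P : Subgroup G) := by
        have hPa : IsPGroup p (Subgroup.zpowers a) := by
          apply IsPGroup.of_card (n := k)
          rw [Nat.card_zpowers, hk]
        have h1 := P.isPGroup'.to_sup_of_normal_left' hPa (by
          rw [Subgroup.zpowers_le]; exact hgN ha)
        have h2 := P.3 h1 le_sup_left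
        rw [← h2]
        exact Subgroup.mem_sup_right (Subgroup.mem_zpowers a)
      have hac : a ∈ Subgroup.centralizer ((P : Subgroup G) : Set G) := by
        rw [Subgroup.mem_centralizer_iff]
        intro u hu
        have := hab.is_comm.comm ⟨u, hu⟩ ⟨a, haP⟩
        exact congrArg Subtype.val this
      have hbN : b ∈ Subgroup.normalizer ((P : Subgroup G) : Set G) := hgN hb
      have hbc2 : b ∈ Subgroup.centralizer ((P : Subgroup G) : Set G) := by
        apply CfsgLib.FGS.centralizes_of_normalizes_coprime (p := p) (r := r) (P : Subgroup G) hPp hr b hbN hbc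
        intro i hi1 hi2
        apply Nat.coprime_of_dvd
        intro l hl hlb hli
        have hlG : l ∣ Nat.card G := hlb.trans (orderOf_dvd_natCard b)
        have hpl : p ≤ l := hmin l hl hlG
        have hne : l ≠ p := by
          intro heq
          have := Nat.dvd_gcd hlb (dvd_refl l)
          rw [heq, hbc] at this
          exact hp.one_lt.ne' (Nat.dvd_one.1 this)
        have hlt : p < l := lt_of_le_of_ne hpl (Ne.symm hne)
        have hi : i = 1 ∨ i = 2 := by omega
        have hp2 := hp.two_le
        rcases hi with rfl | rfl
        · rw [pow_one] at hli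
          have := Nat.le_of_dvd (by omega) hli
          omega
        · have e : p ^ 2 - 1 = (p + 1) * (p - 1) := by
            simpa using Nat.sq_sub_sq p 1
          rw [e] at hli
          rcases (Nat.Prime.dvd_mul hl).1 hli with h3 | h3
          · have h4 := Nat.le_of_dvd (by omega) h3
            have h5 : l = p + 1 := by omega
            have h6 : p = 2 := by
              rcases hp.eq_two_or_odd with h7 | h7
              · exact h7
              · rcases hl.eq_two_or_odd with h8 | h8
                · omega
                · omega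
            have h7 : l = 3 := by omega
            have h8 : 2 ^ 2 ∣ Nat.card G := by
              have h9 : p ^ r ∣ Nat.card (P : Subgroup G) := by
                rw [← hr]
                exact Subgroup.index_dvd_card _
              have h10 : p ^ 2 ∣ p ^ r := pow_dvd_pow _ hi2
              have h11 := h10.trans (h9.trans (Subgroup.card_subgroup_dvd_card _))
              rw [h6] at h11
              exact h11
            apply h12
            have h9 : 3 ∣ Nat.card G := h7 ▸ hlG
            have h10 : 4 * 3 ∣ Nat.card G := Nat.Coprime.mul_dvd_of_dvd_of_dvd (by norm_num) h8 h9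
            simpa using h10
          · have := Nat.le_of_dvd (by omega) h3
            omega
      rw [hgab]
      exact Subgroup.mul_mem _ hac hbc2
    have hcomp := MonoidHom.ker_transferSylow_isComplement' P hkey
    obtain ⟨K, hK⟩ : ∃ K, K = (MonoidHom.transferSylow P hkey).ker := ⟨_, rfl⟩
    have hKn : K.Normal := by rw [hK]; infer_instance
    rw [← hK] at hcomp
    have hKcard : Nat.card K * Nat.card (P : Subgroup G) = Nat.card G := hcomp.card_mul_card
    have hPi : K.index = Nat.card (P : Subgroup G) := hcomp.symm.index_eq_card
    have hPcop : Nat.Coprime (Nat.card K) (Nat.card (P : Subgroup G)) := by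
      have h1 := P.card_coprime_index
      have h2 : (P : Subgroup G).index = Nat.card K := hcomp.index_eq_card
      rw [h2] at h1
      exact h1.symm
    have hPone : 1 < Nat.card (P : Subgroup G) :=
      (Subgroup.one_lt_card_iff_ne_bot _).2 (Sylow.ne_bot_of_dvd_card P hpd)
    have hKpos : 0 < Nat.card K := Nat.card_pos
    have hlt : Nat.card K < n := by
      rw [← hn, ← hKcard]
      exact lt_mul_of_one_lt_right hKpos hPone
    have hKdvd : Nat.card K ∣ Nat.card G := Subgroup.card_subgroup_dvd_card K
    haveI hKsolv : Group.IsSolvable K := by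
      apply ih _ hlt K rfl
      · rintro q hq hqK ⟨q', hq', hq'K, hqq'⟩ Q
        haveI : Fact q.Prime := ⟨hq⟩
        have hqp : q ≠ p := by
          intro heq
          have h1 : p ∣ Nat.card (P : Subgroup G) := by
            rw [hs]
            apply dvd_pow_self
            intro hs0
            rw [hs0, pow_zero] at hs
            omega
          have h2 := Nat.dvd_gcd (heq ▸ hqK) h1
          rw [hPcop] at h2
          exact hp.one_lt.ne' (Nat.dvd_one.1 h2)
        have hQ'p : IsPGroup q ((Q : Subgroup K).map K.subtype) := Q.isPGroup'.map K.subtype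
        obtain ⟨S, hS⟩ := hQ'p.exists_le_sylow
        have hcards : Nat.card (S : Subgroup G) = Nat.card (Q : Subgroup K) := by
          rw [Sylow.card_eq_multiplicity S, Sylow.card_eq_multiplicity Q, ← hKcard, hs,
            Nat.factorization_mul hKpos.ne' (pow_pos hp.pos s).ne']
          have hp0 : (p ^ s).factorization q = 0 := by
            apply Nat.factorization_eq_zero_of_not_dvd
            intro h3
            exact hqp ((Nat.prime_dvd_prime_iff_eq hq hp).1 (hq.dvd_of_dvd_pow h3))
          rw [Finsupp.add_apply, hp0, add_zero]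
        have hcardQ' : Nat.card ((Q : Subgroup K).map K.subtype) = Nat.card (Q : Subgroup K) :=
          Nat.card_congr ((Q : Subgroup K).equivMapOfInjective K.subtype K.subtype_injective).symm.toEquiv
        have hEq : (Q : Subgroup K).map K.subtype = (S : Subgroup G) :=
          Subgroup.eq_of_le_of_card_ge hS (by rw [hcardQ', hcards])
        obtain ⟨hSab, hSrk⟩ := h q hq (hqK.trans hKdvd) ⟨q', hq', hq'K.trans hKdvd, hqq'⟩ S
        rw [← hEq] at hSab hSrk
        let e := (Q : Subgroup K).equivMapOfInjective K.subtype K.subtype_injective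
        refine ⟨⟨⟨fun a b => ?_⟩⟩, ?_⟩
        · apply e.injective
          rw [map_mul, map_mul]
          exact hSab.is_comm.comm _ _
        · rw [Group.rank_congr e]
          exact hSrk
      · intro h3
        exact h12 (h3.trans hKdvd)
    have hquot : IsPGroup p (G ⧸ K) := by
      apply IsPGroup.of_card (n := s)
      rw [← hs, ← hPi]
      rfl
    haveI := hquot.isNilpotent
    exact Group.isSolvable_of_ker_le_range K.subtype (QuotientGroup.mk' K) (by
      rw [QuotientGroup.ker_mk', Subgroup.range_subtype])
  · have hall : ∀ q : ℕ, q.Prime → q ∣ Nat.card G → q = p := by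
      intro q hq1 hq2
      by_contra hne
      exact hq ⟨q, hq1, hq2, lt_of_le_of_ne (hmin q hq1 hq2) (Ne.symm hne)⟩
    obtain ⟨k, hk⟩ : ∃ k, Nat.card G = p ^ k := ⟨_, Nat.eq_prime_pow_of_unique_prime_dvd hpos.ne' (fun {d} => hall d)⟩
    have hG : IsPGroup p G := IsPGroup.of_card hk
    haveI := hG.isNilpotent
    infer_instance


/-- Let `G` be a finite group such that for every prime `p` dividing its order, other than the largest such prime, the Sylow `p`-subgroups are abelian and generated by at most two elements, and suppose `12` does not divide the order of `G`. Then `G` is solvable. In particular a group of cube-free order not divisible by `12` is solvable. -/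
theorem result {G : Type*} [Group G] [Finite G] (h : ∀ p : ℕ, p.Prime → p ∣ Nat.card G → (∃ q : ℕ, q.Prime ∧ q ∣ Nat.card G ∧ p < q) → ∀ P : Sylow p G, IsMulCommutative (P : Subgroup G) ∧ Group.rank (P : Subgroup G) ≤ 2) (h12 : ¬ 12 ∣ Nat.card G) : Group.IsSolvable G := by
  exact key_main _ G rfl h h12

end Cfsg.Agent.S3970
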