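import Cfsg.Statements.S3971
import Cfsg.Agent.Lib.FGS.AutP2
import Cfsg.Agent.Lib.Trans.Frob

set_option autoImplicit false
open Cfsg
open scoped commutatorElement
open scoped Pointwise

namespace Cfsg.Agent.S3971

/-- Let `G` be a finite group of order `2 ^ a * n` with `n` odd and not divisible by `3`, and suppose `G` has an element of order `2 ^ (a - 1)` (so a Sylow `2`-subgroup has a cyclic subgroup of index at most `2`). Then `G` has a normal subgroup of order `n`. -/
theorem result {G : Type*} [Group G] [Finite G] (a n : ℕ) (hG : Nat.card G = 2 ^ a * n) (hn : Odd n) (h3 : ¬ 3 ∣ n) (hx : ∃ x : G, orderOf x = 2 ^ (a - 1)) : ∃ N : Subgroup G, N.Normal ∧ Nat.card N = n := by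
  classical
  haveI : Fact (Nat.Prime 2) := ⟨Nat.prime_two⟩
  obtain ⟨x, hx⟩ := hx
  have hcop : Nat.Coprime (2 ^ a) n := Nat.Coprime.pow_left _ (Nat.coprime_two_left.2 hn)
  have hn0 : n ≠ 0 := by
    rintro rfl
    simp at hn
  let X : Subgroup G := Subgroup.zpowers x
  have hXc : Nat.card X = 2 ^ (a - 1) := by
    show Nat.card (Subgroup.zpowers x) = _
    rw [Nat.card_zpowers, hx]
  have hX : IsPGroup 2 X := IsPGroup.of_card hXc
  obtain ⟨P, hXP⟩ := hX.exists_le_sylow
  have hPcard : Nat.card (P : Subgroup G) = 2 ^ a := by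
    have h1 := Sylow.card_eq_multiplicity P
    rw [h1, hG]
    congr 1
    rw [Nat.factorization_mul (by positivity) hn0]
    have h3 : ¬ 2 ∣ n := by
      rw [Nat.two_dvd_ne_zero]
      exact Nat.odd_iff.1 hn
    simp [Nat.factorization_eq_zero_of_not_dvd h3, Nat.Prime.factorization_self Nat.prime_two]
  have hXi : X.relIndex (P : Subgroup G) ≤ 2 := by
    have h1 := (X.subgroupOf (P : Subgroup G)).index_mul_card
    rw [Nat.card_congr (Subgroup.subgroupOfEquivOfLe hXP).toEquiv, hXc, hPcard] at h1
    show (X.subgroupOf (P : Subgroup G)).index ≤ 2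
    rcases a with _ | a
    · simp at h1
      have h2 : X.relIndex (P : Subgroup G) = 1 := Subgroup.relIndex_eq_one.2 h1
      show X.relIndex (P : Subgroup G) ≤ 2
      omega
    · simp only [Nat.add_sub_cancel] at h1
      rw [pow_succ] at h1
      have : (X.subgroupOf (P : Subgroup G)).index = 2 :=
        Nat.eq_of_mul_eq_mul_right (by positivity : 0 < 2 ^ a) (by rw [h1]; ring)
      omega
  obtain ⟨N, hN, hNc⟩ := (CfsgLib.Trans.frobenius_criterion P).2 (by
    intro Q hQ g hg hgc
    have hQp : IsPGroup 2 Q := P.isPGroup'.to_le hQ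
    obtain ⟨s, hs⟩ := IsPGroup.iff_card.1 hQp
    obtain ⟨r, hr⟩ : ∃ r, (frattini Q).index = 2 ^ r := by
      have hd : (frattini Q).index ∣ 2 ^ s := by
        rw [← hs]
        exact Subgroup.index_dvd_card _
      obtain ⟨r, -, hr⟩ := (Nat.dvd_prime_pow Nat.prime_two).1 hd
      exact ⟨r, hr⟩
    have hrle := CfsgLib.FGS.frattini_exp_le_rank hQp hr
    have hrank : Group.rank Q ≤ 2 := by
      apply CfsgLib.FGS.rank_le_two_of_cyclic_index Q (X.subgroupOf Q)
      · let f : (X.subgroupOf Q) →* X :=
          (Q.subtype.comp (X.subgroupOf Q).subtype).codRestrict X (fun y => y.2)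
        apply isCyclic_of_injective f
        intro u v huv
        apply Subtype.ext
        apply Subtype.ext
        have := congrArg Subtype.val huv
        exact this
      · show X.relIndex Q ≤ 2
        exact (Subgroup.relIndex_le_of_le_right hQ Subgroup.index_ne_zero_of_finite).trans hXi
    apply CfsgLib.FGS.centralizes_of_normalizes_coprime (p := 2) (r := r) Q hQp hr g hg hgc
    intro i hi1 hi2
    have hdg : orderOf g ∣ n := by
      have h1 := orderOf_dvd_natCard g
      rw [hG] at h1
      exact (Nat.Coprime.pow_right a hgc).dvd_of_dvd_mul_left h1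
    have hi : i = 1 ∨ i = 2 := by omega
    rcases hi with rfl | rfl
    · simp
    · have h3c : Nat.Coprime n 3 := ((Nat.Prime.coprime_iff_not_dvd Nat.prime_three).2 h3).symm
      exact Nat.Coprime.coprime_dvd_left hdg h3c)
  refine ⟨N, hN, ?_⟩
  have h1 := hNc.card_mul_card
  rw [hPcard, hG, mul_comm] at h1
  exact Nat.eq_of_mul_eq_mul_left (by positivity) h1

end Cfsg.Agent.S3971
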