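import Cfsg.Statements.S3976
import Cfsg.Agent.Lib.FGS.SubCount

set_option autoImplicit false
open Cfsg

namespace Cfsg.Agent.S3976

/-- Let `p` be a prime and `G` a group of order `p ^ m`. For every `s ≤ m` the number of normal subgroups of `G` of order `p ^ s` is congruent to `1` modulo `p`. -/
theorem result {G : Type*} [Group G] [Finite G] (p m s : ℕ) (hp : p.Prime) (hG : Nat.card G = p ^ m) (hs : s ≤ m) : Nat.card {H : Subgroup G // H.Normal ∧ Nat.card H = p ^ s} ≡ 1 [MOD p] := by
  classical
  haveI := Fact.mk hp
  have hpg : IsPGroup p G := IsPGroup.of_card hG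
  have hcount := CfsgLib.FGS.card_subgroups_modEq (G := G) p s hp (by
    rw [hG]
    exact pow_dvd_pow p hs)
  letI act : MulAction G {H : Subgroup G // Nat.card H = p ^ s} :=
    { smul := fun g H => ⟨H.1.map (MulAut.conj g).toMonoidHom, by
        rw [Subgroup.card_map_of_injective (MulAut.conj g).injective]
        exact H.2⟩
      one_smul := by
        rintro ⟨H, hH⟩
        apply Subtype.ext
        show H.map (MulAut.conj (1 : G)).toMonoidHom = H
        ext x
        simp
      mul_smul := by
        rintro a b ⟨H, hH⟩
        apply Subtype.ext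
        show H.map (MulAut.conj (a * b)).toMonoidHom = (H.map (MulAut.conj b).toMonoidHom).map (MulAut.conj a).toMonoidHom
        ext x
        simp [Subgroup.mem_map, mul_assoc] }
  have h1 := hpg.card_modEq_card_fixedPoints {H : Subgroup G // Nat.card H = p ^ s}
  have h2 : Nat.card (MulAction.fixedPoints G {H : Subgroup G // Nat.card H = p ^ s}) =
      Nat.card {H : Subgroup G // H.Normal ∧ Nat.card H = p ^ s} := by
    apply Nat.card_congr
    refine ⟨fun a => ⟨a.1.1, ?_, a.1.2⟩, fun b => ⟨⟨b.1, b.2.2⟩, ?_⟩, fun a => rfl, fun b => rfl⟩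
    · constructor
      intro n hn g
      have h3 : g • a.1 = a.1 := a.2 g
      have h4 : a.1.1.map (MulAut.conj g).toMonoidHom = a.1.1 := congrArg Subtype.val h3
      rw [← h4]
      exact ⟨n, hn, rfl⟩
    · intro g
      apply Subtype.ext
      show (b.1).map (MulAut.conj g).toMonoidHom = b.1
      haveI := b.2.1
      ext x
      constructor
      · rintro ⟨y, hy, rfl⟩
        exact (inferInstance : (b.1).Normal).conj_mem y hy g
      · intro hx
        refine ⟨g⁻¹ * x * g, ?_, by simp [mul_assoc]⟩
        have := (inferInstance : (b.1).Normal).conj_mem x hx g⁻¹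
        simpa using this
  rw [h2] at h1
  exact h1.symm.trans hcount

end Cfsg.Agent.S3976
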