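import Cfsg.Statements.S3977
import Cfsg.Agent.Lib.SS.UniqueP

set_option autoImplicit false
open Cfsg

namespace Cfsg.Agent.S3977

/-- Let `p` be a prime and `G` a group of order `p ^ m` which has exactly one subgroup of order `p ^ s`, where `1 ≤ s < m`, and where `s ≥ 2` if `p = 2`. Then `G` is cyclic. (For `p = 2` and `s = 1` the generalized quaternion groups also occur; that case is the classical criterion for a unique involution.) -/
theorem result {G : Type*} [Group G] [Finite G] (p m s : ℕ) (hp : p.Prime) (hG : Nat.card G = p ^ m) (hs : 1 ≤ s) (hsm : s < m) (h2 : p ≠ 2 ∨ 2 ≤ s) (huniq : ∀ H K : Subgroup G, Nat.card H = p ^ s → Nat.card K = p ^ s → H = K) : IsCyclic G := by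
  classical
  haveI : Fact p.Prime := ⟨hp⟩
  have hGp : IsPGroup p G := IsPGroup.of_card hG
  obtain ⟨H, hH⟩ := Sylow.exists_subgroup_card_pow_prime (G := G) p (n := s) (by
    rw [hG]; exact pow_dvd_pow p hsm.le)
  have hsub : ∀ (L : Subgroup G) (j : ℕ), Nat.card L = p ^ j → j ≤ s → L ≤ H := by
    intro L j hL hj
    obtain ⟨M, hM, hLM⟩ := Sylow.exists_subgroup_card_pow_prime_le p (G := G) (n := j) (m := s)
      (by rw [hG]; exact pow_dvd_pow p hsm.le) L hL hj
    rw [huniq H M hH hM]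
    exact hLM
  have hzp : ∀ x : G, ∃ j, Nat.card (Subgroup.zpowers x) = p ^ j := by
    intro x
    exact IsPGroup.iff_card.1 (hGp.to_subgroup _)
  -- `H` is cyclic
  obtain ⟨K, hK, hHK⟩ := Sylow.exists_subgroup_card_pow_prime_le p (G := G) (n := s) (m := s + 1)
    (by rw [hG]; exact pow_dvd_pow p hsm) H hH (by omega)
  have hKcyc : IsCyclic K := by
    obtain ⟨x, hxK, hxH⟩ : ∃ x ∈ K, x ∉ H := by
      by_contra hcon
      push Not at hcon
      have h1 : K ≤ H := hcon
      have h2 := Subgroup.card_le_of_le h1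
      rw [hK, hH, pow_succ] at h2
      have h3 : 0 < p ^ s := pow_pos hp.pos s
      have h4 := hp.two_le
      nlinarith
    obtain ⟨j, hj⟩ := hzp x
    have hxle : Subgroup.zpowers x ≤ K := by rwa [Subgroup.zpowers_le]
    have h5 : j = s + 1 := by
      by_contra hne
      have h6 : Nat.card (Subgroup.zpowers x) ∣ Nat.card K := Subgroup.card_dvd_of_le hxle
      rw [hj, hK] at h6
      have h7 : j ≤ s + 1 := (Nat.pow_dvd_pow_iff_le_right hp.one_lt).1 h6
      exact hxH (hsub _ j hj (by omega) (Subgroup.mem_zpowers x))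
    have h8 : Subgroup.zpowers x = K := by
      apply Subgroup.eq_of_le_of_card_ge hxle
      rw [hj, hK, h5]
    rw [← h8]
    exact Subgroup.isCyclic_zpowers x
  have hHcyc : IsCyclic H := isCyclic_of_injective (Subgroup.inclusion hHK) (Subgroup.inclusion_injective hHK)
  -- unique subgroup of order `p`
  have hu : ∀ A B : Subgroup G, Nat.card A = p → Nat.card B = p → A = B := by
    intro A B hA hB
    have hAH : A ≤ H := hsub A 1 (by rw [hA, pow_one]) hs
    have hBH : B ≤ H := hsub B 1 (by rw [hB, pow_one]) hs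
    have h1 : A.subgroupOf H = B.subgroupOf H := by
      apply CfsgLib.SS.cyclic_subgroup_eq_of_card
      rw [Nat.card_congr (Subgroup.subgroupOfEquivOfLe hAH).toEquiv,
        Nat.card_congr (Subgroup.subgroupOfEquivOfLe hBH).toEquiv, hA, hB]
    rw [← Subgroup.map_subgroupOf_eq_of_le hAH, ← Subgroup.map_subgroupOf_eq_of_le hBH, h1]
  rcases CfsgLib.SS.unique_prime_subgroup p hGp hu with h | ⟨rfl, n, ⟨φ⟩⟩
  · exact h
  have hs2 : 2 ≤ s := by
    rcases h2 with h | h
    · exact absurd rfl h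
    · exact h
  -- elements of order dividing `4` lie in `H`
  have h4 : ∀ x : G, x ^ 4 = 1 → x ∈ H := by
    intro x hx
    obtain ⟨j, hj⟩ := hzp x
    have h1 : orderOf x ∣ 2 ^ 2 := orderOf_dvd_of_pow_eq_one (by simpa using hx)
    rw [Nat.card_zpowers] at hj
    rw [hj] at h1
    have h3 : j ≤ 2 := (Nat.pow_dvd_pow_iff_le_right (by norm_num)).1 h1
    exact hsub (Subgroup.zpowers x) j (by rw [Nat.card_zpowers, hj]) (by omega) (Subgroup.mem_zpowers x)
  have hcomm : ∀ x y : G, x ^ 4 = 1 → y ^ 4 = 1 → x * y = y * x := by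
    intro x y hx hy
    letI := IsCyclic.commGroup (α := H)
    have := mul_comm (⟨x, h4 x hx⟩ : H) ⟨y, h4 y hy⟩
    exact congrArg Subtype.val this
  by_cases hn : n = 0
  · subst hn
    have hcard : Nat.card (QuaternionGroup (2 ^ 0)) = 4 := by
      simp [Nat.card_eq_fintype_card, QuaternionGroup.card]
    haveI : Finite (QuaternionGroup (2 ^ 0)) := Nat.finite_of_card_ne_zero (by rw [hcard]; norm_num)
    have h5 : IsCyclic (QuaternionGroup (2 ^ 0)) := by
      apply isCyclic_of_orderOf_eq_card (QuaternionGroup.xa (n := 2 ^ 0) 0)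
      rw [QuaternionGroup.orderOf_xa, hcard]
    exact isCyclic_of_surjective φ.symm φ.symm.surjective
  · exfalso
    have hN : 2 ≤ 2 ^ n := by
      calc 2 = 2 ^ 1 := rfl
        _ ≤ 2 ^ n := Nat.pow_le_pow_right (by norm_num) (Nat.pos_of_ne_zero hn)
    haveI : NeZero (2 ^ n) := ⟨by positivity⟩
    have hx : (φ.symm (QuaternionGroup.xa 0)) ^ 4 = 1 := by
      rw [← map_pow, ← QuaternionGroup.orderOf_xa (n := 2 ^ n) 0, pow_orderOf_eq_one, map_one]
    have hy : (φ.symm (QuaternionGroup.xa 1)) ^ 4 = 1 := by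
      rw [← map_pow, ← QuaternionGroup.orderOf_xa (n := 2 ^ n) 1, pow_orderOf_eq_one, map_one]
    have h5 := hcomm _ _ hx hy
    rw [← map_mul, ← map_mul] at h5
    have h6 := φ.symm.injective h5
    simp only [QuaternionGroup.xa_mul_xa, QuaternionGroup.a.injEq] at h6
    have h7 : ((2 : ℕ) : ZMod (2 * 2 ^ n)) = 0 := by
      push_cast
      have h8 : ((2 ^ n : ℕ) : ZMod (2 * 2 ^ n)) + 1 - 0 = (2 ^ n : ℕ) + 0 - 1 := h6
      have h9 : (2 : ZMod (2 * 2 ^ n)) = ((2 ^ n : ℕ) + 1 - 0) - ((2 ^ n : ℕ) + 0 - 1) := by ring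
      rw [h9, h8]; ring
    rw [ZMod.natCast_eq_zero_iff] at h7
    have h10 := Nat.le_of_dvd (by norm_num) h7
    omega

end Cfsg.Agent.S3977
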