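import Cfsg.Statements.S3978
import Cfsg.Agent.Lib.FGS.SchurProj

set_option autoImplicit false
open Cfsg
open scoped commutatorElement
open scoped Pointwise

namespace Cfsg.Agent.S3978

/-- A finite group `Q` has trivial Schur multiplier if and only if, for every `n`, every homomorphism from `Q` to the projective general linear group (the quotient of `GL n ℂ` by its centre) lifts to a homomorphism into `GL n ℂ`. -/
theorem result {Q : Type*} [Group Q] [Finite Q] : Cfsg.HasCyclicSchurMultiplier Q 1 ↔ ∀ (n : ℕ) (γ : Q →* (GL (Fin n) ℂ ⧸ Subgroup.center (GL (Fin n) ℂ))), ∃ ρ : Q →* GL (Fin n) ℂ, (QuotientGroup.mk' (Subgroup.center (GL (Fin n) ℂ))).comp ρ = γ := by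
  classical
  constructor
  · intro h n γ
    have hk : Nonempty ((MonoidHom.id Q).ker ≃* Multiplicative (ZMod 1)) := by
      refine ⟨{ toFun := fun _ => 1
                invFun := fun _ => 1
                left_inv := ?_
                right_inv := ?_
                map_mul' := fun _ _ => by simp }⟩
      · intro x
        apply Subtype.ext
        exact (x.2 : (x : Q) = 1).symm
      · intro x
        have : Subsingleton (Multiplicative (ZMod 1)) := inferInstanceAs (Subsingleton (ZMod 1))
        exact Subsingleton.elim _ _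
    obtain ⟨ρ, hρ⟩ := CfsgLib.FGS.Schur.proj_lift_cover h (MonoidHom.id Q) (CfsgLib.FGS.Schur.stem_id Q) hk
      (CfsgLib.FGS.Schur.center_GL_divisible n) γ
    exact ⟨ρ, hρ⟩
  · intro h
    apply CfsgLib.FGS.Schur.hasCyclic_one_of
    intro Γ _ _ τ hτ
    obtain ⟨π, hπ⟩ := CfsgLib.FGS.Schur.proj_bound (MonoidHom.id Q) (CfsgLib.FGS.Schur.stem_id Q)
      (fun n γ => by
        obtain ⟨ρ, hρ⟩ := h n γ
        exact ⟨ρ, hρ⟩) Γ τ hτ
    rw [eq_bot_iff]
    intro x hx
    obtain ⟨a, ha⟩ := hπ ⟨x, hx⟩
    have h1 : a = 1 := Subtype.ext a.2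
    rw [h1, map_one] at ha
    have h2 := congrArg Subtype.val ha
    simpa using h2.symm

end Cfsg.Agent.S3978
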