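import Cfsg.Statements.S3979
import Cfsg.Agent.Lib.FGS.Basic

set_option autoImplicit false
open Cfsg

namespace Cfsg.Agent.S3979

/-- A finite cyclic group has trivial Schur multiplier: every finite stem extension of it is an isomorphism, said through `HasCyclicSchurMultiplier G 1`. -/
theorem result {G : Type*} [Group G] [Finite G] [IsCyclic G] : Cfsg.HasCyclicSchurMultiplier G 1 := by
  classical
  constructor
  · refine ⟨G, inferInstance, inferInstance, MonoidHom.id G, ⟨Function.surjective_id, ?_, ?_⟩, ⟨?_⟩⟩
    · intro x hx
      have : x = 1 := hx
      rw [this]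
      exact Subgroup.one_mem _
    · intro x hx
      have : x = 1 := hx
      rw [this]
      exact Subgroup.one_mem _
    · refine
        { toFun := fun _ => 1
          invFun := fun _ => 1
          left_inv := ?_
          right_inv := ?_
          map_mul' := fun _ _ => by simp }
      · intro x
        apply Subtype.ext
        exact (x.2 : (x : G) = 1).symm
      · intro x
        have : Subsingleton (Multiplicative (ZMod 1)) := inferInstanceAs (Subsingleton (ZMod 1))
        exact Subsingleton.elim _ _
  · intro Γ _ _ σ hσ
    obtain ⟨hsurj, hZ, hC⟩ := hσ
    have hcomm : ∀ a b : Γ, a * b = b * a := commutative_of_cyclic_center_quotient σ hZ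
    have hker : ∀ x : σ.ker, x = 1 := by
      intro x
      have h1 : (x : Γ) ∈ commutator Γ := hC x.2
      have h2 : commutator Γ = ⊥ := by
        rw [commutator_def, eq_bot_iff, Subgroup.commutator_le]
        intro g _ h _
        rw [commutatorElement_def, hcomm g h]
        simp
      rw [h2] at h1
      exact Subtype.ext h1
    exact ⟨1, fun x => ⟨1, by rw [hker x]; rfl⟩⟩

end Cfsg.Agent.S3979
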