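import Cfsg.Statements.S3992
import Cfsg.Agent.Lib.FGS.Basic
import Cfsg.Agent.Lib.Solv.Hall
import Cfsg.Agent.Lib.Solv.SZ
import Cfsg.Agent.Lib.SS.FPF
import Cfsg.Agent.Lib.OOL.FPFThm

set_option autoImplicit false
open Cfsg
open scoped commutatorElement
open scoped Pointwise

namespace Cfsg.Agent.S3992

theorem h8_e1 {G : Type*} [Group G] [Finite G] (hpp : ∀ g : G, g ≠ 1 → IsPrimePow (orderOf g))
    (x y : G) (hxy : Commute x y) (hx : x ≠ 1) (hy : y ≠ 1) (cop : Nat.Coprime (orderOf x) (orderOf y)) : False := by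
  have h1 := hxy.orderOf_mul_eq_mul_orderOf_of_coprime cop
  have hx1 : orderOf x ≠ 1 := fun h => hx (orderOf_eq_one_iff.1 h)
  have hy1 : orderOf y ≠ 1 := fun h => hy (orderOf_eq_one_iff.1 h)
  have hxy1 : x * y ≠ 1 := by
    intro h
    rw [h, orderOf_one] at h1
    exact hx1 (Nat.eq_one_of_mul_eq_one_right h1.symm)
  have h2 := hpp _ hxy1
  rw [h1] at h2
  have h3 := (Nat.Coprime.isPrimePow_dvd_mul cop h2).1 dvd_rfl
  have hxpos : 0 < orderOf x := orderOf_pos x
  have hypos : 0 < orderOf y := orderOf_pos y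
  rcases h3 with h3 | h3
  · have := Nat.le_of_dvd hxpos h3
    have h4 : orderOf y ≤ 1 := by
      by_contra hc
      push Not at hc
      have : orderOf x * 2 ≤ orderOf x * orderOf y := Nat.mul_le_mul_left _ hc
      omega
    omega
  · have := Nat.le_of_dvd hypos h3
    have h4 : orderOf x ≤ 1 := by
      by_contra hc
      push Not at hc
      have : 2 * orderOf y ≤ orderOf x * orderOf y := Nat.mul_le_mul_right _ hc
      omega
    omega

theorem h8_trace {A Γ : Type*} [CommGroup A] [Group Γ] (ρ : Γ →* MulAut A) (B : Subgroup Γ) [Finite B]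
    (y : Γ) (v : ℕ) (hv0 : 0 < v) (hv : y ^ v = 1)
    (hyN : ∀ i : ℕ, ∀ b ∈ B, y ^ i * b * (y ^ i)⁻¹ ∈ B)
    (h1 : ∀ x : A, (∀ b ∈ B, ρ b x = x) → x = 1)
    (h2 : ∀ b ∈ B, ∀ x : A, ρ (b⁻¹ * y * b) x = x → x = 1)
    (h3 : ∀ i, 0 < i → i < v → ∀ b ∈ B, y ^ i * b * (y ^ i)⁻¹ = b → b = 1)
    (a : A) : a ^ (Nat.card B) = 1 := by
  classical
  haveI := Fintype.ofFinite B
  let f : B → ℕ → A := fun b i => ρ ((b : Γ)⁻¹ * y ^ i * b) a
  have step1 : ∀ b : B, ∏ i ∈ Finset.range v, f b i = 1 := by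
    intro b
    apply h2 b b.2
    rw [map_prod]
    have e1 : ∀ i, ρ ((b : Γ)⁻¹ * y * b) (f b i) = f b (i + 1) := by
      intro i
      simp only [f]
      rw [← MulAut.mul_apply, ← map_mul]
      congr 2
      rw [pow_succ]
      group
    simp only [e1]
    have e2 := Finset.prod_range_succ (f b) v
    have e3 := Finset.prod_range_succ' (f b) v
    have e4 : f b v = f b 0 := by
      simp only [f, hv, pow_zero]
    rw [e2, e4] at e3
    exact (mul_right_cancel e3).symm
  have step4 : ∀ j, 0 < j → j < v → ∏ b : B, f b j = 1 := by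
    intro j hj0 hjv
    obtain ⟨Y, hY⟩ : ∃ Y, Y = y ^ j := ⟨_, rfl⟩
    let c : B → B := fun b => ⟨(b : Γ)⁻¹ * (Y * b * Y⁻¹), by
      rw [hY]
      exact mul_mem (inv_mem b.2) (hyN j b b.2)⟩
    have hc : Function.Injective c := by
      intro b b' h
      have e : (b : Γ)⁻¹ * (Y * b * Y⁻¹) = (b' : Γ)⁻¹ * (Y * b' * Y⁻¹) :=
        congrArg (fun z : B => (z : Γ)) h
      have e1 : (b : Γ)⁻¹ * Y * b = (b' : Γ)⁻¹ * Y * b' := by
        have : (b : Γ)⁻¹ * (Y * b * Y⁻¹) * Y = (b' : Γ)⁻¹ * (Y * b' * Y⁻¹) * Y := by rw [e]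
        simpa [mul_assoc] using this
      obtain ⟨d, hd⟩ : ∃ d : Γ, d = (b' : Γ) * (b : Γ)⁻¹ := ⟨_, rfl⟩
      have e2 : Y * d * Y⁻¹ = d := by
        have e3 : (b' : Γ) * ((b : Γ)⁻¹ * Y * b) * (b : Γ)⁻¹ = (b' : Γ) * ((b' : Γ)⁻¹ * Y * b') * (b : Γ)⁻¹ := by rw [e1]
        have e4 : d * Y = Y * d := by
          rw [hd]
          calc (b' : Γ) * (b : Γ)⁻¹ * Y = (b' : Γ) * ((b : Γ)⁻¹ * Y * b) * (b : Γ)⁻¹ := by group
            _ = (b' : Γ) * ((b' : Γ)⁻¹ * Y * b') * (b : Γ)⁻¹ := e3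
            _ = _ := by group
        calc Y * d * Y⁻¹ = d * Y * Y⁻¹ := by rw [e4]
          _ = d := by group
      have e5 : d = 1 := by
        refine h3 j hj0 hjv d ?_ (by rw [← hY]; exact e2)
        rw [hd]; exact mul_mem b'.2 (inv_mem b.2)
      apply Subtype.ext
      have : (b' : Γ) * (b : Γ)⁻¹ = 1 := by rw [← hd]; exact e5
      exact (mul_inv_eq_one.1 this).symm
    have hcb : Function.Bijective c := Finite.injective_iff_bijective.1 hc
    let a' : A := ρ Y a
    have e1 : ∀ b : B, f b j = ρ (c b : Γ) a' := by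
      intro b
      simp only [f, c, a']
      rw [← MulAut.mul_apply, ← map_mul, ← hY]
      congr 2
      group
    simp only [e1]
    have e2 : ∏ b : B, ρ (c b : Γ) a' = ∏ d : B, ρ (d : Γ) a' :=
      hcb.prod_comp (fun d : B => ρ (d : Γ) a')
    rw [e2]
    apply h1
    intro b₀ hb₀
    rw [map_prod]
    have e3 : ∀ d : B, ρ b₀ (ρ (d : Γ) a') = ρ (((⟨b₀, hb₀⟩ : B) * d : B) : Γ) a' := by
      intro d
      rw [← MulAut.mul_apply, ← map_mul]
      rfl
    simp only [e3]
    exact Equiv.prod_comp (Equiv.mulLeft (⟨b₀, hb₀⟩ : B)) (fun d : B => ρ (d : Γ) a')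
  have step2 : ∏ i ∈ Finset.range v, ∏ b : B, f b i = 1 := by
    rw [Finset.prod_comm]
    exact Finset.prod_eq_one (fun b _ => step1 b)
  obtain ⟨w, rfl⟩ : ∃ w, v = w + 1 := ⟨v - 1, by omega⟩
  rw [Finset.prod_range_succ'] at step2
  have e5 : ∏ i ∈ Finset.range w, ∏ b : B, f b (i + 1) = 1 :=
    Finset.prod_eq_one (fun i hi => step4 (i + 1) (by omega) (by
      have := Finset.mem_range.1 hi
      omega))
  rw [e5, one_mul] at step2
  have e6 : ∀ b : B, f b 0 = a := by
    intro b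
    simp [f]
  simp only [e6, Finset.prod_const, Finset.card_univ] at step2
  rw [Nat.card_eq_fintype_card]
  exact step2

theorem h8_solv_primes {H : Type*} [Group H] [Finite H] [Group.IsSolvable H]
    (hpp : ∀ g : H, g ≠ 1 → IsPrimePow (orderOf g)) : (Nat.card H).primeFactors.card ≤ 2 := by
  classical
  by_contra hcon
  push Not at hcon
  have hNt : Nontrivial H := by
    by_contra hnt
    rw [not_nontrivial_iff_subsingleton] at hnt
    rw [Nat.card_of_subsingleton (1 : H)] at hcon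
    simp at hcon
  obtain ⟨A, hAn, hAne, hAmin⟩ := CfsgLib.Solv.exists_minimal_normal H
  obtain ⟨hAc, p, hp, hAp⟩ := CfsgLib.Solv.minimal_normal_elementary A hAne hAmin
  have hcard0 : Nat.card H ≠ 0 := Nat.card_pos.ne'
  have h2 : 1 < ((Nat.card H).primeFactors.erase p).card := by
    have := Finset.pred_card_le_card_erase (s := (Nat.card H).primeFactors) (a := p)
    omega
  obtain ⟨q, hq, r, hr, hqr⟩ := Finset.one_lt_card.1 h2
  rw [Finset.mem_erase, Nat.mem_primeFactors] at hq hr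
  obtain ⟨hqp, hqP, hqd, -⟩ := hq
  obtain ⟨hrp, hrP, hrd, -⟩ := hr
  -- Hall complement
  obtain ⟨m, n, hmn, hmncop, hmd, hpm⟩ : ∃ m n, Nat.card H = m * n ∧ m.Coprime n ∧ (∀ s : ℕ, s.Prime → s ≠ p → s ∣ Nat.card H → s ∣ m) ∧ ¬ p ∣ m := by
    refine ⟨ordCompl[p] (Nat.card H), ordProj[p] (Nat.card H), ?_, ?_, ?_, Nat.not_dvd_ordCompl hp hcard0⟩
    · rw [mul_comm]; exact (Nat.ordProj_mul_ordCompl_eq_self _ _).symm
    · exact (Nat.coprime_ordCompl hp hcard0).symm.pow_right _
    · intro s hs hsp hsd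
      rw [← Nat.ordProj_mul_ordCompl_eq_self (Nat.card H) p] at hsd
      rcases (Nat.Prime.dvd_mul hs).1 hsd with h | h
      · exact absurd ((Nat.prime_dvd_prime_iff_eq hs hp).1 (hs.dvd_of_dvd_pow h)) hsp
      · exact h
  obtain ⟨T, hTcard, -⟩ := CfsgLib.Solv.hall_containing _ H rfl m n hmn hmncop ⊥ (by simp)
  have hqm := hmd q hqP hqp hqd
  have hrm := hmd r hrP hrp hrd
  have hm0 : 0 < m := Nat.pos_of_ne_zero (fun h => hpm (h ▸ dvd_zero p))
  haveI hTnt : Nontrivial T := by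
    rw [← Finite.one_lt_card_iff_nontrivial, hTcard]
    exact lt_of_lt_of_le hqP.one_lt (Nat.le_of_dvd hm0 hqm)
  obtain ⟨B₀, hB₀n, hB₀ne, hB₀min⟩ := CfsgLib.Solv.exists_minimal_normal T
  obtain ⟨hB₀c, u, hu, hB₀u⟩ := CfsgLib.Solv.minimal_normal_elementary B₀ hB₀ne hB₀min
  obtain ⟨v, hvP, hvu, hvm⟩ : ∃ v : ℕ, v.Prime ∧ v ≠ u ∧ v ∣ m := by
    by_cases h : q = u
    · exact ⟨r, hrP, fun h' => hqr (h.trans h'.symm), hrm⟩
    · exact ⟨q, hqP, h, hqm⟩
  haveI : Fact v.Prime := ⟨hvP⟩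
  haveI : Fact u.Prime := ⟨hu⟩
  haveI : Fact p.Prime := ⟨hp⟩
  obtain ⟨y₀, hy₀⟩ := exists_prime_orderOf_dvd_card' (G := T) v (by rwa [hTcard])
  have hord : ∀ t : T, Nat.Coprime (orderOf (t : H)) p := by
    intro t
    rw [Subgroup.orderOf_coe]
    have h1 : orderOf t ∣ m := by rw [← hTcard]; exact orderOf_dvd_natCard t
    refine Nat.Coprime.coprime_dvd_left h1 ?_
    exact ((Nat.Prime.coprime_iff_not_dvd hp).2 hpm).symm
  have hAord : ∀ a ∈ A, a ≠ 1 → orderOf a = p := fun a ha ha1 => orderOf_eq_prime (hAp a ha) ha1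
  have hE : ∀ a ∈ A, a ≠ 1 → ∀ t : T, (t : H) ≠ 1 → ¬ Commute a (t : H) := by
    intro a ha ha1 t ht hc
    refine h8_e1 hpp a t hc ha1 ht ?_
    rw [hAord a ha ha1]
    exact (hord t).symm
  obtain ⟨b₁, hb₁, hb₁1⟩ := (Subgroup.bot_or_exists_ne_one B₀).resolve_left hB₀ne
  have hBord : ∀ b ∈ B₀, b ≠ 1 → orderOf (b : H) = u := by
    intro b hb hb1
    rw [Subgroup.orderOf_coe]
    exact orderOf_eq_prime (hB₀u b hb) hb1
  have hup : u ≠ p := by
    intro h
    have h1 := hord b₁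
    rw [hBord b₁ hb₁ hb₁1, h] at h1
    exact hp.one_lt.ne' (by simpa using h1)
  letI : CommGroup A := { (inferInstance : Group A) with mul_comm := hAc.is_comm.comm }
  obtain ⟨B, hB⟩ : ∃ B : Subgroup H, B = B₀.map T.subtype := ⟨_, rfl⟩
  obtain ⟨y, hy⟩ : ∃ y : H, y = (y₀ : H) := ⟨_, rfl⟩
  have hyord : orderOf y = v := by rw [hy, Subgroup.orderOf_coe, hy₀]
  have hmemB : ∀ b ∈ B, ∃ b' : T, b' ∈ B₀ ∧ (b' : H) = b := by
    intro b hb
    rw [hB] at hb
    obtain ⟨b', hb', rfl⟩ := hb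
    exact ⟨b', hb', rfl⟩
  have hbB : (b₁ : H) ∈ B := by rw [hB]; exact ⟨b₁, hb₁, rfl⟩
  have hb₁H : (b₁ : H) ≠ 1 := fun h => hb₁1 (Subtype.ext h)
  have hconj : ∀ (a : A) (g : H), ((MulAut.conjNormal g a : A) : H) = g * a * g⁻¹ := fun a g => MulAut.conjNormal_apply g a
  have hfix : ∀ (g : H) (x : A), MulAut.conjNormal g x = x → Commute (x : H) g := by
    intro g x h
    have h1 : ((MulAut.conjNormal g x : A) : H) = x := congrArg (fun z : A => (z : H)) h
    rw [hconj] at h1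
    have h2 : g * x = x * g := by
      calc g * x = (g * x * g⁻¹) * g := by group
        _ = x * g := by rw [h1]
    exact h2.symm
  have key := h8_trace (A := A) (MulAut.conjNormal : H →* MulAut A) B y v hvP.pos
    (by rw [← hyord]; exact pow_orderOf_eq_one y)
    (by
      intro i b hb
      obtain ⟨b', hb', rfl⟩ := hmemB b hb
      rw [hB]
      refine ⟨y₀ ^ i * b' * (y₀ ^ i)⁻¹, hB₀n.conj_mem b' hb' _, ?_⟩
      simp [hy])
    (by
      intro x hx
      by_contra hx1
      have hx1' : (x : H) ≠ 1 := fun h => hx1 (Subtype.ext h)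
      exact hE x x.2 hx1' b₁ hb₁H (hfix _ x (hx _ hbB)))
    (by
      intro b hb x hx
      by_contra hx1
      have hx1' : (x : H) ≠ 1 := fun h => hx1 (Subtype.ext h)
      obtain ⟨b', hb', rfl⟩ := hmemB b hb
      have hy1 : y ≠ 1 := by
        intro h
        rw [h, orderOf_one] at hyord
        exact hvP.one_lt.ne hyord
      refine hE x x.2 hx1' (b'⁻¹ * y₀ * b') ?_ ?_
      · intro h
        apply hy1
        have h1 : ((b' : H))⁻¹ * y * b' = 1 := by
          rw [hy]; simpa using h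
        have : y = (b' : H) * (((b' : H))⁻¹ * y * b') * (b' : H)⁻¹ := by group
        rw [this, h1]; group
      · have := hfix _ x hx
        simpa [hy] using this)
    (by
      intro i hi0 hiv b hb hbfix
      by_contra hb1
      obtain ⟨b', hb', rfl⟩ := hmemB b hb
      have hc : Commute (y ^ i) (b' : H) := by
        have : y ^ i * (b' : H) = (b' : H) * y ^ i := by
          calc y ^ i * (b' : H) = (y ^ i * b' * (y ^ i)⁻¹) * y ^ i := by group
            _ = _ := by rw [hbfix]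
        exact this
      have hyi : y ^ i ≠ 1 := pow_ne_one_of_lt_orderOf hi0.ne' (by rwa [hyord])
      refine h8_e1 hpp _ _ hc hyi hb1 ?_
      have hb'1 : b' ≠ 1 := fun h => hb1 (by rw [h]; rfl)
      rw [hBord b' hb' hb'1]
      have h1 : orderOf (y ^ i) ∣ v := by
        rw [← hyord]; exact orderOf_pow_dvd _
      refine Nat.Coprime.coprime_dvd_left h1 ?_
      exact (Nat.coprime_primes hvP hu).2 hvu)
  obtain ⟨a₁, ha₁, ha₁1⟩ := (Subgroup.bot_or_exists_ne_one A).resolve_left hAne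
  have h5 := key ⟨a₁, ha₁⟩
  have hBp : IsPGroup u B := by
    intro b
    obtain ⟨b', hb', hbb⟩ := hmemB b b.2
    refine ⟨1, ?_⟩
    apply Subtype.ext
    have := hB₀u b' hb'
    simp only [pow_one, Subgroup.coe_pow, Subgroup.coe_one]
    rw [← hbb, ← Subgroup.coe_pow, this]
    rfl
  obtain ⟨t, ht⟩ := IsPGroup.iff_card.1 hBp
  rw [ht] at h5
  have h6 : a₁ ^ (u ^ t) = 1 := congrArg (fun z : A => (z : H)) h5
  have h7 : p ∣ u ^ t := by
    rw [← hAord a₁ ha₁ ha₁1]
    exact orderOf_dvd_of_pow_eq_one h6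
  exact hup ((Nat.prime_dvd_prime_iff_eq hp hu).1 (hp.dvd_of_dvd_pow h7)).symm

theorem h8_char_normal {X : Type*} [Group X] (M : Subgroup X) [hM : M.Normal] (C : Subgroup M) (hC : C.Characteristic) :
    (C.map M.subtype).Normal := by
  constructor
  rintro _ ⟨c, hc, rfl⟩ g
  refine ⟨MulAut.conjNormal g c, ?_, MulAut.conjNormal_apply g c⟩
  have h1 := (Subgroup.characteristic_iff_map_eq.1 hC) (MulAut.conjNormal g)
  rw [← h1]
  exact ⟨c, hc, rfl⟩

theorem h8_pgroup_of {R : Type*} [Group R] [Finite R] (p : ℕ) (hp : p.Prime)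
    (h : ∀ q : ℕ, q.Prime → q ∣ Nat.card R → q = p) : IsPGroup p R := by
  haveI : Fact p.Prime := ⟨hp⟩
  have h1 := Nat.eq_prime_pow_of_unique_prime_dvd (n := Nat.card R) (p := p) Nat.card_pos.ne'
    (fun {d} hd hdv => h d hd hdv)
  exact IsPGroup.of_card h1

theorem h8_solv_of_quot {G : Type*} [Group G] (R : Subgroup G) [R.Normal] (hR : Group.IsSolvable R)
    (hQ : Group.IsSolvable (G ⧸ R)) : Group.IsSolvable G := by
  refine Group.isSolvable_of_ker_le_range R.subtype (QuotientGroup.mk' R) ?_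
  rw [QuotientGroup.ker_mk', Subgroup.range_subtype]

theorem h8_part1 {G : Type*} [Group G] [Finite G] (hns : ¬ Group.IsSolvable G) (hpp : ∀ g : G, g ≠ 1 → IsPrimePow (orderOf g))
    (R : Subgroup G) [hRn : R.Normal] (hRs : Group.IsSolvable ↥R) : ∃ p : ℕ, p.Prime ∧ IsPGroup p ↥R := by
  classical
  by_cases hR1 : Nontrivial R
  swap
  · rw [not_nontrivial_iff_subsingleton] at hR1
    exact ⟨2, Nat.prime_two, fun g => ⟨0, Subsingleton.elim _ _⟩⟩
  by_contra hcon
  push Not at hcon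
  obtain ⟨A, hAn, hAne, hAmin⟩ := CfsgLib.Solv.exists_minimal_normal R
  obtain ⟨hAc, p, hp, hAp⟩ := CfsgLib.Solv.minimal_normal_elementary A hAne hAmin
  haveI : Fact p.Prime := ⟨hp⟩
  obtain ⟨q, hqP, hqp, hqd⟩ : ∃ q : ℕ, q.Prime ∧ q ≠ p ∧ q ∣ Nat.card R := by
    by_contra hc
    push Not at hc
    refine hcon p hp (h8_pgroup_of p hp (fun q hq hqd => ?_))
    by_contra hne
    exact hc q hq hne hqd
  haveI : Fact q.Prime := ⟨hqP⟩
  obtain ⟨P⟩ : Nonempty (Sylow q R) := inferInstance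
  have hfrat := Sylow.normalizer_sup_eq_top P
  obtain ⟨T, hT⟩ : ∃ T : Subgroup G, T = (P : Subgroup R).map R.subtype := ⟨_, rfl⟩
  rw [← hT] at hfrat
  have hTp : IsPGroup q T := hT ▸ P.isPGroup'.map _
  have hTR : T ≤ R := by rw [hT]; exact Subgroup.map_subtype_le _
  have hPne : (P : Subgroup R) ≠ ⊥ := P.ne_bot_of_dvd_card hqd
  have hTq : q ∣ Nat.card T := by
    have h1 : Nat.card T = Nat.card (P : Subgroup R) := by
      rw [hT]; exact Subgroup.card_map_of_injective R.subtype_injective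
    rw [h1, P.card_eq_multiplicity]
    refine dvd_pow_self q ?_
    intro h0
    have := P.card_eq_multiplicity
    rw [h0, pow_zero] at this
    exact hPne (Subgroup.eq_bot_of_card_eq _ this)
  obtain ⟨t₀, ht₀⟩ := exists_prime_orderOf_dvd_card' (G := T) q hTq
  obtain ⟨K, hK⟩ : ∃ K : Subgroup G, K = A.map R.subtype := ⟨_, rfl⟩
  have hKne : K ≠ ⊥ := by
    rw [hK]
    intro h
    exact hAne ((Subgroup.map_eq_bot_iff_of_injective A R.subtype_injective).1 h)
  have hAK : T ≤ Subgroup.normalizer (K : Set G) := by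
    intro a ha
    rw [Subgroup.mem_set_normalizer_iff]
    intro x
    have haR := hTR ha
    constructor
    · intro hx
      rw [SetLike.mem_coe, hK] at hx ⊢
      obtain ⟨x', hx', rfl⟩ := hx
      exact ⟨⟨a, haR⟩ * x' * (⟨a, haR⟩ : R)⁻¹, hAn.conj_mem x' hx' _, rfl⟩
    · intro hx
      rw [SetLike.mem_coe, hK] at hx ⊢
      obtain ⟨x', hx', hxx⟩ := hx
      refine ⟨(⟨a, haR⟩ : R)⁻¹ * x' * (⟨a, haR⟩ : R), ?_, ?_⟩
      · have := hAn.conj_mem x' hx' (⟨a, haR⟩ : R)⁻¹
        simpa using this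
      · simp only [Subgroup.coe_subtype, Subgroup.coe_mul, Subgroup.coe_inv]
        have : (x' : G) = a * x * a⁻¹ := hxx
        rw [this]; group
  have hfpf : ∀ a ∈ T, a ≠ 1 → K ⊓ Subgroup.centralizer {a} = ⊥ := by
    intro a ha ha1
    rw [eq_bot_iff]
    rintro x ⟨hxK, hxa⟩
    by_contra hx1
    have hx1' : x ≠ 1 := hx1
    rw [SetLike.mem_coe, hK] at hxK
    obtain ⟨x', hx', rfl⟩ := hxK
    have hord : orderOf (x' : G) = p := by
      rw [Subgroup.orderOf_coe]
      exact orderOf_eq_prime (hAp x' hx') (fun h => hx1' (by rw [h]; rfl))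
    have hc : Commute (x' : G) a := Subgroup.mem_centralizer_singleton_iff.1 hxa
    obtain ⟨k, hk⟩ := IsPGroup.iff_orderOf.1 hTp ⟨a, ha⟩
    rw [Subgroup.orderOf_mk] at hk
    refine h8_e1 hpp _ _ hc hx1' ha1 ?_
    rw [hord, hk]
    exact ((Nat.coprime_primes hp hqP).2 hqp.symm).pow_right k
  have huniq := fun U hU hUc W hW hWc => CfsgLib.SS.fpf_unique_prime_subgroup T K hKne hAK hfpf q hTp U hU hUc W hW hWc
  obtain ⟨t, ht⟩ : ∃ t : G, t = (t₀ : G) := ⟨_, rfl⟩
  have htT : t ∈ T := ht ▸ t₀.2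
  have htord : orderOf t = q := by rw [ht, Subgroup.orderOf_coe, ht₀]
  have ht1 : t ≠ 1 := by
    intro h
    rw [h, orderOf_one] at htord
    exact hqP.one_lt.ne htord
  have hT₀card : Nat.card (Subgroup.zpowers t) = q := by rw [Nat.card_zpowers, htord]
  have hT₀T : Subgroup.zpowers t ≤ T := (Subgroup.zpowers_le).2 htT
  have hNN₀ : Subgroup.normalizer (T : Set G) ≤ Subgroup.normalizer ((Subgroup.zpowers t : Subgroup G) : Set G) := by
    intro n hn
    rw [Subgroup.mem_normalizer_iff_map_conj_eq]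
    have hn' := Subgroup.mem_normalizer_iff_map_conj_eq.1 hn
    refine huniq _ ?_ ?_ _ hT₀T hT₀card
    · rw [← hn']
      exact Subgroup.map_mono hT₀T
    · rw [← hT₀card]
      exact Subgroup.card_map_of_injective (MulAut.conj n).injective
  -- the normalizer of the subgroup of order q is solvable
  haveI hcyc : IsCyclic (Subgroup.zpowers t) := inferInstance
  have hAut : Group.IsSolvable (MulAut (Subgroup.zpowers t)) := by
    apply Group.isSolvable_of_comm
    intro φ₁ φ₂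
    apply (IsCyclic.mulAutMulEquiv (Subgroup.zpowers t)).injective
    rw [map_mul, map_mul, mul_comm]
  obtain ⟨N₀, hN₀⟩ : ∃ N₀, N₀ = Subgroup.normalizer ((Subgroup.zpowers t : Subgroup G) : Set G) := ⟨_, rfl⟩
  let ψ : Subgroup.normalizer ((Subgroup.zpowers t : Subgroup G) : Set G) →* MulAut (Subgroup.zpowers t) := (Subgroup.zpowers t).normalizerMonoidHom
  have hker : IsPGroup q ψ.ker := by
    intro g
    by_cases hg1 : ((g : _) : G) = 1
    · refine ⟨0, ?_⟩
      apply Subtype.ext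
      apply Subtype.ext
      simpa using hg1
    obtain ⟨s, k, hs, hk, hsk⟩ := (isPrimePow_nat_iff _).1 (hpp _ hg1)
    have hcomm : Commute ((g : _) : G) t := by
      have h1 : ψ (g : _) = 1 := g.2
      have h2 : ψ (g : _) ⟨t, Subgroup.mem_zpowers t⟩ = ⟨t, Subgroup.mem_zpowers t⟩ := by rw [h1]; rfl
      have h3 : ((g : _) : G) * t * ((g : _) : G)⁻¹ = t := congrArg (fun z : Subgroup.zpowers t => (z : G)) h2
      calc ((g : _) : G) * t = (((g : _) : G) * t * ((g : _) : G)⁻¹) * ((g : _) : G) := by group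
        _ = t * ((g : _) : G) := by rw [h3]
    have hsq : s = q := by
      by_contra hne
      refine h8_e1 hpp _ _ hcomm hg1 ht1 ?_
      rw [← hsk, htord]
      exact ((Nat.coprime_primes hs hqP).2 hne).pow_left k
    refine ⟨k, ?_⟩
    apply Subtype.ext
    apply Subtype.ext
    simp only [Subgroup.coe_pow, Subgroup.coe_one]
    rw [← hsq, hsk]
    exact pow_orderOf_eq_one _
  haveI hkerS : Group.IsSolvable ψ.ker := by
    haveI := hker.isNilpotent
    infer_instance
  have hN₀S : Group.IsSolvable (Subgroup.normalizer ((Subgroup.zpowers t : Subgroup G) : Set G)) :=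
    Group.isSolvable_of_ker_le_range ψ.ker.subtype ψ (by rw [Subgroup.range_subtype])
  have hNS : Group.IsSolvable (Subgroup.normalizer (T : Set G)) :=
    Group.isSolvable_of_isSolvable_injective (f := Subgroup.inclusion hNN₀) (Subgroup.inclusion_injective hNN₀)
  apply hns
  refine h8_solv_of_quot R hRs ?_
  refine Group.isSolvable_of_surjective (f := (QuotientGroup.mk' R).comp (Subgroup.normalizer (T : Set G)).subtype) ?_
  intro x
  obtain ⟨g, rfl⟩ := QuotientGroup.mk_surjective x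
  have hg : g ∈ Subgroup.normalizer (T : Set G) ⊔ R := by
    have : Subgroup.normalizer (T : Set G) ⊔ R = ⊤ := hfrat
    rw [this]; trivial
  obtain ⟨n, hn, r, hr, rfl⟩ := Subgroup.mem_sup_of_normal_right.1 hg
  refine ⟨⟨n, hn⟩, ?_⟩
  simp only [MonoidHom.comp_apply, Subgroup.coe_subtype, QuotientGroup.mk'_apply]
  rw [QuotientGroup.mk_mul, (QuotientGroup.eq_one_iff r).2 hr, mul_one]

theorem h8_e2 {X : Type*} [Group X] [Finite X] (hpp : ∀ g : X, g ≠ 1 → IsPrimePow (orderOf g))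
    (U V : Subgroup X) (hc : ∀ u ∈ U, ∀ v ∈ V, u * v = v * u) (hV : V ≠ ⊥)
    (hU : ∀ p : ℕ, p.Prime → ¬ IsPGroup p U) : False := by
  classical
  have hV1 : Nat.card V ≠ 1 := fun h => hV (Subgroup.eq_bot_of_card_eq V h)
  obtain ⟨s, hs, hsd⟩ := Nat.exists_prime_and_dvd hV1
  haveI : Fact s.Prime := ⟨hs⟩
  obtain ⟨y, hy⟩ := exists_prime_orderOf_dvd_card' (G := V) s hsd
  have hU' := hU s hs
  obtain ⟨u, huP, hus, hud⟩ : ∃ u : ℕ, u.Prime ∧ u ≠ s ∧ u ∣ Nat.card U := by
    by_contra hcon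
    push Not at hcon
    refine hU' (h8_pgroup_of s hs (fun q hq hqd => ?_))
    by_contra hne
    exact hcon q hq hne hqd
  haveI : Fact u.Prime := ⟨huP⟩
  obtain ⟨x, hx⟩ := exists_prime_orderOf_dvd_card' (G := U) u hud
  have hx' : orderOf (x : X) = u := by rw [Subgroup.orderOf_coe, hx]
  have hy' : orderOf (y : X) = s := by rw [Subgroup.orderOf_coe, hy]
  refine h8_e1 hpp (x : X) (y : X) (hc _ x.2 _ y.2) ?_ ?_ ?_
  · intro h; rw [h, orderOf_one] at hx'; exact huP.one_lt.ne hx'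
  · intro h; rw [h, orderOf_one] at hy'; exact hs.one_lt.ne hy'
  · rw [hx', hy']; exact (Nat.coprime_primes huP hs).2 hus

theorem h8_part2 {X : Type*} [Group X] [Finite X] [Nontrivial X] (hpp : ∀ g : X, g ≠ 1 → IsPrimePow (orderOf g))
    (hrad : ∀ N : Subgroup X, N.Normal → Group.IsSolvable N → N = ⊥) :
    ∃ M : Subgroup X, M.Normal ∧ IsSimpleGroup ↥M ∧ ¬ IsMulCommutative ↥M ∧
        ∀ N : Subgroup X, N.Normal → N ≠ ⊥ → M ≤ N := by
  classical
  obtain ⟨M, hMn, hMne, hMmin⟩ := CfsgLib.Solv.exists_minimal_normal X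
  have hpgs : ∀ (U : Subgroup X) (p : ℕ), p.Prime → IsPGroup p U → Group.IsSolvable U := by
    intro U p hp h
    haveI : Fact p.Prime := ⟨hp⟩
    haveI := h.isNilpotent
    infer_instance
  have hMnp : ∀ p : ℕ, p.Prime → ¬ IsPGroup p M := fun p hp h => hMne (hrad M hMn (hpgs M p hp h))
  haveI hMn' : M.Normal := hMn
  refine ⟨M, hMn, ?_, ?_, ?_⟩
  · have hMnt : Nontrivial M := by
      obtain ⟨x, hx, hx1⟩ := (Subgroup.bot_or_exists_ne_one M).resolve_left hMne
      exact ⟨⟨x, hx⟩, 1, fun h => hx1 (congrArg (fun z : M => (z : X)) h)⟩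
    refine { toNontrivial := hMnt, eq_bot_or_eq_top_of_normal := ?_ }
    intro H hH
    by_cases hne : H = ⊥
    · exact Or.inl hne
    right
    have hfin : ({S : Subgroup M | S.Normal ∧ S ≠ ⊥ ∧ S ≤ H}).Finite := Set.toFinite _
    obtain ⟨S₀, hS₀⟩ := hfin.exists_minimal ⟨H, hH, hne, le_rfl⟩
    obtain ⟨hS₀n, hS₀ne, hS₀H⟩ := hS₀.1
    have hS₀np : ∀ p : ℕ, p.Prime → ¬ IsPGroup p (S₀.map M.subtype) := by
      intro p hp hP
      haveI : Fact p.Prime := ⟨hp⟩
      have h1 : IsPGroup p S₀ := by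
        intro s
        obtain ⟨k, hk⟩ := hP ⟨(s : M), ⟨s, s.2, rfl⟩⟩
        refine ⟨k, ?_⟩
        apply Subtype.ext
        apply Subtype.ext
        have := congrArg (fun z : S₀.map M.subtype => (z : X)) hk
        simpa using this
      have h2 : S₀ ≤ Cfsg.pCore p M := CfsgLib.FGS.le_pCore S₀ h1
      have h3 := h8_char_normal M (Cfsg.pCore p M) (CfsgLib.OOL.pCore_char p)
      have h4 : IsPGroup p ((Cfsg.pCore p M).map M.subtype) := (CfsgLib.Solv.pCore_isPGroup p).map _
      have h5 := hrad _ h3 (hpgs _ p hp h4)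
      have h6 : Cfsg.pCore p M = ⊥ := (Subgroup.map_eq_bot_iff_of_injective _ M.subtype_injective).1 h5
      exact hS₀ne (le_bot_iff.1 (h6 ▸ h2))
    have hinv : ∀ g : X, S₀.map (MulAut.conjNormal g : MulAut M).toMonoidHom = S₀ := by
      intro g
      obtain ⟨S₁, hS₁⟩ : ∃ S₁, S₁ = S₀.map (MulAut.conjNormal g : MulAut M).toMonoidHom := ⟨_, rfl⟩
      rw [← hS₁]
      have hS₁n : S₁.Normal := by
        rw [hS₁]
        exact hS₀n.map _ (MulEquiv.surjective _)
      have hS₁card : Nat.card S₁ = Nat.card S₀ := by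
        rw [hS₁]
        exact Subgroup.card_map_of_injective (MulEquiv.injective _)
      have hS₁ne : S₁ ≠ ⊥ := by
        intro h
        rw [h, Subgroup.card_bot] at hS₁card
        exact hS₀ne (Subgroup.eq_bot_of_card_eq S₀ hS₁card.symm)
      by_cases hI : S₀ ⊓ S₁ = ⊥
      · exfalso
        refine h8_e2 hpp (S₀.map M.subtype) (S₁.map M.subtype) ?_ ?_ hS₀np
        · rintro _ ⟨u, hu, rfl⟩ _ ⟨v, hv, rfl⟩
          have := Subgroup.commute_of_normal_of_disjoint S₀ S₁ hS₀n hS₁n (disjoint_iff.2 hI) u v hu hv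
          exact congrArg (fun z : M => (z : X)) this
        · intro h
          exact hS₁ne ((Subgroup.map_eq_bot_iff_of_injective _ M.subtype_injective).1 h)
      · have h1 : S₀ ≤ S₀ ⊓ S₁ := hS₀.2 ⟨(by haveI := hS₀n; haveI := hS₁n; infer_instance), hI, le_trans inf_le_left hS₀H⟩ inf_le_left
        have h2 : S₀ ≤ S₁ := le_trans h1 inf_le_right
        exact (Subgroup.eq_of_le_of_card_ge h2 hS₁card.le).symm
    have hS₀N : (S₀.map M.subtype).Normal := by
      constructor
      rintro _ ⟨s, hs, rfl⟩ g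
      have h1 : MulAut.conjNormal g s ∈ S₀ := by
        rw [← hinv g]
        exact ⟨s, hs, rfl⟩
      exact ⟨_, h1, MulAut.conjNormal_apply g s⟩
    rcases hMmin _ hS₀N (Subgroup.map_subtype_le S₀) with h | h
    · exact absurd ((Subgroup.map_eq_bot_iff_of_injective _ M.subtype_injective).1 h) hS₀ne
    · rw [eq_top_iff]
      intro x _
      have h1 : (x : X) ∈ S₀.map M.subtype := by rw [h]; exact x.2
      obtain ⟨s, hs, hsx⟩ := h1
      have : s = x := Subtype.ext hsx
      rw [← this]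
      exact hS₀H hs
  · intro hc
    apply hMne
    refine hrad M hMn ?_
    exact Group.isSolvable_of_comm hc.is_comm.comm
  · intro N hN hNne
    rcases hMmin (M ⊓ N) (by haveI := hN; infer_instance) inf_le_left with h | h
    · exfalso
      refine h8_e2 hpp M N ?_ hNne hMnp
      intro u hu v hv
      exact Subgroup.commute_of_normal_of_disjoint M N hMn hN (disjoint_iff.2 h) u v hu hv
    · rw [← h]; exact inf_le_right

/-- Let G be a finite non-solvable group in which every element has prime-power order, and let R be its largest solvable normal subgroup. Then R is a p-group for some prime p; G/R has a non-abelian simple normal subgroup contained in every nontrivial normal subgroup of G/R (its unique minimal normal subgroup); and the order of every solvable subgroup of G has at most two prime divisors. -/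
theorem result {G : Type*} [Group G] [Finite G] (hns : ¬ Group.IsSolvable G) (hpp : ∀ g : G, g ≠ 1 → IsPrimePow (orderOf g))
    (R : Subgroup G) [R.Normal] (hRs : Group.IsSolvable ↥R) (hRmax : ∀ N : Subgroup G, N.Normal → Group.IsSolvable ↥N → N ≤ R) :
    (∃ p : ℕ, p.Prime ∧ IsPGroup p ↥R) ∧
      (∃ M : Subgroup (G ⧸ R), M.Normal ∧ IsSimpleGroup ↥M ∧ ¬ IsMulCommutative ↥M ∧
        ∀ N : Subgroup (G ⧸ R), N.Normal → N ≠ ⊥ → M ≤ N) ∧
      ∀ H : Subgroup G, Group.IsSolvable ↥H → (Nat.card ↥H).primeFactors.card ≤ 2 := by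
  classical
  refine ⟨h8_part1 hns hpp R hRs, ?_, ?_⟩
  · have hppX : ∀ x : G ⧸ R, x ≠ 1 → IsPrimePow (orderOf x) := by
      intro x hx
      obtain ⟨g, rfl⟩ := QuotientGroup.mk_surjective x
      have hg1 : g ≠ 1 := by
        rintro rfl
        exact hx rfl
      obtain ⟨s, k, hs, hk, hsk⟩ := (isPrimePow_nat_iff _).1 (hpp g hg1)
      have h1 : orderOf (QuotientGroup.mk g : G ⧸ R) ∣ s ^ k := by
        rw [hsk]
        exact orderOf_map_dvd (QuotientGroup.mk' R) g
      obtain ⟨i, hi, hi'⟩ := (Nat.dvd_prime_pow hs).1 h1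
      rw [hi']
      have hi0 : i ≠ 0 := by
        rintro rfl
        rw [pow_zero] at hi'
        exact hx (orderOf_eq_one_iff.1 hi')
      exact hs.isPrimePow.pow hi0
    have hrad : ∀ N : Subgroup (G ⧸ R), N.Normal → Group.IsSolvable N → N = ⊥ := by
      intro N hN hNs
      obtain ⟨N', hN'⟩ : ∃ N', N' = N.comap (QuotientGroup.mk' R) := ⟨_, rfl⟩
      have hN'n : N'.Normal := by rw [hN']; exact hN.comap _
      have hRN : R ≤ N' := by
        rw [hN']
        intro r hr
        change (QuotientGroup.mk r : G ⧸ R) ∈ N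
        rw [(QuotientGroup.eq_one_iff r).2 hr]
        exact one_mem _
      have hN's : Group.IsSolvable N' := by
        subst hN'
        refine Group.isSolvable_of_ker_le_range (Subgroup.inclusion hRN) ((QuotientGroup.mk' R).subgroupComap N) ?_
        intro x hx
        have h1 : (QuotientGroup.mk (x : G) : G ⧸ R) = 1 := congrArg (fun z : N => (z : G ⧸ R)) hx
        exact ⟨⟨x, (QuotientGroup.eq_one_iff _).1 h1⟩, rfl⟩
      have hle := hRmax N' hN'n hN's
      rw [eq_bot_iff]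
      intro x hx
      obtain ⟨g, rfl⟩ := QuotientGroup.mk_surjective x
      have hg : g ∈ N' := by rw [hN']; exact hx
      exact (QuotientGroup.eq_one_iff g).2 (hle hg)
    have hnt : Nontrivial (G ⧸ R) := by
      by_contra hc
      rw [not_nontrivial_iff_subsingleton] at hc
      exact hns (h8_solv_of_quot R hRs inferInstance)
    exact h8_part2 hppX hrad
  · intro H hH
    refine h8_solv_primes (fun g hg => ?_)
    have h1 : (g : G) ≠ 1 := fun h => hg (Subtype.ext h)
    have := hpp _ h1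
    rwa [Subgroup.orderOf_coe] at this

end Cfsg.Agent.S3992
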