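import Cfsg.Statements.S3994
import Cfsg.Agent.Lib.FGS.FrobDiv

set_option autoImplicit false
open Cfsg

namespace Cfsg.Agent.S3994

/-- Let G be a finite group and n a positive integer. The number of elements of G whose order is divisible by n is either 0 or divisible by the largest divisor of the order of G that is coprime to n. -/
theorem result {G : Type*} [Group G] [Finite G] (n : ℕ) (hn : 0 < n) :
    Nat.card {g : G // n ∣ orderOf g} = 0 ∨
      (Nat.card G / Nat.gcd (Nat.card G) (n ^ Nat.card G)) ∣ Nat.card {g : G // n ∣ orderOf g} := by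
  classical
  right
  letI := Fintype.ofFinite G
  have hN0 : Nat.card G ≠ 0 := Nat.card_pos.ne'
  set N := Nat.card G with hN
  set A := Nat.gcd N (n ^ N) with hAdef
  set B := N / A with hBdef
  have hAB : A * B = N := Nat.mul_div_cancel' (Nat.gcd_dvd_left _ _)
  have hcopn : Nat.Coprime n B := by
    apply Nat.coprime_of_dvd
    intro q hq hqn hqB
    obtain ⟨v, m, hm, hNm⟩ := Nat.exists_eq_pow_mul_and_not_dvd hN0 q hq.ne_one
    have hv : v ≤ N := by
      have h1 : q ^ v ≤ N := Nat.le_of_dvd (Nat.pos_of_ne_zero hN0) ⟨m, hNm⟩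
      have h2 : v < q ^ v := Nat.lt_pow_self hq.one_lt
      omega
    have h1 : q ^ v ∣ n ^ N := (pow_dvd_pow q hv).trans (pow_dvd_pow_of_dvd hqn N)
    have h2 : q ^ v ∣ A := Nat.dvd_gcd ⟨m, hNm⟩ h1
    obtain ⟨A', hA'⟩ := h2
    have h3 : m = A' * B := by
      apply Nat.eq_of_mul_eq_mul_left (pow_pos hq.pos v)
      rw [← hNm, ← hAB, hA', mul_assoc]
    exact hm (h3 ▸ (hqB.mul_left A'))
  have hcop : B.Coprime A := by
    have h1 : Nat.Coprime (n ^ N) B := Nat.Coprime.pow_left _ hcopn
    exact (Nat.Coprime.coprime_dvd_left (Nat.gcd_dvd_right _ _) h1).symm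
  have hexp : ∀ x : G, x ^ (B * A) = 1 := by
    intro x
    rw [mul_comm, hAB, hN]
    exact pow_card_eq_one'
  obtain ⟨e, e', hs⟩ := CfsgLib.FGS.exists_splitData hexp hcop
  rw [hs.card_eq_sum (fun g => n ∣ orderOf g)]
  let F : G → ℕ := fun v => Nat.card {u : Subgroup.centralizer {v} // (u : G) ^ B = 1}
  have hterm : ∀ v ∈ Finset.univ.filter (fun v : G => v ^ A = 1),
      Nat.card {u : Subgroup.centralizer {v} // (u : G) ^ B = 1 ∧ n ∣ orderOf ((u : G) * v)} =
        if n ∣ orderOf v then F v else 0 := by
    intro v hv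
    have hv' : v ^ A = 1 := by simpa using hv
    have hiff : ∀ u : Subgroup.centralizer {v}, (u : G) ^ B = 1 →
        (n ∣ orderOf ((u : G) * v) ↔ n ∣ orderOf v) := by
      intro u hu
      have hcu : Commute (u : G) v := by
        have := u.2
        rwa [Subgroup.mem_centralizer_singleton_iff] at this
      have h1 : orderOf (u : G) ∣ B := orderOf_dvd_of_pow_eq_one hu
      have h2 : orderOf v ∣ A := orderOf_dvd_of_pow_eq_one hv'
      have h3 : Nat.Coprime (orderOf (u : G)) (orderOf v) :=
        Nat.Coprime.coprime_dvd_left h1 (Nat.Coprime.coprime_dvd_right h2 hcop)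
      rw [hcu.orderOf_mul_eq_mul_orderOf_of_coprime h3]
      have h4 : Nat.Coprime n (orderOf (u : G)) := Nat.Coprime.coprime_dvd_right h1 hcopn
      exact h4.dvd_mul_left
    split_ifs with h1
    · apply Nat.card_congr
      apply Equiv.subtypeEquivRight
      intro u
      constructor
      · exact fun h => h.1
      · exact fun h => ⟨h, (hiff u h).mpr h1⟩
    · apply Nat.card_eq_zero.mpr
      left
      constructor
      rintro ⟨u, h3, h4⟩
      exact h1 ((hiff u h3).mp h4)
  rw [Finset.sum_congr rfl hterm, ← Finset.sum_filter]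
  apply CfsgLib.FGS.dvd_sum_of_class
  · intro v hv h
    obtain ⟨hv1, hv2⟩ := Finset.mem_filter.mp hv
    have hv3 : v ^ A = 1 := by simpa using hv1
    have hord : orderOf (h * v * h⁻¹) = orderOf v := (MulAut.conj h).orderOf_eq v
    refine Finset.mem_filter.mpr ⟨?_, ?_⟩
    · simp only [Finset.mem_filter, Finset.mem_univ, true_and]
      rw [conj_pow, hv3]
      group
    · rw [hord]
      exact hv2
  · intro v h
    refine CfsgLib.FGS.card_centralizer_conj (fun u : G => u ^ B = 1) (fun u h => ?_) v h
    constructor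
    · intro hk
      rw [conj_pow] at hk
      have := congrArg (fun z => h⁻¹ * z * h) hk
      simpa [mul_assoc] using this
    · intro hk
      rw [conj_pow, hk]
      group
  · intro v _
    have hmul : (Subgroup.centralizer {v}).index * Nat.card (Subgroup.centralizer {v}) = N := by
      rw [mul_comm, Subgroup.card_mul_index]
    have hB : B ∣ (Subgroup.centralizer {v}).index * Nat.card (Subgroup.centralizer {v}) := by
      rw [hmul, ← hAB]
      exact Dvd.intro_left A rfl
    obtain ⟨y, z, hy, hz, hyz⟩ := Nat.dvd_mul.mp hB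
    set B₁ := Nat.gcd B (Nat.card (Subgroup.centralizer {v})) with hB₁
    have hz1 : z ∣ B₁ := Nat.dvd_gcd (Dvd.intro_left y hyz) hz
    have h1 := CfsgLib.FGS.dvd_card_pow_eq_one (G := Subgroup.centralizer {v}) B₁
      (Nat.gcd_dvd_right _ _)
    have h2 : Nat.card {u : Subgroup.centralizer {v} // u ^ B₁ = 1} = F v := by
      apply Nat.card_congr
      apply Equiv.subtypeEquivRight
      intro u
      constructor
      · intro h
        have h3 : u ^ B = 1 := by
          obtain ⟨k, hk⟩ := Nat.gcd_dvd_left B (Nat.card (Subgroup.centralizer {v}))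
          rw [hk, pow_mul, ← hB₁, h, one_pow]
        simpa using congrArg (fun z : Subgroup.centralizer {v} => (z : G)) h3
      · intro h
        have h3 : u ^ B = 1 := Subtype.ext (by simpa using h)
        exact orderOf_dvd_iff_pow_eq_one.mp
          (Nat.dvd_gcd (orderOf_dvd_of_pow_eq_one h3) (orderOf_dvd_natCard u))
    rw [h2] at h1
    rw [← hyz]
    exact Nat.mul_dvd_mul hy (hz1.trans h1)

end Cfsg.Agent.S3994
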