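import Cfsg.Statements.S3995
import Cfsg.Agent.Lib.FGS.OC5

set_option autoImplicit false
open Cfsg
open scoped commutatorElement
open scoped Pointwise

namespace Cfsg.Agent.S3995

theorem h8_cnt_pow_zero3 {G : Type*} [Group G] [Finite G] (h : CfsgLib.FGS.OC.cnt G (2 ^ 3) = 0) : ∀ k, 3 ≤ k → CfsgLib.FGS.OC.cnt G (2 ^ k) = 0 := by
  intro k hk
  by_contra hne
  obtain ⟨g, hg⟩ := CfsgLib.FGS.OC.exists_of_cnt_ne_zero hne
  apply CfsgLib.FGS.OC.cnt_ne_zero_of (g := g ^ (2 ^ (k - 3))) (m := 2 ^ 3) _ h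
  rw [orderOf_pow' _ (pow_ne_zero _ (by norm_num)), hg]
  have e : 2 ^ k = 2 ^ (k - 3) * 2 ^ 3 := by
    rw [← pow_add]
    congr 1
    omega
  rw [Nat.gcd_eq_right (pow_dvd_pow _ (Nat.sub_le _ _)), e, Nat.mul_div_cancel_left _ (pow_pos (by norm_num) _)]


/-- Let G be a finite group such that the numbers of elements of each order that occurs in G (the numbers #{g : o(g) = m}, m ranging over the element orders of G) take exactly two values, 1 and some n ≠ 1. Then either G is a p-group of exponent p and order at least 3 for some prime p, or G is the quaternion group of order 8, or G is cyclic of order 4, or G ≅ Z₂ × P for a p-group P of exponent p with p an odd prime. -/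
theorem result {G : Type*} [Group G] [Finite G] (n : ℕ) (hn : n ≠ 1) (h : ((fun m : ℕ => Nat.card {g : G // orderOf g = m}) '' Set.range (orderOf : G → ℕ)) = {1, n}) :
    (∃ p : ℕ, p.Prime ∧ IsPGroup p G ∧ 3 ≤ Nat.card G ∧ Monoid.exponent G = p) ∨
      Nonempty (G ≃* QuaternionGroup 2) ∨ (IsCyclic G ∧ Nat.card G = 4) ∨
      (∃ (p : ℕ) (P : Type) (_ : Group P) (_ : Finite P), p.Prime ∧ p ≠ 2 ∧ IsPGroup p P ∧ Monoid.exponent P = p ∧
        Nonempty (G ≃* Multiplicative (ZMod 2) × P)) := by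
  classical
  have hnmem : n ∈ ((fun m : ℕ => Nat.card {g : G // orderOf g = m}) '' Set.range (orderOf : G → ℕ)) := by
    rw [h]; simp
  obtain ⟨m0, ⟨g0, hg0⟩, hm0⟩ := hnmem
  have hm0' : CfsgLib.FGS.OC.cnt G m0 = n := hm0
  have hm0ne : CfsgLib.FGS.OC.cnt G m0 ≠ 0 := CfsgLib.FGS.OC.cnt_ne_zero_of hg0
  have hn0 : n ≠ 0 := by rw [← hm0']; exact hm0ne
  have hg01 : g0 ≠ 1 := by
    rintro rfl
    rw [orderOf_one] at hg0
    rw [← hg0, CfsgLib.FGS.OC.cnt_one] at hm0'
    exact hn hm0'.symm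
  have hval : ∀ m : ℕ, CfsgLib.FGS.OC.cnt G m ≠ 0 → CfsgLib.FGS.OC.cnt G m = 1 ∨ CfsgLib.FGS.OC.cnt G m = n := by
    intro m hm
    obtain ⟨g, hg⟩ := CfsgLib.FGS.OC.exists_of_cnt_ne_zero hm
    have h2 : CfsgLib.FGS.OC.cnt G m ∈ ((fun m : ℕ => Nat.card {g : G // orderOf g = m}) '' Set.range (orderOf : G → ℕ)) :=
      ⟨m, ⟨g, hg⟩, rfl⟩
    rw [h] at h2
    simpa using h2
  have hv : ∀ m, 3 ≤ m → CfsgLib.FGS.OC.cnt G m = 0 ∨ CfsgLib.FGS.OC.cnt G m = n := by
    intro m hm
    by_cases h0 : CfsgLib.FGS.OC.cnt G m = 0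
    · exact Or.inl h0
    · rcases hval m h0 with h1 | h1
      · exact absurd h1 (CfsgLib.FGS.OC.cnt_ne_one hm)
      · exact Or.inr h1
  by_cases hodd : ∃ p : ℕ, p.Prime ∧ p ≠ 2 ∧ p ∣ Nat.card G
  · obtain ⟨p, hp, hp2, hpd⟩ := hodd
    haveI : Fact p.Prime := ⟨hp⟩
    have h3p := CfsgLib.FGS.OC.three_le_of_odd_prime hp hp2
    have hpn : CfsgLib.FGS.OC.cnt G p = n := by
      rcases hv p h3p with h0 | h0
      · exact absurd h0 (CfsgLib.FGS.OC.cnt_pos_of_prime hp hpd)
      · exact h0
    have hnp := CfsgLib.FGS.OC.cast_cnt_prime (G := G) hpd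
    rw [hpn] at hnp
    have hone : ∀ q : ℕ, q.Prime → q ≠ 2 → q ∣ Nat.card G → q = p := by
      intro q hq hq2 hqd
      by_contra hne
      have h3q := CfsgLib.FGS.OC.three_le_of_odd_prime hq hq2
      have hqn : CfsgLib.FGS.OC.cnt G q = n := by
        rcases hv q h3q with h0 | h0
        · exact absurd h0 (CfsgLib.FGS.OC.cnt_pos_of_prime hq hqd)
        · exact h0
      have h1 := CfsgLib.FGS.OC.case_eq hp hq (Ne.symm hne) hpd hqd (hpn.trans hqn.symm)
      rcases hv _ (CfsgLib.FGS.OC.three_le_mul hp hq hp2) with h2 | h2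
      · rw [h2] at h1
        push_cast at h1
        exact zero_ne_one h1
      · rw [h2, hnp] at h1
        exact CfsgLib.FGS.OC.one_ne_neg_one_zmod hp2 h1.symm
    have hsq : CfsgLib.FGS.OC.cnt G (p ^ 2) = 0 := by
      by_contra h0
      have hd := CfsgLib.FGS.OC.dvd_card_of_cnt_ne_zero h0
      have hF := CfsgLib.FGS.OC.dvd_Fd hd
      rw [CfsgLib.FGS.OC.Fd_prime_sq hp, hpn] at hF
      have hFs := (ZMod.natCast_eq_zero_iff _ p).2 ((dvd_pow_self p (by norm_num)).trans hF)
      push_cast at hFs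
      rw [hnp] at hFs
      have h5 : ((CfsgLib.FGS.OC.cnt G (p ^ 2) : ℕ) : ZMod p) = 0 := by linear_combination hFs
      have hs3 : 3 ≤ p ^ 2 := by nlinarith
      rcases hv _ hs3 with h6 | h6
      · exact h0 h6
      · rw [h6, hnp] at h5
        exact one_ne_zero (neg_eq_zero.1 h5)
    by_cases h2d : 2 ∣ Nat.card G
    · right; right; right
      have hprimes : ∀ r : ℕ, r.Prime → r ∣ Nat.card G → r = 2 ∨ r = p := by
        intro r hr hrd
        by_cases hr2 : r = 2
        · exact Or.inl hr2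
        · exact Or.inr (hone r hr hr2 hrd)
      have h2v : CfsgLib.FGS.OC.cnt G 2 = 1 ∨ CfsgLib.FGS.OC.cnt G 2 = n :=
        hval 2 (CfsgLib.FGS.OC.cnt_pos_of_prime Nat.prime_two h2d)
      obtain ⟨P, iP, fP, h1, h2, h3⟩ := CfsgLib.FGS.OC.clause_four hp hp2 hpd h2d hpn hv h2v hprimes hsq
      exact ⟨p, P, iP, fP, hp, hp2, h1, h2, h3⟩
    · left
      have hord : ∀ g : G, g ≠ 1 → orderOf g = p := by
        intro g hg
        refine CfsgLib.FGS.OC.order_eq_of_single hp hsq g hg ?_
        intro r hr hrd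
        have h1 := hrd.trans (orderOf_dvd_natCard g)
        have hr2 : r ≠ 2 := by
          rintro rfl
          exact h2d h1
        exact hone r hr hr2 h1
      haveI hnt : Nontrivial G := ⟨⟨g0, 1, hg01⟩⟩
      refine ⟨p, hp, ?_, ?_, (Monoid.exponent_eq_prime_iff hp).2 hord⟩
      · rw [IsPGroup.iff_orderOf]
        intro g
        by_cases hg : g = 1
        · exact ⟨0, by rw [hg, orderOf_one, pow_zero]⟩
        · exact ⟨1, by rw [hord g hg, pow_one]⟩
      · exact h3p.trans (Nat.le_of_dvd Nat.card_pos hpd)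
  · push Not at hodd
    haveI : Fact (2 : ℕ).Prime := ⟨Nat.prime_two⟩
    have hpr : ∀ (g : G) (r : ℕ), r.Prime → r ∣ orderOf g → r = 2 := by
      intro g r hr hrd
      by_contra hr2
      exact hodd r hr hr2 (hrd.trans (orderOf_dvd_natCard g))
    have hP2 : IsPGroup 2 G := by
      rw [IsPGroup.iff_orderOf]
      intro g
      exact ⟨_, Nat.eq_prime_pow_of_unique_prime_dvd (orderOf_pos g).ne' (fun {d} hd hdm => hpr g d hd hdm)⟩
    have h2d : 2 ∣ Nat.card G := by
      obtain ⟨r, hr, hrd⟩ := Nat.exists_prime_and_dvd (fun h => hg01 (orderOf_eq_one_iff.1 h) : orderOf g0 ≠ 1)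
      have := hpr g0 r hr hrd
      rw [← this]
      exact hrd.trans (orderOf_dvd_natCard g0)
    have h42 : (2 : ℕ) ^ 2 = 4 := by norm_num
    by_cases h4 : CfsgLib.FGS.OC.cnt G (2 ^ 2) = 0
    · left
      have hord : ∀ g : G, g ≠ 1 → orderOf g = 2 := fun g hg =>
        CfsgLib.FGS.OC.order_eq_of_single Nat.prime_two h4 g hg (hpr g)
      haveI hnt : Nontrivial G := ⟨⟨g0, 1, hg01⟩⟩
      refine ⟨2, Nat.prime_two, hP2, ?_, (Monoid.exponent_eq_prime_iff Nat.prime_two).2 hord⟩
      have h1 := CfsgLib.FGS.OC.Fd_le (G := G) (d := 2) (by norm_num)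
      rw [CfsgLib.FGS.OC.Fd_prime Nat.prime_two] at h1
      have h2 : m0 = 2 := by rw [← hg0]; exact hord g0 hg01
      rw [h2] at hm0'
      omega
    · have h4' : CfsgLib.FGS.OC.cnt G 4 ≠ 0 := by rwa [h42] at h4
      have h4n : CfsgLib.FGS.OC.cnt G 4 = n := by
        rcases hv 4 (by norm_num) with h0 | h0
        · exact absurd h0 h4'
        · exact h0
      have hne := CfsgLib.FGS.OC.cnt_even (G := G) (m := 4) (by norm_num)
      rw [h4n] at hne
      have hc2 : CfsgLib.FGS.OC.cnt G 2 = 1 := by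
        have h1 := CfsgLib.FGS.OC.dvd_Fd (G := G) h2d
        rw [CfsgLib.FGS.OC.Fd_prime Nat.prime_two] at h1
        rcases hval 2 (CfsgLib.FGS.OC.cnt_pos_of_prime Nat.prime_two h2d) with h | h
        · exact h
        · exfalso
          rw [h] at h1
          obtain ⟨k, hk⟩ := hne
          omega
      have h4d := CfsgLib.FGS.OC.dvd_card_of_cnt_ne_zero h4'
      have hF4 := CfsgLib.FGS.OC.dvd_Fd (G := G) h4d
      rw [CfsgLib.FGS.OC.Fd_four, hc2, h4n] at hF4
      have h8 : CfsgLib.FGS.OC.cnt G (2 ^ 3) = 0 := by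
        by_contra h0
        have h8n : CfsgLib.FGS.OC.cnt G (2 ^ 3) = n := by
          rcases hv (2 ^ 3) (by norm_num) with h1 | h1
          · exact absurd h1 h0
          · exact h1
        have h8d := CfsgLib.FGS.OC.dvd_card_of_cnt_ne_zero h0
        have hF8 := CfsgLib.FGS.OC.dvd_Fd (G := G) h8d
        rw [CfsgLib.FGS.OC.Fd_prime_cube Nat.prime_two, hc2, h8n, h42, h4n] at hF8
        norm_num at hF8
        omega
      have hhi := h8_cnt_pow_zero3 h8
      -- uniqueness
      obtain ⟨z, hz, -, hzu⟩ := CfsgLib.FGS.OC.central_of_cnt_two hc2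
      have huniq : ∀ H K : Subgroup G, Nat.card H = 2 → Nat.card K = 2 → H = K := by
        have key : ∀ H : Subgroup G, Nat.card H = 2 → H = Subgroup.zpowers z := by
          intro H hH
          obtain ⟨x, hx⟩ := exists_prime_orderOf_dvd_card' (G := H) 2 (by rw [hH])
          have hx' : orderOf (x : G) = 2 := by rw [Subgroup.orderOf_coe]; exact hx
          have hxz := hzu _ hx'
          symm
          apply Subgroup.eq_of_le_of_card_ge
          · rw [Subgroup.zpowers_le, ← hxz]
            exact x.2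
          · rw [Nat.card_zpowers, hz, hH]
        intro H K hH hK
        rw [key H hH, key K hK]
      rcases CfsgLib.SS.unique_two_subgroup hP2 huniq with hcyc | ⟨k, ⟨e⟩⟩
      · right; right; left
        refine ⟨hcyc, ?_⟩
        obtain ⟨t, ht⟩ := IsCyclic.exists_ofOrder_eq_natCard (α := G)
        obtain ⟨j, hj⟩ := (IsPGroup.iff_card).1 hP2
        have hjle : j ≤ 2 := by
          by_contra hj2
          have h5 := hhi j (by omega)
          rw [← hj] at h5
          exact CfsgLib.FGS.OC.cnt_ne_zero_of ht h5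
        rw [hj] at h4d ⊢
        have hj2 : j = 2 := by
          interval_cases j
          · norm_num at h4d
          · norm_num at h4d
          · rfl
        rw [hj2]
        norm_num
      · -- quaternion
        have hk : k ≤ 1 := by
          by_contra hk1
          haveI : NeZero ((2 : ℕ) ^ k) := ⟨pow_ne_zero _ (by norm_num)⟩
          have h1 : orderOf (QuaternionGroup.a 1 : QuaternionGroup (2 ^ k)) = 2 * 2 ^ k := QuaternionGroup.orderOf_a_one
          have h2 : orderOf (e.symm (QuaternionGroup.a 1 : QuaternionGroup (2 ^ k))) = 2 ^ (k + 1) := by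
            rw [MulEquiv.orderOf_eq, h1]
            ring
          exact CfsgLib.FGS.OC.cnt_ne_zero_of h2 (hhi (k + 1) (by omega))
        interval_cases k
        · -- order 4
          right; right; left
          have hc : Nat.card G = 4 := by
            rw [Nat.card_congr e.toEquiv, Nat.card_eq_fintype_card, QuaternionGroup.card]
            norm_num
          refine ⟨?_, hc⟩
          obtain ⟨t, ht⟩ := CfsgLib.FGS.OC.exists_of_cnt_ne_zero h4'
          exact isCyclic_of_orderOf_eq_card t (by rw [ht, hc])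
        · right; left
          exact ⟨e⟩

end Cfsg.Agent.S3995
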