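import Cfsg.Statements.S3996
import Cfsg.Agent.Lib.FGS.OC3

set_option autoImplicit false
open Cfsg
open scoped commutatorElement
open scoped Pointwise

namespace Cfsg.Agent.S3996

/-- A finite group in which the numbers of elements of each order that occurs (the numbers #{g : o(g) = m}, m ranging over the element orders) take exactly three different values is solvable. -/
theorem result {G : Type*} [Group G] [Finite G] (h : (((fun m : ℕ => Nat.card {g : G // orderOf g = m}) '' Set.range (orderOf : G → ℕ))).ncard = 3) : Group.IsSolvable G := by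
  classical
  -- value set
  have h1mem : (1 : ℕ) ∈ ((fun m : ℕ => Nat.card {g : G // orderOf g = m}) '' Set.range (orderOf : G → ℕ)) :=
    ⟨1, ⟨1, orderOf_one⟩, CfsgLib.FGS.OC.cnt_one (G := G)⟩
  obtain ⟨a, b, hab, ha1, hb1, him⟩ : ∃ a b : ℕ, a ≠ b ∧ a ≠ 1 ∧ b ≠ 1 ∧
      ((fun m : ℕ => Nat.card {g : G // orderOf g = m}) '' Set.range (orderOf : G → ℕ)) = {1, a, b} := by
    obtain ⟨x, y, z, hxy, hxz, hyz, hS⟩ := Set.ncard_eq_three.1 h
    rw [hS] at h1mem ⊢
    simp only [Set.mem_insert_iff, Set.mem_singleton_iff] at h1mem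
    rcases h1mem with rfl | rfl | rfl
    · exact ⟨y, z, hyz, hxy.symm, hxz.symm, rfl⟩
    · exact ⟨x, z, hxz, hxy, hyz.symm, by ext w; simp only [Set.mem_insert_iff, Set.mem_singleton_iff]; tauto⟩
    · exact ⟨x, y, hxy, hxz, hyz, by ext w; simp only [Set.mem_insert_iff, Set.mem_singleton_iff]; tauto⟩
  have hval : ∀ m : ℕ, CfsgLib.FGS.OC.cnt G m ≠ 0 → CfsgLib.FGS.OC.cnt G m = 1 ∨ CfsgLib.FGS.OC.cnt G m = a ∨ CfsgLib.FGS.OC.cnt G m = b := by
    intro m hm
    obtain ⟨g, hg⟩ := CfsgLib.FGS.OC.exists_of_cnt_ne_zero hm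
    have h2 : CfsgLib.FGS.OC.cnt G m ∈ ((fun m : ℕ => Nat.card {g : G // orderOf g = m}) '' Set.range (orderOf : G → ℕ)) :=
      ⟨m, ⟨g, hg⟩, rfl⟩
    rw [him] at h2
    simpa using h2
  have hv : ∀ m, 3 ≤ m → CfsgLib.FGS.OC.cnt G m = 0 ∨ CfsgLib.FGS.OC.cnt G m = a ∨ CfsgLib.FGS.OC.cnt G m = b := by
    intro m hm
    by_cases h0 : CfsgLib.FGS.OC.cnt G m = 0
    · exact Or.inl h0
    · rcases hval m h0 with h1 | h1 | h1
      · exact absurd h1 (CfsgLib.FGS.OC.cnt_ne_one hm)
      · exact Or.inr (Or.inl h1)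
      · exact Or.inr (Or.inr h1)
  -- main case distinction
  by_cases hmain : ∃ p q : ℕ, p.Prime ∧ q.Prime ∧ p ≠ 2 ∧ q ≠ 2 ∧ p ≠ q ∧ p ∣ Nat.card G ∧ q ∣ Nat.card G ∧ 2 ∣ Nat.card G
  · obtain ⟨p, q, hp, hq, hp2, hq2, hne, hpd, hqd, h2d⟩ := hmain
    haveI : Fact p.Prime := ⟨hp⟩
    haveI : Fact q.Prime := ⟨hq⟩
    have hprimes : ∀ r : ℕ, r.Prime → r ∣ Nat.card G → r = 2 ∨ r = p ∨ r = q := by
      intro r hr hrd
      by_contra hcon
      push Not at hcon
      exact CfsgLib.FGS.OC.no_three hab hv hp hq hr hp2 hq2 hcon.1 hne hcon.2.1.symm hcon.2.2.symm hpd hqd hrd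
    have h3p := CfsgLib.FGS.OC.three_le_of_odd_prime hp hp2
    have h3q := CfsgLib.FGS.OC.three_le_of_odd_prime hq hq2
    have hpe := CfsgLib.FGS.OC.cnt_even (G := G) h3p
    have hc2 : ∀ s t : ℕ, Even s → Even t → (∀ r, CfsgLib.FGS.OC.cnt G r ≠ 0 → CfsgLib.FGS.OC.cnt G r = 1 ∨ CfsgLib.FGS.OC.cnt G r = s ∨ CfsgLib.FGS.OC.cnt G r = t) →
        CfsgLib.FGS.OC.cnt G 2 = 1 := by
      intro s t hs ht hr
      have h1 := CfsgLib.FGS.OC.dvd_Fd (G := G) h2d
      rw [CfsgLib.FGS.OC.Fd_prime Nat.prime_two] at h1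
      rcases hr 2 (CfsgLib.FGS.OC.cnt_pos_of_prime Nat.prime_two h2d) with h3 | h3 | h3
      · exact h3
      · rw [h3] at h1
        exfalso
        obtain ⟨k, hk⟩ := hs
        omega
      · rw [h3] at h1
        exfalso
        obtain ⟨k, hk⟩ := ht
        omega
    have hnot4 : ¬ 4 ∣ Nat.card G := by
      by_cases hE : CfsgLib.FGS.OC.cnt G p = CfsgLib.FGS.OC.cnt G q
      · -- Case E
        have hX := CfsgLib.FGS.OC.case_eq hp hq hne hpd hqd hE
        have hn := CfsgLib.FGS.OC.cast_cnt_prime (G := G) hpd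
        have hXne : CfsgLib.FGS.OC.cnt G (p * q) ≠ CfsgLib.FGS.OC.cnt G p := by
          intro h3
          rw [h3, hn] at hX
          exact CfsgLib.FGS.OC.one_ne_neg_one_zmod hp2 hX.symm
        have hX0 : CfsgLib.FGS.OC.cnt G (p * q) ≠ 0 := by
          intro h3
          rw [h3] at hX
          push_cast at hX
          exact zero_ne_one hX
        have hn0 := CfsgLib.FGS.OC.cnt_pos_of_prime (G := G) hp hpd
        have h3X := CfsgLib.FGS.OC.three_le_mul hp hq hp2
        have hvp := hv p h3p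
        have hvX := hv _ h3X
        have hv' : ∀ m, 3 ≤ m → CfsgLib.FGS.OC.cnt G m = 0 ∨ CfsgLib.FGS.OC.cnt G m = CfsgLib.FGS.OC.cnt G p ∨ CfsgLib.FGS.OC.cnt G m = CfsgLib.FGS.OC.cnt G (p * q) := by
          intro m hm
          have := hv m hm
          omega
        have hc := hc2 (CfsgLib.FGS.OC.cnt G p) (CfsgLib.FGS.OC.cnt G (p * q)) hpe (CfsgLib.FGS.OC.cnt_even h3X) (by
          intro r hr
          have := hval r hr
          omega)
        exact CfsgLib.FGS.OC.not_four_E hp hq hp2 hq2 hne hpd hqd hc hv' hE rfl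
      · have hn0 := CfsgLib.FGS.OC.cnt_pos_of_prime (G := G) hp hpd
        have hn0' := CfsgLib.FGS.OC.cnt_pos_of_prime (G := G) hq hqd
        have hvp := hv p h3p
        have hvq := hv q h3q
        have hv' : ∀ m, 3 ≤ m → CfsgLib.FGS.OC.cnt G m = 0 ∨ CfsgLib.FGS.OC.cnt G m = CfsgLib.FGS.OC.cnt G p ∨ CfsgLib.FGS.OC.cnt G m = CfsgLib.FGS.OC.cnt G q := by
          intro m hm
          have := hv m hm
          omega
        have hc := hc2 (CfsgLib.FGS.OC.cnt G p) (CfsgLib.FGS.OC.cnt G q) hpe (CfsgLib.FGS.OC.cnt_even h3q) (by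
          intro r hr
          have := hval r hr
          omega)
        exact CfsgLib.FGS.OC.not_four_U hp hq hp2 hq2 hne hpd hqd hc hv' hE
    obtain ⟨N, hN, hNc⟩ := CfsgLib.FGS.OC.exists_index_two_of_not_four h2d hnot4
    refine CfsgLib.FGS.OC.solvable_of_index_two hN ?_
    refine CfsgLib.FGS.OC.solvable_of_primes hp hq hne ?_
    intro r hr hrd
    have h3 : r ∣ Nat.card G := by rw [← hNc]; exact hrd.trans (Nat.dvd_mul_right _ _)
    rcases hprimes r hr h3 with rfl | h4
    · exfalso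
      apply hnot4
      rw [← hNc]
      obtain ⟨k, hk⟩ := hrd
      rw [hk]
      exact ⟨k, by ring⟩
    · exact h4
  · push Not at hmain
    -- at most two primes
    by_cases h2d : 2 ∣ Nat.card G
    · -- at most one odd prime
      by_cases hodd : ∃ p : ℕ, p.Prime ∧ p ≠ 2 ∧ p ∣ Nat.card G
      · obtain ⟨p, hp, hp2, hpd⟩ := hodd
        refine CfsgLib.FGS.OC.solvable_of_primes hp Nat.prime_two hp2 ?_
        intro r hr hrd
        by_contra hcon
        push Not at hcon
        exact (hmain p r hp hr hp2 hcon.2 hcon.1.symm hpd hrd) h2d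
      · push Not at hodd
        refine CfsgLib.FGS.OC.solvable_of_primes Nat.prime_three Nat.prime_two (by norm_num) ?_
        intro r hr hrd
        by_contra hcon
        push Not at hcon
        exact hodd r hr hcon.2 hrd
    · -- odd order
      by_cases hodd : ∃ p : ℕ, p.Prime ∧ p ∣ Nat.card G
      · obtain ⟨p, hp, hpd⟩ := hodd
        have hp2 : p ≠ 2 := by
          rintro rfl
          exact h2d hpd
        by_cases hodd2 : ∃ q : ℕ, q.Prime ∧ q ≠ p ∧ q ∣ Nat.card G
        · obtain ⟨q, hq, hqp, hqd⟩ := hodd2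
          have hq2 : q ≠ 2 := by
            rintro rfl
            exact h2d hqd
          refine CfsgLib.FGS.OC.solvable_of_primes hp hq hqp.symm ?_
          intro r hr hrd
          by_contra hcon
          push Not at hcon
          have hr2 : r ≠ 2 := by
            rintro rfl
            exact h2d hrd
          exact CfsgLib.FGS.OC.no_three hab hv hp hq hr hp2 hq2 hr2 hqp.symm hcon.1.symm hcon.2.symm hpd hqd hrd
        · push Not at hodd2
          refine CfsgLib.FGS.OC.solvable_of_primes hp Nat.prime_two hp2 ?_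
          intro r hr hrd
          by_contra hcon
          push Not at hcon
          exact hodd2 r hr hcon.1 hrd
      · push Not at hodd
        refine CfsgLib.FGS.OC.solvable_of_primes Nat.prime_three Nat.prime_two (by norm_num) ?_
        intro r hr hrd
        exact absurd hrd (hodd r hr)

end Cfsg.Agent.S3996
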