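import Cfsg.Statements.S3997
import Cfsg.Agent.Lib.FGS.Syl

set_option autoImplicit false
open Cfsg

namespace Cfsg.Agent.S3997

/-- Let G and H be finite groups with the same order type: for every m they have the same number of elements of order m. If G is nilpotent then so is H. -/
theorem result {G H : Type*} [Group G] [Finite G] [Group H] [Finite H] (hT : (∀ m : ℕ, Nat.card {g : G // orderOf g = m} = Nat.card {h : H // orderOf h = m})) (hG : Group.IsNilpotent G) :
    Group.IsNilpotent H := by
  classical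
  have hpow : ∀ n : ℕ, n ≠ 0 → Nat.card {g : G // g ^ n = 1} = Nat.card {h : H // h ^ n = 1} := by
    intro n hn
    rw [CfsgLib.FGS.card_pow_eq_one_eq_sum hn, CfsgLib.FGS.card_pow_eq_one_eq_sum hn]
    exact Finset.sum_congr rfl fun d _ => hT d
  have hcard : Nat.card G = Nat.card H := by
    have hn : Nat.card G * Nat.card H ≠ 0 := Nat.mul_ne_zero Nat.card_pos.ne' Nat.card_pos.ne'
    have h1 : ∀ g : G, g ^ (Nat.card G * Nat.card H) = 1 := fun g => by
      rw [pow_mul, pow_card_eq_one']; simp
    have h2 : ∀ g : H, g ^ (Nat.card G * Nat.card H) = 1 := fun g => by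
      rw [mul_comm, pow_mul, pow_card_eq_one']; simp
    have h3 := hpow _ hn
    rwa [Nat.card_congr (Equiv.subtypeUnivEquiv h1), Nat.card_congr (Equiv.subtypeUnivEquiv h2)] at h3
  refine (Group.isNilpotent_of_finite_tfae.out 0 3).mpr ?_
  intro p _ Q
  obtain ⟨P⟩ : Nonempty (Sylow p G) := inferInstance
  have hPn : (P : Subgroup G).Normal := by
    have h := (Group.isNilpotent_of_finite_tfae (G := G)).out 0 3
    exact h.mp hG p inferInstance P
  have hpe : p ^ Nat.card G ≠ 0 := (pow_pos (Fact.out : p.Prime).pos _).ne'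
  have hSG : Nat.card {g : G // g ^ (p ^ Nat.card G) = 1} = Nat.card P := by
    refine Nat.card_congr ⟨fun g => ⟨g.1, ?_⟩, fun g => ⟨g.1, ?_⟩, fun _ => rfl, fun _ => rfl⟩
    · have hp : IsPGroup p (Subgroup.zpowers g.1) := by
        rw [IsPGroup.iff_card, Nat.card_zpowers]
        have h1 := orderOf_dvd_of_pow_eq_one g.2
        obtain ⟨j, -, hj⟩ := (Nat.dvd_prime_pow Fact.out).mp h1
        exact ⟨j, hj⟩
      exact CfsgLib.FGS.le_of_normal_sylow P hPn hp (Subgroup.mem_zpowers _)
    · exact CfsgLib.FGS.pow_pow_card_eq_one_of_mem_sylow P g.2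
  have hcp : Nat.card P = Nat.card Q := by
    rw [P.card_eq_multiplicity, Q.card_eq_multiplicity, hcard]
  have hQ1 : ∀ q ∈ (Q : Subgroup H), q ^ (p ^ Nat.card G) = 1 := fun q hq => by
    rw [hcard]
    exact CfsgLib.FGS.pow_pow_card_eq_one_of_mem_sylow Q hq
  have hQ : ∀ h : H, h ^ (p ^ Nat.card G) = 1 → h ∈ (Q : Subgroup H) := by
    have hinj : Function.Injective (fun q : Q => (⟨q.1, hQ1 q.1 q.2⟩ :
        {h : H // h ^ (p ^ Nat.card G) = 1})) := by
      intro a b hab
      exact Subtype.ext (congrArg (fun z : {h : H // h ^ (p ^ Nat.card G) = 1} => z.1) hab)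
    have hb := hinj.bijective_of_nat_card_le (by
      rw [← hpow _ hpe, hSG, hcp]
      exact le_rfl)
    intro h hh
    obtain ⟨q, hq⟩ := hb.2 ⟨h, hh⟩
    have : q.1 = h := congrArg (fun z : {h : H // h ^ (p ^ Nat.card G) = 1} => z.1) hq
    rw [← this]
    exact q.2
  constructor
  intro x hx g
  apply hQ
  rw [conj_pow, hQ1 x hx]
  group

end Cfsg.Agent.S3997
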