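import Cfsg.Statements.S3998
import Cfsg.Agent.Lib.FGS.Basic
import Cfsg.Agent.Lib.SS.Chain
import Cfsg.Agent.Lib.SS.Basic

set_option autoImplicit false
open Cfsg
open scoped commutatorElement
open scoped Pointwise

namespace Cfsg.Agent.S3998

theorem h8_T3.{u_1} : ∀ (c : ℕ) (G : Type u_1) [Group G] [Finite G], Nat.card G = c → Cfsg.IsSupersolvable G → ∀ t : ℕ,
    ∃ N : Subgroup G, N.Normal ∧ (∀ q : ℕ, q.Prime → q ∣ Nat.card N → t < q) ∧ (∀ q : ℕ, q.Prime → q ∣ N.index → q ≤ t) := by
  intro c
  induction c using Nat.strong_induction_on with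
  | _ c ih =>
    intro G _ _ hc hG t
    by_cases hbig : ∀ q : ℕ, q.Prime → q ∣ Nat.card G → q ≤ t
    · refine ⟨⊥, inferInstance, ?_, ?_⟩
      · intro q hq hd
        rw [Subgroup.card_bot] at hd
        exact absurd (Nat.dvd_one.1 hd) hq.ne_one
      · intro q hq hd
        rw [Subgroup.index_bot] at hd
        exact hbig q hq hd
    · push Not at hbig
      obtain ⟨q0, hq0, hq0d, hq0t⟩ := hbig
      have hpos : Nat.card G ≠ 0 := Nat.card_pos.ne'
      obtain ⟨p, hpm, hpmax⟩ := Finset.exists_max_image (Nat.card G).primeFactors id ⟨q0, Nat.mem_primeFactors.2 ⟨hq0, hq0d, hpos⟩⟩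
      have hpp : p.Prime := Nat.prime_of_mem_primeFactors hpm
      have hpd : p ∣ Nat.card G := Nat.dvd_of_mem_primeFactors hpm
      have hmax : ∀ q : ℕ, q.Prime → q ∣ Nat.card G → q ≤ p := fun q hq hd => hpmax q (Nat.mem_primeFactors.2 ⟨hq, hd, hpos⟩)
      have hpt : t < p := lt_of_lt_of_le hq0t (hmax q0 hq0 hq0d)
      obtain ⟨A, hAn, hAc⟩ := CfsgLib.SS.exists_normal_largest_prime _ G rfl hG p hpp hpd hmax
      haveI := hAn
      have hcq : Nat.card G = Nat.card (G ⧸ A) * Nat.card A := Subgroup.card_eq_card_quotient_mul_card_subgroup A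
      rw [hAc] at hcq
      have hlt : Nat.card (G ⧸ A) < c := by
        rw [← hc, hcq]
        have h1 : 0 < Nat.card (G ⧸ A) := Nat.card_pos
        have h2 := hpp.two_le
        nlinarith
      obtain ⟨Nb, hNbn, hNb1, hNb2⟩ := ih _ hlt (G ⧸ A) rfl (CfsgLib.SS.isSupersolvable_quotient hG A) t
      haveI := hNbn
      refine ⟨Nb.comap (QuotientGroup.mk' A), Subgroup.Normal.comap hNbn _, ?_, ?_⟩
      · have hind : (Nb.comap (QuotientGroup.mk' A)).index = Nb.index := Subgroup.index_comap_of_surjective Nb (QuotientGroup.mk'_surjective A)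
        have h1 := Subgroup.card_mul_index (Nb.comap (QuotientGroup.mk' A))
        have h2 := Subgroup.card_mul_index Nb
        have h3 : Nat.card (Nb.comap (QuotientGroup.mk' A)) = Nat.card Nb * p := by
          have hipos : 0 < Nb.index := Nat.pos_of_ne_zero Subgroup.index_ne_zero_of_finite
          have h4 : Nat.card (Nb.comap (QuotientGroup.mk' A)) * Nb.index = (Nat.card Nb * p) * Nb.index := by
            calc _ = Nat.card (Nb.comap (QuotientGroup.mk' A)) * (Nb.comap (QuotientGroup.mk' A)).index := by rw [hind]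
              _ = Nat.card G := h1
              _ = Nat.card (G ⧸ A) * p := hcq
              _ = (Nat.card Nb * Nb.index) * p := by rw [h2]
              _ = _ := by ring
          exact Nat.eq_of_mul_eq_mul_right hipos h4
        intro q hq hd
        rw [h3] at hd
        rcases (Nat.Prime.dvd_mul hq).1 hd with h4 | h4
        · exact hNb1 q hq h4
        · rw [(Nat.prime_dvd_prime_iff_eq hq hpp).1 h4]
          exact hpt
      · intro q hq hd
        rw [Subgroup.index_comap_of_surjective Nb (QuotientGroup.mk'_surjective A)] at hd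
        exact hNb2 q hq hd

theorem h8_count {G : Type*} [Group G] [Finite G] (n : ℕ) (hn : n ≠ 0) :
    Nat.card {g : G // g ^ n = 1} = ∑ m ∈ n.divisors, Nat.card {g : G // orderOf g = m} := by
  classical
  haveI := Fintype.ofFinite G
  simp only [Nat.card_eq_fintype_card, Fintype.card_subtype]
  rw [Finset.card_eq_sum_card_fiberwise (f := orderOf) (t := n.divisors)]
  · refine Finset.sum_congr rfl (fun m hm => ?_)
    congr 1
    ext g
    simp only [Finset.mem_filter, Finset.mem_univ, true_and]
    constructor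
    · exact fun h => h.2
    · intro h
      refine ⟨?_, h⟩
      rw [← orderOf_dvd_iff_pow_eq_one, h]
      exact Nat.dvd_of_mem_divisors hm
  · intro g hg
    have hg' : g ^ n = 1 := by simpa using hg
    exact Finset.mem_coe.2 (Nat.mem_divisors.2 ⟨orderOf_dvd_of_pow_eq_one hg', hn⟩)

theorem h8_step {X : Type*} [Group X] [Finite X] (N : Subgroup X) [N.Normal] (hNs : Group.IsSolvable N)
    (q a : ℕ) (hq : q.Prime) (hdvd : q ^ a ∣ N.index)
    (hS : Nat.card {x : X // x ^ (Nat.card N * q ^ a) = 1} = Nat.card N * q ^ a) :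
    ∃ L : Subgroup X, L.Normal ∧ Group.IsSolvable L ∧ Nat.card L = Nat.card N * q ^ a ∧
      ∀ x : X, x ^ (Nat.card N * q ^ a) = 1 → x ∈ L := by
  classical
  haveI : Fact q.Prime := ⟨hq⟩
  have hdvd' : q ^ a ∣ Nat.card (X ⧸ N) := hdvd
  obtain ⟨K, hK⟩ := Sylow.exists_subgroup_card_pow_prime q hdvd'
  let L : Subgroup X := K.comap (QuotientGroup.mk' N)
  have hNL : N ≤ L := by
    intro n hn
    show (n : X ⧸ N) ∈ K
    rw [(QuotientGroup.eq_one_iff n).2 hn]
    exact one_mem _
  have hLc : Nat.card L = Nat.card N * q ^ a := by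
    have hind : L.index = K.index := Subgroup.index_comap_of_surjective K (QuotientGroup.mk'_surjective N)
    have h1 := Subgroup.card_mul_index L
    have h2 := Subgroup.card_mul_index K
    have h3 : Nat.card X = Nat.card (X ⧸ N) * Nat.card N := Subgroup.card_eq_card_quotient_mul_card_subgroup N
    have hipos : 0 < K.index := Nat.pos_of_ne_zero Subgroup.index_ne_zero_of_finite
    have h4 : Nat.card L * K.index = (Nat.card N * q ^ a) * K.index := by
      calc _ = Nat.card L * L.index := by rw [hind]
        _ = Nat.card X := h1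
        _ = Nat.card (X ⧸ N) * Nat.card N := h3
        _ = (Nat.card K * K.index) * Nat.card N := by rw [h2]
        _ = _ := by
          rw [hK]
          ring
    exact Nat.eq_of_mul_eq_mul_right hipos h4
  have hLpow : ∀ x ∈ L, x ^ (Nat.card N * q ^ a) = 1 := by
    intro x hx
    have h0 : (⟨x, hx⟩ : L) ^ Nat.card L = 1 := pow_card_eq_one'
    rw [hLc] at h0
    simpa using congrArg Subtype.val h0
  have hall : ∀ x : X, x ^ (Nat.card N * q ^ a) = 1 → x ∈ L := by
    let i : L → {x : X // x ^ (Nat.card N * q ^ a) = 1} := fun l => ⟨l.1, hLpow l.1 l.2⟩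
    have hi : Function.Injective i := fun u v h => by
      have h' : (i u).1 = (i v).1 := congrArg Subtype.val h
      exact Subtype.ext h'
    have hb := hi.bijective_of_nat_card_le (by rw [hS, hLc])
    intro x hx
    obtain ⟨l, hl⟩ := hb.2 ⟨x, hx⟩
    have h5 : l.1 = x := congrArg Subtype.val hl
    rw [← h5]
    exact l.2
  have hLn : L.Normal := ⟨fun l hl g => hall _ (by rw [conj_pow, hLpow l hl, mul_one, mul_inv_cancel])⟩
  have hLs : Group.IsSolvable L := by
    have hKp : IsPGroup q K := IsPGroup.of_card hK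
    haveI : Group.IsNilpotent K := hKp.isNilpotent
    haveI : Group.IsSolvable K := inferInstance
    let f : N →* L := Subgroup.inclusion hNL
    let g : L →* K := ((QuotientGroup.mk' N).comp L.subtype).codRestrict K (fun l => l.2)
    refine Group.isSolvable_of_ker_le_range f g ?_
    intro l hl
    have h0 : g l = 1 := hl
    have h1 : (l.1 : X ⧸ N) = 1 := congrArg Subtype.val h0
    have h2 : l.1 ∈ N := (QuotientGroup.eq_one_iff _).1 h1
    exact ⟨⟨l.1, h2⟩, Subtype.ext rfl⟩
  exact ⟨L, hLn, hLs, hLc, hall⟩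


/-- Let G and H be finite groups with the same order type (for every m the same number of elements of order m). If G is supersolvable then H is solvable. -/
theorem result {G H : Type*} [Group G] [Finite G] [Group H] [Finite H] (hT : (∀ m : ℕ, Nat.card {g : G // orderOf g = m} = Nat.card {h : H // orderOf h = m})) (hG : Cfsg.IsSupersolvable G) :
    Group.IsSolvable H := by
  classical
  have hs : ∀ n : ℕ, n ≠ 0 → Nat.card {g : G // g ^ n = 1} = Nat.card {x : H // x ^ n = 1} := by
    intro n hn
    rw [h8_count n hn, h8_count n hn]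
    exact Finset.sum_congr rfl (fun m _ => hT m)
  have hcardG : Nat.card G ≠ 0 := Nat.card_pos.ne'
  have hcardH : Nat.card H ≠ 0 := Nat.card_pos.ne'
  have hEq : Nat.card G = Nat.card H := by
    have h1 := hs (Nat.card G * Nat.card H) (mul_ne_zero hcardG hcardH)
    have h2 : Nat.card {g : G // g ^ (Nat.card G * Nat.card H) = 1} = Nat.card G :=
      Nat.card_congr (Equiv.subtypeUnivEquiv (fun g => by rw [pow_mul, pow_card_eq_one', one_pow]))
    have h3 : Nat.card {x : H // x ^ (Nat.card G * Nat.card H) = 1} = Nat.card H :=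
      Nat.card_congr (Equiv.subtypeUnivEquiv (fun g => by rw [mul_comm, pow_mul, pow_card_eq_one', one_pow]))
    rw [h2, h3] at h1
    exact h1
  have hT3 := fun t : ℕ => h8_T3 _ G rfl hG t
  choose Ng hNgn hNg1 hNg2 using hT3
  have hnd : ∀ t, Nat.card (Ng t) * (Ng t).index = Nat.card G := fun t => Subgroup.card_mul_index (Ng t)
  have hsG : ∀ t, Nat.card {g : G // g ^ Nat.card (Ng t) = 1} = Nat.card (Ng t) := by
    intro t
    haveI := hNgn t
    have hcop : (Nat.card (Ng t)).Coprime (Ng t).index := by
      by_contra h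
      obtain ⟨q, hq, h1, h2⟩ := Nat.Prime.not_coprime_iff_dvd.1 h
      exact absurd (hNg1 t q hq h1) (not_lt.2 (hNg2 t q hq h2))
    have hiff : ∀ x : G, x ^ Nat.card (Ng t) = 1 ↔ x ∈ Ng t := by
      intro x
      constructor
      · intro hx
        have h1 : (x : G ⧸ Ng t) ^ Nat.card (Ng t) = 1 := by
          rw [← QuotientGroup.mk_pow, hx]
          rfl
        have h2 : (x : G ⧸ Ng t) ^ (Ng t).index = 1 := by
          have h0 : (x : G ⧸ Ng t) ^ Nat.card (G ⧸ Ng t) = 1 := pow_card_eq_one'
          exact h0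
        have h3 := Nat.eq_one_of_dvd_coprimes hcop (orderOf_dvd_of_pow_eq_one h1) (orderOf_dvd_of_pow_eq_one h2)
        rw [orderOf_eq_one_iff] at h3
        exact (QuotientGroup.eq_one_iff x).1 h3
      · intro hx
        have h0 : (⟨x, hx⟩ : Ng t) ^ Nat.card (Ng t) = 1 := pow_card_eq_one'
        have h00 : ((⟨x, hx⟩ : Ng t) ^ Nat.card (Ng t)).1 = (1 : Ng t).1 := congrArg Subtype.val h0
        exact h00
    exact Nat.card_congr (Equiv.subtypeEquivRight hiff)
  have hP : ∀ j t : ℕ, t + j = Nat.card G → ∃ N : Subgroup H, N.Normal ∧ Group.IsSolvable N ∧ Nat.card N = Nat.card (Ng t) ∧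
      ∀ x : H, x ^ Nat.card (Ng t) = 1 → x ∈ N := by
    intro j
    induction j with
    | zero =>
      intro t ht
      have ht' : t = Nat.card G := by simpa using ht
      have hn1 : Nat.card (Ng t) = 1 := by
        by_contra hne
        obtain ⟨q, hq, hd⟩ := Nat.exists_prime_and_dvd hne
        have h1 := hNg1 t q hq hd
        have h2 : q ∣ Nat.card G := hd.trans ⟨_, (hnd t).symm⟩
        have h3 := Nat.le_of_dvd (Nat.pos_of_ne_zero hcardG) h2
        omega
      refine ⟨⊥, inferInstance, inferInstance, ?_, ?_⟩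
      · rw [hn1, Subgroup.card_bot]
      · intro x hx
        rw [hn1, pow_one] at hx
        rw [hx]
        exact one_mem _
    | succ j ih =>
      intro t ht
      obtain ⟨N, hNn, hNs, hNc, hNall⟩ := ih (t + 1) (by omega)
      haveI := hNn
      have hnpos : 0 < Nat.card (Ng (t + 1)) := Nat.card_pos
      have hcop : (Nat.card (Ng (t + 1))).Coprime (Ng t).index := by
        by_contra h
        obtain ⟨q, hq, h1, h2⟩ := Nat.Prime.not_coprime_iff_dvd.1 h
        have h3 := hNg1 (t + 1) q hq h1
        have h4 := hNg2 t q hq h2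
        omega
      have hdv : Nat.card (Ng (t + 1)) ∣ Nat.card (Ng t) := by
        apply hcop.dvd_of_dvd_mul_right
        rw [hnd t, ← hnd (t + 1)]
        exact dvd_mul_right _ _
      obtain ⟨k, hk⟩ := hdv
      have hdk : (Ng (t + 1)).index = k * (Ng t).index := by
        apply Nat.eq_of_mul_eq_mul_left hnpos
        rw [hnd (t + 1), ← mul_assoc, ← hk, hnd t]
      have hkne : k ≠ 0 := by
        rintro rfl
        have h0 : 0 < Nat.card (Ng t) := Nat.card_pos
        omega
      by_cases hk1 : k = 1
      · refine ⟨N, hNn, hNs, ?_, ?_⟩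
        · rw [hk, hk1, mul_one, hNc]
        · intro x hx
          apply hNall
          rw [hk, hk1, mul_one] at hx
          exact hx
      · obtain ⟨r, hr, hrk⟩ := Nat.exists_prime_and_dvd hk1
        have huniq : ∀ {d : ℕ}, d.Prime → d ∣ k → d = t + 1 := by
          intro d hd hdk'
          have h1 : t < d := hNg1 t d hd (by rw [hk]; exact hdk'.trans (dvd_mul_left _ _))
          have h2 : d ≤ t + 1 := hNg2 (t + 1) d hd (by rw [hdk]; exact hdk'.trans (dvd_mul_right _ _))
          omega
        have hq : (t + 1).Prime := by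
          rw [← huniq hr hrk]
          exact hr
        have hkp := Nat.eq_prime_pow_of_unique_prime_dvd hkne huniq
        set a := k.primeFactorsList.length with ha
        have hNind : N.index = (Ng (t + 1)).index := by
          apply Nat.eq_of_mul_eq_mul_left hnpos
          rw [hnd (t + 1), ← hNc, Subgroup.card_mul_index, hEq]
        have hcN : Nat.card N * (t + 1) ^ a = Nat.card (Ng t) := by
          rw [hNc, ← hkp, hk]
        obtain ⟨L, hLn, hLs, hLc, hLall⟩ := h8_step N hNs (t + 1) a hq
          (by rw [hNind, hdk, ← hkp]; exact dvd_mul_right _ _)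
          (by rw [hcN, ← hs _ Nat.card_pos.ne', hsG t])
        refine ⟨L, hLn, hLs, ?_, ?_⟩
        · rw [hLc, hcN]
        · intro x hx
          apply hLall
          rw [hcN]
          exact hx
  obtain ⟨N, hNn, hNs, hNc, -⟩ := hP (Nat.card G) 0 (by omega)
  have hd0 : (Ng 0).index = 1 := by
    by_contra hne
    obtain ⟨q, hq, hd⟩ := Nat.exists_prime_and_dvd hne
    have h1 := hNg2 0 q hq hd
    have := hq.pos
    omega
  have hn0 : Nat.card (Ng 0) = Nat.card H := by
    have h1 := hnd 0
    rw [hd0, mul_one] at h1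
    rw [h1, hEq]
  have hNtop : N = ⊤ := Subgroup.eq_top_of_card_eq N (hNc.trans hn0)
  haveI := hNs
  exact Group.isSolvable_of_surjective (f := N.subtype) (fun x => ⟨⟨x, hNtop ▸ Subgroup.mem_top x⟩, rfl⟩)

end Cfsg.Agent.S3998
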