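import Cfsg.Statements.S4002
import Cfsg.Agent.Lib.FGS.Basic
import Cfsg.Agent.Lib.SS.FPF
import Cfsg.Agent.Lib.Solv.Hall
import Cfsg.Agent.Lib.Solv.SZ

set_option autoImplicit false
open Cfsg
open scoped commutatorElement
open scoped Pointwise

namespace Cfsg.Agent.S4002

universe u_main

open CfsgLib.Solv CfsgLib.SS in
theorem lucido_step2 {G : Type u_main} [Group G] [Finite G] (K N : Subgroup G) (hN : N ≠ ⊥) [hNn : N.Normal]
    (hfpf : ∀ a ∈ K, a ≠ 1 → N ⊓ Subgroup.centralizer {a} = ⊥)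
    (M : Subgroup K) [hMn : M.Normal] (hM0 : M ≠ ⊥) (hMab : IsMulCommutative M) (t s : ℕ)
    (ht : t.Prime) (hs : s.Prime) (hts : t ≠ s) (htexp : ∀ x ∈ M, x ^ t = 1)
    (y : K) (hy : orderOf y = s) : ∃ g : G, orderOf g = s * t := by
  classical
  haveI : Fact t.Prime := ⟨ht⟩
  have hAN : ∀ A : Subgroup G, A ≤ Subgroup.normalizer (N : Set G) := by
    intro A
    rw [Subgroup.normalizer_eq_top]
    exact le_top
  obtain ⟨M', hM'⟩ : ∃ M' : Subgroup G, M' = M.map K.subtype := ⟨_, rfl⟩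
  have hM'le : M' ≤ K := hM' ▸ Subgroup.map_subtype_le M
  have hcardM : Nat.card M' = Nat.card M := by
    rw [hM']
    exact Nat.card_congr (M.equivMapOfInjective K.subtype K.subtype_injective).symm.toEquiv
  have hM'cyc : IsCyclic M' := fpf_cyclic M' N hN (hAN _) (fun a ha => hfpf a (hM'le ha)) (Or.inl ⟨⟨by
    rintro ⟨a, ha⟩ ⟨b, hb⟩
    rw [hM'] at ha hb
    obtain ⟨c, hc, rfl⟩ := Subgroup.mem_map.1 ha
    obtain ⟨d, hd, rfl⟩ := Subgroup.mem_map.1 hb
    have := hMab.is_comm.comm ⟨c, hc⟩ ⟨d, hd⟩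
    have h2 : c * d = d * c := congrArg Subtype.val this
    apply Subtype.ext
    show (K.subtype c) * (K.subtype d) = (K.subtype d) * (K.subtype c)
    rw [← map_mul, ← map_mul, h2]⟩⟩)
  have hMcard : Nat.card M = t := by
    obtain ⟨g, hg⟩ := IsCyclic.exists_ofOrder_eq_natCard (α := M')
    have hgt : g ^ t = 1 := by
      have h1 : (g : G) ∈ M.map K.subtype := hM' ▸ g.2
      obtain ⟨z, hz, hzg⟩ := Subgroup.mem_map.1 h1
      apply Subtype.ext
      show (g : G) ^ t = 1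
      rw [← hzg]
      have := htexp z hz
      show ((z : K) : G) ^ t = 1
      rw [← Subgroup.coe_pow, this]
      rfl
    have hg1 : g ≠ 1 := by
      intro h
      rw [h, orderOf_one, hcardM] at hg
      exact hM0 ((Subgroup.card_eq_one).1 hg.symm)
    rw [← hcardM, ← hg]
    exact orderOf_eq_prime hgt hg1
  have hys : Nat.card (Subgroup.zpowers y) = s := by rw [Nat.card_zpowers, hy]
  have hcop : (Nat.card (Subgroup.zpowers y)).Coprime (Nat.card M) := by
    rw [hys, hMcard]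
    exact (Nat.coprime_primes hs ht).2 (Ne.symm hts)
  have hsup := card_sup_mul_card_inf (Subgroup.zpowers y) M
  rw [(Subgroup.disjoint_of_coprime_natCard hcop).eq_bot, hys, hMcard] at hsup
  simp only [Subgroup.card_bot, mul_one] at hsup
  obtain ⟨A, hA⟩ : ∃ A : Subgroup G, A = (Subgroup.zpowers y ⊔ M).map K.subtype := ⟨_, rfl⟩
  have hAle : A ≤ K := hA ▸ Subgroup.map_subtype_le _
  have hAcard : Nat.card A = s * t := by
    rw [hA, ← hsup]
    exact Nat.card_congr ((Subgroup.zpowers y ⊔ M).equivMapOfInjective K.subtype K.subtype_injective).symm.toEquiv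
  have hAcyc : IsCyclic A := fpf_cyclic A N hN (hAN _) (fun a ha => hfpf a (hAle ha))
    (Or.inr ⟨s, t, hs, ht, hAcard⟩)
  obtain ⟨g, hg⟩ := IsCyclic.exists_ofOrder_eq_natCard (α := A)
  refine ⟨g, ?_⟩
  rw [Subgroup.orderOf_coe, hg, hAcard]

open CfsgLib.Solv CfsgLib.SS in
theorem lucido_step {G : Type u_main} [Group G] [Finite G] [Group.IsSolvable G] (p q r : ℕ)
    (hp : p.Prime) (hq : q.Prime) (hr : r.Prime) (hpq : p ≠ q) (hpr : p ≠ r) (hqr : q ≠ r)
    (hall : ∀ l : ℕ, l.Prime → l ∣ Nat.card G → l = p ∨ l = q ∨ l = r)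
    (hdq : q ∣ Nat.card G) (hdr : r ∣ Nat.card G)
    (hno : ∀ g : G, orderOf g ≠ p * q ∧ orderOf g ≠ p * r ∧ orderOf g ≠ q * r)
    (N : Subgroup G) (hN : N ≠ ⊥) [hNn : N.Normal] (hNp : ∀ x ∈ N, x ^ p = 1) : False := by
  classical
  haveI : Fact p.Prime := ⟨hp⟩
  obtain ⟨a, m, hm, hG⟩ := Nat.exists_eq_pow_mul_and_not_dvd (Nat.card_pos (α := G)).ne' p hp.ne_one
  have hcopm : m.Coprime (p ^ a) := Nat.Coprime.pow_right a ((Nat.Prime.coprime_iff_not_dvd hp).2 hm).symm
  obtain ⟨K, hKcard, -⟩ := hall_containing _ G rfl m (p ^ a) (by rw [mul_comm, hG]) hcopm ⊥ (by simp)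
  have hdm : ∀ l : ℕ, l.Prime → l ≠ p → l ∣ Nat.card G → l ∣ m := by
    intro l hl hlp hd
    rw [hG] at hd
    rcases (Nat.Prime.dvd_mul hl).1 hd with h | h
    · exact absurd ((Nat.prime_dvd_prime_iff_eq hl hp).1 (hl.dvd_of_dvd_pow h)) hlp
    · exact h
  have hmG : m ∣ Nat.card G := by rw [hG]; exact dvd_mul_left _ _
  have hfpf : ∀ a ∈ K, a ≠ 1 → N ⊓ Subgroup.centralizer {a} = ⊥ := by
    intro x hx hx1
    rcases Subgroup.bot_or_exists_ne_one (N ⊓ Subgroup.centralizer {x}) with h | ⟨v, hv, hv1⟩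
    · exact h
    exfalso
    have hvo : orderOf v = p := orderOf_eq_prime (hNp v hv.1) hv1
    have hc : v * x = x * v := Subgroup.mem_centralizer_singleton_iff.1 hv.2
    obtain ⟨l, hl, hlx⟩ := Nat.exists_prime_and_dvd (n := orderOf x) (by
      intro h
      exact hx1 (orderOf_eq_one_iff.1 h))
    have hxK : orderOf x ∣ m := hKcard ▸ Subgroup.orderOf_dvd_natCard K hx
    have hlm := hlx.trans hxK
    have hlp : l ≠ p := fun h => hm (h ▸ hlm)
    have hxo : orderOf (x ^ (orderOf x / l)) = l := orderOf_pow_orderOf_div (orderOf_pos x).ne' hlx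
    have hcomm : Commute v (x ^ (orderOf x / l)) := Commute.pow_right hc _
    have hord := hcomm.orderOf_mul_eq_mul_orderOf_of_coprime (by
      rw [hvo, hxo]
      exact (Nat.coprime_primes hp hl).2 (Ne.symm hlp))
    rw [hvo, hxo] at hord
    rcases hall l hl (hlm.trans hmG) with h | h | h
    · exact hlp h
    · rw [h] at hord; exact (hno _).1 hord
    · rw [h] at hord; exact (hno _).2.1 hord
  have hqm := hdm q hq (Ne.symm hpq) hdq
  have hrm := hdm r hr (Ne.symm hpr) hdr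
  haveI hKtriv : Nontrivial K := by
    rw [← Finite.one_lt_card_iff_nontrivial, hKcard]
    have := Nat.le_of_dvd (Nat.pos_of_ne_zero (by
      intro h0
      rw [h0] at hm
      exact hm (dvd_zero _))) hqm
    have := hq.two_le
    omega
  obtain ⟨M, hMn, hM0, hMmin⟩ := exists_minimal_normal K
  haveI := hMn
  obtain ⟨hMab, t, ht, htexp⟩ := minimal_normal_elementary M hM0 hMmin
  haveI : Fact t.Prime := ⟨ht⟩
  have htm : t ∣ m := by
    obtain ⟨x, hx, hx1⟩ := (Subgroup.bot_or_exists_ne_one M).resolve_left hM0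
    have h1 : orderOf x = t := orderOf_eq_prime (htexp x hx) hx1
    rw [← h1, ← hKcard]
    exact orderOf_dvd_natCard x
  rcases hall t ht (htm.trans hmG) with h | h | h
  · exact hm (h ▸ htm)
  · haveI : Fact r.Prime := ⟨hr⟩
    obtain ⟨y, hy⟩ := exists_prime_orderOf_dvd_card' (G := K) r (by rw [hKcard]; exact hrm)
    obtain ⟨g, hg⟩ := lucido_step2 K N hN hfpf M hM0 hMab t r ht hr (by rw [h]; exact hqr) htexp y hy
    rw [h, mul_comm] at hg
    exact (hno g).2.2 hg
  · haveI : Fact q.Prime := ⟨hq⟩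
    obtain ⟨y, hy⟩ := exists_prime_orderOf_dvd_card' (G := K) q (by rw [hKcard]; exact hqm)
    obtain ⟨g, hg⟩ := lucido_step2 K N hN hfpf M hM0 hMab t q ht hq (by rw [h]; exact Ne.symm hqr) htexp y hy
    rw [h] at hg
    exact (hno g).2.2 hg

open CfsgLib.Solv CfsgLib.SS in
theorem lucido_three {G : Type u_main} [Group G] [Finite G] [Group.IsSolvable G] (p q r : ℕ)
    (hp : p.Prime) (hq : q.Prime) (hr : r.Prime) (hpq : p ≠ q) (hpr : p ≠ r) (hqr : q ≠ r)
    (hall : ∀ l : ℕ, l.Prime → l ∣ Nat.card G → l = p ∨ l = q ∨ l = r)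
    (hdp : p ∣ Nat.card G) (hdq : q ∣ Nat.card G) (hdr : r ∣ Nat.card G)
    (hno : ∀ g : G, orderOf g ≠ p * q ∧ orderOf g ≠ p * r ∧ orderOf g ≠ q * r) : False := by
  haveI : Nontrivial G := by
    rw [← Finite.one_lt_card_iff_nontrivial]
    have := Nat.le_of_dvd Nat.card_pos hdp
    have := hp.two_le
    omega
  obtain ⟨N, hNn, hN0, hNmin⟩ := exists_minimal_normal G
  haveI := hNn
  obtain ⟨hNab, t, ht, htexp⟩ := minimal_normal_elementary N hN0 hNmin
  haveI : Fact t.Prime := ⟨ht⟩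
  have htd : t ∣ Nat.card G := by
    obtain ⟨x, hx, hx1⟩ := (Subgroup.bot_or_exists_ne_one N).resolve_left hN0
    have h1 : orderOf x = t := orderOf_eq_prime (htexp x hx) hx1
    rw [← h1]
    exact orderOf_dvd_natCard x
  rcases hall t ht htd with h | h | h
  · rw [h] at htexp
    exact lucido_step p q r hp hq hr hpq hpr hqr hall hdq hdr hno N hN0 htexp
  · rw [h] at htexp
    refine lucido_step q p r hq hp hr (Ne.symm hpq) hqr hpr ?_ hdp hdr ?_ N hN0 htexp
    · intro l hl hd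
      rcases hall l hl hd with h1 | h1 | h1
      · exact Or.inr (Or.inl h1)
      · exact Or.inl h1
      · exact Or.inr (Or.inr h1)
    · intro g
      obtain ⟨h1, h2, h3⟩ := hno g
      exact ⟨by rwa [mul_comm], h3, h2⟩
  · rw [h] at htexp
    refine lucido_step r p q hr hp hq (Ne.symm hpr) (Ne.symm hqr) hpq ?_ hdp hdq ?_ N hN0 htexp
    · intro l hl hd
      rcases hall l hl hd with h1 | h1 | h1
      · exact Or.inr (Or.inl h1)
      · exact Or.inr (Or.inr h1)
      · exact Or.inl h1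
    · intro g
      obtain ⟨h1, h2, h3⟩ := hno g
      exact ⟨by rwa [mul_comm], by rwa [mul_comm], h1⟩

open CfsgLib.Solv CfsgLib.SS in
theorem lucido_main {G : Type u_main} [Group G] [Finite G] [Group.IsSolvable G] (p q r : ℕ)
    (hp : p.Prime) (hq : q.Prime) (hr : r.Prime) (hpq : p ≠ q) (hpr : p ≠ r) (hqr : q ≠ r)
    (hdp : p ∣ Nat.card G) (hdq : q ∣ Nat.card G) (hdr : r ∣ Nat.card G)
    (hno : ∀ g : G, orderOf g ≠ p * q ∧ orderOf g ≠ p * r ∧ orderOf g ≠ q * r) : False := by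
  have h0 : Nat.card G ≠ 0 := Nat.card_pos.ne'
  obtain ⟨a, m1, hm1, h1⟩ := Nat.exists_eq_pow_mul_and_not_dvd h0 p hp.ne_one
  have hm10 : m1 ≠ 0 := by
    rintro rfl
    exact hm1 (dvd_zero _)
  obtain ⟨b, m2, hm2, h2⟩ := Nat.exists_eq_pow_mul_and_not_dvd hm10 q hq.ne_one
  have hm20 : m2 ≠ 0 := by
    rintro rfl
    exact hm2 (dvd_zero _)
  obtain ⟨c, n, hn, h3⟩ := Nat.exists_eq_pow_mul_and_not_dvd hm20 r hr.ne_one
  have hpn : ¬ p ∣ n := by
    intro h
    apply hm1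
    rw [h2, h3]
    exact Dvd.dvd.mul_left (Dvd.dvd.mul_left h _) _
  have hqn : ¬ q ∣ n := by
    intro h
    apply hm2
    rw [h3]
    exact Dvd.dvd.mul_left h _
  have hcard : Nat.card G = (p ^ a * (q ^ b * r ^ c)) * n := by
    rw [h1, h2, h3]
    ring
  have hcop : Nat.Coprime (p ^ a * (q ^ b * r ^ c)) n := by
    apply Nat.Coprime.mul_left
    · exact Nat.Coprime.pow_left _ ((Nat.Prime.coprime_iff_not_dvd hp).2 hpn)
    · apply Nat.Coprime.mul_left
      · exact Nat.Coprime.pow_left _ ((Nat.Prime.coprime_iff_not_dvd hq).2 hqn)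
      · exact Nat.Coprime.pow_left _ ((Nat.Prime.coprime_iff_not_dvd hr).2 hn)
  obtain ⟨H, hH, -⟩ := hall_containing _ G rfl _ n hcard hcop ⊥ (by simp)
  have hdiv : ∀ l : ℕ, l.Prime → l ∣ Nat.card G → ¬ l ∣ n → l ∣ Nat.card H := by
    intro l hl hd hln
    rw [hcard] at hd
    rw [hH]
    rcases (Nat.Prime.dvd_mul hl).1 hd with h | h
    · exact h
    · exact absurd h hln
  refine lucido_three (G := H) p q r hp hq hr hpq hpr hqr ?_ (hdiv p hp hdp hpn) (hdiv q hq hdq hqn)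
    (hdiv r hr hdr hn) ?_
  · intro l hl hd
    rw [hH] at hd
    rcases (Nat.Prime.dvd_mul hl).1 hd with h | h
    · exact Or.inl ((Nat.prime_dvd_prime_iff_eq hl hp).1 (hl.dvd_of_dvd_pow h))
    · rcases (Nat.Prime.dvd_mul hl).1 h with h | h
      · exact Or.inr (Or.inl ((Nat.prime_dvd_prime_iff_eq hl hq).1 (hl.dvd_of_dvd_pow h)))
      · exact Or.inr (Or.inr ((Nat.prime_dvd_prime_iff_eq hl hr).1 (hl.dvd_of_dvd_pow h)))
  · intro g
    have := hno (g : G)
    rwa [Subgroup.orderOf_coe] at this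

theorem exists_primes_three (n : ℕ) (hn : 7 ≤ n) :
    ∃ p q r : ℕ, p.Prime ∧ q.Prime ∧ r.Prime ∧ p < q ∧ q < r ∧ r ≤ n ∧ n < p * q := by
  by_cases h1 : n ≤ 14
  · exact ⟨3, 5, 7, by norm_num, by norm_num, by norm_num, by norm_num, by norm_num, hn, by omega⟩
  by_cases h2 : n ≤ 76
  · exact ⟨7, 11, 13, by norm_num, by norm_num, by norm_num, by norm_num, by norm_num, by omega, by omega⟩
  obtain ⟨k, hk⟩ : ∃ k, k = n / 8 := ⟨_, rfl⟩
  have hk1 : n < 8 * (k + 1) := by omega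
  have hk2 : 8 * k ≤ n := by omega
  have hk3 : 9 ≤ k := by omega
  obtain ⟨p, hp, hp1, hp2⟩ := Nat.exists_prime_lt_and_le_two_mul k (by omega)
  obtain ⟨q, hq, hq1, hq2⟩ := Nat.exists_prime_lt_and_le_two_mul (2 * k) (by omega)
  obtain ⟨r, hr, hr1, hr2⟩ := Nat.exists_prime_lt_and_le_two_mul (4 * k) (by omega)
  refine ⟨p, q, r, hp, hq, hr, by omega, by omega, by omega, ?_⟩
  have h3 : (k + 1) * (2 * k + 1) ≤ p * q := Nat.mul_le_mul hp1 hq1
  nlinarith


/-- If the set of element orders of a finite group G is {1, 2, …, n} with n ≥ 7, then G is not solvable. -/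
theorem result {G : Type*} [Group G] [Finite G] (n : ℕ) (hn : 7 ≤ n) (h : Set.range (orderOf : G → ℕ) = {k : ℕ | 1 ≤ k ∧ k ≤ n}) : ¬ Group.IsSolvable G := by
  intro hsolv
  haveI := hsolv
  obtain ⟨p, q, r, hp, hq, hr, hpq, hqr, hrn, hlt⟩ := exists_primes_three n hn
  have hel : ∀ l : ℕ, l.Prime → l ≤ n → l ∣ Nat.card G := by
    intro l hl hle
    have : l ∈ Set.range (orderOf : G → ℕ) := by
      rw [h]
      exact ⟨hl.one_lt.le, hle⟩
    obtain ⟨g, hg⟩ := this
    rw [← hg]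
    exact orderOf_dvd_natCard g
  have hord : ∀ g : G, orderOf g ≤ n := by
    intro g
    have : orderOf g ∈ Set.range (orderOf : G → ℕ) := ⟨g, rfl⟩
    rw [h] at this
    exact this.2
  have h1 : p * q ≤ p * r := Nat.mul_le_mul_left _ hqr.le
  have h2 : p * q ≤ q * r := by
    rw [mul_comm p q]
    exact Nat.mul_le_mul_left _ (hpq.trans hqr).le
  exact lucido_main (G := G) p q r hp hq hr hpq.ne (hpq.trans hqr).ne hqr.ne (hel p hp (by omega))
    (hel q hq (by omega)) (hel r hr hrn) (fun g => by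
      have := hord g
      refine ⟨?_, ?_, ?_⟩ <;> omega)

end Cfsg.Agent.S4002
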