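import Cfsg.Statements.S4004
import Cfsg.Agent.Lib.FGS.OC4

set_option autoImplicit false
open Cfsg
open scoped commutatorElement
open scoped Pointwise

namespace Cfsg.Agent.S4004

/-- Let G be a finite group of odd order in which the numbers of elements of each order that occurs (the numbers #{g : o(g) = m}, m ranging over the element orders of G) take exactly three different values. Then the order of G has at most two prime divisors; and if it has exactly two, then every Sylow subgroup of G for a prime dividing its order has prime exponent, G is a Frobenius group, and some Frobenius complement of G has prime order. -/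
theorem result {G : Type*} [Group G] [Finite G] (hodd : Odd (Nat.card G)) (h : (((fun m : ℕ => Nat.card {g : G // orderOf g = m}) '' Set.range (orderOf : G → ℕ))).ncard = 3) :
    (Nat.card G).primeFactors.card ≤ 2 ∧
      ((Nat.card G).primeFactors.card = 2 →
        (∀ (p : ℕ) [Fact p.Prime] (P : Sylow p G), p ∣ Nat.card G → Monoid.exponent ↥(P : Subgroup G) = p) ∧
        ∃ C : Subgroup G, Cfsg.IsFrobeniusComplement C ∧ (Nat.card ↥C).Prime) := by
  classical
  have h1mem : (1 : ℕ) ∈ ((fun m : ℕ => Nat.card {g : G // orderOf g = m}) '' Set.range (orderOf : G → ℕ)) :=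
    ⟨1, ⟨1, orderOf_one⟩, CfsgLib.FGS.OC.cnt_one (G := G)⟩
  obtain ⟨a, b, hab, ha1, hb1, him⟩ : ∃ a b : ℕ, a ≠ b ∧ a ≠ 1 ∧ b ≠ 1 ∧
      ((fun m : ℕ => Nat.card {g : G // orderOf g = m}) '' Set.range (orderOf : G → ℕ)) = {1, a, b} := by
    obtain ⟨x, y, z, hxy, hxz, hyz, hS⟩ := Set.ncard_eq_three.1 h
    rw [hS] at h1mem ⊢
    simp only [Set.mem_insert_iff, Set.mem_singleton_iff] at h1mem
    rcases h1mem with rfl | rfl | rfl
    · exact ⟨y, z, hyz, hxy.symm, hxz.symm, rfl⟩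
    · exact ⟨x, z, hxz, hxy, hyz.symm, by ext w; simp only [Set.mem_insert_iff, Set.mem_singleton_iff]; tauto⟩
    · exact ⟨x, y, hxy, hxz, hyz, by ext w; simp only [Set.mem_insert_iff, Set.mem_singleton_iff]; tauto⟩
  have hval : ∀ m : ℕ, CfsgLib.FGS.OC.cnt G m ≠ 0 → CfsgLib.FGS.OC.cnt G m = 1 ∨ CfsgLib.FGS.OC.cnt G m = a ∨ CfsgLib.FGS.OC.cnt G m = b := by
    intro m hm
    obtain ⟨g, hg⟩ := CfsgLib.FGS.OC.exists_of_cnt_ne_zero hm
    have h2 : CfsgLib.FGS.OC.cnt G m ∈ ((fun m : ℕ => Nat.card {g : G // orderOf g = m}) '' Set.range (orderOf : G → ℕ)) :=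
      ⟨m, ⟨g, hg⟩, rfl⟩
    rw [him] at h2
    simpa using h2
  have hv : ∀ m, 3 ≤ m → CfsgLib.FGS.OC.cnt G m = 0 ∨ CfsgLib.FGS.OC.cnt G m = a ∨ CfsgLib.FGS.OC.cnt G m = b := by
    intro m hm
    by_cases h0 : CfsgLib.FGS.OC.cnt G m = 0
    · exact Or.inl h0
    · rcases hval m h0 with h1 | h1 | h1
      · exact absurd h1 (CfsgLib.FGS.OC.cnt_ne_one hm)
      · exact Or.inr (Or.inl h1)
      · exact Or.inr (Or.inr h1)
  have hn0 : Nat.card G ≠ 0 := Nat.card_pos.ne'
  have hodd2 : ∀ r : ℕ, r ∣ Nat.card G → r ≠ 2 := by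
    rintro r hr rfl
    exact (Nat.not_even_iff_odd.2 hodd) (even_iff_two_dvd.2 hr)
  have hmemf : ∀ r : ℕ, r ∈ (Nat.card G).primeFactors ↔ r.Prime ∧ r ∣ Nat.card G := fun r => by
    rw [Nat.mem_primeFactors]
    exact ⟨fun h => ⟨h.1, h.2.1⟩, fun h => ⟨h.1, h.2, hn0⟩⟩
  refine ⟨?_, ?_⟩
  · by_contra hcon
    push Not at hcon
    obtain ⟨p, hp, q, hq, r, hr, hpq, hpr, hqr⟩ := Finset.two_lt_card.1 hcon
    obtain ⟨hp1, hp3⟩ := (hmemf p).1 hp
    obtain ⟨hq1, hq3⟩ := (hmemf q).1 hq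
    obtain ⟨hr1, hr3⟩ := (hmemf r).1 hr
    exact CfsgLib.FGS.OC.no_three hab hv hp1 hq1 hr1 (hodd2 _ hp3) (hodd2 _ hq3) (hodd2 _ hr3) hpq hpr hqr hp3 hq3 hr3
  · intro hcard
    obtain ⟨p, q, hne, hpf⟩ := Finset.card_eq_two.1 hcard
    have hpm : p ∈ (Nat.card G).primeFactors := by rw [hpf]; simp
    have hqm : q ∈ (Nat.card G).primeFactors := by rw [hpf]; simp
    obtain ⟨hp, hpd⟩ := (hmemf p).1 hpm
    obtain ⟨hq, hqd⟩ := (hmemf q).1 hqm
    have hprimes : ∀ r : ℕ, r.Prime → r ∣ Nat.card G → r = p ∨ r = q := by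
      intro r hr hrd
      have : r ∈ (Nat.card G).primeFactors := (hmemf r).2 ⟨hr, hrd⟩
      rw [hpf] at this
      simpa using this
    have hp2 := hodd2 p hpd
    have hq2 := hodd2 q hqd
    have h3p := CfsgLib.FGS.OC.three_le_of_odd_prime hp hp2
    have h3q := CfsgLib.FGS.OC.three_le_of_odd_prime hq hq2
    have hpc0 := CfsgLib.FGS.OC.cnt_pos_of_prime (G := G) hp hpd
    have hqc0 := CfsgLib.FGS.OC.cnt_pos_of_prime (G := G) hq hqd
    -- case `E` is impossible
    have hU : CfsgLib.FGS.OC.cnt G p ≠ CfsgLib.FGS.OC.cnt G q := by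
      intro hE
      haveI : Fact p.Prime := ⟨hp⟩
      have hX := CfsgLib.FGS.OC.case_eq hp hq hne hpd hqd hE
      have hn := CfsgLib.FGS.OC.cast_cnt_prime (G := G) hpd
      have hXne : CfsgLib.FGS.OC.cnt G (p * q) ≠ CfsgLib.FGS.OC.cnt G p := by
        intro h3
        rw [h3, hn] at hX
        exact CfsgLib.FGS.OC.one_ne_neg_one_zmod hp2 hX.symm
      have hX0 : CfsgLib.FGS.OC.cnt G (p * q) ≠ 0 := by
        intro h3
        rw [h3] at hX
        push_cast at hX
        exact zero_ne_one hX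
      have h3X := CfsgLib.FGS.OC.three_le_mul hp hq hp2
      have hvp := hv p h3p
      have hvX := hv _ h3X
      have hv' : ∀ m, 3 ≤ m → CfsgLib.FGS.OC.cnt G m = 0 ∨ CfsgLib.FGS.OC.cnt G m = CfsgLib.FGS.OC.cnt G p ∨ CfsgLib.FGS.OC.cnt G m = CfsgLib.FGS.OC.cnt G (p * q) := by
        intro m hm
        have := hv m hm
        omega
      exact CfsgLib.FGS.OC.case_E_false hp hq hp2 hq2 hne hpd hqd hprimes hv' hE rfl
    have hvp := hv p h3p
    have hvq := hv q h3q
    have hv' : ∀ m, 3 ≤ m → CfsgLib.FGS.OC.cnt G m = 0 ∨ CfsgLib.FGS.OC.cnt G m = CfsgLib.FGS.OC.cnt G p ∨ CfsgLib.FGS.OC.cnt G m = CfsgLib.FGS.OC.cnt G q := by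
      intro m hm
      have := hv m hm
      omega
    have hv'' : ∀ m, 3 ≤ m → CfsgLib.FGS.OC.cnt G m = 0 ∨ CfsgLib.FGS.OC.cnt G m = CfsgLib.FGS.OC.cnt G q ∨ CfsgLib.FGS.OC.cnt G m = CfsgLib.FGS.OC.cnt G p := by
      intro m hm
      have := hv' m hm
      omega
    have hcase := CfsgLib.FGS.OC.case_ne hp hq hp2 hq2 hne hpd hqd hv' hU
    have hsqp := CfsgLib.FGS.OC.case_U_sq hp hq hp2 hq2 hne hpd hqd hv' hU
    have hsqq := CfsgLib.FGS.OC.case_U_sq hq hp hq2 hp2 hne.symm hqd hpd hv'' hU.symm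
    have hord := CfsgLib.FGS.OC.orders_of hp hq hne hprimes hcase.1 hsqp hsqq
    have hord' : ∀ g : G, g ≠ 1 → orderOf g = q ∨ orderOf g = p := fun g hg => (hord g hg).symm
    refine ⟨?_, ?_⟩
    · intro r _ P hrd
      have hr : r.Prime := Fact.out
      haveI : Nontrivial (P : Subgroup G) := (Subgroup.nontrivial_iff_ne_bot _).2 (P.ne_bot_of_dvd_card hrd)
      rw [Monoid.exponent_eq_prime_iff hr]
      intro g hg
      have hg1 : (g : G) ≠ 1 := fun h => hg (Subtype.ext h)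
      rw [← Subgroup.orderOf_coe]
      rcases hprimes r hr hrd with rfl | rfl
      · exact CfsgLib.FGS.OC.mem_order_of_pgroup hr hq hne hord P.isPGroup' g.2 hg1
      · exact CfsgLib.FGS.OC.mem_order_of_pgroup hr hp hne.symm hord' P.isPGroup' g.2 hg1
    · haveI hsol : Group.IsSolvable G := CfsgLib.FGS.OC.solvable_of_primes hp hq hne hprimes
      haveI : Nontrivial G := by
        obtain ⟨x, hx⟩ := CfsgLib.FGS.OC.exists_of_cnt_ne_zero hpc0
        refine ⟨⟨x, 1, ?_⟩⟩
        rintro rfl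
        rw [orderOf_one] at hx
        exact hp.one_lt.ne hx
      obtain ⟨E, hEn, hE, hmin⟩ := CfsgLib.Solv.exists_minimal_normal G
      haveI := hEn
      obtain ⟨hEc, r, hr, hEr⟩ := CfsgLib.Solv.minimal_normal_elementary E hE hmin
      haveI := hEc
      haveI : Fact r.Prime := ⟨hr⟩
      have hEp : IsPGroup r E := fun g => ⟨1, by
        rw [pow_one]
        exact Subtype.ext (hEr g.1 g.2)⟩
      have hrd : r ∣ Nat.card G := by
        obtain ⟨x, hx, hx1⟩ : ∃ x ∈ E, x ≠ 1 := by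
          by_contra h0
          push Not at h0
          exact hE ((Subgroup.eq_bot_iff_forall E).2 h0)
        have h1 := orderOf_dvd_of_pow_eq_one (hEr x hx)
        have h2 := (Nat.dvd_prime hr).1 h1
        rcases h2 with h2 | h2
        · exact absurd (orderOf_eq_one_iff.1 h2) hx1
        · rw [← h2]; exact orderOf_dvd_natCard x
      rcases hprimes r hr hrd with rfl | rfl
      · exact CfsgLib.FGS.OC.frob_main hr hq hne hodd hpd hqd hord E hE hEp
      · exact CfsgLib.FGS.OC.frob_main hr hp hne.symm hodd hqd hpd hord' E hE hEp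

end Cfsg.Agent.S4004
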