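import Cfsg.Statements.S4005
import Cfsg.Agent.Lib.FGS.Exp6
import Cfsg.Agent.Lib.SS.FPF
import Cfsg.Agent.Lib.H3.FpfKlein

set_option autoImplicit false
open Cfsg
open scoped commutatorElement
open scoped Pointwise

namespace Cfsg.Agent.S4005

theorem h8_order_cases {G : Type*} [Group G] (h : Set.range (orderOf : G → ℕ) = {k : ℕ | 1 ≤ k ∧ k ≤ 3}) (x : G) :
    orderOf x = 1 ∨ orderOf x = 2 ∨ orderOf x = 3 := by
  have h1 : orderOf x ∈ {k : ℕ | 1 ≤ k ∧ k ≤ 3} := h ▸ Set.mem_range_self x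
  obtain ⟨h2, h3⟩ := h1
  omega

theorem h8_exp6 {G : Type*} [Group G] (h : Set.range (orderOf : G → ℕ) = {k : ℕ | 1 ≤ k ∧ k ≤ 3}) (x : G) :
    x ^ 6 = 1 := by
  rw [← orderOf_dvd_iff_pow_eq_one]
  rcases h8_order_cases h x with h1 | h1 | h1 <;> rw [h1] <;> norm_num

/-- No element of order six: commuting elements of orders two and three do not exist. -/
theorem h8_no_comm {G : Type*} [Group G] (h : Set.range (orderOf : G → ℕ) = {k : ℕ | 1 ≤ k ∧ k ≤ 3}) (a b : G)
    (ha : orderOf a = 2) (hb : orderOf b = 3) (hc : a * b = b * a) : False := by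
  have h1 : orderOf (a * b) = 6 := by
    rw [(show Commute a b from hc).orderOf_mul_eq_mul_orderOf_of_coprime (by rw [ha, hb]; norm_num), ha, hb]
  rcases h8_order_cases h (a * b) with h2 | h2 | h2 <;> omega


/-- A finite group whose set of element orders is exactly {1, 2, 3} has either a normal elementary abelian 3-subgroup of index 2 or a normal elementary abelian 2-subgroup of index 3. -/
theorem result {G : Type*} [Group G] [Finite G] (h : Set.range (orderOf : G → ℕ) = {k : ℕ | 1 ≤ k ∧ k ≤ 3}) :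
    (∃ N : Subgroup G, N.Normal ∧ Cfsg.IsElementaryAbelian 3 N ∧ N.index = 2) ∨
      (∃ N : Subgroup G, N.Normal ∧ Cfsg.IsElementaryAbelian 2 N ∧ N.index = 3) := by
  classical
  haveI hf2 : Fact (Nat.Prime 2) := ⟨by norm_num⟩
  haveI hf3 : Fact (Nat.Prime 3) := ⟨by norm_num⟩
  have h6 := h8_exp6 h
  haveI hGs := CfsgLib.FGS.exp6_solvable h6
  obtain ⟨t, ht⟩ : ∃ t : G, orderOf t = 2 := by
    have : (2 : ℕ) ∈ Set.range (orderOf : G → ℕ) := by rw [h]; simp
    exact this
  obtain ⟨w, hw⟩ : ∃ w : G, orderOf w = 3 := by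
    have : (3 : ℕ) ∈ Set.range (orderOf : G → ℕ) := by rw [h]; simp
    exact this
  -- two-elements and three-elements
  have h2elt : ∀ x : G, x ^ 2 = 1 → x = 1 ∨ orderOf x = 2 := by
    intro x hx
    have := orderOf_dvd_of_pow_eq_one hx
    rcases (Nat.dvd_prime (by norm_num)).1 this with h1 | h1
    · left
      exact orderOf_eq_one_iff.1 h1
    · right
      exact h1
  have h3elt : ∀ x : G, x ^ 3 = 1 → x = 1 ∨ orderOf x = 3 := by
    intro x hx
    have := orderOf_dvd_of_pow_eq_one hx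
    rcases (Nat.dvd_prime (by norm_num)).1 this with h1 | h1
    · left
      exact orderOf_eq_one_iff.1 h1
    · right
      exact h1
  obtain ⟨V2, hV2⟩ : ∃ V, V = Cfsg.pCore 2 G := ⟨_, rfl⟩
  obtain ⟨V3, hV3⟩ : ∃ V, V = Cfsg.pCore 3 G := ⟨_, rfl⟩
  haveI hV2n : V2.Normal := hV2 ▸ CfsgLib.Solv.pCore_normal' 2
  haveI hV3n : V3.Normal := hV3 ▸ CfsgLib.Solv.pCore_normal' 3
  have hV2p : IsPGroup 2 V2 := hV2 ▸ CfsgLib.Solv.pCore_isPGroup 2
  have hV3p : IsPGroup 3 V3 := hV3 ▸ CfsgLib.Solv.pCore_isPGroup 3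
  have hV2e : ∀ a ∈ V2, a ^ 2 = 1 := by
    intro a ha
    obtain ⟨j, hj⟩ := hV2p ⟨a, ha⟩
    exact CfsgLib.FGS.exp6_two_elt h6 a j (by simpa using congrArg Subtype.val hj)
  have hV3e : ∀ a ∈ V3, a ^ 3 = 1 := by
    intro a ha
    obtain ⟨j, hj⟩ := hV3p ⟨a, ha⟩
    exact CfsgLib.FGS.exp6_three_elt h6 a j (by simpa using congrArg Subtype.val hj)
  have hinf : V2 ⊓ V3 = ⊥ := by
    rw [eq_bot_iff]
    rintro a ⟨ha2, ha3⟩
    have e1 := hV2e a ha2
    have e2 := hV3e a ha3
    have : a ^ 3 = a ^ 2 * a := by rw [pow_succ]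
    rw [e1, e2, one_mul] at this
    simpa using this.symm
  have hcomm23 : ∀ a ∈ V2, ∀ b ∈ V3, a * b = b * a := by
    intro a ha b hb
    have h1 : a * b * a⁻¹ * b⁻¹ ∈ V2 ⊓ V3 := by
      constructor
      · have e : a * b * a⁻¹ * b⁻¹ = a * (b * a⁻¹ * b⁻¹) := by group
        rw [e]
        exact V2.mul_mem ha (hV2n.conj_mem _ (V2.inv_mem ha) b)
      · exact V3.mul_mem (hV3n.conj_mem b hb a) (V3.inv_mem hb)
    rw [hinf, Subgroup.mem_bot] at h1
    have h2 := mul_inv_eq_one.1 h1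
    exact mul_inv_eq_iff_eq_mul.1 h2
  have hcase : V2 = ⊥ ∨ V3 = ⊥ := by
    by_contra hne
    push Not at hne
    obtain ⟨a, ha, ha1⟩ := (Subgroup.ne_bot_iff_exists_ne_one).1 hne.1 |> fun ⟨u, hu⟩ => (⟨u.1, u.2, fun h => hu (Subtype.ext h)⟩ : ∃ a, a ∈ V2 ∧ a ≠ 1)
    obtain ⟨b, hb, hb1⟩ := (Subgroup.ne_bot_iff_exists_ne_one).1 hne.2 |> fun ⟨u, hu⟩ => (⟨u.1, u.2, fun h => hu (Subtype.ext h)⟩ : ∃ a, a ∈ V3 ∧ a ≠ 1)
    exact h8_no_comm h a b ((h2elt a (hV2e a ha)).resolve_left ha1) ((h3elt b (hV3e b hb)).resolve_left hb1) (hcomm23 a ha b hb)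
  have ht2 : t ^ 2 = 1 := by rw [← ht, pow_orderOf_eq_one]
  have ht1 : t ≠ 1 := by
    rintro rfl
    simp at ht
  have hw3 : w ^ 3 = 1 := by rw [← hw, pow_orderOf_eq_one]
  rcases hcase with h20 | h30
  · -- `O_2(G) = 1`
    left
    have hO3 : Cfsg.pPrimeCore 3 G = ⊥ := by
      rw [eq_bot_iff, ← h20, hV2]
      haveI : (Cfsg.pPrimeCore 3 G).Normal := CfsgLib.Solv.pPrimeCore_normal' 3
      apply CfsgLib.Solv.le_pCore'
      intro u
      refine ⟨1, ?_⟩
      apply Subtype.ext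
      have hc := CfsgLib.Solv.pPrimeCore_coprime (G := G) 3
      have h1 : orderOf (u : G) ∣ Nat.card (Cfsg.pPrimeCore 3 G) := Subgroup.orderOf_dvd_natCard _ u.2
      have h2 : orderOf (u : G) ∣ 3 * 2 := orderOf_dvd_of_pow_eq_one (h6 u)
      have h3 : orderOf (u : G) ∣ 2 :=
        (Nat.Coprime.coprime_dvd_left h1 hc).dvd_of_dvd_mul_left h2
      simpa using orderOf_dvd_iff_pow_eq_one.1 h3
    have hC : Subgroup.centralizer (V3 : Set G) ≤ V3 := by
      have := CfsgLib.Solv.centralizer_pCore_le (G := G) 3 hO3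
      rwa [← hV3] at this
    have hinvol : ∀ s : G, s ^ 2 = 1 → s ≠ 1 → ∀ v ∈ V3, s * v * s⁻¹ = v⁻¹ := by
      intro s hs hs1
      apply CfsgLib.FpfKlein.inverts_of_fpf V3 s
      · rw [← pow_two]
        exact hs
      · intro x hx hxs
        by_contra hx1
        exact h8_no_comm h s x ((h2elt s hs).resolve_left hs1) ((h3elt x (hV3e x hx)).resolve_left hx1) hxs.symm
    have hVab : ∀ a ∈ V3, ∀ b ∈ V3, a * b = b * a := by
      intro a ha b hb
      have h1 := hinvol t ht2 ht1 (a * b) (V3.mul_mem ha hb)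
      have e : t * (a * b) * t⁻¹ = (t * a * t⁻¹) * (t * b * t⁻¹) := by group
      rw [e, hinvol t ht2 ht1 a ha, hinvol t ht2 ht1 b hb, mul_inv_rev] at h1
      have h2 := congrArg (fun u => u⁻¹) h1
      simp only [mul_inv_rev, inv_inv] at h2
      exact h2.symm
    have hprodmem : ∀ s₁ s₂ : G, s₁ ^ 2 = 1 → s₁ ≠ 1 → s₂ ^ 2 = 1 → s₂ ≠ 1 → s₁ * s₂ ∈ V3 := by
      intro s₁ s₂ h1 h1' h2 h2'
      apply hC
      rw [Subgroup.mem_centralizer_iff]
      intro v hv
      have hv' : v ∈ V3 := hv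
      have key : (s₁ * s₂) * v * (s₁ * s₂)⁻¹ = v := by
        calc (s₁ * s₂) * v * (s₁ * s₂)⁻¹ = s₁ * (s₂ * v * s₂⁻¹) * s₁⁻¹ := by group
          _ = s₁ * v⁻¹ * s₁⁻¹ := by rw [hinvol s₂ h2 h2' v hv']
          _ = v := by
            rw [hinvol s₁ h1 h1' v⁻¹ (V3.inv_mem hv'), inv_inv]
      exact (mul_inv_eq_iff_eq_mul.1 key).symm
    have htV : t ∉ V3 := by
      intro hm
      have e1 := hV3e t hm
      have e2 : t ^ 3 = t ^ 2 * t := by rw [pow_succ]
      rw [e1, ht2, one_mul] at e2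
      exact ht1 e2.symm
    have hmem : ∀ x : G, x ∈ V3 ∨ x * t ∈ V3 := by
      intro x
      rcases h8_order_cases h x with h1 | h1 | h1
      · left
        rw [orderOf_eq_one_iff.1 h1]
        exact V3.one_mem
      · right
        have hx2 : x ^ 2 = 1 := by rw [← h1, pow_orderOf_eq_one]
        have hx1 : x ≠ 1 := by
          rintro rfl
          simp at h1
        exact hprodmem x t hx2 hx1 ht2 ht1
      · left
        by_contra hxV
        have hx3 : x ^ 3 = 1 := by rw [← h1, pow_orderOf_eq_one]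
        have hπt : orderOf ((t : G) : G ⧸ V3) = 2 := by
          apply orderOf_eq_prime
          · rw [← QuotientGroup.mk_pow, ht2]
            rfl
          · intro h0
            exact htV ((QuotientGroup.eq_one_iff _).1 h0)
        have hπx : orderOf ((x : G) : G ⧸ V3) = 3 := by
          apply orderOf_eq_prime
          · rw [← QuotientGroup.mk_pow, hx3]
            rfl
          · intro h0
            exact hxV ((QuotientGroup.eq_one_iff _).1 h0)
        have hxtx : (x * t * x⁻¹) ^ 2 = 1 := by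
          rw [conj_pow, ht2]
          simp
        have hxtx1 : x * t * x⁻¹ ≠ 1 := by
          intro h0
          apply ht1
          have e : t = x⁻¹ * (x * t * x⁻¹) * x := by group
          rw [e, h0]
          simp
        have hm := hprodmem _ t hxtx hxtx1 ht2 ht1
        have hcomm : Commute ((t : G) : G ⧸ V3) ((x : G) : G ⧸ V3) := by
          have h0 : ((x * t * x⁻¹ * t : G) : G ⧸ V3) = 1 := (QuotientGroup.eq_one_iff _).2 hm
          simp only [QuotientGroup.mk_mul, QuotientGroup.mk_inv] at h0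
          have hti : ((t : G) : G ⧸ V3) * ((t : G) : G ⧸ V3) = 1 := by
            rw [← QuotientGroup.mk_mul, ← pow_two, ht2]
            rfl
          have h5 : ((x : G) : G ⧸ V3) * ((t : G) : G ⧸ V3) * ((x : G) : G ⧸ V3)⁻¹ = ((t : G) : G ⧸ V3)⁻¹ :=
            eq_inv_of_mul_eq_one_left h0
          have h6' : ((t : G) : G ⧸ V3)⁻¹ = ((t : G) : G ⧸ V3) := inv_eq_of_mul_eq_one_left hti
          rw [h6'] at h5
          have h7 := mul_inv_eq_iff_eq_mul.1 h5
          exact h7.symm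
        have h67 : orderOf (((t : G) : G ⧸ V3) * ((x : G) : G ⧸ V3)) = 6 := by
          rw [hcomm.orderOf_mul_eq_mul_orderOf_of_coprime (by rw [hπt, hπx]; norm_num), hπt, hπx]
        have hd : orderOf (((t : G) : G ⧸ V3) * ((x : G) : G ⧸ V3)) ∣ orderOf (t * x) := by
          have := orderOf_map_dvd (QuotientGroup.mk' V3) (t * x)
          rw [map_mul] at this
          exact this
        rw [h67] at hd
        rcases h8_order_cases h (t * x) with h2 | h2 | h2 <;> rw [h2] at hd <;> omega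
    refine ⟨V3, hV3n, ⟨⟨⟨fun a b => Subtype.ext (hVab _ a.2 _ b.2)⟩⟩, hV3e⟩, ?_⟩
    rw [Subgroup.index_eq_two_iff]
    refine ⟨t, fun b => ?_⟩
    by_cases hb : b ∈ V3
    · right
      refine ⟨hb, fun h0 => htV ?_⟩
      have e : t = b⁻¹ * (b * t) := by group
      rw [e]
      exact V3.mul_mem (V3.inv_mem hb) h0
    · left
      exact ⟨(hmem b).resolve_left hb, hb⟩
  · -- `O_3(G) = 1`
    right
    have hO2 : Cfsg.pPrimeCore 2 G = ⊥ := by
      rw [eq_bot_iff, ← h30, hV3]
      haveI : (Cfsg.pPrimeCore 2 G).Normal := CfsgLib.Solv.pPrimeCore_normal' 2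
      apply CfsgLib.Solv.le_pCore'
      intro u
      refine ⟨1, ?_⟩
      apply Subtype.ext
      have hc := CfsgLib.Solv.pPrimeCore_coprime (G := G) 2
      have h1 : orderOf (u : G) ∣ Nat.card (Cfsg.pPrimeCore 2 G) := Subgroup.orderOf_dvd_natCard _ u.2
      have h2 : orderOf (u : G) ∣ 2 * 3 := orderOf_dvd_of_pow_eq_one (h6 u)
      have h3 : orderOf (u : G) ∣ 3 :=
        (Nat.Coprime.coprime_dvd_left h1 hc).dvd_of_dvd_mul_left h2
      simpa using orderOf_dvd_iff_pow_eq_one.1 h3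
    have hinV : ∀ x : G, x ^ 2 = 1 → x ∈ V2 := by
      intro x hx
      rw [hV2]
      exact CfsgLib.FGS.exp6_two_core h6 hO2 x hx
    have hVab : ∀ a ∈ V2, ∀ b ∈ V2, a * b = b * a := by
      intro a ha b hb
      have h1 := hV2e _ (V2.mul_mem ha hb)
      have h2 := hV2e a ha
      have h3 := hV2e b hb
      have ha' : a⁻¹ = a := by rw [inv_eq_iff_mul_eq_one, ← pow_two, h2]
      have hb' : b⁻¹ = b := by rw [inv_eq_iff_mul_eq_one, ← pow_two, h3]
      rw [pow_two] at h1
      calc a * b = (a * b)⁻¹ := by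
            rw [eq_inv_iff_mul_eq_one]
            exact h1
        _ = b * a := by rw [mul_inv_rev, ha', hb']
    have hq : IsPGroup 3 (G ⧸ V2) := by
      intro q
      obtain ⟨y, rfl⟩ := QuotientGroup.mk_surjective q
      rcases h8_order_cases h y with h1 | h1 | h1
      · refine ⟨0, ?_⟩
        rw [orderOf_eq_one_iff.1 h1]
        simp
      · refine ⟨0, ?_⟩
        have hy2 : y ^ 2 = 1 := by rw [← h1, pow_orderOf_eq_one]
        simpa using (QuotientGroup.eq_one_iff y).2 (hinV y hy2)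
      · refine ⟨1, ?_⟩
        rw [pow_one, ← QuotientGroup.mk_pow, ← h1, pow_orderOf_eq_one]
        rfl
    obtain ⟨c, hc⟩ := IsPGroup.iff_card.1 hq
    obtain ⟨S⟩ : Nonempty (Sylow 3 G) := inferInstance
    have hdvd : 3 ^ c ∣ Nat.card (S : Subgroup G) := by
      apply S.pow_dvd_card_of_pow_dvd_card
      rw [Subgroup.card_eq_card_quotient_mul_card_subgroup V2, hc]
      exact Dvd.intro _ rfl
    have hS3 : ∀ a ∈ (S : Subgroup G), a ^ 3 = 1 := by
      intro a ha
      obtain ⟨j, hj⟩ := S.isPGroup' ⟨a, ha⟩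
      exact CfsgLib.FGS.exp6_three_elt h6 a j (by simpa using congrArg Subtype.val hj)
    have hfpf : ∀ a ∈ (S : Subgroup G), a ≠ 1 → V2 ⊓ Subgroup.centralizer {a} = ⊥ := by
      intro a ha ha1
      rw [eq_bot_iff]
      rintro v ⟨hv, hvc⟩
      rw [Subgroup.mem_bot]
      by_contra hv1
      have hvc' : v ∈ Subgroup.centralizer ({a} : Set G) := hvc
      rw [Subgroup.mem_centralizer_singleton_iff] at hvc'
      exact h8_no_comm h v a ((h2elt v (hV2e v hv)).resolve_left hv1) ((h3elt a (hS3 a ha)).resolve_left ha1) hvc'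
    have hV2ne : V2 ≠ ⊥ := by
      intro h0
      have := hinV t ht2
      rw [h0, Subgroup.mem_bot] at this
      exact ht1 this
    have hcle : c ≤ 1 := by
      by_contra hc2
      push Not at hc2
      have h9 : 3 ^ 2 ∣ Nat.card (S : Subgroup G) := (pow_dvd_pow 3 hc2).trans hdvd
      have h3d : 3 ∣ Nat.card (S : Subgroup G) := (by norm_num : 3 ∣ 3 ^ 2).trans h9
      obtain ⟨a, ha⟩ := exists_prime_orderOf_dvd_card' (G := (S : Subgroup G)) 3 h3d
      have hle9 : 9 ≤ Nat.card (S : Subgroup G) := Nat.le_of_dvd Nat.card_pos (by simpa using h9)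
      have ha' : orderOf (a : G) = 3 := by rw [Subgroup.orderOf_coe, ha]
      have hsub : ∀ b ∈ (S : Subgroup G), b ∈ Subgroup.zpowers (a : G) := by
        intro b hb
        by_cases hb1 : b = 1
        · rw [hb1]
          exact Subgroup.one_mem _
        have hb' : orderOf b = 3 := (h3elt b (hS3 b hb)).resolve_left hb1
        have hU : Subgroup.zpowers (a : G) = Subgroup.zpowers b :=
          CfsgLib.SS.fpf_unique_prime_subgroup (S : Subgroup G) V2 hV2ne (by
              rw [Subgroup.normalizer_eq_top]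
              exact le_top) hfpf 3 S.isPGroup' _
            ((Subgroup.zpowers_le).2 a.2) (by rw [Nat.card_zpowers, ha']) _
            ((Subgroup.zpowers_le).2 hb) (by rw [Nat.card_zpowers, hb'])
        rw [hU]
        exact Subgroup.mem_zpowers b
      have hcardle : Nat.card (S : Subgroup G) ≤ Nat.card (Subgroup.zpowers (a : G)) :=
        Subgroup.card_le_of_le hsub
      rw [Nat.card_zpowers, ha'] at hcardle
      omega
    have hc0 : c ≠ 0 := by
      rintro rfl
      rw [pow_zero] at hc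
      have h1 : V2 = ⊤ := by
        rw [← Subgroup.index_eq_one, Subgroup.index_eq_card]
        exact hc
      have h2 := hV2e w (by rw [h1]; trivial)
      have h3 := orderOf_dvd_of_pow_eq_one h2
      rw [hw] at h3
      omega
    have hc1 : c = 1 := by omega
    refine ⟨V2, hV2n, ⟨⟨⟨fun a b => Subtype.ext (hVab _ a.2 _ b.2)⟩⟩, hV2e⟩, ?_⟩
    rw [Subgroup.index_eq_card, hc, hc1, pow_one]

end Cfsg.Agent.S4005
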