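import Cfsg.Statements.S4200
import Cfsg.Agent.Lib.FGS.ClassCount
import Cfsg.Agent.Lib.FGS.Elem

set_option autoImplicit false
open Cfsg

namespace Cfsg.Agent.S4200

/-- Let Y be a subgroup of the finite group X, of index m. Then the numbers of conjugacy classes satisfy k(Y) ≤ m·k(X) and k(X) ≤ m·k(Y), and the second inequality is strict unless Y is normal in X. -/
theorem result {X : Type*} [Group X] [Finite X] (Y : Subgroup X) : Nat.card (ConjClasses Y) ≤ Y.index * Nat.card (ConjClasses X) ∧ Nat.card (ConjClasses X) ≤ Y.index * Nat.card (ConjClasses Y) ∧ (¬ Y.Normal → Nat.card (ConjClasses X) < Y.index * Nat.card (ConjClasses Y)) := by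
  classical
  letI : Fintype X := Fintype.ofFinite X
  letI : Fintype Y := Fintype.ofFinite Y
  set m := Y.index with hm
  have hXcard : Nat.card X = m * Nat.card Y := by
    rw [mul_comm, hm, Y.card_mul_index]
  have hYpos : 0 < Nat.card Y := Nat.card_pos
  have hmpos : 0 < m := Nat.pos_of_ne_zero Subgroup.index_ne_zero_of_finite
  have hkX := CfsgLib.FGS.card_classes_mul_card (G := X)
  have hkY := CfsgLib.FGS.card_classes_mul_card (G := Y)
  set kX := Nat.card (ConjClasses X) with hkXd
  set kY := Nat.card (ConjClasses Y) with hkYd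
  -- first inequality
  have h1 : kY ≤ m * kX := by
    have hinj : Nat.card {p : Y × Y // Commute p.1 p.2} ≤ Nat.card {p : X × X // Commute p.1 p.2} := by
      apply Nat.card_le_card_of_injective
        (fun p : {p : Y × Y // Commute p.1 p.2} =>
          (⟨((p.1.1 : X), (p.1.2 : X)), by
            have := congrArg Subtype.val p.2.eq
            exact this⟩ : {p : X × X // Commute p.1 p.2}))
      intro a b hab
      have h2 := congrArg Subtype.val hab
      simp only [Prod.mk.injEq] at h2
      apply Subtype.ext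
      exact Prod.ext (Subtype.ext h2.1) (Subtype.ext h2.2)
    rw [card_comm_eq_card_conjClasses_mul_card, card_comm_eq_card_conjClasses_mul_card, hXcard] at hinj
    have h3 : kY * Nat.card Y ≤ (m * kX) * Nat.card Y := by
      calc kY * Nat.card Y ≤ kX * (m * Nat.card Y) := hinj
        _ = (m * kX) * Nat.card Y := by ring
    exact Nat.le_of_mul_le_mul_right h3 hYpos
  -- double counting
  set N := Nat.card {p : X × Y // p.1 * (p.2 : X) = (p.2 : X) * p.1} with hN
  have hN1 : kX * Nat.card X ≤ m * N := by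
    rw [hkX, hN, CfsgLib.FGS.card_pairs_eq_sum (fun (x : X) (y : Y) => x * (y : X) = (y : X) * x), Finset.mul_sum]
    exact Finset.sum_le_sum (fun x _ => CfsgLib.FGS.card_centralizer_le Y x)
  have hN2 : ∀ y : Y, Nat.card {x : X // x * (y : X) = (y : X) * x} ≤ m * Nat.card {u : Y // y * u = u * y} := by
    intro y
    have e1 : Nat.card {x : X // x * (y : X) = (y : X) * x} = Nat.card {x : X // (y : X) * x = x * (y : X)} :=
      Nat.card_congr (Equiv.subtypeEquivRight (fun x => eq_comm))
    have e2 : Nat.card {u : Y // y * u = u * y} = Nat.card {u : Y // (y : X) * (u : X) = (u : X) * (y : X)} :=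
      Nat.card_congr (Equiv.subtypeEquivRight (fun u => by
        constructor
        · intro h
          exact congrArg Subtype.val h
        · intro h
          exact Subtype.ext h))
    rw [e1, e2]
    exact CfsgLib.FGS.card_centralizer_le Y (y : X)
  have hN3 : N = ∑ y : Y, Nat.card {x : X // x * (y : X) = (y : X) * x} :=
    CfsgLib.FGS.card_pairs_eq_sum' (fun (x : X) (y : Y) => x * (y : X) = (y : X) * x)
  have hN4 : N ≤ m * (kY * Nat.card Y) := by
    rw [hN3, hkY, Finset.mul_sum]
    exact Finset.sum_le_sum (fun y _ => hN2 y)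
  have h2 : kX ≤ m * kY := by
    have h3 : kX * (m * Nat.card Y) ≤ (m * kY) * (m * Nat.card Y) := by
      calc kX * (m * Nat.card Y) = kX * Nat.card X := by rw [hXcard]
        _ ≤ m * N := hN1
        _ ≤ m * (m * (kY * Nat.card Y)) := Nat.mul_le_mul_left _ hN4
        _ = (m * kY) * (m * Nat.card Y) := by ring
    exact Nat.le_of_mul_le_mul_right h3 (Nat.mul_pos hmpos hYpos)
  refine ⟨h1, h2, ?_⟩
  intro hnn
  -- an element with a conjugate outside `Y`
  obtain ⟨y, hy, g, hg⟩ : ∃ y, y ∈ Y ∧ ∃ g : X, g * y * g⁻¹ ∉ Y := by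
    by_contra hcon
    apply hnn
    constructor
    intro n hn g
    by_contra hgn
    exact hcon ⟨n, hn, g, hgn⟩
  have hstrict : Nat.card {x : X // x * y = y * x} < m * Nat.card {u : Y // (⟨y, hy⟩ : Y) * u = u * ⟨y, hy⟩} := by
    refine lt_of_le_of_ne (hN2 ⟨y, hy⟩) ?_
    intro heq
    apply hg
    have hCX : Nat.card {x : X // x * y = y * x} = Nat.card (Subgroup.centralizer ({y} : Set X)) :=
      Nat.card_congr (Equiv.subtypeEquivRight (fun x => Subgroup.mem_centralizer_singleton_iff.symm))
    have hCY : Nat.card {u : Y // (⟨y, hy⟩ : Y) * u = u * ⟨y, hy⟩} = Nat.card (Subgroup.centralizer ({(⟨y, hy⟩ : Y)} : Set Y)) :=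
      Nat.card_congr (Equiv.subtypeEquivRight (fun x => by
        rw [Subgroup.mem_centralizer_singleton_iff]
        exact eq_comm))
    rw [hCX, hCY] at heq
    have h5 := (Subgroup.centralizer ({y} : Set X)).card_mul_index
    have h6 := (Subgroup.centralizer ({(⟨y, hy⟩ : Y)} : Set Y)).card_mul_index
    rw [CfsgLib.FGS.index_centralizer_eq_card_conj] at h5 h6
    set cX := Nat.card {h : X // IsConj y h} with hcX
    set cY := Nat.card {h : Y // IsConj (⟨y, hy⟩ : Y) h} with hcY
    set dY := Nat.card (Subgroup.centralizer ({(⟨y, hy⟩ : Y)} : Set Y)) with hdY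
    rw [heq, hXcard, ← h6] at h5
    have hdYpos : 0 < dY := Nat.card_pos
    have hcXY : cX = cY := by
      have h7 : (m * dY) * cX = (m * dY) * cY := by
        rw [h5]
        ring
      exact Nat.eq_of_mul_eq_mul_left (Nat.mul_pos hmpos hdYpos) h7
    let φ : {h : Y // IsConj (⟨y, hy⟩ : Y) h} → {h : X // IsConj y h} := fun h => ⟨(h.1 : X), by
      obtain ⟨c, hc⟩ := isConj_iff.mp h.2
      rw [isConj_iff]
      refine ⟨(c : X), ?_⟩
      exact congrArg Subtype.val hc⟩
    have hφ : Function.Injective φ := by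
      intro a b hab
      have h9 := congrArg (fun z : {h : X // IsConj y h} => (z : X)) hab
      exact Subtype.ext (Subtype.ext h9)
    have hbij := hφ.bijective_of_nat_card_le (by
      rw [← hcX, ← hcY, hcXY])
    obtain ⟨a, ha⟩ := hbij.2 ⟨g * y * g⁻¹, by
      rw [isConj_iff]
      exact ⟨g, rfl⟩⟩
    have h8 := congrArg (fun z : {h : X // IsConj y h} => (z : X)) ha
    change ((a.1 : Y) : X) = g * y * g⁻¹ at h8
    rw [← h8]
    exact a.1.2
  have hN5 : N < m * (kY * Nat.card Y) := by
    rw [hN3, hkY, Finset.mul_sum]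
    exact Finset.sum_lt_sum (fun y _ => hN2 y) ⟨⟨y, hy⟩, Finset.mem_univ _, hstrict⟩
  have h3 : kX * (m * Nat.card Y) < (m * kY) * (m * Nat.card Y) := by
    calc kX * (m * Nat.card Y) = kX * Nat.card X := by rw [hXcard]
      _ ≤ m * N := hN1
      _ < m * (m * (kY * Nat.card Y)) := Nat.mul_lt_mul_of_pos_left hN5 hmpos
      _ = (m * kY) * (m * Nat.card Y) := by ring
  exact Nat.lt_of_mul_lt_mul_right h3

end Cfsg.Agent.S4200
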