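import Cfsg.Statements.S4201
import Cfsg.Agent.Lib.FGS.ClassCount

set_option autoImplicit false
open Cfsg

namespace Cfsg.Agent.S4201

/-- If N is a normal subgroup of the finite group X then k(X) ≤ k(N)·k(X ⧸ N), where k denotes the number of conjugacy classes. -/
theorem result {X : Type*} [Group X] [Finite X] (N : Subgroup X) [N.Normal] : Nat.card (ConjClasses X) ≤ Nat.card (ConjClasses N) * Nat.card (ConjClasses (X ⧸ N)) := by
  classical
  rename_i hNn
  letI : Fintype X := Fintype.ofFinite X
  letI : Fintype N := Fintype.ofFinite N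
  letI : Fintype (X ⧸ N) := Fintype.ofFinite _
  let π : X →* X ⧸ N := QuotientGroup.mk' N
  have hker : π.ker = N := QuotientGroup.ker_mk' N
  have hmemN : ∀ z, π z = 1 ↔ z ∈ N := fun z => by rw [← MonoidHom.mem_ker, hker]
  have hkX := CfsgLib.FGS.card_classes_mul_card (G := X)
  have hkN := CfsgLib.FGS.card_classes_mul_card (G := N)
  have hkQ := CfsgLib.FGS.card_classes_mul_card (G := X ⧸ N)
  set kX := Nat.card (ConjClasses X)
  set kN := Nat.card (ConjClasses N)
  set kQ := Nat.card (ConjClasses (X ⧸ N))
  -- Step 1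
  have hstep1 : ∀ x : X, Nat.card {y : X // x * y = y * x} ≤
      Nat.card {q : X ⧸ N // π x * q = q * π x} * Nat.card {n : N // x * (n : X) = (n : X) * x} := by
    intro x
    set K := Subgroup.centralizer ({x} : Set X) with hK
    have hmemK : ∀ y, y ∈ K ↔ x * y = y * x := by
      intro y
      rw [hK, Subgroup.mem_centralizer_singleton_iff]
      exact eq_comm
    have e1 : Nat.card {y : X // x * y = y * x} = Nat.card K :=
      Nat.card_congr (Equiv.subtypeEquivRight (fun y => (hmemK y).symm))
    let f : K →* X ⧸ N := π.comp K.subtype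
    have h1 := f.ker.card_mul_index
    rw [Subgroup.index_ker] at h1
    have e2 : Nat.card f.ker = Nat.card {n : N // x * (n : X) = (n : X) * x} := by
      apply Nat.card_congr
      exact
        { toFun := fun z => ⟨⟨z.1.1, (hmemN _).mp z.2⟩, (hmemK _).mp z.1.2⟩
          invFun := fun n => ⟨⟨n.1.1, (hmemK _).mpr n.2⟩, (hmemN _).mpr n.1.2⟩
          left_inv := fun z => rfl
          right_inv := fun n => rfl }
    have e3 : Nat.card f.range ≤ Nat.card {q : X ⧸ N // π x * q = q * π x} := by
      apply Nat.card_le_card_of_injective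
        (fun r : f.range => (⟨r.1, by
          obtain ⟨k, hk⟩ := r.2
          rw [← hk]
          show π x * π (k : X) = π (k : X) * π x
          rw [← map_mul, ← map_mul, (hmemK _).mp k.2]⟩ : {q : X ⧸ N // π x * q = q * π x}))
      intro a b hab
      have := congrArg (fun z : {q : X ⧸ N // π x * q = q * π x} => (z : X ⧸ N)) hab
      exact Subtype.ext this
    rw [e1, ← h1, e2, mul_comm]
    exact Nat.mul_le_mul_right _ e3
  -- Step 3
  have hstep3 : ∀ q : X ⧸ N, ∑ x ∈ Finset.univ.filter (fun x => π x = q), Nat.card {n : N // x * (n : X) = (n : X) * x}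
      ≤ kN * Nat.card N := by
    intro q
    rw [hkN]
    have h1 : ∑ x ∈ Finset.univ.filter (fun x => π x = q), Nat.card {n : N // x * (n : X) = (n : X) * x} =
        ∑ x : {x : X // π x = q}, Nat.card {n : N // (x : X) * (n : X) = (n : X) * (x : X)} := by
      exact Finset.sum_subtype _ (fun x => by simp) _
    rw [h1, ← CfsgLib.FGS.card_pairs_eq_sum (fun (x : {x : X // π x = q}) (n : N) => (x : X) * (n : X) = (n : X) * (x : X)),
      CfsgLib.FGS.card_pairs_eq_sum' (fun (x : {x : X // π x = q}) (n : N) => (x : X) * (n : X) = (n : X) * (x : X))]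
    apply Finset.sum_le_sum
    intro n _
    by_cases hne : Nonempty {a : {x : X // π x = q} // (a : X) * (n : X) = (n : X) * (a : X)}
    · obtain ⟨⟨x₀, hx₀⟩⟩ := hne
      apply Nat.card_le_card_of_injective
        (fun a : {a : {x : X // π x = q} // (a : X) * (n : X) = (n : X) * (a : X)} =>
          (⟨⟨(x₀ : X)⁻¹ * a.1.1, by
            rw [← hmemN, map_mul, map_inv, x₀.2, a.1.2, inv_mul_cancel]⟩, by
            apply Subtype.ext
            show (n : X) * ((x₀ : X)⁻¹ * a.1.1) = ((x₀ : X)⁻¹ * a.1.1) * (n : X)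
            have h2 : (x₀ : X)⁻¹ * (n : X) = (n : X) * (x₀ : X)⁻¹ :=
              (show Commute (x₀ : X) (n : X) from hx₀).inv_left.eq
            rw [mul_assoc (x₀ : X)⁻¹, a.2, ← mul_assoc, ← mul_assoc, h2]⟩ : {u : N // n * u = u * n}))
      intro a b hab
      have h3 : (x₀ : X)⁻¹ * a.1.1 = (x₀ : X)⁻¹ * b.1.1 := by
        have := congrArg (fun z : {u : N // n * u = u * n} => ((z : N) : X)) hab
        exact this
      exact Subtype.ext (Subtype.ext (mul_left_cancel h3))
    · rw [Nat.card_eq_zero.mpr (Or.inl (not_nonempty_iff.mp hne))]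
      exact Nat.zero_le _
  have hmain : kX * Nat.card X ≤ kQ * kN * Nat.card X := by
    have hNQ : Nat.card X = Nat.card N * Nat.card (X ⧸ N) := by
      rw [← Subgroup.index_eq_card, N.card_mul_index]
    calc kX * Nat.card X = ∑ x : X, Nat.card {y : X // x * y = y * x} := hkX
      _ ≤ ∑ x : X, Nat.card {q : X ⧸ N // π x * q = q * π x} * Nat.card {n : N // x * (n : X) = (n : X) * x} :=
        Finset.sum_le_sum (fun x _ => hstep1 x)
      _ = ∑ q : X ⧸ N, ∑ x ∈ Finset.univ.filter (fun x => π x = q),
            Nat.card {q : X ⧸ N // π x * q = q * π x} * Nat.card {n : N // x * (n : X) = (n : X) * x} :=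
        (Finset.sum_fiberwise _ _ _).symm
      _ = ∑ q : X ⧸ N, Nat.card {q' : X ⧸ N // q * q' = q' * q} * ∑ x ∈ Finset.univ.filter (fun x => π x = q),
            Nat.card {n : N // x * (n : X) = (n : X) * x} := by
        apply Finset.sum_congr rfl
        intro q _
        rw [Finset.mul_sum]
        apply Finset.sum_congr rfl
        intro x hx
        rw [(Finset.mem_filter.mp hx).2]
      _ ≤ ∑ q : X ⧸ N, Nat.card {q' : X ⧸ N // q * q' = q' * q} * (kN * Nat.card N) :=
        Finset.sum_le_sum (fun q _ => Nat.mul_le_mul_left _ (hstep3 q))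
      _ = (kQ * Nat.card (X ⧸ N)) * (kN * Nat.card N) := by
        rw [← Finset.sum_mul, hkQ]
      _ = kQ * kN * Nat.card X := by
        rw [hNQ]
        ring
  have h4 := Nat.le_of_mul_le_mul_right hmain Nat.card_pos
  rw [mul_comm kN kQ]
  exact h4

end Cfsg.Agent.S4201
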