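import Cfsg.Statements.S4203
import Cfsg.Agent.Lib.FGS.Basic
import Cfsg.Agent.Lib.Char.Burnside

set_option autoImplicit false
open Cfsg

namespace Cfsg.Agent.S4203

universe u

theorem exists_pow_mul_of_primes (n : ℕ) (hn : n ≠ 0) (h : ∀ r : ℕ, r.Prime → r ∣ n → r = 2 ∨ r = 3) :
    ∃ a b, n = 2 ^ a * 3 ^ b := by
  obtain ⟨a, m, hm, rfl⟩ := Nat.exists_eq_pow_mul_and_not_dvd hn 2 (by norm_num)
  have hm0 : m ≠ 0 := by rintro rfl; simp at hn
  obtain ⟨b, k, hk, rfl⟩ := Nat.exists_eq_pow_mul_and_not_dvd hm0 3 (by norm_num)
  have hk1 : k = 1 := by
    by_contra hne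
    obtain ⟨r, hr, hrk⟩ := Nat.exists_prime_and_dvd hne
    rcases h r hr (Dvd.dvd.trans hrk ⟨2 ^ a * 3 ^ b, by ring⟩) with rfl | rfl
    · exact hm (Dvd.dvd.trans hrk (Dvd.intro_left _ rfl))
    · exact hk hrk
  subst hk1
  exact ⟨a, b, by ring⟩

theorem index_modEq_one {G : Type*} [Group G] [Finite G] (p : ℕ) [Fact p.Prime] (P : Sylow p G)
    (M : Subgroup G) (hM : Subgroup.normalizer ((P : Subgroup G) : Set G) ≤ M) : M.index ≡ 1 [MOD p] := by
  have hPM : (P : Subgroup G) ≤ M := le_trans Subgroup.le_normalizer hM
  have h1 : Nat.card (Sylow p G) = (Subgroup.normalizer ((P : Subgroup G) : Set G)).index :=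
    Sylow.card_eq_index_normalizer P
  have h2 : Nat.card (Sylow p M) = (Subgroup.normalizer ((P : Subgroup G) : Set G)).relIndex M := by
    have := Sylow.card_eq_index_normalizer (P.subtype hPM)
    rw [this, Subgroup.relIndex]
    congr 1
    have e : ((P.subtype hPM : Sylow p M) : Set M) = ((((P : Subgroup G).subgroupOf M : Subgroup M)) : Set M) := by
      rfl
    rw [e]
    exact (Subgroup.subgroupOf_normalizer_eq hPM).symm
  have h3 := Subgroup.relIndex_mul_index hM
  have h4 : Nat.card (Sylow p G) ≡ 1 [MOD p] := card_sylow_modEq_one p G
  have h5 : Nat.card (Sylow p M) ≡ 1 [MOD p] := card_sylow_modEq_one p M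
  rw [h1, ← h3, ← h2] at h4
  have := (h5.mul_right M.index).symm.trans h4
  simpa using this

theorem main_solvable : ∀ (n : ℕ) (G : Type u) [Group G] [Finite G], Nat.card G = n →
    (∀ M : Subgroup G, IsCoatom M → ∃ p : ℕ, p.Prime ∧ (M.index = p ∨ M.index = p ^ 2)) → Group.IsSolvable G := by
  intro n
  induction n using Nat.strong_induction_on with
  | _ n ih =>
    intro G _ _ hn h
    by_cases hn1 : n = 1
    · have : Subsingleton G := by
        exact (Nat.card_eq_one_iff_unique.mp (hn.trans hn1)).1
      infer_instance
    have hn0 : n ≠ 0 := by rw [← hn]; exact Nat.card_pos.ne'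
    -- largest prime
    obtain ⟨p, hpmem, hpmax⟩ := Finset.exists_max_image (Nat.primeFactors n) id
      (Nat.nonempty_primeFactors.mpr (by omega))
    have hp : p.Prime := Nat.prime_of_mem_primeFactors hpmem
    have hpn : p ∣ n := Nat.dvd_of_mem_primeFactors hpmem
    haveI : Fact p.Prime := ⟨hp⟩
    let P : Sylow p G := default
    by_cases hnorm : (P : Subgroup G).Normal
    · haveI := hnorm
      have hPne : (P : Subgroup G) ≠ ⊥ := P.ne_bot_of_dvd_card (by rw [hn]; exact hpn)
      have hlt : Nat.card (G ⧸ (P : Subgroup G)) < n := by
        have h1 := Subgroup.card_eq_card_quotient_mul_card_subgroup (P : Subgroup G)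
        have h2 : 1 < Nat.card (P : Subgroup G) := by
          rw [Subgroup.one_lt_card_iff_ne_bot]; exact hPne
        have h3 : 0 < Nat.card (G ⧸ (P : Subgroup G)) := Nat.card_pos
        rw [hn] at h1
        rw [h1]
        nlinarith
      haveI : Group.IsSolvable (G ⧸ (P : Subgroup G)) := by
        refine ih _ hlt _ rfl ?_
        intro M hM
        let M' := M.comap (QuotientGroup.mk' (P : Subgroup G))
        have hsurj : Function.Surjective (QuotientGroup.mk' (P : Subgroup G)) := QuotientGroup.mk'_surjective _
        have hco : IsCoatom M' := by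
          constructor
          · intro hM'
            apply hM.1
            rw [eq_top_iff]
            intro x _
            obtain ⟨y, rfl⟩ := hsurj x
            have : y ∈ M' := by rw [hM']; trivial
            exact this
          · intro L hL
            have hPL : (P : Subgroup G) ≤ L := by
              have : (P : Subgroup G) ≤ M' := by
                intro x hx
                show QuotientGroup.mk' (P : Subgroup G) x ∈ M
                have : QuotientGroup.mk' (P : Subgroup G) x = 1 := by
                  simpa using hx
                rw [this]; exact M.one_mem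
              exact this.trans hL.le
            have hker : (QuotientGroup.mk' (P : Subgroup G)).ker ≤ L := by
              rw [QuotientGroup.ker_mk']; exact hPL
            have hlt' : M < L.map (QuotientGroup.mk' (P : Subgroup G)) := by
              constructor
              · intro x hx
                obtain ⟨y, rfl⟩ := hsurj x
                exact ⟨y, hL.le hx, rfl⟩
              · intro hle
                apply hL.2
                intro y hy
                exact hle ⟨y, hy, rfl⟩
            have := hM.2 _ hlt'
            rw [← Subgroup.comap_map_eq_self hker, this]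
            simp
        obtain ⟨r, hr, hidx⟩ := h M' hco
        have hidx' : M'.index = M.index := Subgroup.index_comap_of_surjective M hsurj
        exact ⟨r, hr, by rwa [hidx'] at hidx⟩
      haveI : Group.IsSolvable (P : Subgroup G) := by
        haveI := P.isPGroup'.isNilpotent
        infer_instance
      exact Group.isSolvable_of_ker_le_range (P : Subgroup G).subtype (QuotientGroup.mk' (P : Subgroup G)) (by
        rw [QuotientGroup.ker_mk', Subgroup.range_subtype])
    · -- non-normal Sylow
      have hNtop : Subgroup.normalizer ((P : Subgroup G) : Set G) ≠ ⊤ := by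
        intro htop
        exact hnorm (Subgroup.normalizer_eq_top_iff.mp htop)
      obtain ⟨M, hM, hNM⟩ := (eq_top_or_exists_le_coatom (Subgroup.normalizer ((P : Subgroup G) : Set G))).resolve_left hNtop
      have hPM : (P : Subgroup G) ≤ M := le_trans Subgroup.le_normalizer hNM
      have hmod := index_modEq_one p P M hNM
      have hcop : ¬ p ∣ M.index := by
        intro hd
        have : p ∣ 1 := (Nat.modEq_zero_iff_dvd.mpr hd).symm.trans hmod |>.dvd_iff (dvd_refl p) |>.mp (dvd_zero p) 
        exact hp.one_lt.ne' (Nat.dvd_one.mp this)
      obtain ⟨r, hr, hidx⟩ := h M hM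
      have hrn : r ∣ n := by
        have hdvd : M.index ∣ Nat.card G := Subgroup.index_dvd_card M
        rw [hn] at hdvd
        rcases hidx with hi | hi
        · rw [hi] at hdvd; exact hdvd
        · rw [hi] at hdvd; exact (dvd_pow_self r two_ne_zero).trans hdvd
      have hrle : r ≤ p := hpmax r (Nat.mem_primeFactors.mpr ⟨hr, hrn, hn0⟩)
      have hrne : r ≠ p := by
        rintro rfl
        apply hcop
        rcases hidx with hi | hi <;> rw [hi]
        exact dvd_pow_self r two_ne_zero
      have hrlt : r < p := lt_of_le_of_ne hrle hrne
      rcases hidx with hi | hi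
      · -- index r
        exfalso
        rw [hi] at hmod
        have h1 : r % p = 1 % p := hmod
        rw [Nat.mod_eq_of_lt hrlt, Nat.mod_eq_of_lt hp.one_lt] at h1
        exact hr.one_lt.ne' h1
      · -- index r^2
        rw [hi] at hmod
        have hdvd : p ∣ r ^ 2 - 1 := (Nat.modEq_iff_dvd' (Nat.one_le_pow _ _ hr.pos)).mp hmod.symm
        have hfac : r ^ 2 - 1 = (r - 1) * (r + 1) := by
          have : 1 ≤ r := hr.pos
          obtain ⟨s, rfl⟩ : ∃ s, r = s + 1 := ⟨r - 1, by omega⟩
          simp only [Nat.add_sub_cancel]
          have : (s + 1) ^ 2 - 1 = s * (s + 1 + 1) := by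
            have : (s + 1) ^ 2 = s * (s + 1 + 1) + 1 := by ring
            omega
          exact this
        rw [hfac] at hdvd
        have hp3 : r = 2 ∧ p = 3 := by
          rcases (Nat.Prime.dvd_mul hp).mp hdvd with hd | hd
          · have := Nat.le_of_dvd (by have := hr.two_le; omega) hd
            omega
          · have h1 := Nat.le_of_dvd (by omega) hd
            have hpr : p = r + 1 := by omega
            have hpar : r = 2 := by
              rcases hr.eq_two_or_odd' with h2 | h2
              · exact h2
              · exfalso
                have h3 : Even p := by rw [hpr]; exact h2.add_one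
                rcases hp.eq_two_or_odd' with h4 | h4
                · have := hr.two_le; omega
                · exact (Nat.not_even_iff_odd.mpr h4) h3
            exact ⟨hpar, by omega⟩
        have hcard : ∃ a b, n = 2 ^ a * 3 ^ b := by
          refine exists_pow_mul_of_primes n hn0 ?_
          intro s hs hsn
          have h1 : s ≤ p := hpmax s (Nat.mem_primeFactors.mpr ⟨hs, hsn, hn0⟩)
          rw [hp3.2] at h1
          have := hs.two_le
          omega
        exact CfsgLib.Char.solvable_of_card_eq Nat.prime_two Nat.prime_three n G hn hcard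

/-- A finite group in which every maximal subgroup has index a prime or the square of a prime is solvable. -/
theorem result {G : Type*} [Group G] [Finite G] (h : ∀ M : Subgroup G, IsCoatom M → ∃ p : ℕ, p.Prime ∧ (M.index = p ∨ M.index = p ^ 2)) : Group.IsSolvable G := by
  exact main_solvable _ G rfl h

end Cfsg.Agent.S4203
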