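import Cfsg.Statements.S4204
import Cfsg.Agent.Lib.FGS.Basic

set_option autoImplicit false
open Cfsg

namespace Cfsg.Agent.S4204

open scoped commutatorElement in
/-- Elements with commutators with `x` in a normal subgroup. -/
def h8CommSub {G : Type*} [Group G] (x : G) (W : Subgroup G) [hW : W.Normal] : Subgroup G where
  carrier := {y | ⁅x, y⁆ ∈ W}
  mul_mem' := by
    intro a b ha hb
    show ⁅x, a * b⁆ ∈ W
    have e : ⁅x, a * b⁆ = ⁅x, a⁆ * (a * ⁅x, b⁆ * a⁻¹) := by
      rw [commutatorElement_mul_right_eq_mul_conj]; group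
    rw [e]
    exact W.mul_mem ha (hW.conj_mem _ hb a)
  one_mem' := by
    show ⁅x, (1 : G)⁆ ∈ W
    rw [commutatorElement_one_right]
    exact W.one_mem
  inv_mem' := by
    intro a ha
    show ⁅x, a⁻¹⁆ ∈ W
    rw [commutatorElement_inv_right]
    have h1 : ⁅a, x⁆ ∈ W := by
      rw [← commutatorElement_inv]
      exact W.inv_mem ha
    have := hW.conj_mem _ h1 a⁻¹
    simpa using this

theorem h8_comm_sup_right_le {G : Type*} [Group G] {X Y Z W : Subgroup G} [hW : W.Normal]
    (h1 : ⁅X, Y⁆ ≤ W) (h2 : ⁅X, Z⁆ ≤ W) : ⁅X, Y ⊔ Z⁆ ≤ W := by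
  rw [Subgroup.commutator_le]
  intro x hx y hy
  have : Y ⊔ Z ≤ h8CommSub x W :=
    sup_le (fun y hy => h1 (Subgroup.commutator_mem_commutator hx hy))
      (fun y hy => h2 (Subgroup.commutator_mem_commutator hx hy))
  exact this hy

theorem h8_comm_iSup_left_le {G : Type*} [Group G] {ι : Type*} {X : ι → Subgroup G} {Z W : Subgroup G} [hW : W.Normal]
    (h : ∀ i, ⁅X i, Z⁆ ≤ W) : ⁅⨆ i, X i, Z⁆ ≤ W := by
  rw [Subgroup.commutator_comm, Subgroup.commutator_le]
  intro z hz x hx
  have : (⨆ i, X i) ≤ h8CommSub z W := by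
    refine iSup_le fun i y hy => ?_
    have h1 := h i
    rw [Subgroup.commutator_comm] at h1
    exact h1 (Subgroup.commutator_mem_commutator hz hy)
  exact this hx

/-- Shifted lower central series. -/
def h8Seq {G : Type*} [Group G] (H : Subgroup G) : ℕ → Subgroup G
  | 0 => ⊤
  | n + 1 => H.lowerCentralSeries n

theorem h8_lcs_normal {G : Type*} [Group G] (H : Subgroup G) [hH : H.Normal] :
    ∀ n, (H.lowerCentralSeries n).Normal
  | 0 => hH
  | n + 1 => by
    haveI := h8_lcs_normal H n
    exact Subgroup.commutator_normal _ _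

theorem h8_seq_normal {G : Type*} [Group G] (H : Subgroup G) [hH : H.Normal] :
    ∀ n, (h8Seq H n).Normal
  | 0 => by
    show (⊤ : Subgroup G).Normal
    infer_instance
  | n + 1 => h8_lcs_normal H n

theorem h8_seq_comm {G : Type*} [Group G] (H : Subgroup G) [hH : H.Normal] :
    ∀ n, ⁅h8Seq H n, H⁆ ≤ h8Seq H (n + 1)
  | 0 => Subgroup.commutator_le_right _ _
  | _ + 1 => le_rfl

theorem h8_seq_bot {G : Type*} [Group G] (H : Subgroup G) {c : ℕ} (hc : H.lowerCentralSeries c = ⊥) :
    ∀ k, h8Seq H (c + 1 + k) = ⊥ := by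
  have h1 : ∀ k, H.lowerCentralSeries (c + k) = ⊥ := by
    intro k
    induction k with
    | zero => exact hc
    | succ k ih =>
      show ⁅H.lowerCentralSeries (c + k), H⁆ = ⊥
      rw [ih, Subgroup.commutator_bot_left]
  intro k
  have e : c + 1 + k = (c + k) + 1 := by omega
  rw [e]
  exact h1 k


/-- If `H` and `K` are normal subgroups of a finite group with `H` nilpotent of class at most `c` and `K` nilpotent of class at most `d` (the terms with index `c`, respectively `d`, of their lower central series are trivial, indices starting at `0`), then `HK` is nilpotent of class at most `c + d`. -/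
theorem result {G : Type*} [Group G] [Finite G] (H K : Subgroup G) [H.Normal] [K.Normal] (c d : ℕ) (hH : H.lowerCentralSeries c = ⊥) (hK : K.lowerCentralSeries d = ⊥) : (H ⊔ K).lowerCentralSeries (c + d) = ⊥ := by
  classical
  obtain ⟨T, hT⟩ : ∃ T : ℕ → Subgroup G, T = fun n => ⨆ p : {p : ℕ × ℕ // p.1 + p.2 = n}, h8Seq H p.1.1 ⊓ h8Seq K p.1.2 := ⟨_, rfl⟩
  have hTn : ∀ n, (T n).Normal := by
    intro n
    rw [hT]
    haveI : ∀ p : {p : ℕ × ℕ // p.1 + p.2 = n}, (h8Seq H p.1.1 ⊓ h8Seq K p.1.2).Normal := fun p => by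
      haveI := h8_seq_normal H p.1.1
      haveI := h8_seq_normal K p.1.2
      infer_instance
    exact Subgroup.iSup_normal _
  have hTle : ∀ a b n, a + b = n → h8Seq H a ⊓ h8Seq K b ≤ T n := by
    intro a b n h
    rw [hT]
    exact le_iSup_of_le (⟨(a, b), h⟩ : {p : ℕ × ℕ // p.1 + p.2 = n}) le_rfl
  have key : ∀ n, (H ⊔ K).lowerCentralSeries n ≤ T (n + 1) := by
    intro n
    induction n with
    | zero =>
      refine sup_le ?_ ?_
      · have := hTle 1 0 1 rfl
        simpa [h8Seq] using this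
      · have := hTle 0 1 1 rfl
        simpa [h8Seq] using this
    | succ n ih =>
      show ⁅(H ⊔ K).lowerCentralSeries n, H ⊔ K⁆ ≤ _
      refine (Subgroup.commutator_mono ih le_rfl).trans ?_
      have hT1 : T (n + 1) = ⨆ p : {p : ℕ × ℕ // p.1 + p.2 = n + 1}, h8Seq H p.1.1 ⊓ h8Seq K p.1.2 := by
        rw [hT]
      rw [hT1]
      haveI := hTn (n + 1 + 1)
      refine h8_comm_iSup_left_le ?_
      rintro ⟨⟨a, b⟩, hab⟩
      simp only at hab ⊢
      haveI := h8_seq_normal H a
      haveI := h8_seq_normal K b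
      haveI := h8_seq_normal H (a + 1)
      haveI := h8_seq_normal K (b + 1)
      refine h8_comm_sup_right_le ?_ ?_
      · refine le_trans (le_inf ?_ ?_) (hTle (a + 1) b _ (by omega))
        · exact (Subgroup.commutator_mono inf_le_left le_rfl).trans (h8_seq_comm H a)
        · exact (Subgroup.commutator_mono inf_le_right le_rfl).trans (Subgroup.commutator_le_left _ _)
      · refine le_trans (le_inf ?_ ?_) (hTle a (b + 1) _ (by omega))
        · exact (Subgroup.commutator_mono inf_le_left le_rfl).trans (Subgroup.commutator_le_left _ _)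
        · exact (Subgroup.commutator_mono inf_le_right le_rfl).trans (h8_seq_comm K b)
  have hbot : T (c + d + 1) = ⊥ := by
    rw [hT]
    simp only
    rw [eq_bot_iff]
    refine iSup_le ?_
    rintro ⟨⟨a, b⟩, hab⟩
    simp only at hab ⊢
    by_cases hac : c + 1 ≤ a
    · obtain ⟨k, rfl⟩ := Nat.exists_eq_add_of_le hac
      rw [h8_seq_bot H hH k]
      exact inf_le_left
    · have hbd : d + 1 ≤ b := by omega
      obtain ⟨k, rfl⟩ := Nat.exists_eq_add_of_le hbd
      rw [h8_seq_bot K hK k]
      exact inf_le_right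
  have := key (c + d)
  rw [hbot] at this
  exact le_bot_iff.1 this

end Cfsg.Agent.S4204
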