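import Cfsg.Statements.S4205
import Cfsg.Agent.Lib.FGS.Basic

set_option autoImplicit false
open Cfsg

namespace Cfsg.Agent.S4205

/-- In a finite group whose upper central series reaches the whole group at step `c` (nilpotent of class at most `c`), starting from any subgroup and taking normalizers `c` times reaches the whole group. -/
theorem result {G : Type*} [Group G] [Finite G] (c : ℕ) (hG : Subgroup.upperCentralSeries G c = ⊤) (H : Subgroup G) : (fun K : Subgroup G => Subgroup.normalizer (K : Set G))^[c] H = ⊤ := by
  have key : ∀ n : ℕ, Subgroup.upperCentralSeries G n ≤ (fun K : Subgroup G => Subgroup.normalizer (K : Set G))^[n] H := by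
    intro n
    induction n with
    | zero => simp [Subgroup.upperCentralSeries_zero]
    | succ n ih =>
      rw [Function.iterate_succ_apply']
      intro z hz
      rw [Subgroup.mem_upperCentralSeries_succ_iff] at hz
      show z ∈ Subgroup.normalizer _
      have h1 : ∀ k' : G, z * k' * z⁻¹ * k'⁻¹ ∈ (fun K : Subgroup G => Subgroup.normalizer (K : Set G))^[n] H := fun k' => ih (hz k')
      set K := (fun K : Subgroup G => Subgroup.normalizer (K : Set G))^[n] H with hK
      -- a finite-group shortcut: conjugation by `z` maps `K` into `K`
      have hinto : ∀ k ∈ K, z * k * z⁻¹ ∈ K := by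
        intro k hk
        have h2 := K.mul_mem (h1 k) hk
        simpa [mul_assoc] using h2
      have hzinv : z⁻¹ ∈ Subgroup.upperCentralSeries G (n + 1) := by
        exact Subgroup.inv_mem _ ((Subgroup.mem_upperCentralSeries_succ_iff ..).mpr hz)
      have h1' : ∀ k' : G, z⁻¹ * k' * z * k'⁻¹ ∈ K := by
        intro k'
        have := (Subgroup.mem_upperCentralSeries_succ_iff ..).mp hzinv k'
        have h3 := ih this
        simpa [commutatorElement_def] using h3
      rw [Subgroup.mem_normalizer_iff]
      intro k
      constructor
      · exact hinto k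
      · intro hk
        have h2 := K.mul_mem (h1' (z * k * z⁻¹)) hk
        have h4 : z⁻¹ * (z * k * z⁻¹) * z * (z * k * z⁻¹)⁻¹ * (z * k * z⁻¹) = k := by group
        rwa [h4] at h2
  exact eq_top_iff.mpr (hG ▸ key c)

end Cfsg.Agent.S4205
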