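import Cfsg.Statements.S4207
import Cfsg.Agent.Lib.FGS.AutP

set_option autoImplicit false
open Cfsg

namespace Cfsg.Agent.S4207

/-- Let `P` be a group of order `p^n` whose Frattini subgroup has index `p^r`. Then any group of automorphisms of `P` each of which induces the identity on the Frattini quotient has order dividing `p^(r(n-r))`; in particular it is a `p`-group. -/
theorem result {P : Type*} [Group P] [Finite P] {p n r : ℕ} [Fact p.Prime] (hP : Nat.card P = p ^ n) (hr : (frattini P).index = p ^ r) (A : Subgroup (MulAut P)) (hA : ∀ α ∈ A, ∀ x : P, α x * x⁻¹ ∈ frattini P) : Nat.card A ∣ p ^ (r * (n - r)) := by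
  classical
  have hG : IsPGroup p P := IsPGroup.of_card (n := n) hP
  obtain ⟨x, hx⟩ := CfsgLib.FGS.exists_generating_tuple hG hr
  obtain ⟨hΦ, -⟩ := CfsgLib.FGS.card_frattini_eq hP hr
  letI act : MulAction A {y : Fin r → P // ∀ i, y i * (x i)⁻¹ ∈ frattini P} :=
    { smul := fun a y => ⟨fun i => (a : MulAut P) (y.1 i), fun i => by
        have e : (a : MulAut P) (y.1 i) * (x i)⁻¹ = ((a : MulAut P) (y.1 i) * (y.1 i)⁻¹) * (y.1 i * (x i)⁻¹) := by group
        rw [e]
        exact Subgroup.mul_mem _ (hA _ a.2 _) (y.2 i)⟩
      one_smul := by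
        intro y
        apply Subtype.ext
        funext i
        rfl
      mul_smul := by
        intro a b y
        apply Subtype.ext
        funext i
        rfl }
  have hfree : ∀ (y : {y : Fin r → P // ∀ i, y i * (x i)⁻¹ ∈ frattini P}) (a : A), a • y = y → a = 1 := by
    intro y a h
    have hgen := CfsgLib.FGS.generating_of_frattini_congr hx y.2
    have h1 : (a : MulAut P) = 1 := by
      apply CfsgLib.FGS.aut_eq_one_of_fix_generating hgen
      intro i
      exact congrFun (congrArg Subtype.val h) i
    exact Subtype.ext h1
  have hdvd := CfsgLib.FGS.card_dvd_of_free hfree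
  have hcard : Nat.card {y : Fin r → P // ∀ i, y i * (x i)⁻¹ ∈ frattini P} = (Nat.card (frattini P)) ^ r := by
    have e : {y : Fin r → P // ∀ i, y i * (x i)⁻¹ ∈ frattini P} ≃ (Fin r → frattini P) :=
      { toFun := fun y i => ⟨y.1 i * (x i)⁻¹, y.2 i⟩
        invFun := fun z => ⟨fun i => (z i : P) * x i, fun i => by simp⟩
        left_inv := by
          intro y
          apply Subtype.ext
          funext i
          simp
        right_inv := by
          intro z
          funext i
          apply Subtype.ext
          simp }
    rw [Nat.card_congr e, Nat.card_fun, Nat.card_eq_fintype_card (α := Fin r), Fintype.card_fin]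
  rw [hcard, hΦ, ← pow_mul, mul_comm] at hdvd
  exact hdvd

end Cfsg.Agent.S4207
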