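import Cfsg.Statements.S4208
import Cfsg.Agent.Lib.FGS.AutP

set_option autoImplicit false
open Cfsg

namespace Cfsg.Agent.S4208

/-- Let `P` be a group of order `p^n` whose Frattini subgroup has index `p^r`. Then the order of the automorphism group of `P` divides `p^(r(n-r)) · (p^r - 1)(p^r - p) ⋯ (p^r - p^(r-1))`. -/
theorem result {P : Type*} [Group P] [Finite P] {p n r : ℕ} [Fact p.Prime] (hP : Nat.card P = p ^ n) (hr : (frattini P).index = p ^ r) : Nat.card (MulAut P) ∣ p ^ (r * (n - r)) * ∏ i ∈ Finset.range r, (p ^ r - p ^ i) := by
  classical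
  have hG : IsPGroup p P := IsPGroup.of_card (n := n) hP
  obtain ⟨hΦ, -⟩ := CfsgLib.FGS.card_frattini_eq hP hr
  letI act : MulAction (MulAut P) {y : Fin r → P // Subgroup.closure (Set.range y) = ⊤} :=
    { smul := fun a y => ⟨fun i => a (y.1 i), by
        have h1 : Set.range (fun i => a (y.1 i)) = a.toMonoidHom '' Set.range y.1 := by
          ext z
          simp
        rw [h1, ← MonoidHom.map_closure, y.2, Subgroup.map_top_of_surjective _ a.surjective]⟩
      one_smul := by
        intro y
        apply Subtype.ext
        funext i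
        rfl
      mul_smul := by
        intro a b y
        apply Subtype.ext
        funext i
        rfl }
  have hfree : ∀ (y : {y : Fin r → P // Subgroup.closure (Set.range y) = ⊤}) (a : MulAut P), a • y = y → a = 1 := by
    intro y a h
    apply CfsgLib.FGS.aut_eq_one_of_fix_generating y.2
    intro i
    exact congrFun (congrArg Subtype.val h) i
  have hdvd := CfsgLib.FGS.card_dvd_of_free hfree
  rw [CfsgLib.FGS.card_generating_tuples hG hr, hΦ, ← pow_mul, mul_comm, mul_comm (n - r) r] at hdvd
  exact hdvd

end Cfsg.Agent.S4208
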