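import Cfsg.Statements.S4211
import Cfsg.Agent.Lib.FGS.Hamilton

set_option autoImplicit false
open Cfsg
open scoped commutatorElement
open scoped Pointwise

namespace Cfsg.Agent.S4211

universe u_main

open CfsgLib.FGS Subgroup in
theorem conj_cases {G : Type u_main} [Group G] [Finite G] {a y : G} (ha : orderOf a = 4)
    (hy : y ∈ zpowers a) (hyo : orderOf y = 4) : y = a ∨ y = a⁻¹ := by
  obtain ⟨k, hk'⟩ := hy
  replace hk' : a ^ k = y := hk'
  subst hk'
  have ha4 : a ^ 4 = 1 := by rw [← ha]; exact pow_orderOf_eq_one a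
  have hk : a ^ k = a ^ (k % 4) := by
    have := zpow_mod_orderOf a k
    rw [ha] at this
    exact_mod_cast this.symm
  have h0 : 0 ≤ k % 4 := Int.emod_nonneg _ (by norm_num)
  have h4 : k % 4 < 4 := Int.emod_lt_of_pos _ (by norm_num)
  rw [hk] at hyo ⊢
  obtain ⟨r, hr⟩ : ∃ r : ℤ, r = k % 4 := ⟨_, rfl⟩
  rw [← hr] at hyo h0 h4 ⊢
  interval_cases r
  · simp at hyo
  · left
    simp
  · exfalso
    have h5 : a ^ (2 : ℤ) = a ^ 2 := by norm_cast
    rw [h5] at hyo
    rw [orderOf_pow_of_dvd (by norm_num) (by rw [ha]; norm_num), ha] at hyo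
    omega
  · right
    have h5 : a ^ (3 : ℤ) = a ^ 3 := by norm_cast
    rw [h5, eq_inv_iff_mul_eq_one, ← pow_succ, ha4]

open CfsgLib.FGS Subgroup in
theorem no_order_four {G : Type u_main} [Group G] [Finite G] (hn : ∀ H : Subgroup G, H.Normal)
    {a b t : G} (hao : orderOf a = 4) (h_ba : b * a * b⁻¹ = a⁻¹) (hta : t * a = a * t) (htb : t * b = b * t) :
    orderOf t ≠ 4 := by
  intro hto
  have ha4 : a ^ 4 = 1 := by rw [← hao]; exact pow_orderOf_eq_one a
  have ht4 : t ^ 4 = 1 := by rw [← hto]; exact pow_orderOf_eq_one t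
  have ha2 : a ^ 2 ≠ 1 := by
    intro h
    have := orderOf_dvd_of_pow_eq_one h
    rw [hao] at this
    omega
  have ht2 : t ^ 2 ≠ 1 := by
    intro h
    have := orderOf_dvd_of_pow_eq_one h
    rw [hto] at this
    omega
  have hc : Commute a t := hta.symm
  have hmem : b * (a * t) * b⁻¹ ∈ zpowers (a * t) :=
    (hn (zpowers (a * t))).conj_mem _ (mem_zpowers _) b
  have hb : b * (a * t) * b⁻¹ = a⁻¹ * t := by
    calc b * (a * t) * b⁻¹ = b * a * (t * b⁻¹) := by simp only [mul_assoc]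
      _ = b * a * (b⁻¹ * t) := by
        have : Commute t b⁻¹ := (show Commute t b from htb).inv_right
        rw [this.eq]
      _ = (b * a * b⁻¹) * t := by simp only [mul_assoc]
      _ = a⁻¹ * t := by rw [h_ba]
  rw [hb] at hmem
  obtain ⟨k, hk⟩ := hmem
  replace hk : (a * t) ^ k = a⁻¹ * t := hk
  have hy4 : (a * t) ^ (4 : ℤ) = 1 := by
    have : (a * t) ^ (4 : ℤ) = (a * t) ^ 4 := by norm_cast
    rw [this, hc.mul_pow, ha4, ht4, one_mul]
  rw [zpow_eq_zpow_emod k hy4, hc.mul_zpow] at hk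
  have h0 : 0 ≤ k % 4 := Int.emod_nonneg _ (by norm_num)
  have h4 : k % 4 < 4 := Int.emod_lt_of_pos _ (by norm_num)
  obtain ⟨r, hr⟩ : ∃ r : ℤ, r = k % 4 := ⟨_, rfl⟩
  rw [← hr] at hk h0 h4
  -- the case `t = a`
  have hne : t ≠ a := by
    rintro rfl
    have h1 : t * b * t⁻¹ = b := by rw [htb]; simp
    have h2 : b * t = t * b := htb.symm
    have h3 : b * t * b⁻¹ = t := by rw [h2]; simp
    rw [h3] at h_ba
    apply ha2
    rw [pow_two]
    nth_rewrite 1 [h_ba]
    simp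
  interval_cases r
  · apply hne
    simp only [zpow_zero, mul_one] at hk
    have h1 : a * 1 = a * (a⁻¹ * t) := by rw [← hk]
    simpa using h1.symm
  · apply ha2
    simp only [zpow_one] at hk
    have h1 : a = a⁻¹ := mul_right_cancel hk
    rw [pow_two]
    nth_rewrite 1 [h1]
    simp
  · apply hne
    have h5 : a ^ (2 : ℤ) = a ^ 2 := by norm_cast
    have h6 : t ^ (2 : ℤ) = t ^ 2 := by norm_cast
    rw [h5, h6] at hk
    -- `a ^ 2 * t ^ 2 = a⁻¹ * t`
    have h7 : a ^ 3 * t = 1 := by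
      have h8 : a * (a ^ 2 * t ^ 2) * t⁻¹ = a * (a⁻¹ * t) * t⁻¹ := by rw [hk]
      have h9 : a * (a ^ 2 * t ^ 2) * t⁻¹ = a ^ 3 * t := by
        rw [pow_two t, pow_succ' a 2]
        group
      rw [h9] at h8
      rw [h8]
      group
    have h8 : a ^ 3 = a⁻¹ := by
      rw [eq_inv_iff_mul_eq_one, ← pow_succ, ha4]
    rw [h8] at h7
    have h9 : a * (a⁻¹ * t) = a * 1 := by rw [h7]
    simpa using h9
  · apply ht2
    have h5 : a ^ (3 : ℤ) = a ^ 3 := by norm_cast
    have h6 : t ^ (3 : ℤ) = t ^ 3 := by norm_cast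
    rw [h5, h6] at hk
    have h8 : a ^ 3 = a⁻¹ := by
      rw [eq_inv_iff_mul_eq_one, ← pow_succ, ha4]
    rw [h8] at hk
    have h9 : t ^ 3 = t := mul_left_cancel hk
    have h10 : t ^ 2 * t = 1 * t := by
      rw [← pow_succ, h9, one_mul]
    exact mul_right_cancel h10


/-- A finite non-abelian group in which every subgroup is normal is the internal direct product of a subgroup isomorphic to the quaternion group of order `8`, an elementary abelian `2`-subgroup and an abelian subgroup of odd order. -/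
theorem result {G : Type*} [Group G] [Finite G] (hna : ¬ IsMulCommutative G) (hn : ∀ H : Subgroup G, H.Normal) : ∃ Q E A : Subgroup G, Nonempty (Q ≃* QuaternionGroup 2) ∧ Cfsg.IsElementaryAbelian 2 E ∧ IsMulCommutative A ∧ Odd (Nat.card A) ∧ E ⊓ A = ⊥ ∧ Q ⊓ (E ⊔ A) = ⊥ ∧ Q ⊔ (E ⊔ A) = ⊤ := by
  classical
  haveI : Fact (Nat.Prime 2) := ⟨Nat.prime_two⟩
  have hna' : ¬ ∀ x y : G, x * y = y * x := fun h => hna ⟨⟨h⟩⟩
  obtain ⟨a, b, hao, hab2, hrel⟩ := CfsgLib.FGS.dedekind_exists_q8 hn hna'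
  have ha4 : a ^ 4 = 1 := by rw [← hao]; exact pow_orderOf_eq_one a
  have ha2 : a ^ 2 ≠ 1 := by
    intro h
    have := orderOf_dvd_of_pow_eq_one h
    rw [hao] at this
    omega
  have hb4 : b ^ 4 = 1 := by
    have : b ^ 4 = (b ^ 2) ^ 2 := by rw [← pow_mul]
    rw [this, ← hab2, ← pow_mul]
    exact ha4
  have hbo : orderOf b = 4 := by
    have h1 : orderOf b = 2 ^ (1 + 1) := orderOf_eq_prime_pow (by
      rw [pow_one, ← hab2]
      exact ha2) (by norm_num; exact hb4)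
    rw [h1]
    norm_num
  have hconj : ∀ x y : G, y * x * y⁻¹ ∈ Subgroup.zpowers x := fun x y =>
    (hn (Subgroup.zpowers x)).conj_mem _ (Subgroup.mem_zpowers x) y
  have h_ab0 : a * b = b * a⁻¹ := by
    rw [← hrel]
    group
  have h_ba : b * a * b⁻¹ = a⁻¹ := by
    have h1 : b⁻¹ * a⁻¹ * b = a := by
      calc b⁻¹ * a⁻¹ * b = (b⁻¹ * a * b)⁻¹ := by group
        _ = a := by rw [hrel, inv_inv]
    calc b * a * b⁻¹ = b * (b⁻¹ * a⁻¹ * b) * b⁻¹ := by rw [h1]
      _ = a⁻¹ := by group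
  have h_ab : a * b * a⁻¹ = b⁻¹ := by
    rw [h_ab0]
    have h1 : (a ^ 2)⁻¹ = (b ^ 2)⁻¹ := by rw [hab2]
    calc b * a⁻¹ * a⁻¹ = b * (a ^ 2)⁻¹ := by
          rw [pow_two]
          group
      _ = b * (b ^ 2)⁻¹ := by rw [h1]
      _ = b⁻¹ := by
        rw [pow_two]
        group
  have hcomm_a2_b : a ^ 2 * b = b * a ^ 2 := by
    rw [hab2]
    exact ((Commute.refl b).pow_left 2).eq
  have hbn : b ∉ Subgroup.zpowers a := by
    intro h
    obtain ⟨k, hk⟩ := h
    have h1 : b * a = a * b := by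
      rw [← hk]
      exact ((Commute.refl a).zpow_left k)
    apply ha2
    have h2 : b * a = b * a⁻¹ := by rw [h1, h_ab0]
    have h3 : a = a⁻¹ := mul_left_cancel h2
    rw [pow_two]
    nth_rewrite 1 [h3]
    simp
  let φ := CfsgLib.ClassGeo.quatHom 2 a b (by simpa using ha4) hab2.symm hrel
  have hinj : Function.Injective φ :=
    CfsgLib.ClassGeo.quatHom_injective 2 a b _ _ _ (by rw [hao]) hbn
  obtain ⟨Q, hQ⟩ : ∃ Q : Subgroup G, Q = φ.range := ⟨_, rfl⟩
  have hQiso : Nonempty (Q ≃* QuaternionGroup 2) := by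
    rw [hQ]
    exact ⟨(MonoidHom.ofInjective hinj).symm⟩
  have haQ : a ∈ Q := by
    rw [hQ]
    refine ⟨QuaternionGroup.a 1, ?_⟩
    show CfsgLib.ClassGeo.quatPsi 2 a 1 = a
    unfold CfsgLib.ClassGeo.quatPsi
    haveI : Fact (1 < 2 * 2) := ⟨by norm_num⟩
    rw [ZMod.val_one, pow_one]
  have hbQ : b ∈ Q := by
    rw [hQ]
    refine ⟨QuaternionGroup.xa 0, ?_⟩
    show b * CfsgLib.ClassGeo.quatPsi 2 a 0 = b
    unfold CfsgLib.ClassGeo.quatPsi
    simp
  have hQform : ∀ q ∈ Q, (∃ k : ℕ, q = a ^ k) ∨ (∃ k : ℕ, q = b * a ^ k) := by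
    intro q hq
    rw [hQ] at hq
    obtain ⟨x, rfl⟩ := hq
    rcases x with i | i
    · exact Or.inl ⟨i.val, rfl⟩
    · exact Or.inr ⟨i.val, rfl⟩
  -- the centralizer
  obtain ⟨C, hCdef⟩ : ∃ C : Subgroup G, C = Subgroup.centralizer ({a, b} : Set G) := ⟨_, rfl⟩
  have hmemC : ∀ z, z ∈ C ↔ z * a = a * z ∧ z * b = b * z := by
    intro z
    rw [hCdef, Subgroup.mem_centralizer_iff]
    constructor
    · intro h
      exact ⟨(h a (by simp)).symm, (h b (by simp)).symm⟩
    · rintro ⟨h1, h2⟩ x hx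
      rcases hx with rfl | rfl
      · exact h1.symm
      · exact h2.symm
  have ha2C : a ^ 2 ∈ C := (hmemC _).2 ⟨by rw [pow_two]; group, hcomm_a2_b⟩
  have hQC : ∀ x ∈ Q, x ∈ C → x = 1 ∨ x = a ^ 2 := by
    intro x hxQ hxC
    obtain ⟨h1, h2⟩ := (hmemC x).1 hxC
    rcases hQform x hxQ with ⟨k, rfl⟩ | ⟨k, rfl⟩
    · -- `a ^ k` commutes with `b`
      have h3 : b⁻¹ * a ^ k * b = (a⁻¹) ^ k := by
        have h30 := conj_pow (a := b⁻¹) (b := a) (i := k)
        simp only [inv_inv] at h30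
        rw [← h30, hrel]
      have h4 : b⁻¹ * a ^ k * b = a ^ k := by
        calc b⁻¹ * a ^ k * b = b⁻¹ * (a ^ k * b) := by rw [mul_assoc]
          _ = b⁻¹ * (b * a ^ k) := by rw [h2]
          _ = a ^ k := by group
      rw [h4, inv_pow] at h3
      have h5 : a ^ (k + k) = 1 := by
        rw [pow_add]
        nth_rewrite 1 [h3]
        simp
      have h6 := orderOf_dvd_of_pow_eq_one h5
      rw [hao] at h6
      have hk : a ^ k = a ^ (k % 4) := by
        rw [← hao]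
        exact (pow_mod_orderOf a k).symm
      have h7 : k % 4 = 0 ∨ k % 4 = 2 := by omega
      rcases h7 with h7 | h7
      · left
        rw [hk, h7, pow_zero]
      · right
        rw [hk, h7]
    · exfalso
      have hc : Commute a (a ^ k) := (Commute.refl a).pow_right k
      have h3 : b * a = a * b := by
        have h4 : b * a * a ^ k = a * b * a ^ k := by
          calc b * a * a ^ k = b * (a * a ^ k) := by rw [mul_assoc]
            _ = b * (a ^ k * a) := by rw [hc.eq]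
            _ = b * a ^ k * a := by rw [mul_assoc]
            _ = a * (b * a ^ k) := h1
            _ = a * b * a ^ k := by rw [mul_assoc]
        exact mul_right_cancel h4
      apply ha2
      rw [h_ab0] at h3
      have h4 : a = a⁻¹ := mul_left_cancel h3
      rw [pow_two]
      nth_rewrite 1 [h4]
      simp
  have hCmem' : ∀ z : G, z * a * z⁻¹ = a → z * b * z⁻¹ = b → z ∈ C := by
    intro z h1 h2
    rw [mul_inv_eq_iff_eq_mul] at h1 h2
    exact (hmemC z).2 ⟨h1, h2⟩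
  have hGQC : ∀ g : G, ∃ q ∈ Q, ∃ z ∈ C, g = q * z := by
    intro g
    have h1 := conj_cases hao (hconj a g) (by rw [CfsgLib.FGS.orderOf_conj_eq]; exact hao)
    have h2 := conj_cases hbo (hconj b g) (by rw [CfsgLib.FGS.orderOf_conj_eq]; exact hbo)
    have h_b_ainv : b⁻¹ * a⁻¹ * b = a := by
      calc b⁻¹ * a⁻¹ * b = (b⁻¹ * a * b)⁻¹ := by group
        _ = a := by rw [hrel, inv_inv]
    have h_a_binv : a⁻¹ * b⁻¹ * a = b := by
      calc a⁻¹ * b⁻¹ * a = a⁻¹ * (a * b * a⁻¹) * a := by rw [h_ab]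
        _ = b := by group
    rcases h1 with h1 | h1 <;> rcases h2 with h2 | h2
    · exact ⟨1, Q.one_mem, g, hCmem' g h1 h2, by simp⟩
    · refine ⟨a, haQ, a⁻¹ * g, hCmem' _ ?_ ?_, by group⟩
      · calc a⁻¹ * g * a * (a⁻¹ * g)⁻¹ = a⁻¹ * (g * a * g⁻¹) * a := by group
          _ = a := by rw [h1]; group
      · calc a⁻¹ * g * b * (a⁻¹ * g)⁻¹ = a⁻¹ * (g * b * g⁻¹) * a := by group
          _ = b := by rw [h2, h_a_binv]
    · refine ⟨b, hbQ, b⁻¹ * g, hCmem' _ ?_ ?_, by group⟩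
      · calc b⁻¹ * g * a * (b⁻¹ * g)⁻¹ = b⁻¹ * (g * a * g⁻¹) * b := by group
          _ = a := by rw [h1, h_b_ainv]
      · calc b⁻¹ * g * b * (b⁻¹ * g)⁻¹ = b⁻¹ * (g * b * g⁻¹) * b := by group
          _ = b := by rw [h2]; group
    · refine ⟨a * b, Q.mul_mem haQ hbQ, (a * b)⁻¹ * g, hCmem' _ ?_ ?_, by group⟩
      · calc (a * b)⁻¹ * g * a * ((a * b)⁻¹ * g)⁻¹ = (a * b)⁻¹ * (g * a * g⁻¹) * (a * b) := by group
          _ = b⁻¹ * (a⁻¹ * a⁻¹ * a) * b := by rw [h1]; group
          _ = b⁻¹ * a⁻¹ * b := by group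
          _ = a := h_b_ainv
      · calc (a * b)⁻¹ * g * b * ((a * b)⁻¹ * g)⁻¹ = (a * b)⁻¹ * (g * b * g⁻¹) * (a * b) := by group
          _ = b⁻¹ * (a⁻¹ * b⁻¹ * a) * b := by rw [h2]; group
          _ = b := by rw [h_a_binv]; group
  have hno4 : ∀ t ∈ C, orderOf t ≠ 4 := by
    intro t ht
    obtain ⟨h1, h2⟩ := (hmemC t).1 ht
    exact no_order_four hn hao h_ba h1 h2
  have hCcomm : ∀ x ∈ C, ∀ y ∈ C, x * y = y * x := by
    by_contra hcon
    push Not at hcon
    obtain ⟨x, hx, y, hy, hxy⟩ := hcon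
    have hnC : ∀ H : Subgroup C, H.Normal := by
      intro H
      constructor
      intro n hn' g
      have h1 := (hn (H.map C.subtype)).conj_mem _ (Subgroup.mem_map_of_mem _ hn') g
      obtain ⟨n', hn'', hne⟩ := Subgroup.mem_map.1 h1
      have h2 : n' = g * n * g⁻¹ := Subtype.ext hne
      rw [← h2]
      exact hn''
    obtain ⟨t, -, ht, -, -⟩ := CfsgLib.FGS.dedekind_exists_q8 hnC (by
      intro h
      apply hxy
      have := h ⟨x, hx⟩ ⟨y, hy⟩
      exact congrArg Subtype.val this)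
    apply hno4 t t.2
    rw [Subgroup.orderOf_coe]
    exact ht
  -- the odd part
  let A : Subgroup G :=
    { carrier := {x | x ∈ C ∧ Odd (orderOf x)}
      one_mem' := ⟨C.one_mem, by simp⟩
      mul_mem' := by
        rintro x y ⟨hx1, hx2⟩ ⟨hy1, hy2⟩
        refine ⟨C.mul_mem hx1 hy1, ?_⟩
        have h1 : Commute x y := hCcomm x hx1 y hy1
        exact Odd.of_dvd_nat (hx2.mul hy2) h1.orderOf_mul_dvd_mul_orderOf
      inv_mem' := by
        rintro x ⟨hx1, hx2⟩
        exact ⟨C.inv_mem hx1, by rwa [orderOf_inv]⟩ }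
  have hAC : A ≤ C := fun x hx => hx.1
  have hAodd : ∀ x ∈ A, Odd (orderOf x) := fun x hx => hx.2
  have hAab : IsMulCommutative A := ⟨⟨fun x y => Subtype.ext (hCcomm _ x.2.1 _ y.2.1)⟩⟩
  have hAcard : Odd (Nat.card A) := by
    by_contra hne
    rw [Nat.not_odd_iff_even] at hne
    obtain ⟨y, hy⟩ := exists_prime_orderOf_dvd_card' (G := A) 2 hne.two_dvd
    have h1 := y.2.2
    rw [Subgroup.orderOf_coe, hy] at h1
    exact absurd h1 (by decide)
  have hord2odd : ∀ x : G, x ^ 2 = 1 → Odd (orderOf x) → x = 1 := by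
    intro x h1 h2
    have h3 := orderOf_dvd_of_pow_eq_one h1
    rcases (Nat.dvd_prime Nat.prime_two).1 h3 with h4 | h4
    · exact orderOf_eq_one_iff.1 h4
    · rw [h4] at h2
      exact absurd h2 (by decide)
  -- the elementary abelian part
  have hfin : ({E : Subgroup G | E ≤ C ∧ (∀ x ∈ E, x ^ 2 = 1) ∧ a ^ 2 ∉ E}).Finite := Set.toFinite _
  obtain ⟨E, hE⟩ := hfin.exists_maximal ⟨⊥, bot_le, by
    intro x hx
    rw [Subgroup.mem_bot] at hx
    rw [hx, one_pow], by
    intro h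
    exact ha2 (Subgroup.mem_bot.1 h)⟩
  obtain ⟨hEC, hEexp, hEa⟩ := hE.1
  have hEspan : ∀ y ∈ C, y ^ 2 = 1 → y ∈ E ⊔ Subgroup.zpowers (a ^ 2) := by
    intro y hyC hy2
    by_cases hy : y ∈ E
    · exact Subgroup.mem_sup_left hy
    haveI := hn E
    have hzp : ∀ w ∈ Subgroup.zpowers y, w = 1 ∨ w = y := by
      intro w hw
      obtain ⟨k, hk⟩ := hw
      replace hk : y ^ k = w := hk
      have h1 : y ^ (2 : ℤ) = 1 := by exact_mod_cast hy2
      rw [zpow_eq_zpow_emod k h1] at hk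
      have h0 : 0 ≤ k % 2 := Int.emod_nonneg _ (by norm_num)
      have h4 : k % 2 < 2 := Int.emod_lt_of_pos _ (by norm_num)
      obtain ⟨r, hr⟩ : ∃ r : ℤ, r = k % 2 := ⟨_, rfl⟩
      rw [← hr] at hk h0 h4
      interval_cases r
      · left
        rw [← hk]
        simp
      · right
        rw [← hk]
        simp
    have hE'le : E ⊔ Subgroup.zpowers y ≤ C := sup_le hEC (Subgroup.zpowers_le.2 hyC)
    have hdecomp : ∀ x ∈ E ⊔ Subgroup.zpowers y, ∃ e ∈ E, x = e ∨ x = e * y := by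
      intro x hx
      rw [← SetLike.mem_coe, Subgroup.normal_mul] at hx
      obtain ⟨e, he, w, hw, rfl⟩ := Set.mem_mul.1 hx
      refine ⟨e, he, ?_⟩
      rcases hzp w hw with rfl | rfl
      · left
        simp
      · right
        rfl
    by_cases hac : a ^ 2 ∈ E ⊔ Subgroup.zpowers y
    · obtain ⟨e, he, h1⟩ := hdecomp _ hac
      rcases h1 with h1 | h1
      · exact absurd (h1 ▸ he) hEa
      · have h2 : y = e⁻¹ * a ^ 2 := by
          rw [h1]
          group
        rw [h2]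
        exact Subgroup.mul_mem _ (Subgroup.mem_sup_left (E.inv_mem he))
          (Subgroup.mem_sup_right (Subgroup.mem_zpowers _))
    · exfalso
      apply hy
      have h1 : E ⊔ Subgroup.zpowers y ≤ E := by
        refine hE.2 ⟨hE'le, ?_, hac⟩ le_sup_left
        intro x hx
        obtain ⟨e, he, h1⟩ := hdecomp x hx
        rcases h1 with rfl | rfl
        · exact hEexp _ he
        · have h2 : Commute e y := hCcomm e (hEC he) y hyC
          rw [h2.mul_pow, hEexp e he, hy2, one_mul]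
      exact h1 (Subgroup.mem_sup_right (Subgroup.mem_zpowers y))
  refine ⟨Q, E, A, hQiso, ⟨⟨⟨fun x y => Subtype.ext (hCcomm _ (hEC x.2) _ (hEC y.2))⟩⟩, hEexp⟩, hAab, hAcard, ?_, ?_, ?_⟩
  · rw [eq_bot_iff]
    intro x hx
    exact hord2odd x (hEexp x hx.1) (hAodd x hx.2)
  · rw [eq_bot_iff]
    rintro x ⟨hxQ, hxEA⟩
    have hEA : E ⊔ A ≤ C := sup_le hEC hAC
    rcases hQC x hxQ (hEA hxEA) with h | h
    · exact h
    · exfalso
      haveI := hn A
      have hxEA' : a ^ 2 ∈ (E ⊔ A : Subgroup G) := by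
        rw [← h]
        exact hxEA
      rw [← SetLike.mem_coe, Subgroup.mul_normal] at hxEA'
      obtain ⟨e, he, α, hα, hea⟩ := Set.mem_mul.1 hxEA'
      have hα2 : α = e⁻¹ * a ^ 2 := by
        rw [← hea]
        group
      have h1 : α ^ 2 = 1 := by
        rw [hα2]
        have h2 : Commute e⁻¹ (a ^ 2) := hCcomm _ (E.inv_mem he |> fun h => hEC h) _ ha2C
        rw [h2.mul_pow, inv_pow, hEexp e he, inv_one, one_mul, ← pow_mul]
        exact ha4
      have h2 := hord2odd α h1 (hAodd α hα)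
      rw [h2, mul_one] at hea
      exact hEa (hea ▸ he)
  · rw [eq_top_iff]
    intro g _
    obtain ⟨q, hq, z, hz, rfl⟩ := hGQC g
    obtain ⟨s, t, hs, ht, hst, -, ⟨k, hk⟩, htc⟩ := CfsgLib.FGS.exists_primary_decomp 2 Nat.prime_two z
    have hsC : s ∈ C := (Subgroup.zpowers_le.2 hz) hs
    have htC : t ∈ C := (Subgroup.zpowers_le.2 hz) ht
    have htA : t ∈ A := by
      refine ⟨htC, ?_⟩
      exact Nat.Coprime.odd_of_right htc
    have hs2 : s ^ 2 = 1 := by
      by_cases hk1 : k ≤ 1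
      · have h1 : orderOf s ∣ 2 := by
          rw [hk]
          calc 2 ^ k ∣ 2 ^ 1 := pow_dvd_pow 2 hk1
            _ = 2 := pow_one 2
        exact orderOf_dvd_iff_pow_eq_one.1 h1
      · exfalso
        apply hno4 (s ^ (2 ^ (k - 2))) (C.pow_mem hsC _)
        rw [orderOf_pow_of_dvd (by positivity) (by rw [hk]; exact pow_dvd_pow 2 (by omega)), hk,
          Nat.pow_div (by omega) (by norm_num)]
        have : k - (k - 2) = 2 := by omega
        rw [this]
    have h1 := hEspan s hsC hs2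
    have h2 : E ⊔ Subgroup.zpowers (a ^ 2) ≤ Q ⊔ (E ⊔ A) := by
      refine sup_le (le_sup_of_le_right le_sup_left) ?_
      rw [Subgroup.zpowers_le]
      exact Subgroup.mem_sup_left (Q.pow_mem haQ 2)
    rw [hst]
    exact Subgroup.mul_mem _ (Subgroup.mem_sup_left hq)
      (Subgroup.mul_mem _ (h2 h1) (Subgroup.mem_sup_right (Subgroup.mem_sup_right htA)))

end Cfsg.Agent.S4211
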