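import Cfsg.Statements.S4212
import Cfsg.Agent.Lib.FGS.FrobDiv

set_option autoImplicit false
open Cfsg

namespace Cfsg.Agent.S4212

/-- Let `G` be a finite group of order `g`, `c` an element whose conjugacy class has `h` elements, and `n` a natural number. Then the number of elements `x` of `G` with `x^n` conjugate to `c` is a multiple of `gcd(hn, g)`. -/
theorem result {G : Type*} [Group G] [Finite G] (c : G) (n : ℕ) : Nat.gcd (Nat.card {y : G // IsConj c y} * n) (Nat.card G) ∣ Nat.card {x : G // IsConj c (x ^ n)} := by
  classical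
  letI := Fintype.ofFinite G
  -- the centralizer
  have hcK : c ∈ Subgroup.centralizer ({c} : Set G) := by
    rw [Subgroup.mem_centralizer_singleton_iff]
  have hcZ : (⟨c, hcK⟩ : Subgroup.centralizer ({c} : Set G)) ∈
      Subgroup.center (Subgroup.centralizer ({c} : Set G)) := by
    rw [Subgroup.mem_center_iff]
    intro g
    apply Subtype.ext
    have := g.2
    rw [Subgroup.mem_centralizer_singleton_iff] at this
    exact this
  have h1 := CfsgLib.FGS.gcd_dvd_card_pow_eq_central (G := Subgroup.centralizer ({c} : Set G)) n
    ⟨c, hcK⟩ hcZ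
  -- solutions lie in the centralizer
  have h2 : Nat.card {x : Subgroup.centralizer ({c} : Set G) // x ^ n = ⟨c, hcK⟩} =
      Nat.card {x : G // x ^ n = c} := by
    refine Nat.card_congr ⟨fun x => ⟨x.1.1, ?_⟩, fun x => ⟨⟨x.1, ?_⟩, ?_⟩, fun _ => rfl, fun _ => rfl⟩
    · simpa using congrArg (fun z : Subgroup.centralizer ({c} : Set G) => (z : G)) x.2
    · rw [Subgroup.mem_centralizer_singleton_iff]
      have hsol : ∀ z : G, z ^ n = c → z * c = c * z := by
        intro z hz
        rw [← hz]
        exact ((Commute.refl z).pow_right n).eq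
      exact hsol _ x.2
    · exact Subtype.ext (by simpa using x.2)
  rw [h2] at h1
  -- the class count
  have h3 : Nat.card {x : G // IsConj c (x ^ n)} =
      Nat.card {y : G // IsConj c y} * Nat.card {x : G // x ^ n = c} := by
    rw [Nat.card_eq_fintype_card, Fintype.card_subtype,
      Finset.card_eq_sum_card_fiberwise (f := fun x : G => x ^ n)
        (t := Finset.univ.filter (fun y : G => IsConj c y))
        (fun x hx => by simpa using hx)]
    have h4 : ∀ y ∈ Finset.univ.filter (fun y : G => IsConj c y),
        ((Finset.univ.filter (fun x : G => IsConj c (x ^ n))).filter (fun x => x ^ n = y)).card =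
          Nat.card {x : G // x ^ n = c} := by
      intro y hy
      have hy' : IsConj c y := by simpa using hy
      obtain ⟨g, rfl⟩ := isConj_iff.mp hy'
      rw [← Fintype.card_coe, ← Nat.card_eq_fintype_card]
      refine Nat.card_congr ⟨fun x => ⟨g⁻¹ * x.1 * g, ?_⟩, fun x => ⟨g * x.1 * g⁻¹, ?_⟩, ?_, ?_⟩
      · have h5 := (Finset.mem_filter.mp x.2).2
        have h7 := conj_pow (a := g⁻¹) (b := x.1) (i := n)
        rw [inv_inv] at h7
        rw [h7, h5]
        group
      · simp only [Finset.mem_filter, Finset.mem_univ, true_and]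
        rw [conj_pow, x.2]
        exact ⟨by
          rw [isConj_iff]
          exact ⟨g, rfl⟩, rfl⟩
      · intro x
        apply Subtype.ext
        show g * (g⁻¹ * x.1 * g) * g⁻¹ = x.1
        group
      · intro x
        apply Subtype.ext
        show g⁻¹ * (g * x.1 * g⁻¹) * g = x.1
        group
    rw [Finset.sum_congr rfl h4, Finset.sum_const, smul_eq_mul]
    congr 1
    rw [Nat.card_eq_fintype_card, Fintype.card_subtype]
  rw [h3]
  -- arithmetic
  have h6 : Nat.card G = Nat.card {y : G // IsConj c y} *
      Nat.card (Subgroup.centralizer ({c} : Set G)) := by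
    rw [← CfsgLib.FGS.index_centralizer_eq_card_conj, mul_comm, Subgroup.card_mul_index]
  rw [h6, Nat.gcd_mul_left]
  exact Nat.mul_dvd_mul_left _ h1

end Cfsg.Agent.S4212
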