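import Cfsg.Statements.S4213
import Cfsg.Agent.Lib.FGS.FrobDiv
import Cfsg.Agent.Lib.FGS.Lift
import Cfsg.Agent.Lib.Solv.SZ

set_option autoImplicit false
open Cfsg
open scoped commutatorElement
open scoped Pointwise

namespace Cfsg.Agent.S4213

universe u_main

theorem card_preimage_mk {G : Type u_main} [Group G] [Finite G] (V : Subgroup G) (Q : G ⧸ V → Prop) :
    Nat.card {x : G // Q (x : G ⧸ V)} = Nat.card {y : G ⧸ V // Q y} * Nat.card V := by
  classical
  rw [← Nat.card_prod]
  apply Nat.card_congr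
  refine
    { toFun := fun x => (⟨(x.1 : G ⧸ V), x.2⟩, ⟨(Quotient.out (x.1 : G ⧸ V))⁻¹ * x.1, ?_⟩)
      invFun := fun p => ⟨Quotient.out p.1.1 * p.2, ?_⟩
      left_inv := ?_
      right_inv := ?_ }
  · apply QuotientGroup.eq.1
    exact QuotientGroup.out_eq' _
  · have h1 : ((Quotient.out p.1.1 * p.2 : G) : G ⧸ V) = p.1.1 := by
      rw [← QuotientGroup.out_eq' p.1.1, QuotientGroup.eq]
      simp [QuotientGroup.out_eq']
    rw [h1]
    exact p.1.2
  · intro x
    apply Subtype.ext
    show Quotient.out (x.1 : G ⧸ V) * ((Quotient.out (x.1 : G ⧸ V))⁻¹ * x.1) = x.1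
    group
  · rintro ⟨⟨y, hy⟩, v⟩
    have h1 : ((Quotient.out y * v : G) : G ⧸ V) = y := by
      rw [← QuotientGroup.out_eq' y, QuotientGroup.eq]
      simp
    apply Prod.ext
    · exact Subtype.ext h1
    · apply Subtype.ext
      show (Quotient.out ((Quotient.out y * v : G) : G ⧸ V))⁻¹ * (Quotient.out y * (v : G)) = v
      rw [h1]
      group

theorem key_main (c : ℕ) : ∀ (G : Type u_main) [Group G] [Finite G] [Group.IsSolvable G], Nat.card G = c →
    ∀ n : ℕ, n ∣ Nat.card G → Nat.card {x : G // x ^ n = 1} = n →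
      ∃ H : Subgroup G, H.Normal ∧ (H : Set G) = {x : G | x ^ n = 1} := by
  induction c using Nat.strong_induction_on with
  | _ c ih =>
  intro G _ _ _ hc n hn hcount
  classical
  by_cases hnt : Nontrivial G
  swap
  · haveI hsub : Subsingleton G := not_nontrivial_iff_subsingleton.1 hnt
    refine ⟨⊤, inferInstance, ?_⟩
    ext x
    have : x = 1 := Subsingleton.elim _ _
    simp [this]
  have hn0 : n ≠ 0 := by
    rintro rfl
    have := Nat.card_pos (α := G)
    rw [zero_dvd_iff] at hn
    omega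
  obtain ⟨V, hVn, hV0, hmin⟩ := CfsgLib.Solv.exists_minimal_normal G
  haveI := hVn
  obtain ⟨-, q, hq, hVq⟩ := CfsgLib.Solv.minimal_normal_elementary V hV0 hmin
  haveI := Fact.mk hq
  have hVp : IsPGroup q V := fun g => ⟨1, Subtype.ext (by simpa using hVq g g.2)⟩
  obtain ⟨w, hw⟩ := IsPGroup.iff_card.1 hVp
  have hw0 : w ≠ 0 := by
    rintro rfl
    rw [pow_zero] at hw
    exact hV0 (Subgroup.card_eq_one.1 hw)
  have hVcard1 : 1 < Nat.card V := by
    rw [hw]
    exact Nat.one_lt_pow hw0 hq.one_lt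
  have hcardq : Nat.card G = Nat.card (G ⧸ V) * Nat.card V := by
    rw [← Subgroup.index_eq_card, Subgroup.index_mul_card]
  have hlt : Nat.card (G ⧸ V) < c := by
    rw [← hc, hcardq]
    exact lt_mul_of_one_lt_right Nat.card_pos hVcard1
  have hpos : ∀ m : ℕ, 0 < Nat.card {y : G ⧸ V // y ^ m = 1} := fun m => by
    haveI : Nonempty {y : G ⧸ V // y ^ m = 1} := ⟨⟨1, one_pow _⟩⟩
    exact Nat.card_pos
  by_cases hqn : q ∣ n
  · -- first reduction
    obtain ⟨e, n₀, hn₀, hnn₀⟩ := Nat.exists_eq_pow_mul_and_not_dvd hn0 q hq.ne_one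
    have hsub : ∀ m : ℕ, m * q ∣ n → ∀ x : G, (x : G ⧸ V) ^ m = 1 → x ^ n = 1 := by
      intro m hm x hx
      have h1 : x ^ m ∈ V := by
        rw [← QuotientGroup.eq_one_iff]
        exact_mod_cast hx
      have h2 : x ^ (m * q) = 1 := by
        rw [pow_mul]
        exact hVq _ h1
      exact orderOf_dvd_iff_pow_eq_one.1 ((orderOf_dvd_of_pow_eq_one h2).trans hm)
    have hcardle : ∀ m : ℕ, m * q ∣ n → Nat.card {y : G ⧸ V // y ^ m = 1} * Nat.card V ≤ n := by
      intro m hm
      rw [← card_preimage_mk V (fun y => y ^ m = 1)]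
      conv_rhs => rw [← hcount]
      exact Nat.card_le_card_of_injective (fun x => (⟨x.1, hsub m hm x.1 x.2⟩ : {x : G // x ^ n = 1}))
        (fun a b hab => Subtype.ext (by have h9 := congrArg Subtype.val hab; exact h9))
    have hdvdq : ∀ m : ℕ, m * Nat.card V ∣ n → m ∣ Nat.card {y : G ⧸ V // y ^ m = 1} := by
      intro m hm
      apply CfsgLib.FGS.dvd_card_pow_eq_one
      have h1 : m * Nat.card V ∣ Nat.card (G ⧸ V) * Nat.card V := by
        rw [← hcardq]
        exact hm.trans hn
      exact Nat.dvd_of_mul_dvd_mul_right Nat.card_pos h1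
    -- `n₀` divides the order of the quotient
    have hn₀q : n₀ ∣ Nat.card (G ⧸ V) := by
      have h1 : n₀ ∣ Nat.card (G ⧸ V) * Nat.card V := by
        rw [← hcardq]
        refine Dvd.dvd.trans ?_ hn
        rw [hnn₀]
        exact dvd_mul_left _ _
      have h2 : Nat.Coprime n₀ (Nat.card V) := by
        rw [hw]
        exact Nat.Coprime.pow_right _ ((Nat.Prime.coprime_iff_not_dvd hq).2 hn₀).symm
      exact h2.dvd_of_dvd_mul_right h1
    have he1 : e ≠ 0 := by
      rintro rfl
      rw [pow_zero, one_mul] at hnn₀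
      rw [hnn₀] at hqn
      exact hn₀ hqn
    have hn₀pos : 0 < n₀ := Nat.pos_of_ne_zero (by
      rintro rfl
      simp at hnn₀
      exact hn0 hnn₀)
    have hstep1 : Nat.card V ≤ q ^ e := by
      have h1 : n₀ ∣ Nat.card {y : G ⧸ V // y ^ n₀ = 1} :=
        CfsgLib.FGS.dvd_card_pow_eq_one n₀ hn₀q
      have h2 := Nat.le_of_dvd (hpos n₀) h1
      have h3 := hcardle n₀ (by
        rw [hnn₀, mul_comm n₀ q]
        exact mul_dvd_mul_right (dvd_pow_self q he1) _)
      have h4 : n₀ * Nat.card V ≤ q ^ e * n₀ := by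
        rw [← hnn₀]
        exact (Nat.mul_le_mul_right _ h2).trans h3
      rw [mul_comm] at h4
      exact Nat.le_of_mul_le_mul_right h4 hn₀pos
    have hwe : w ≤ e := by
      rw [hw] at hstep1
      exact (Nat.pow_le_pow_iff_right hq.one_lt).1 hstep1
    have hVn' : Nat.card V ∣ n := by
      rw [hw, hnn₀]
      exact Dvd.dvd.mul_right (pow_dvd_pow _ hwe) _
    obtain ⟨m, hm⟩ := hVn'
    rw [mul_comm] at hm
    have hmq : m * q ∣ n := by
      rw [hm, hw]
      exact mul_dvd_mul_left _ (dvd_pow_self q hw0)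
    have hmdvd := hdvdq m (by rw [hm])
    have hmpos : 0 < m := Nat.pos_of_ne_zero (by
      rintro rfl
      simp at hm
      exact hn0 hm)
    have hmle := Nat.le_of_dvd (hpos m) hmdvd
    have hle2 := hcardle m hmq
    have hcnt : Nat.card {y : G ⧸ V // y ^ m = 1} = m := by
      apply le_antisymm _ hmle
      rw [hm] at hle2
      exact Nat.le_of_mul_le_mul_right hle2 Nat.card_pos
    obtain ⟨Hb, hHbn, hHb⟩ := ih _ hlt (G ⧸ V) rfl m (by
      have h1 : m * Nat.card V ∣ Nat.card (G ⧸ V) * Nat.card V := by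
        rw [← hcardq, ← hm]
        exact hn
      exact Nat.dvd_of_mul_dvd_mul_right Nat.card_pos h1) hcnt
    refine ⟨Hb.comap (QuotientGroup.mk' V), inferInstance, ?_⟩
    have hmemHb : ∀ y, y ∈ Hb ↔ y ^ m = 1 := by
      intro y
      rw [← SetLike.mem_coe, hHb]
      rfl
    -- the injection is a bijection
    let φ : {x : G // (x : G ⧸ V) ^ m = 1} → {x : G // x ^ n = 1} :=
      fun x => ⟨x.1, hsub m hmq x.1 x.2⟩
    have hφinj : Function.Injective φ := fun a b hab => Subtype.ext (by have h9 := congrArg Subtype.val hab; exact h9)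
    have hφb : Function.Bijective φ := by
      apply hφinj.bijective_of_nat_card_le
      rw [hcount, card_preimage_mk V (fun y => y ^ m = 1), hcnt, hm]
    ext x
    constructor
    · intro hx
      have h1 : (x : G ⧸ V) ^ m = 1 := (hmemHb _).1 hx
      exact hsub m hmq x h1
    · intro hx
      obtain ⟨⟨y, hy⟩, hyx⟩ := hφb.2 ⟨x, hx⟩
      have h1 : y = x := congrArg Subtype.val hyx
      rw [← h1]
      exact (hmemHb _).2 hy
  · -- second case
    have hcop : Nat.Coprime n (Nat.card V) := by
      rw [hw]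
      exact Nat.Coprime.pow_right _ ((Nat.Prime.coprime_iff_not_dvd hq).2 hqn).symm
    have hnq : n ∣ Nat.card (G ⧸ V) := by
      have h1 : n ∣ Nat.card (G ⧸ V) * Nat.card V := by
        rw [← hcardq]
        exact hn
      exact hcop.dvd_of_dvd_mul_right h1
    have h1 : n ∣ Nat.card {y : G ⧸ V // y ^ n = 1} := CfsgLib.FGS.dvd_card_pow_eq_one n hnq
    have h2 := Nat.le_of_dvd (hpos n) h1
    have hsurj : Function.Surjective (fun x : {x : G // x ^ n = 1} =>
        (⟨(x.1 : G ⧸ V), by
          have := x.2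
          show ((x.1 : G) : G ⧸ V) ^ n = 1
          rw [← QuotientGroup.mk_pow, this]
          rfl⟩ : {y : G ⧸ V // y ^ n = 1})) := by
      rintro ⟨y, hy⟩
      obtain ⟨x₀, hx₀⟩ := QuotientGroup.mk_surjective y
      obtain ⟨x, hx, hxπ⟩ := CfsgLib.FGS.exists_pi_lift {r : ℕ | r ≠ q} V y (by
        intro r hr hrd heq
        apply hqn
        rw [← heq]
        exact hrd.trans (orderOf_dvd_of_pow_eq_one hy)) _ x₀ rfl hx₀
      have h3 : x ^ n ∈ V := by
        rw [← QuotientGroup.eq_one_iff, QuotientGroup.mk_pow, hx, hy]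
      have h4 : x ^ n = 1 := by
        by_contra hne
        have h5 : orderOf (x ^ n) = q := orderOf_eq_prime (hVq _ h3) hne
        have h6 : q ∣ orderOf x := by
          have h7 : orderOf (x ^ n) ∣ orderOf x := orderOf_pow_dvd n
          rwa [h5] at h7
        exact hxπ q hq h6 rfl
      exact ⟨⟨x, h4⟩, Subtype.ext hx⟩
    have hcnt : Nat.card {y : G ⧸ V // y ^ n = 1} = n := by
      apply le_antisymm _ h2
      conv_rhs => rw [← hcount]
      exact Nat.card_le_card_of_surjective _ hsurj
    obtain ⟨Hb, hHbn, hHb⟩ := ih _ hlt (G ⧸ V) rfl n hnq hcnt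
    have hmemHb : ∀ y, y ∈ Hb ↔ y ^ n = 1 := by
      intro y
      rw [← SetLike.mem_coe, hHb]
      rfl
    have hHbcard : Nat.card Hb = n := by
      rw [← hcnt]
      exact Nat.card_congr (Equiv.subtypeEquivRight hmemHb)
    let π := QuotientGroup.mk' V
    have hπs : Function.Surjective π := QuotientGroup.mk'_surjective V
    obtain ⟨D, hD⟩ : ∃ D : Subgroup G, D = Hb.comap π := ⟨_, rfl⟩
    have hVD : V ≤ D := by
      intro x hx
      rw [hD, Subgroup.mem_comap]
      have : π x = 1 := by
        rw [← MonoidHom.mem_ker, QuotientGroup.ker_mk']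
        exact hx
      rw [this]
      exact Hb.one_mem
    have hidx : (V.subgroupOf D).index = n := by
      change V.relIndex _ = _
      have := Subgroup.relIndex_ker (K := D) π
      rw [QuotientGroup.ker_mk', hD, Subgroup.map_comap_eq_self_of_surjective hπs, hHbcard] at this
      rw [hD]
      exact this
    have hcardV' : Nat.card (V.subgroupOf D) = Nat.card V :=
      Nat.card_congr (Subgroup.subgroupOfEquivOfLe hVD).toEquiv
    have hcop2 : (Nat.card (V.subgroupOf D)).Coprime (V.subgroupOf D).index := by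
      rw [hidx, hcardV']
      exact hcop.symm
    obtain ⟨K', hK'⟩ := Subgroup.exists_right_complement'_of_coprime hcop2
    obtain ⟨K, hK⟩ : ∃ K : Subgroup G, K = K'.map D.subtype := ⟨_, rfl⟩
    have hKcard : Nat.card K = n := by
      rw [hK, Subgroup.card_map_of_injective D.subtype_injective, ← hK'.symm.index_eq_card, hidx]
    have hKpow : ∀ x ∈ K, x ^ n = 1 := by
      intro x hx
      have := pow_card_eq_one' (x := (⟨x, hx⟩ : K))
      rw [hKcard] at this
      exact congrArg Subtype.val this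
    let φ : K → {x : G // x ^ n = 1} := fun x => ⟨x.1, hKpow x.1 x.2⟩
    have hφinj : Function.Injective φ := fun a b hab => Subtype.ext (by have h9 := congrArg Subtype.val hab; exact h9)
    have hφb : Function.Bijective φ := by
      apply hφinj.bijective_of_nat_card_le
      rw [hcount, hKcard]
    have hmemK : ∀ x : G, x ^ n = 1 → x ∈ K := by
      intro x hx
      obtain ⟨y, hy⟩ := hφb.2 ⟨x, hx⟩
      have h3 : (y : G) = x := congrArg Subtype.val hy
      rw [← h3]
      exact y.2
    refine ⟨K, ⟨fun x hx g => hmemK _ ?_⟩, ?_⟩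
    · rw [conj_pow, hKpow x hx]
      group
    · ext x
      exact ⟨hKpow x, hmemK x⟩


/-- If `G` is a finite solvable group and `n` divides the order of `G` and exactly `n` elements `x` of `G` satisfy `x^n = 1`, then these elements form a normal subgroup. -/
theorem result {G : Type*} [Group G] [Finite G] [Group.IsSolvable G] (n : ℕ) (hn : n ∣ Nat.card G) (hcount : Nat.card {x : G // x ^ n = 1} = n) : ∃ H : Subgroup G, H.Normal ∧ (H : Set G) = {x : G | x ^ n = 1} := by
  exact key_main _ G rfl n hn hcount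

end Cfsg.Agent.S4213
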