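import Cfsg.Statements.S4214
import Cfsg.Agent.Lib.FGS.Basic
import Cfsg.Agent.S3775
import Cfsg.Agent.Lib.Solv.SZ
import Cfsg.Agent.Lib.Solv.Hall

set_option autoImplicit false
open Cfsg
open scoped commutatorElement
open scoped Pointwise

namespace Cfsg.Agent.S4214

universe u

theorem h8_fib {Z Y : Type*} [Finite Z] [Finite Y] (f : Z → Y) (m : ℕ) (hm : ∀ y, Nat.card {z // f z = y} = m) :
    Nat.card Z = Nat.card Y * m := by
  classical
  haveI := Fintype.ofFinite Y
  rw [Nat.card_congr (Equiv.sigmaFiberEquiv f).symm, Nat.card_sigma]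
  simp only [hm, Finset.sum_const, Finset.card_univ, smul_eq_mul, Nat.card_eq_fintype_card]

theorem h8_irr {B : Type*} [Group B] [Finite B] (Y : Subgroup (MulAut B)) (hsolv : Group.IsSolvable Y) (hY : Y ≠ ⊥)
    (hirr : ∀ F : Subgroup B, (∀ y ∈ Y, ∀ f ∈ F, y f ∈ F) → F = ⊥ ∨ F = ⊤) :
    ∃ q : ℕ, q.Prime ∧ q ∣ Nat.card Y ∧ Nat.card B ≡ 1 [MOD q] := by
  classical
  haveI : Nontrivial Y := (Subgroup.nontrivial_iff_ne_bot Y).2 hY
  obtain ⟨T, hTn, hTne, hTmin⟩ := CfsgLib.Solv.exists_minimal_normal Y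
  haveI := hTn
  obtain ⟨-, q, hq, hTq⟩ := CfsgLib.Solv.minimal_normal_elementary T hTne hTmin
  haveI : Fact q.Prime := ⟨hq⟩
  have hTp : IsPGroup q T := fun x => ⟨1, by
    apply Subtype.ext
    rw [pow_one]
    exact hTq x x.2⟩
  obtain ⟨t0, ht0, ht01⟩ := (Subgroup.bot_or_exists_ne_one T).resolve_left hTne
  have hqdvd : q ∣ Nat.card T := by
    obtain ⟨k, hk⟩ := IsPGroup.iff_card.1 hTp
    have hk0 : k ≠ 0 := by
      rintro rfl
      rw [pow_zero] at hk
      exact hTne (Subgroup.eq_bot_of_card_eq T hk)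
    rw [hk]
    exact dvd_pow_self q hk0
  let ι : T →* MulAut B := Y.subtype.comp T.subtype
  letI : MulAction T B := MulAction.compHom B ι
  have hsm : ∀ (t : T) (b : B), t • b = ι t b := fun _ _ => rfl
  let F : Subgroup B :=
    { carrier := {b | ∀ t : T, ι t b = b}
      one_mem' := fun t => map_one _
      mul_mem' := by
        intro a b ha hb t
        rw [map_mul, ha t, hb t]
      inv_mem' := by
        intro a ha t
        rw [map_inv, ha t] }
  have hFinv : ∀ y ∈ Y, ∀ f ∈ F, y f ∈ F := by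
    intro y hy f hf t
    have hconj : (⟨y, hy⟩ : Y)⁻¹ * (t : Y) * (⟨y, hy⟩ : Y)⁻¹⁻¹ ∈ T := hTn.conj_mem t t.2 (⟨y, hy⟩ : Y)⁻¹
    have h1 := hf ⟨_, hconj⟩
    have h2 : (y⁻¹ * ι t * y) f = f := by
      have h3 : ι ⟨_, hconj⟩ = y⁻¹ * ι t * y := by
        simp [ι]
      rw [← h3]
      exact h1
    have h4 : ι t (y f) = y ((y⁻¹ * ι t * y) f) := by
      simp [MulAut.mul_apply]
    rw [h4, h2]
  rcases hirr F hFinv with hF | hF
  · refine ⟨q, hq, ?_, ?_⟩
    · exact hqdvd.trans (Subgroup.card_subgroup_dvd_card T)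
    · have h3 := IsPGroup.card_modEq_card_fixedPoints hTp B
      have h4 : Nat.card (MulAction.fixedPoints T B) = 1 := by
        rw [Nat.card_eq_one_iff_unique]
        refine ⟨⟨?_⟩, ⟨⟨1, fun t => map_one (ι t)⟩⟩⟩
        rintro ⟨a, ha⟩ ⟨b, hb⟩
        have ha' : a ∈ F := fun t => ha t
        have hb' : b ∈ F := fun t => hb t
        rw [hF, Subgroup.mem_bot] at ha' hb'
        exact Subtype.ext (ha'.trans hb'.symm)
      rwa [h4] at h3
  · exfalso
    apply ht01
    apply Subtype.ext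
    apply MulEquiv.ext
    intro b
    have hb : b ∈ F := by
      rw [hF]
      exact Subgroup.mem_top b
    exact hb ⟨t0, ht0⟩

theorem h8_factor {A : Type*} [CommGroup A] [Finite A] {r : ℕ} [hr : Fact r.Prime] (hexp : ∀ a : A, a ^ r = 1)
    (X : Subgroup (MulAut A)) (hX : (Nat.card X).Coprime r) (hsolv : Group.IsSolvable X) :
    ∀ (c : ℕ) (W : Subgroup A), Nat.card W ≤ c → (∀ x ∈ X, ∀ a ∈ W, x a ∈ W) →
      (∀ a ∈ W, (∀ x ∈ X, x a = a) → a = 1) →
      ∃ l : List ℕ, Nat.card W = l.prod ∧ ∀ f ∈ l, f ∣ Nat.card A ∧ (∃ e, f = r ^ e) ∧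
        ∃ q : ℕ, q.Prime ∧ q ∣ Nat.card X ∧ f ≡ 1 [MOD q] := by
  classical
  have hApg : IsPGroup r A := fun a => ⟨1, by rw [pow_one]; exact hexp a⟩
  intro c
  induction c with
  | zero =>
    intro W hW
    have : 0 < Nat.card W := Nat.card_pos
    omega
  | succ c ih =>
    intro W hWc hWinv hWfix
    by_cases hW0 : W = ⊥
    · refine ⟨[], ?_, by simp⟩
      rw [hW0]
      simp
    let S : Set (Subgroup A) := {V | V ≠ ⊥ ∧ V ≤ W ∧ ∀ x ∈ X, ∀ a ∈ V, x a ∈ V}
    obtain ⟨W₁, hW₁⟩ := (Set.toFinite S).exists_minimal ⟨W, hW0, le_rfl, hWinv⟩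
    obtain ⟨hW₁0, hW₁W, hW₁inv⟩ := hW₁.1
    have hmin : ∀ V : Subgroup A, V ≠ ⊥ → V ≤ W₁ → (∀ x ∈ X, ∀ a ∈ V, x a ∈ V) → V = W₁ := by
      intro V h1 h2 h3
      exact le_antisymm h2 (hW₁.2 ⟨h1, h2.trans hW₁W, h3⟩ h2)
    obtain ⟨E, -, hEW, hinf, hsup, hEinv⟩ := Cfsg.Agent.S3775.h8_avg (p := r) X hX ⊥ W₁ W bot_le hW₁W
      (fun d _ => by rw [hexp d]; exact Subgroup.one_mem _)
      (fun x _ f hf => by
        rw [Subgroup.mem_bot] at hf ⊢
        rw [hf, map_one])
      hW₁inv hWinv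
    have hcard : Nat.card W = Nat.card E * Nat.card W₁ := by
      have h1 := CfsgLib.Solv.card_sup_mul_card_inf E W₁
      rw [hsup, hinf, Subgroup.card_bot, mul_one] at h1
      exact h1
    have hW₁gt : 2 ≤ Nat.card W₁ := by
      have h1 : Nat.card W₁ ≠ 1 := fun h => hW₁0 (Subgroup.eq_bot_of_card_eq W₁ h)
      have h2 : 0 < Nat.card W₁ := Nat.card_pos
      omega
    have hElt : Nat.card E ≤ c := by
      have h1 : Nat.card E * 2 ≤ Nat.card E * Nat.card W₁ := Nat.mul_le_mul_left _ hW₁gt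
      have h2 : 0 < Nat.card E := Nat.card_pos
      omega
    obtain ⟨l, hl, hlgood⟩ := ih E hElt hEinv (fun a ha h => hWfix a (hEW ha) h)
    refine ⟨Nat.card W₁ :: l, by rw [hcard, hl, List.prod_cons, mul_comm], ?_⟩
    intro f hf
    rcases List.mem_cons.1 hf with rfl | hf
    · refine ⟨Subgroup.card_subgroup_dvd_card _, ?_, ?_⟩
      · obtain ⟨e, he⟩ := IsPGroup.iff_card.1 (IsPGroup.to_subgroup hApg W₁)
        exact ⟨e, he⟩
      · let res : X →* MulAut W₁ := MonoidHom.mk' (fun x =>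
          { toFun := fun a => ⟨(x : MulAut A) a, hW₁inv x x.2 a a.2⟩
            invFun := fun a => ⟨(x : MulAut A)⁻¹ a, hW₁inv _ (X.inv_mem x.2) a a.2⟩
            left_inv := fun a => Subtype.ext (by
              show (x : MulAut A)⁻¹ ((x : MulAut A) a) = a
              rw [← MulAut.mul_apply, inv_mul_cancel]
              rfl)
            right_inv := fun a => Subtype.ext (by
              show (x : MulAut A) ((x : MulAut A)⁻¹ a) = a
              rw [← MulAut.mul_apply, mul_inv_cancel]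
              rfl)
            map_mul' := fun a b => Subtype.ext (map_mul _ _ _) })
          (fun x y => by
            apply MulEquiv.ext
            intro a
            rfl)
        have hres : ∀ (x : X) (a : W₁), ((res x a : W₁) : A) = (x : MulAut A) a := fun _ _ => rfl
        have hsolvY : Group.IsSolvable res.range :=
          Group.isSolvable_of_surjective res.rangeRestrict_surjective
        have hYne : res.range ≠ ⊥ := by
          obtain ⟨a, ha, ha1⟩ := (Subgroup.bot_or_exists_ne_one W₁).resolve_left hW₁0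
          have h1 : ∃ x ∈ X, x a ≠ a := by
            by_contra hcon
            push Not at hcon
            exact ha1 (hWfix a (hW₁W ha) hcon)
          obtain ⟨x, hx, hxa⟩ := h1
          intro h
          have h2 : res ⟨x, hx⟩ ∈ res.range := ⟨_, rfl⟩
          rw [h, Subgroup.mem_bot] at h2
          apply hxa
          have h3 := congrArg (fun φ : MulAut W₁ => ((φ ⟨a, ha⟩ : W₁) : A)) h2
          exact h3
        have hirr : ∀ F : Subgroup W₁, (∀ y ∈ res.range, ∀ f ∈ F, y f ∈ F) → F = ⊥ ∨ F = ⊤ := by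
          intro F hF
          by_cases hF0 : F = ⊥
          · exact Or.inl hF0
          right
          have hF' : F.map W₁.subtype = W₁ := by
            apply hmin
            · intro h
              apply hF0
              rwa [Subgroup.map_eq_bot_iff_of_injective _ W₁.subtype_injective] at h
            · exact Subgroup.map_subtype_le F
            · rintro x hx _ ⟨f, hf, rfl⟩
              refine ⟨res ⟨x, hx⟩ f, hF _ ⟨_, rfl⟩ f hf, rfl⟩
          rw [eq_top_iff]
          intro f _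
          have h1 : (f : A) ∈ F.map W₁.subtype := by
            rw [hF']
            exact f.2
          obtain ⟨f', hf', hff'⟩ := h1
          have h2 : f' = f := Subtype.ext hff'
          rwa [← h2]
        obtain ⟨q, hq, hqY, hmod⟩ := h8_irr res.range hsolvY hYne hirr
        refine ⟨q, hq, ?_, hmod⟩
        have h1 : Nat.card res.range ∣ Nat.card X := by
          rw [← Subgroup.index_ker res]
          exact Subgroup.index_dvd_card _
        exact hqY.trans h1
    · exact hlgood f hf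

theorem h8_fixindex {A : Type*} [CommGroup A] [Finite A] {r : ℕ} [hr : Fact r.Prime] (hexp : ∀ a : A, a ^ r = 1)
    (X : Subgroup (MulAut A)) (hX : (Nat.card X).Coprime r) (hsolv : Group.IsSolvable X)
    (D : Subgroup A) (hD : ∀ a, a ∈ D ↔ ∀ x ∈ X, x a = a) :
    ∃ l : List ℕ, D.index = l.prod ∧ ∀ f ∈ l, f ∣ Nat.card A ∧ (∃ e, f = r ^ e) ∧
        ∃ q : ℕ, q.Prime ∧ q ∣ Nat.card X ∧ f ≡ 1 [MOD q] := by
  have hDinv : ∀ x ∈ X, ∀ a ∈ D, x a ∈ D := by
    intro x hx a ha
    rw [hD] at ha ⊢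
    intro y hy
    have h1 := ha (x⁻¹ * y * x) (X.mul_mem (X.mul_mem (X.inv_mem hx) hy) hx)
    have h2 : y (x a) = x ((x⁻¹ * y * x) a) := by
      simp [MulAut.mul_apply]
    rw [h2, h1]
  obtain ⟨W, -, -, hinf, hsup, hWinv⟩ := Cfsg.Agent.S3775.h8_avg (p := r) X hX ⊥ D ⊤ bot_le le_top
    (fun d _ => by rw [hexp d]; exact Subgroup.one_mem _)
    (fun x _ f hf => by
      rw [Subgroup.mem_bot] at hf ⊢
      rw [hf, map_one])
    hDinv (fun _ _ _ _ => Subgroup.mem_top _)
  have h1 := CfsgLib.Solv.card_sup_mul_card_inf W D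
  rw [hsup, hinf, Subgroup.card_bot, mul_one, Subgroup.card_top] at h1
  have h2 := Subgroup.card_mul_index D
  have h3 : D.index = Nat.card W := by
    have h4 : Nat.card D * D.index = Nat.card D * Nat.card W := by
      rw [h2, h1, mul_comm]
    exact Nat.eq_of_mul_eq_mul_left Nat.card_pos h4
  obtain ⟨l, hl, hlg⟩ := h8_factor hexp X hX hsolv _ W le_rfl hWinv (fun a ha h => by
    have h5 : a ∈ W ⊓ D := ⟨ha, (hD a).2 h⟩
    rwa [hinf, Subgroup.mem_bot] at h5)
  exact ⟨l, h3.trans hl, hlg⟩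

theorem h8_conj_cent {G : Type*} [Group G] [Finite G] (N : Subgroup G) [hN : N.Normal] (H : Subgroup G) (g : G) :
    Nat.card ↥(N ⊓ Subgroup.centralizer ((H.map (MulAut.conj g).toMonoidHom : Subgroup G) : Set G)) =
      Nat.card ↥(N ⊓ Subgroup.centralizer (H : Set G)) := by
  have h1 : N ⊓ Subgroup.centralizer ((H.map (MulAut.conj g).toMonoidHom : Subgroup G) : Set G) =
      (N ⊓ Subgroup.centralizer (H : Set G)).map (MulAut.conj g).toMonoidHom := by
    ext y
    constructor
    · rintro ⟨hy1, hy2⟩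
      refine ⟨g⁻¹ * y * g, ⟨?_, ?_⟩, ?_⟩
      · have := hN.conj_mem y hy1 g⁻¹
        simpa using this
      · have hy2' := Subgroup.mem_centralizer_iff.1 hy2
        refine Subgroup.mem_centralizer_iff.2 ?_
        intro h hh
        have h2 := hy2' (g * h * g⁻¹) ⟨h, hh, by simp [MulAut.conj_apply]⟩
        have h3 : g * h * g⁻¹ * y = y * (g * h * g⁻¹) := h2
        calc h * (g⁻¹ * y * g) = g⁻¹ * (g * h * g⁻¹ * y) * g := by group
          _ = g⁻¹ * (y * (g * h * g⁻¹)) * g := by rw [h3]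
          _ = g⁻¹ * y * g * h := by group
      · simp [MulAut.conj_apply]
        group
    · rintro ⟨x, ⟨hx1, hx2⟩, rfl⟩
      refine ⟨hN.conj_mem x hx1 g, ?_⟩
      have hx2' := Subgroup.mem_centralizer_iff.1 hx2
      refine Subgroup.mem_centralizer_iff.2 ?_
      rintro _ ⟨h, hh, rfl⟩
      have h2 := hx2' h hh
      simp only [MulEquiv.coe_toMonoidHom, MulAut.conj_apply]
      calc g * h * g⁻¹ * (g * x * g⁻¹) = g * (h * x) * g⁻¹ := by group
        _ = g * (x * h) * g⁻¹ := by rw [h2]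
        _ = g * x * g⁻¹ * (g * h * g⁻¹) := by group
  rw [h1]
  exact Subgroup.card_map_of_injective (MulEquiv.injective _)

theorem h8_conj_smul {G : Type*} [Group G] (g : G) (H : Subgroup G) :
    MulAut.conj g • H = H.map (MulAut.conj g).toMonoidHom := rfl

theorem h8_fibre {G : Type u} [Group G] [Finite G] [Group.IsSolvable G] (N : Subgroup G) [hN : N.Normal]
    (m : ℕ) (hcop : (Nat.card N).Coprime m) (H₁ : Subgroup G) (hH₁ : Nat.card H₁ = m) (hmn : m.Coprime H₁.index) :
    Nat.card {H : Subgroup G // Nat.card H = m ∧ H.map (QuotientGroup.mk' N) = H₁.map (QuotientGroup.mk' N)} *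
      Nat.card ↥(N ⊓ Subgroup.centralizer (H₁ : Set G)) = Nat.card N := by
  classical
  let π := QuotientGroup.mk' N
  let Cj : N → Subgroup G := fun x => H₁.map (MulAut.conj (x : G)).toMonoidHom
  have hCjcard : ∀ x, Nat.card (Cj x) = m := fun x => by
    rw [← hH₁]
    exact Subgroup.card_map_of_injective (MulEquiv.injective _)
  have hCjmap : ∀ x, (Cj x).map π = H₁.map π := by
    intro x
    show (H₁.map (MulAut.conj (x : G)).toMonoidHom).map π = H₁.map π
    rw [Subgroup.map_map]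
    congr 1
    ext y
    show π ((x : G) * y * (x : G)⁻¹) = π y
    have hx : π (x : G) = 1 := (QuotientGroup.eq_one_iff _).2 x.2
    rw [map_mul, map_mul, map_inv, hx]
    simp
  let Fib := {H : Subgroup G // Nat.card H = m ∧ H.map π = H₁.map π}
  let ψ : N → Fib := fun x => ⟨Cj x, hCjcard x, hCjmap x⟩
  have hinf : N ⊓ H₁ = ⊥ := (Subgroup.disjoint_of_coprime_natCard (by rw [hH₁]; exact hcop)).eq_bot
  have hsurj : ∀ w : Fib, ∃ x, ψ x = w := by
    rintro ⟨H, hHm, hHmap⟩
    set L := H₁ ⊔ N with hL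
    have hH₁L : H₁ ≤ L := le_sup_left
    have hHL : H ≤ L := by
      intro h hh
      have h1 : π h ∈ H₁.map π := by
        rw [← hHmap]
        exact ⟨h, hh, rfl⟩
      obtain ⟨h₁, hh₁, hh₁e⟩ := h1
      have h2 : h₁⁻¹ * h ∈ N := QuotientGroup.eq.1 hh₁e
      have h3 : h = h₁ * (h₁⁻¹ * h) := by group
      rw [h3]
      exact L.mul_mem (Subgroup.mem_sup_left hh₁) (Subgroup.mem_sup_right h2)
    have hcardH₁ : Nat.card (H₁.subgroupOf L) = m := by
      rw [← hH₁]
      exact Nat.card_congr (Subgroup.subgroupOfEquivOfLe hH₁L).toEquiv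
    have hcardH : Nat.card (H.subgroupOf L) = m := by
      rw [← hHm]
      exact Nat.card_congr (Subgroup.subgroupOfEquivOfLe hHL).toEquiv
    have hLcard : Nat.card L = m * (H₁.subgroupOf L).index := by
      rw [← hcardH₁]
      exact (Subgroup.card_mul_index _).symm
    have hcopL : m.Coprime (H₁.subgroupOf L).index := by
      have h1 : (H₁.subgroupOf L).index ∣ H₁.index := Subgroup.relIndex_dvd_index_of_le hH₁L
      exact Nat.Coprime.coprime_dvd_right h1 hmn
    obtain ⟨y, hy⟩ := CfsgLib.Solv.hall_conj _ L rfl m _ hLcard hcopL _ _ hcardH₁ hcardH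
    rw [h8_conj_smul] at hy
    obtain ⟨b, hb, a, ha, hba⟩ := Subgroup.mem_sup_of_normal_right.1 y.2
    have hy2 : (y : G) = b * a := hba.symm
    let x : N := ⟨b * a * b⁻¹, hN.conj_mem a ha b⟩
    refine ⟨x, Subtype.ext ?_⟩
    show Cj x = H
    apply Subgroup.eq_of_le_of_card_ge
    · rintro _ ⟨z, hz, rfl⟩
      have h1 : b⁻¹ * z * b ∈ H₁ := H₁.mul_mem (H₁.mul_mem (H₁.inv_mem hb) hz) hb
      have h2 : (⟨b⁻¹ * z * b, hH₁L h1⟩ : L) ∈ H₁.subgroupOf L := h1
      have h3 : (MulAut.conj y).toMonoidHom ⟨b⁻¹ * z * b, hH₁L h1⟩ ∈ H.subgroupOf L := by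
        rw [← hy]
        exact ⟨_, h2, rfl⟩
      have h4 : ((MulAut.conj y).toMonoidHom ⟨b⁻¹ * z * b, hH₁L h1⟩ : L).1 ∈ H := h3
      have h5 : ((MulAut.conj y).toMonoidHom ⟨b⁻¹ * z * b, hH₁L h1⟩ : L).1 =
          (MulAut.conj (x : G)).toMonoidHom z := by
        show (y : G) * (b⁻¹ * z * b) * (y : G)⁻¹ = (b * a * b⁻¹) * z * (b * a * b⁻¹)⁻¹
        rw [hy2]
        group
      rw [← h5]
      exact h4
    · rw [hHm, hCjcard]
  have hfibcard : ∀ w : Fib, Nat.card {x // ψ x = w} = Nat.card ↥(N ⊓ Subgroup.centralizer (H₁ : Set G)) := by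
    intro w
    obtain ⟨x₀, rfl⟩ := hsurj w
    have hcent : ∀ x : N, ψ x = ψ x₀ → (x₀ : G)⁻¹ * x ∈ Subgroup.centralizer (H₁ : Set G) := by
      intro x hx
      have h1 : Cj x = Cj x₀ := congrArg Subtype.val hx
      set c := (x₀ : G)⁻¹ * x with hc
      have hcN : c ∈ N := N.mul_mem (N.inv_mem x₀.2) x.2
      rw [Subgroup.mem_centralizer_iff]
      intro h hh
      have h2 : (x : G) * h * (x : G)⁻¹ ∈ Cj x₀ := by
        rw [← h1]
        exact ⟨h, hh, rfl⟩
      obtain ⟨h', hh', he⟩ := h2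
      have he' : (x₀ : G) * h' * (x₀ : G)⁻¹ = (x : G) * h * (x : G)⁻¹ := he
      have h3 : h' = c * h * c⁻¹ := by
        rw [hc]
        calc h' = (x₀ : G)⁻¹ * ((x₀ : G) * h' * (x₀ : G)⁻¹) * x₀ := by group
          _ = (x₀ : G)⁻¹ * ((x : G) * h * (x : G)⁻¹) * x₀ := by rw [he']
          _ = _ := by group
      have h4 : c * h * c⁻¹ * h⁻¹ ∈ N ⊓ H₁ := by
        refine ⟨?_, ?_⟩
        · have := N.mul_mem hcN (hN.conj_mem c⁻¹ (N.inv_mem hcN) h)
          have h5 : c * (h * c⁻¹ * h⁻¹) = c * h * c⁻¹ * h⁻¹ := by group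
          rwa [h5] at this
        · rw [← h3]
          exact H₁.mul_mem hh' (H₁.inv_mem hh)
      rw [hinf, Subgroup.mem_bot] at h4
      have h6 : c * h * c⁻¹ = h := mul_inv_eq_one.1 h4
      rw [mul_inv_eq_iff_eq_mul] at h6
      exact h6.symm
    refine Nat.card_congr
      { toFun := fun x => ⟨(x₀ : G)⁻¹ * x.1, N.mul_mem (N.inv_mem x₀.2) x.1.2, hcent x.1 x.2⟩
        invFun := fun c => ⟨⟨x₀ * c.1, N.mul_mem x₀.2 c.2.1⟩, ?_⟩
        left_inv := fun x => ?_
        right_inv := fun c => ?_ }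
    · apply Subtype.ext
      show Cj _ = Cj x₀
      apply Subgroup.eq_of_le_of_card_ge
      · rintro _ ⟨z, hz, rfl⟩
        refine ⟨z, hz, ?_⟩
        have h1 := Subgroup.mem_centralizer_iff.1 c.2.2 z hz
        show (x₀ : G) * z * (x₀ : G)⁻¹ = ((x₀ : G) * c.1) * z * ((x₀ : G) * c.1)⁻¹
        calc (x₀ : G) * z * (x₀ : G)⁻¹ = (x₀ : G) * (z * c.1) * c.1⁻¹ * (x₀ : G)⁻¹ := by group
          _ = (x₀ : G) * (c.1 * z) * c.1⁻¹ * (x₀ : G)⁻¹ := by rw [h1]
          _ = _ := by group
      · rw [hCjcard, hCjcard]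
    · apply Subtype.ext
      apply Subtype.ext
      simp
    · apply Subtype.ext
      simp
  have h1 := h8_fib ψ _ hfibcard
  exact h1.symm

def h8_Good (G : Type*) [Group G] (m f : ℕ) : Prop :=
  (∃ q e : ℕ, q.Prime ∧ f = q ^ e) ∧
    (∃ K L : Subgroup G, K.Normal ∧ L.Normal ∧ K < L ∧
      (∀ M : Subgroup G, M.Normal → K ≤ M → M ≤ L → M = K ∨ M = L) ∧ f ∣ K.relIndex L) ∧
    (∃ q : ℕ, q.Prime ∧ q ∣ m ∧ f ≡ 1 [MOD q])

theorem h8_good_lift {G : Type*} [Group G] (N : Subgroup G) [hN : N.Normal] {m m' f : ℕ} (hm : m' ∣ m)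
    (h : h8_Good (G ⧸ N) m' f) : h8_Good G m f := by
  obtain ⟨h1, ⟨K, L, hK, hL, hlt, hmin, hd⟩, ⟨q, hq, hqd, hmod⟩⟩ := h
  refine ⟨h1, ⟨K.comap (QuotientGroup.mk' N), L.comap (QuotientGroup.mk' N), ?_, ?_, ?_, ?_, ?_⟩,
    ⟨q, hq, hqd.trans hm, hmod⟩⟩
  · exact Subgroup.Normal.comap hK _
  · exact Subgroup.Normal.comap hL _
  · exact (Subgroup.comap_lt_comap_of_surjective (QuotientGroup.mk'_surjective N)).2 hlt
  · intro M hM hKM hML
    have hsurj := QuotientGroup.mk'_surjective N
    have hNK : N ≤ M := by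
      intro x hx
      apply hKM
      show QuotientGroup.mk' N x ∈ K
      have h0 : QuotientGroup.mk' N x = 1 := (QuotientGroup.eq_one_iff x).2 hx
      rw [h0]
      exact K.one_mem
    have hker : (QuotientGroup.mk' N).ker ≤ M := by
      rw [QuotientGroup.ker_mk']
      exact hNK
    have hcm : (M.map (QuotientGroup.mk' N)).comap (QuotientGroup.mk' N) = M :=
      Subgroup.comap_map_eq_self hker
    haveI := hM
    have hK' : K ≤ M.map (QuotientGroup.mk' N) := by
      have h2 := Subgroup.map_mono (f := QuotientGroup.mk' N) hKM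
      rwa [Subgroup.map_comap_eq_self_of_surjective hsurj] at h2
    rcases hmin (M.map (QuotientGroup.mk' N)) (Subgroup.Normal.map hM _ hsurj) hK'
      ((Subgroup.map_le_iff_le_comap).2 hML) with h2 | h2
    · left
      rw [← h2, hcm]
    · right
      rw [← h2, hcm]
  · rw [Subgroup.relIndex_comap, Subgroup.map_comap_eq_self_of_surjective (QuotientGroup.mk'_surjective N)]
    exact hd

set_option maxHeartbeats 4000000 in
theorem h8_main : ∀ (c : ℕ) (G : Type u) [Group G] [Finite G] [Group.IsSolvable G], Nat.card G = c →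
    ∀ m n : ℕ, Nat.card G = m * n → m.Coprime n →
    ∃ l : List ℕ, Nat.card {H : Subgroup G // Nat.card H = m} = l.prod ∧ ∀ f ∈ l, h8_Good G m f := by
  intro c
  induction c using Nat.strong_induction_on with
  | _ c ih =>
  intro G _ _ _ hc m n hG hmn
  classical
  by_cases hG1 : Nat.card G = 1
  · refine ⟨[], ?_, by simp⟩
    have hm1 : m = 1 := by
      rw [hG1] at hG
      exact Nat.eq_one_of_mul_eq_one_right hG.symm
    rw [List.prod_nil, Nat.card_eq_one_iff_unique]
    refine ⟨⟨?_⟩, ⟨⟨⊥, by rw [Subgroup.card_bot, hm1]⟩⟩⟩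
    rintro ⟨H, hH⟩ ⟨K, hK⟩
    rw [hm1] at hH hK
    apply Subtype.ext
    exact (Subgroup.eq_bot_of_card_eq H hH).trans (Subgroup.eq_bot_of_card_eq K hK).symm
  haveI : Nontrivial G := Finite.one_lt_card_iff_nontrivial.1 (by
    have : 0 < Nat.card G := Nat.card_pos
    omega)
  obtain ⟨N, hNn, hNne, hNmin⟩ := CfsgLib.Solv.exists_minimal_normal G
  haveI := hNn
  obtain ⟨hNab, r, hr, hNr⟩ := CfsgLib.Solv.minimal_normal_elementary N hNne hNmin
  haveI : Fact r.Prime := ⟨hr⟩
  have hNp : IsPGroup r N := fun x => ⟨1, by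
    apply Subtype.ext
    rw [pow_one]
    exact hNr x x.2⟩
  obtain ⟨a, ha⟩ := IsPGroup.iff_card.1 hNp
  have hc1 : Nat.card N ≠ 1 := fun h => hNne (Subgroup.eq_bot_of_card_eq N h)
  have hcq : Nat.card (G ⧸ N) * Nat.card N = m * n := by
    rw [← hG]
    exact (Subgroup.card_eq_card_quotient_mul_card_subgroup N).symm
  have hlt : Nat.card (G ⧸ N) < c := by
    rw [← hc, Subgroup.card_eq_card_quotient_mul_card_subgroup N]
    have h1 : 2 ≤ Nat.card N := by
      have : 0 < Nat.card N := Nat.card_pos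
      omega
    have h2 : 0 < Nat.card (G ⧸ N) := Nat.card_pos
    nlinarith
  let π := QuotientGroup.mk' N
  have hπs : Function.Surjective π := QuotientGroup.mk'_surjective N
  have hker : π.ker = N := QuotientGroup.ker_mk' N
  rcases CfsgLib.Solv.hall_dichotomy hr hmn ⟨a, ha⟩ hc1 hcq Nat.card_pos with
    ⟨m', hm, hq, hm'n⟩ | ⟨n', hn, hq, hmn', hcm⟩
  · -- the minimal normal subgroup lies in every subgroup of order `m`
    have hNH : ∀ H : Subgroup G, Nat.card H = m → N ≤ H := by
      intro H hH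
      have h1 := CfsgLib.Solv.card_sup_mul_card_inf H N
      have hd : Nat.card ↥(H ⊓ N) ∣ Nat.card N := Subgroup.card_dvd_of_le inf_le_right
      obtain ⟨e, he⟩ := hd
      have hdpos : 0 < Nat.card ↥(H ⊓ N) := Nat.card_pos
      have h2 : Nat.card ↥(H ⊔ N) = m * e := by
        rw [hH, he] at h1
        have h3 : Nat.card ↥(H ⊔ N) * Nat.card ↥(H ⊓ N) = (m * e) * Nat.card ↥(H ⊓ N) := by
          rw [h1]
          ring
        exact Nat.eq_of_mul_eq_mul_right hdpos h3
      have h3 : Nat.card ↥(H ⊔ N) ∣ Nat.card G := Subgroup.card_subgroup_dvd_card _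
      rw [h2, hG] at h3
      have hmpos : 0 < m := Nat.pos_of_ne_zero (by
        rintro rfl
        rw [zero_mul] at hG
        exact (Nat.card_pos (α := G)).ne' hG)
      have h4 : e ∣ n := Nat.dvd_of_mul_dvd_mul_left hmpos h3
      have h5 : e ∣ m := by
        rw [hm, he]
        exact Dvd.dvd.mul_right (Dvd.intro_left _ rfl) _
      have h6 : e = 1 := Nat.eq_one_of_dvd_coprimes hmn h5 h4
      rw [h6, mul_one] at he
      have h7 : H ⊓ N = N := Subgroup.eq_of_le_of_card_ge inf_le_right (by rw [he])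
      exact inf_eq_right.1 h7
    obtain ⟨l, hl, hlg⟩ := ih _ hlt (G ⧸ N) rfl m' n hq hm'n
    refine ⟨l, ?_, fun f hf => h8_good_lift N (Dvd.intro_left _ hm.symm) (hlg f hf)⟩
    rw [← hl]
    have hNpos : 0 < Nat.card N := Nat.card_pos
    have hf1 : ∀ H : Subgroup G, Nat.card H = m → Nat.card ↥(H.map π) = m' := by
      intro H hH
      have h1 : Nat.card ↥(H.map π) = π.ker.relIndex H := (Subgroup.relIndex_ker H π).symm
      rw [h1, hker]
      have h2 := Subgroup.card_mul_index (N.subgroupOf H)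
      have h3 : Nat.card (N.subgroupOf H) = Nat.card N :=
        Nat.card_congr (Subgroup.subgroupOfEquivOfLe (hNH H hH)).toEquiv
      rw [h3, hH, hm, mul_comm] at h2
      have h4 : N.relIndex H * Nat.card N = m' * Nat.card N := by
        rw [show N.relIndex H = (N.subgroupOf H).index from rfl, h2]
        ring
      exact Nat.eq_of_mul_eq_mul_right hNpos h4
    have hf2 : ∀ K : Subgroup (G ⧸ N), Nat.card K = m' → Nat.card ↥(K.comap π) = m := by
      intro K hK
      have h1 := Subgroup.card_mul_index (K.comap π)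
      rw [Subgroup.index_comap_of_surjective K hπs, Subgroup.card_eq_card_quotient_mul_card_subgroup N] at h1
      have h2 := Subgroup.card_mul_index K
      rw [hK] at h2
      rw [← h2] at h1
      have hidx : 0 < K.index := Nat.pos_of_ne_zero Subgroup.index_ne_zero_of_finite
      have h3 : Nat.card ↥(K.comap π) * K.index = (m' * Nat.card N) * K.index := by
        rw [h1]
        ring
      have h4 := Nat.eq_of_mul_eq_mul_right hidx h3
      rw [h4, hm]
      ring
    exact Nat.card_congr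
      { toFun := fun H => ⟨H.1.map π, hf1 H.1 H.2⟩
        invFun := fun K => ⟨K.1.comap π, hf2 K.1 K.2⟩
        left_inv := fun H => Subtype.ext (Subgroup.comap_map_eq_self (by rw [hker]; exact hNH H.1 H.2))
        right_inv := fun K => Subtype.ext (Subgroup.map_comap_eq_self_of_surjective hπs K.1) }
  · -- coprime case
    obtain ⟨lq, hlq, hlqg⟩ := ih _ hlt (G ⧸ N) rfl m n' hq hmn'
    obtain ⟨H₀, hH₀, -⟩ := CfsgLib.Solv.hall_containing _ G rfl m n hG hmn ⊥ (by simp)
    have hcmN : (Nat.card N).Coprime m := hcm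
    have hcardmap : ∀ H : Subgroup G, Nat.card H = m → Nat.card ↥(H.map π) = m := by
      intro H hH
      have h1 : Nat.card ↥(H.map π) = π.ker.relIndex H := (Subgroup.relIndex_ker H π).symm
      have hinf : N ⊓ H = ⊥ := (Subgroup.disjoint_of_coprime_natCard (by rw [hH]; exact hcmN)).eq_bot
      rw [h1, hker, ← Subgroup.inf_relIndex_right, hinf, Subgroup.relIndex_bot_left, hH]
    let τ : {H : Subgroup G // Nat.card H = m} → {K : Subgroup (G ⧸ N) // Nat.card K = m} :=
      fun z => ⟨z.1.map π, hcardmap z.1 z.2⟩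
    set c₀ := (N ⊓ Subgroup.centralizer (H₀ : Set G)).relIndex N with hc₀
    have hc₀card : c₀ * Nat.card ↥(N ⊓ Subgroup.centralizer (H₀ : Set G)) = Nat.card N := by
      have h1 := Subgroup.card_mul_index ((N ⊓ Subgroup.centralizer (H₀ : Set G)).subgroupOf N)
      have h2 : Nat.card ((N ⊓ Subgroup.centralizer (H₀ : Set G)).subgroupOf N) =
          Nat.card ↥(N ⊓ Subgroup.centralizer (H₀ : Set G)) :=
        Nat.card_congr (Subgroup.subgroupOfEquivOfLe inf_le_left).toEquiv
      rw [h2] at h1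
      rw [mul_comm]
      exact h1
    have hfibres : ∀ y, Nat.card {z // τ z = y} = c₀ := by
      intro y
      obtain ⟨gq, hgq⟩ := CfsgLib.Solv.hall_conj _ (G ⧸ N) rfl m n' hq hmn' (H₀.map π) y.1 (hcardmap H₀ hH₀) y.2
      obtain ⟨g, rfl⟩ := hπs gq
      rw [h8_conj_smul] at hgq
      set H₁ := H₀.map (MulAut.conj g).toMonoidHom with hH₁def
      have hH₁card : Nat.card H₁ = m := by
        rw [← hH₀]
        exact Subgroup.card_map_of_injective (MulEquiv.injective _)
      have hH₁map : H₁.map π = y.1 := by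
        rw [← hgq, hH₁def, Subgroup.map_map, Subgroup.map_map]
        congr 1
      have hidx : H₁.index = n := by
        have h1 := Subgroup.card_mul_index H₁
        rw [hH₁card, hG] at h1
        have hmpos : 0 < m := by
          rw [← hH₀]
          exact Nat.card_pos
        exact Nat.eq_of_mul_eq_mul_left hmpos h1
      have h1 := h8_fibre N m hcmN H₁ hH₁card (by rw [hidx]; exact hmn)
      rw [hH₁def, h8_conj_cent N H₀ g, ← hH₁def] at h1
      have h2 : Nat.card {z // τ z = y} =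
          Nat.card {H : Subgroup G // Nat.card H = m ∧ H.map (QuotientGroup.mk' N) = H₁.map (QuotientGroup.mk' N)} := by
        refine Nat.card_congr
          { toFun := fun z => ⟨z.1.1, z.1.2, ?_⟩
            invFun := fun H => ⟨⟨H.1, H.2.1⟩, ?_⟩
            left_inv := fun z => rfl
            right_inv := fun H => rfl }
        · rw [show H₁.map (QuotientGroup.mk' N) = y.1 from hH₁map]
          exact congrArg Subtype.val z.2
        · apply Subtype.ext
          show H.1.map π = y.1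
          rw [← hH₁map]
          exact H.2.2
      rw [h2]
      have hdpos : 0 < Nat.card ↥(N ⊓ Subgroup.centralizer (H₀ : Set G)) := Nat.card_pos
      rw [← hc₀card] at h1
      exact Nat.eq_of_mul_eq_mul_right hdpos h1
    have hcount := h8_fib τ c₀ hfibres
    -- factorization of `c₀`
    obtain ⟨l₀, hl₀, hl₀g⟩ : ∃ l₀ : List ℕ, c₀ = l₀.prod ∧ ∀ f ∈ l₀, f ∣ Nat.card N ∧ (∃ e, f = r ^ e) ∧
        ∃ q : ℕ, q.Prime ∧ q ∣ m ∧ f ≡ 1 [MOD q] := by
      have hNc : ∀ x y : N, x * y = y * x := fun x y => hNab.is_comm.comm x y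
      letI cg : CommGroup N := { (inferInstance : Group N) with mul_comm := hNc }
      let ρ : H₀ →* MulAut N := (MulAut.conjNormal).comp H₀.subtype
      have hρ : ∀ (h : H₀) (x : N), ((ρ h x : N) : G) = h * x * (h : G)⁻¹ := fun h x =>
        MulAut.conjNormal_apply _ _
      have hXd : Nat.card ρ.range ∣ m := by
        rw [← hH₀, ← Subgroup.index_ker ρ]
        exact Subgroup.index_dvd_card _
      have hrm : r.Coprime m := by
        have h1 : r ∣ Nat.card N := by
          have ha0 : a ≠ 0 := by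
            rintro rfl
            rw [pow_zero] at ha
            exact hc1 ha
          rw [ha]
          exact dvd_pow_self r ha0
        exact Nat.Coprime.coprime_dvd_left h1 hcmN
      have hsolvX : Group.IsSolvable ρ.range := Group.isSolvable_of_surjective ρ.rangeRestrict_surjective
      obtain ⟨l₀, hl₀, hl₀g⟩ := h8_fixindex (r := r)
        (fun a => Subtype.ext (hNr a a.2)) ρ.range
        (Nat.Coprime.symm (Nat.Coprime.coprime_dvd_right hXd hrm)) hsolvX
        ((N ⊓ Subgroup.centralizer (H₀ : Set G)).subgroupOf N) (by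
          intro x
          constructor
          · rintro hx _ ⟨h, rfl⟩
            apply Subtype.ext
            rw [hρ, mul_inv_eq_iff_eq_mul]
            exact Subgroup.mem_centralizer_iff.1 (Subgroup.mem_subgroupOf.1 hx).2 _ h.2
          · intro hx
            refine Subgroup.mem_subgroupOf.2 ⟨x.2, ?_⟩
            refine Subgroup.mem_centralizer_iff.2 ?_
            intro h hh
            have h1 := hx (ρ ⟨h, hh⟩) ⟨_, rfl⟩
            have h2 := congrArg (fun z : N => (z : G)) h1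
            simp only [hρ] at h2
            rw [mul_inv_eq_iff_eq_mul] at h2
            exact h2)
      refine ⟨l₀, hl₀, fun f hf => ?_⟩
      obtain ⟨h1, h2, q, hq, hqd, hmod⟩ := hl₀g f hf
      exact ⟨h1, h2, q, hq, hqd.trans hXd, hmod⟩
    refine ⟨l₀ ++ lq, ?_, ?_⟩
    · rw [hcount, hlq, List.prod_append, hl₀, mul_comm]
    · intro f hf
      rcases List.mem_append.1 hf with hf | hf
      · obtain ⟨h1, ⟨e, he⟩, q, hq, hqd, hmod⟩ := hl₀g f hf
        refine ⟨⟨r, e, hr, he⟩, ⟨⊥, N, inferInstance, hNn, bot_lt_iff_ne_bot.2 hNne, ?_, ?_⟩, ⟨q, hq, hqd, hmod⟩⟩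
        · intro M hM _ hMN
          exact hNmin M hM hMN
        · rw [Subgroup.relIndex_bot_left]
          exact h1
      · exact h8_good_lift N dvd_rfl (hlqg f hf)

/-- Let `G` be a finite solvable group of order `mn` with `gcd(m, n) = 1`. Then the number of subgroups of order `m` is a product of natural numbers each of which is a power of a prime, divides the order of some chief factor of `G` (a quotient `L/K` of normal subgroups `K < L` of `G` with no normal subgroup of `G` strictly between them), and is congruent to `1` modulo some prime divisor of `m`. -/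
theorem result {G : Type*} [Group G] [Finite G] [Group.IsSolvable G] (m n : ℕ) (hG : Nat.card G = m * n) (hmn : Nat.Coprime m n) : ∃ (k : ℕ) (f : Fin k → ℕ), Nat.card {H : Subgroup G // Nat.card H = m} = ∏ i, f i ∧ ∀ i, (∃ q e : ℕ, q.Prime ∧ f i = q ^ e) ∧ (∃ K L : Subgroup G, K.Normal ∧ L.Normal ∧ K < L ∧ (∀ M : Subgroup G, M.Normal → K ≤ M → M ≤ L → M = K ∨ M = L) ∧ f i ∣ K.relIndex L) ∧ (∃ q : ℕ, q.Prime ∧ q ∣ m ∧ f i ≡ 1 [MOD q]) := by
  obtain ⟨l, hl, hlg⟩ := h8_main _ G rfl m n hG hmn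
  refine ⟨l.length, l.get, ?_, ?_⟩
  · rw [hl]
    conv_lhs => rw [← List.ofFn_get l]
    rw [List.prod_ofFn]
  · intro i
    exact hlg _ (List.get_mem l i)

end Cfsg.Agent.S4214
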