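import Cfsg.Statements.S4216
import Cfsg.Agent.Lib.FGS.Alperin

set_option autoImplicit false
open Cfsg
open scoped commutatorElement
open scoped Pointwise

namespace Cfsg.Agent.S4216

/-- Grün's first Theorem: if `P` is a Sylow `p`-subgroup of the finite group `G`, then `P ∩ G'` is the subgroup generated by `P ∩ N_G(P)'` together with the subgroups `P ∩ z P' z⁻¹` for all `z ∈ G`, where `'` denotes the derived subgroup and `N_G(P)` the normalizer of `P`. -/
theorem result {G : Type*} [Group G] [Finite G] {p : ℕ} [Fact p.Prime] (P : Sylow p G) : (P : Subgroup G) ⊓ commutator G = ((P : Subgroup G) ⊓ ⁅Subgroup.normalizer ((P : Subgroup G) : Set G), Subgroup.normalizer ((P : Subgroup G) : Set G)⁆) ⊔ ⨆ z : G, (P : Subgroup G) ⊓ (⁅(P : Subgroup G), (P : Subgroup G)⁆).map (MulAut.conj z).toMonoidHom := by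
  classical
  apply le_antisymm
  · refine CfsgLib.FGS.alperin_focal P _ ?_ ?_
    · intro x hx n hn
      apply Subgroup.mem_sup_left
      have e : x⁻¹ * (n⁻¹ * x * n) = ⁅x⁻¹, n⁻¹⁆ := by
        rw [commutatorElement_def]; group
      refine ⟨Subgroup.mul_mem _ (Subgroup.inv_mem _ hx) ?_, ?_⟩
      · exact (Subgroup.mem_normalizer_iff.1 (Subgroup.inv_mem _ hn) x).1 hx |> fun h => by simpa using h
      · rw [e]
        exact Subgroup.commutator_mem_commutator (Subgroup.inv_mem _ (Subgroup.le_normalizer hx)) (Subgroup.inv_mem _ hn)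
    · intro Q hQ y hy t ht htp
      apply Subgroup.mem_sup_right
      -- a conjugate of `T' = P ∩ N(H)` containing `t`
      have hTsyl : CfsgLib.Solv.IsSylowIn p ((P : Subgroup G) ⊓ Subgroup.normalizer (((P : Subgroup G) ⊓ (Q : Subgroup G) : Subgroup G) : Set G))
          (Subgroup.normalizer (((P : Subgroup G) ⊓ (Q : Subgroup G) : Subgroup G) : Set G)) :=
        ⟨inf_le_right, P.isPGroup'.to_le inf_le_left, hQ.1⟩
      have hzp : IsPGroup p (Subgroup.zpowers t) := by
        obtain ⟨k, hk⟩ := htp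
        exact IsPGroup.of_card (n := k) (by rw [Nat.card_zpowers, hk])
      obtain ⟨T2, hT2, htT2⟩ := CfsgLib.FGS.exists_sylowIn_ge ((Subgroup.zpowers_le).2 ht) hzp
      obtain ⟨b, hbN, hb⟩ := hTsyl.exists_conj_eq hT2
      have ht1 : t ∈ T2 := htT2 (Subgroup.mem_zpowers t)
      have hT2P : T2 ≤ MulAut.conj b • (P : Subgroup G) := by
        rw [← hb]
        exact Subgroup.pointwise_smul_le_pointwise_smul_iff.2 inf_le_left
      have hyconj : b⁻¹ * y * b ∈ (P : Subgroup G) := by
        have := (Subgroup.mem_normalizer_iff.1 (Subgroup.inv_mem _ hbN) y).1 hy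
        have h2 : b⁻¹ * y * b⁻¹⁻¹ ∈ (P : Subgroup G) ⊓ (Q : Subgroup G) := this
        rw [inv_inv] at h2
        exact h2.1
      have hy2 : y ∈ MulAut.conj b • (P : Subgroup G) := by
        rw [CfsgLib.Solv.mem_conj_smul]; exact hyconj
      have ht2 := hT2P ht1
      have hcm : ⁅y⁻¹, t⁻¹⁆ ∈ (⁅MulAut.conj b • (P : Subgroup G), MulAut.conj b • (P : Subgroup G)⁆ : Subgroup G) :=
        Subgroup.commutator_mem_commutator (Subgroup.inv_mem _ hy2) (Subgroup.inv_mem _ ht2)
      have hmap : (⁅MulAut.conj b • (P : Subgroup G), MulAut.conj b • (P : Subgroup G)⁆ : Subgroup G) =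
          (⁅(P : Subgroup G), (P : Subgroup G)⁆ : Subgroup G).map (MulAut.conj b).toMonoidHom :=
        (Subgroup.map_commutator _ _ _).symm
      rw [hmap] at hcm
      refine Subgroup.mem_iSup_of_mem b ⟨?_, ?_⟩
      · have h4 : t⁻¹ * y * t ∈ (P : Subgroup G) ⊓ (Q : Subgroup G) := by
          have := (Subgroup.mem_normalizer_iff.1 (Subgroup.inv_mem _ ht) y).1 hy
          simpa using this
        exact Subgroup.mul_mem _ (Subgroup.inv_mem _ hy.1) h4.1
      · have e : y⁻¹ * (t⁻¹ * y * t) = ⁅y⁻¹, t⁻¹⁆ := by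
          rw [commutatorElement_def]; group
        rw [e]
        exact hcm
  · have hc : ∀ A B : Subgroup G, ⁅A, B⁆ ≤ commutator G := fun A B =>
      Subgroup.commutator_mono le_top le_top
    refine sup_le (le_inf inf_le_left (inf_le_right.trans (hc _ _))) ?_
    refine iSup_le fun z => ?_
    refine le_inf inf_le_left (inf_le_right.trans ?_)
    rintro _ ⟨w, hw, rfl⟩
    exact (Subgroup.Normal.conj_mem inferInstance w (hc _ _ hw) z)

end Cfsg.Agent.S4216
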