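import Cfsg.Statements.S4217
import Cfsg.Agent.Lib.FGS.Basic

set_option autoImplicit false
open Cfsg
open scoped commutatorElement
open scoped Pointwise

namespace Cfsg.Agent.S4217

section abs
variable {Q M : Type*} [Group Q] [AddCommGroup M]

private def IsCob (act : Q → M →+ M) (f : Q → Q → M) (n : ℤ) : Prop :=
  ∃ ψ : Q → M, ∀ x y, n • f x y = ψ x + act x (ψ y) - ψ (x * y)

private def cobSub (act : Q → M →+ M) (f : Q → Q → M) : AddSubgroup ℤ where
  carrier := {n | IsCob act f n}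
  zero_mem' := ⟨0, fun x y => by simp⟩
  add_mem' := by
    rintro a b ⟨ψ₁, h₁⟩ ⟨ψ₂, h₂⟩
    refine ⟨ψ₁ + ψ₂, fun x y => ?_⟩
    rw [add_zsmul, h₁, h₂]
    simp only [Pi.add_apply, map_add]
    abel
  neg_mem' := by
    rintro a ⟨ψ, h⟩
    refine ⟨-ψ, fun x y => ?_⟩
    rw [neg_zsmul, h]
    simp only [Pi.neg_apply, map_neg]
    abel

private lemma bezout_aux (B : AddSubgroup ℤ) : ∀ N : ℕ, (N : ℤ) ∈ B → N ≠ 0 →
    (∀ p : ℕ, p.Prime → p ∣ N → ∃ n : ℕ, (n : ℤ) ∈ B ∧ ¬ p ∣ n) → (1 : ℤ) ∈ B := by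
  intro N
  induction N using Nat.strong_induction_on with
  | _ N ih =>
  intro hN hN0 h
  by_cases h1 : N = 1
  · rw [h1] at hN; simpa using hN
  obtain ⟨n, hn, hpn⟩ := h N.minFac (Nat.minFac_prime h1) (Nat.minFac_dvd N)
  have hg : ((Nat.gcd N n : ℕ) : ℤ) ∈ B := by
    rw [Nat.gcd_eq_gcd_ab]
    have h2 := B.zsmul_mem hN (Nat.gcdA N n)
    have h3 := B.zsmul_mem hn (Nat.gcdB N n)
    rw [smul_eq_mul] at h2 h3
    rw [mul_comm (N : ℤ), mul_comm (n : ℤ)]
    exact B.add_mem h2 h3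
  have hg0 : Nat.gcd N n ≠ 0 := Nat.gcd_ne_zero_left hN0
  have hdvd : Nat.gcd N n ∣ N := Nat.gcd_dvd_left _ _
  have hlt : Nat.gcd N n < N := by
    refine lt_of_le_of_ne (Nat.le_of_dvd (Nat.pos_of_ne_zero hN0) hdvd) ?_
    intro he
    apply hpn
    exact (Nat.minFac_dvd N).trans (he ▸ Nat.gcd_dvd_right N n)
  exact ih _ hlt hg hg0 (fun p hp hd => h p hp (hd.trans hdvd))

private lemma avg [Finite Q] (act : Q → M →+ M) (f : Q → Q → M)
    (hf : ∀ x y g, f x y + f (x * y) g = act x (f y g) + f x (y * g))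
    (S : Subgroup Q) (hS : ∀ x g, ∀ σ ∈ S, f x (g * σ) = f x g) : IsCob act f (S.index : ℤ) := by
  classical
  haveI := Fintype.ofFinite (Q ⧸ S)
  let F : Q → M := fun x => ∑ C : Q ⧸ S, f x C.out
  refine ⟨F, fun x y => ?_⟩
  have h1 : ∑ C : Q ⧸ S, (f x y + f (x * y) C.out) = ∑ C : Q ⧸ S, (act x (f y C.out) + f x (y * C.out)) :=
    Finset.sum_congr rfl fun C _ => hf x y C.out
  rw [Finset.sum_add_distrib, Finset.sum_add_distrib, Finset.sum_const, Finset.card_univ, ← map_sum] at h1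
  have h2 : ∑ C : Q ⧸ S, f x (y * C.out) = F x := by
    have h3 : ∀ C : Q ⧸ S, f x (y * C.out) = f x ((y • C).out) := by
      intro C
      have : y • C = ((y * C.out : Q) : Q ⧸ S) := by
        conv_lhs => rw [← QuotientGroup.out_eq' C]
        rfl
      rw [this]
      obtain ⟨h, hh⟩ := QuotientGroup.mk_out_eq_mul S (y * C.out)
      rw [hh]; exact (hS x _ _ h.2).symm
    simp only [h3]
    exact Equiv.sum_comp (MulAction.toPerm y) (fun C : Q ⧸ S => f x C.out)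
  rw [h2] at h1
  have hcard : S.index = Fintype.card (Q ⧸ S) := by
    rw [Subgroup.index_eq_card, Nat.card_eq_fintype_card]
  rw [hcard, natCast_zsmul, eq_sub_iff_add_eq, add_comm (F x)]
  exact h1

private lemma cob_of_related (act : Q → M →+ M) {f f' : Q → Q → M} (φ : Q → M)
    (hrel : ∀ x y, f' x y = φ x + act x (φ y) + f x y - φ (x * y)) (n : ℤ)
    (h : IsCob act f' n) : IsCob act f n := by
  obtain ⟨ψ, hψ⟩ := h
  refine ⟨fun x => ψ x - n • φ x, fun x y => ?_⟩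
  have e : n • f x y = n • f' x y - n • φ x - n • act x (φ y) + n • φ (x * y) := by
    rw [hrel]
    simp only [zsmul_add, zsmul_sub]
    abel
  rw [e, hψ]
  simp only [map_sub, map_zsmul]
  abel

end abs

section conc
variable {G : Type*} [Group G] (A : Subgroup G) [hAn : A.Normal]

private noncomputable instance commA [h : IsMulCommutative A] : CommGroup A :=
  { (inferInstance : Group A) with mul_comm := h.is_comm.comm }

private noncomputable def actA (x : G ⧸ A) : Additive A →+ Additive A :=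
  MonoidHom.toAdditive ((MulAut.conjNormal (x.out : G)).toMonoidHom)

private lemma actA_coe [hA : IsMulCommutative A] (g : G) (x : G ⧸ A) (hg : (g : G ⧸ A) = x) (m : Additive A) :
    ((Additive.toMul (actA A x m) : A) : G) = g * ((Additive.toMul m : A) : G) * g⁻¹ := by
  have h0 : ((Additive.toMul (actA A x m) : A) : G) = x.out * ((Additive.toMul m : A) : G) * x.out⁻¹ := by
    show ((MulAut.conjNormal (x.out : G) (Additive.toMul m) : A) : G) = _
    rw [MulAut.conjNormal_apply]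
  rw [h0]
  have h1 : g⁻¹ * x.out ∈ A := by
    rw [← QuotientGroup.eq, hg, QuotientGroup.out_eq']
  obtain ⟨a, ha⟩ : ∃ a : A, (a : G) = g⁻¹ * x.out := ⟨⟨_, h1⟩, rfl⟩
  have h2 : x.out = g * (a : G) := by rw [ha]; group
  rw [h2]
  have h3 : (a : G) * ((Additive.toMul m : A) : G) = ((Additive.toMul m : A) : G) * (a : G) :=
    congrArg Subtype.val (hA.is_comm.comm a (Additive.toMul m))
  calc g * (a : G) * ((Additive.toMul m : A) : G) * (g * (a : G))⁻¹
      = g * ((a : G) * ((Additive.toMul m : A) : G)) * (a : G)⁻¹ * g⁻¹ := by group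
    _ = g * (((Additive.toMul m : A) : G) * (a : G)) * (a : G)⁻¹ * g⁻¹ := by rw [h3]
    _ = _ := by group

private lemma dfc_mem (s : G ⧸ A → G) (hs : ∀ x, (s x : G ⧸ A) = x) (x y : G ⧸ A) :
    s x * s y * (s (x * y))⁻¹ ∈ A := by
  rw [← QuotientGroup.eq_one_iff]
  simp only [QuotientGroup.mk_mul, QuotientGroup.mk_inv, hs]
  group

private def dfc (s : G ⧸ A → G) (hs : ∀ x, (s x : G ⧸ A) = x) (x y : G ⧸ A) : Additive A :=
  Additive.ofMul ⟨s x * s y * (s (x * y))⁻¹, dfc_mem A s hs x y⟩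

private lemma dfc_cocycle [IsMulCommutative A] (s : G ⧸ A → G) (hs : ∀ x, (s x : G ⧸ A) = x) (x y g : G ⧸ A) :
    dfc A s hs x y + dfc A s hs (x * y) g = actA A x (dfc A s hs y g) + dfc A s hs x (y * g) := by
  apply Additive.toMul.injective
  apply Subtype.ext
  simp only [toMul_add, Subgroup.coe_mul]
  rw [actA_coe A (s x) x (hs x)]
  show (s x * s y * (s (x * y))⁻¹) * (s (x * y) * s g * (s (x * y * g))⁻¹) =
    s x * (s y * s g * (s (y * g))⁻¹) * (s x)⁻¹ * (s x * s (y * g) * (s (x * (y * g)))⁻¹)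
  rw [mul_assoc x y g]
  group

private lemma sec_mem (s s' : G ⧸ A → G) (hs : ∀ x, (s x : G ⧸ A) = x) (hs' : ∀ x, (s' x : G ⧸ A) = x)
    (x : G ⧸ A) : s' x * (s x)⁻¹ ∈ A := by
  rw [← QuotientGroup.eq_one_iff]
  simp only [QuotientGroup.mk_mul, QuotientGroup.mk_inv, hs, hs']
  group

private lemma dfc_relate [IsMulCommutative A] (s s' : G ⧸ A → G) (hs : ∀ x, (s x : G ⧸ A) = x)
    (hs' : ∀ x, (s' x : G ⧸ A) = x) (x y : G ⧸ A) :
    dfc A s' hs' x y = Additive.ofMul (⟨s' x * (s x)⁻¹, sec_mem A s s' hs hs' x⟩ : A)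
      + actA A x (Additive.ofMul (⟨s' y * (s y)⁻¹, sec_mem A s s' hs hs' y⟩ : A))
      + dfc A s hs x y - Additive.ofMul (⟨s' (x * y) * (s (x * y))⁻¹, sec_mem A s s' hs hs' (x * y)⟩ : A) := by
  rw [eq_sub_iff_add_eq]
  apply Additive.toMul.injective
  apply Subtype.ext
  simp only [toMul_add, Subgroup.coe_mul]
  rw [actA_coe A (s x) x (hs x)]
  show (s' x * s' y * (s' (x * y))⁻¹) * (s' (x * y) * (s (x * y))⁻¹) =
    (s' x * (s x)⁻¹) * (s x * (s' y * (s y)⁻¹) * (s x)⁻¹) * (s x * s y * (s (x * y))⁻¹)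
  group

private lemma index_mem [Finite G] [IsMulCommutative A] (s₀ : G ⧸ A → G) (hs₀ : ∀ x, (s₀ x : G ⧸ A) = x)
    (S : Subgroup (G ⧸ A)) (K : Subgroup G) (hK : K ⊓ A = ⊥)
    (hKA : K ⊔ A = S.comap (QuotientGroup.mk' A)) :
    IsCob (actA A) (dfc A s₀ hs₀) (S.index : ℤ) := by
  classical
  have hk : ∀ σ : G ⧸ A, σ ∈ S → ∃ κ ∈ K, (κ : G ⧸ A) = σ := by
    intro σ hσ
    obtain ⟨g, rfl⟩ := QuotientGroup.mk'_surjective A σ
    have h1 : g ∈ K ⊔ A := by rw [hKA]; exact hσ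
    rw [Subgroup.mem_sup_of_normal_right] at h1
    obtain ⟨κ, hκ, a, ha, rfl⟩ := h1
    refine ⟨κ, hκ, ?_⟩
    have h2 : ((a : G) : G ⧸ A) = 1 := (QuotientGroup.eq_one_iff a).2 ha
    show (κ : G ⧸ A) = ((κ * a : G) : G ⧸ A)
    rw [QuotientGroup.mk_mul, h2, mul_one]
  let k : G ⧸ A → G := fun σ => if h : σ ∈ S then Classical.choose (hk σ h) else 1
  have hkK : ∀ σ ∈ S, k σ ∈ K := by
    intro σ hσ
    simp only [k, dif_pos hσ]
    exact (Classical.choose_spec (hk σ hσ)).1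
  have hkπ : ∀ σ ∈ S, (k σ : G ⧸ A) = σ := by
    intro σ hσ
    simp only [k, dif_pos hσ]
    exact (Classical.choose_spec (hk σ hσ)).2
  have hkmul : ∀ σ ∈ S, ∀ τ ∈ S, k (σ * τ) = k σ * k τ := by
    intro σ hσ τ hτ
    have h1 : (k σ * k τ)⁻¹ * k (σ * τ) ∈ K ⊓ A := by
      refine Subgroup.mem_inf.2 ⟨K.mul_mem (K.inv_mem (K.mul_mem (hkK σ hσ) (hkK τ hτ))) (hkK _ (S.mul_mem hσ hτ)), ?_⟩
      rw [← QuotientGroup.eq, QuotientGroup.mk_mul, hkπ σ hσ, hkπ τ hτ, hkπ _ (S.mul_mem hσ hτ)]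
    rw [hK, Subgroup.mem_bot, inv_mul_eq_one] at h1
    exact h1.symm
  let r : G ⧸ A → G ⧸ A := fun x => (x : (G ⧸ A) ⧸ S).out
  have hr : ∀ x, (r x)⁻¹ * x ∈ S := by
    intro x
    obtain ⟨h, hh⟩ := QuotientGroup.mk_out_eq_mul S x
    have : r x = x * h := hh
    rw [this]
    have h3 : (x * (h : G ⧸ A))⁻¹ * x = (h : G ⧸ A)⁻¹ := by group
    rw [h3]
    exact S.inv_mem h.2
  have hrτ : ∀ x, ∀ τ ∈ S, r (x * τ) = r x := by
    intro x τ hτ
    show ((x * τ : G ⧸ A) : (G ⧸ A) ⧸ S).out = (x : (G ⧸ A) ⧸ S).out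
    rw [QuotientGroup.mk_mul_of_mem x hτ]
  let s : G ⧸ A → G := fun x => s₀ (r x) * k ((r x)⁻¹ * x)
  have hs : ∀ x, (s x : G ⧸ A) = x := by
    intro x
    show ((s₀ (r x) * k ((r x)⁻¹ * x) : G) : G ⧸ A) = x
    rw [QuotientGroup.mk_mul, hs₀, hkπ _ (hr x)]
    group
  have hsτ : ∀ x, ∀ τ ∈ S, s (x * τ) = s x * k τ := by
    intro x τ hτ
    show s₀ (r (x * τ)) * k ((r (x * τ))⁻¹ * (x * τ)) = s₀ (r x) * k ((r x)⁻¹ * x) * k τ
    rw [hrτ x τ hτ, mul_assoc, ← hkmul _ (hr x) τ hτ, mul_assoc]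
  have hinv : ∀ x g, ∀ σ ∈ S, dfc A s hs x (g * σ) = dfc A s hs x g := by
    intro x g σ hσ
    apply Additive.toMul.injective
    apply Subtype.ext
    show s x * s (g * σ) * (s (x * (g * σ)))⁻¹ = s x * s g * (s (x * g))⁻¹
    rw [← mul_assoc x g σ, hsτ g σ hσ, hsτ (x * g) σ hσ]
    group
  have h1 := avg (actA A) (dfc A s hs) (dfc_cocycle A s hs) S hinv
  exact cob_of_related (actA A) _ (dfc_relate A s₀ s hs₀ hs) _ h1

end conc

/-- Let `A` be an abelian normal subgroup of the finite group `G`. Then `A` has a complement in `G` if and only if, for every prime `p` dividing the index of `A`, there are a Sylow `p`-subgroup `S` of `G/A` and a subgroup `K` of `G` with `K ∩ A = 1` and `KA` equal to the preimage of `S` (that is, `A` has a complement in the preimage of a Sylow `p`-subgroup of `G/A`). -/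
theorem result {G : Type*} [Group G] [Finite G] (A : Subgroup G) [A.Normal] (hA : IsMulCommutative A) : (∃ K : Subgroup G, K.IsComplement' A) ↔ ∀ p : ℕ, p.Prime → p ∣ A.index → ∃ (S : Sylow p (G ⧸ A)) (K : Subgroup G), K ⊓ A = ⊥ ∧ K ⊔ A = (S : Subgroup (G ⧸ A)).comap (QuotientGroup.mk' A) := by
  haveI := hA
  constructor
  · rintro ⟨K, hK⟩ p hp -
    haveI : Fact p.Prime := ⟨hp⟩
    let S : Sylow p (G ⧸ A) := default
    refine ⟨S, K ⊓ (S : Subgroup (G ⧸ A)).comap (QuotientGroup.mk' A), ?_, ?_⟩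
    · have h1 : K ⊓ A = ⊥ := hK.disjoint.eq_bot
      rw [eq_bot_iff, ← h1]
      exact inf_le_inf_right _ inf_le_left
    · apply le_antisymm
      · refine sup_le inf_le_right ?_
        intro a ha
        have h2 : ((a : G) : G ⧸ A) = 1 := (QuotientGroup.eq_one_iff a).2 ha
        show ((a : G) : G ⧸ A) ∈ (S : Subgroup (G ⧸ A))
        rw [h2]
        exact Subgroup.one_mem _
      · intro x hx
        have h1 : x ∈ K ⊔ A := by rw [hK.sup_eq_top]; exact Subgroup.mem_top x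
        rw [Subgroup.mem_sup_of_normal_right] at h1
        obtain ⟨κ, hκ, a, ha, rfl⟩ := h1
        have h2 : ((a : G) : G ⧸ A) = 1 := (QuotientGroup.eq_one_iff a).2 ha
        have h3 : κ ∈ (S : Subgroup (G ⧸ A)).comap (QuotientGroup.mk' A) := by
          have h4 : ((κ * a : G) : G ⧸ A) ∈ (S : Subgroup (G ⧸ A)) := hx
          rw [QuotientGroup.mk_mul, h2, mul_one] at h4
          exact h4
        exact Subgroup.mul_mem _ (Subgroup.mem_sup_left (Subgroup.mem_inf.2 ⟨hκ, h3⟩)) (Subgroup.mem_sup_right ha)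
  · intro hyp
    let s₀ : G ⧸ A → G := fun x => x.out
    have hs₀ : ∀ x, (s₀ x : G ⧸ A) = x := fun x => QuotientGroup.out_eq' x
    have hN : ((Nat.card (G ⧸ A) : ℕ) : ℤ) ∈ cobSub (actA A) (dfc A s₀ hs₀) := by
      have h1 := index_mem A s₀ hs₀ ⊥ ⊥ (bot_inf_eq _) (by
        rw [bot_sup_eq]
        ext x
        simp only [Subgroup.mem_comap, Subgroup.mem_bot]
        exact (QuotientGroup.eq_one_iff x).symm)
      rw [Subgroup.index_bot] at h1
      exact h1
    have h1 : (1 : ℤ) ∈ cobSub (actA A) (dfc A s₀ hs₀) := by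
      refine bezout_aux _ (Nat.card (G ⧸ A)) hN Nat.card_pos.ne' ?_
      intro p hp hd
      haveI : Fact p.Prime := ⟨hp⟩
      rw [← Subgroup.index_eq_card] at hd
      obtain ⟨S, K, hK, hKA⟩ := hyp p hp hd
      exact ⟨(S : Subgroup (G ⧸ A)).index, index_mem A s₀ hs₀ _ K hK hKA, S.not_dvd_index⟩
    obtain ⟨ψ, hψ⟩ := h1
    let s' : G ⧸ A → G := fun x => ((Additive.toMul (ψ x) : A) : G)⁻¹ * s₀ x
    have hs' : ∀ x, (s' x : G ⧸ A) = x := by
      intro x
      show (((((Additive.toMul (ψ x) : A) : G)⁻¹ * s₀ x : G)) : G ⧸ A) = x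
      have h2 : (((Additive.toMul (ψ x) : A) : G) : G ⧸ A) = 1 :=
        (QuotientGroup.eq_one_iff _).2 (Additive.toMul (ψ x)).2
      rw [QuotientGroup.mk_mul, QuotientGroup.mk_inv, h2, hs₀]
      group
    have hφ : ∀ x, (Additive.ofMul (⟨s' x * (s₀ x)⁻¹, sec_mem A s₀ s' hs₀ hs' x⟩ : A)) = - ψ x := by
      intro x
      apply Additive.toMul.injective
      apply Subtype.ext
      show ((Additive.toMul (ψ x) : A) : G)⁻¹ * s₀ x * (s₀ x)⁻¹ = ((Additive.toMul (ψ x) : A) : G)⁻¹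
      group
    have hzero : ∀ x y, dfc A s' hs' x y = 0 := by
      intro x y
      have h2 := dfc_relate A s₀ s' hs₀ hs' x y
      simp only [hφ] at h2
      have h3 := hψ x y
      rw [one_smul] at h3
      rw [h2, h3, map_neg]
      abel
    have hhom : ∀ x y, s' (x * y) = s' x * s' y := by
      intro x y
      have h2 := hzero x y
      have h3 : s' x * s' y * (s' (x * y))⁻¹ = 1 := congrArg Subtype.val (congrArg Additive.toMul h2)
      exact (mul_inv_eq_one.1 h3).symm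
    let σ : G ⧸ A →* G := MonoidHom.mk' s' hhom
    have hσ : ∀ x, ((σ x : G) : G ⧸ A) = x := hs'
    have hinj : Function.Injective σ := by
      intro x y hxy
      rw [← hσ x, ← hσ y, hxy]
    refine ⟨σ.range, Subgroup.isComplement'_of_card_mul_and_disjoint ?_ ?_⟩
    · rw [Nat.card_congr (MonoidHom.ofInjective hinj).toEquiv.symm, mul_comm, ← Subgroup.index_eq_card]
      exact Subgroup.card_mul_index A
    · rw [Subgroup.disjoint_def]
      rintro _ ⟨q, rfl⟩ hq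
      have h2 : ((σ q : G) : G ⧸ A) = 1 := (QuotientGroup.eq_one_iff _).2 hq
      rw [hσ] at h2
      rw [h2, map_one]

end Cfsg.Agent.S4217
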