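import Cfsg.Statements.S4219
import Cfsg.Agent.Lib.FGS.Mod

set_option autoImplicit false
open Cfsg

namespace Cfsg.Agent.S4219

theorem aux {G : Type*} [Group G] [Finite G] {α : Type*} {t : ℕ} [MulAction G α]
    (hG : MulAction.IsMultiplyPretransitive G α t) (x : Fin t ↪ α) {p : ℕ} [Fact p.Prime]
    (H : Subgroup G) (hH : H = MulAction.stabilizer G x) (P : Sylow p H) (a b : Fin t ↪ α)
    (P₀ : Subgroup G) (hP₀ : P₀ = (P : Subgroup H).map H.subtype)
    (hfixa : ∀ y ∈ P₀, y • a = a) (hfixb : ∀ y ∈ P₀, y • b = b) :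
    ∃ g ∈ Subgroup.normalizer (P₀ : Set G), g • a = b := by
  classical
  obtain ⟨u, hu⟩ := hG.exists_smul_eq a b
  obtain ⟨v, hv⟩ := hG.exists_smul_eq x b
  set P₁ : Subgroup G := P₀.map (MulAut.conj u).toMonoidHom with hP₁
  have hP₀le : P₀ ≤ MulAction.stabilizer G b := fun y hy => hfixb y hy
  have hP₁le : P₁ ≤ MulAction.stabilizer G b := by
    rintro _ ⟨y, hy, rfl⟩
    show (u * y * u⁻¹) • b = b
    rw [← hu, mul_smul, mul_smul, inv_smul_smul, hfixa y hy]
  have hcP₀ : Nat.card P₀ = Nat.card (P : Subgroup H) := by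
    rw [hP₀]
    exact Subgroup.card_map_of_injective Subtype.val_injective
  have hcP₁ : Nat.card P₁ = Nat.card P₀ :=
    Subgroup.card_map_of_injective (MulAut.conj u).injective
  have hcH : Nat.card (MulAction.stabilizer G b) = Nat.card H := by
    rw [hH, ← hv, MulAction.stabilizer_smul_eq_stabilizer_map_conj]
    exact Subgroup.card_map_of_injective (MulAut.conj v).injective
  have hP₀p : IsPGroup p P₀ := by
    rw [hP₀]
    exact P.isPGroup'.map H.subtype
  have hP₁p : IsPGroup p P₁ := hP₀p.map _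
  obtain ⟨h, hh, hconj⟩ := CfsgLib.FGS.conj_in_of_card hP₁le hP₀le hP₁p hcP₁ (by
    intro m hm
    have h1 := Subgroup.card_mul_index (P : Subgroup H)
    rw [hcP₁, hcP₀, hcH, ← h1] at hm
    have h2 : m = (P : Subgroup H).index :=
      Nat.eq_of_mul_eq_mul_left (Nat.card_pos) hm
    rw [h2]
    exact P.not_dvd_index)
  refine ⟨h * u, ?_, ?_⟩
  · apply CfsgLib.FGS.mem_normalizer_of_conj_le
    intro y hy
    have h1 := hconj (u * y * u⁻¹) ⟨y, hy, rfl⟩
    have h2 : h * u * y * (h * u)⁻¹ = h * (u * y * u⁻¹) * h⁻¹ := by group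
    rw [h2]
    exact h1
  · rw [mul_smul, hu]
    exact hh


/-- Let a finite group `G` act `t`-fold transitively on a finite set, let `H` be the stabilizer of `t` distinct points and `P` a Sylow `p`-subgroup of `H`. Then the normalizer of `P` in `G` is `t`-fold transitive on the fixed points of `P`: any `t` distinct fixed points of `P` can be carried to any other `t` distinct fixed points of `P` by an element normalizing `P`. -/
theorem result {G : Type*} [Group G] [Finite G] {α : Type*} [Fintype α] [MulAction G α] {t : ℕ} (hG : MulAction.IsMultiplyPretransitive G α t) (x : Fin t ↪ α) {p : ℕ} [Fact p.Prime] (P : Sylow p (MulAction.stabilizer G x)) (a b : Fin t ↪ α) (ha : ∀ i, a i ∈ MulAction.fixedPoints ((P : Subgroup (MulAction.stabilizer G x)).map (MulAction.stabilizer G x).subtype) α) (hb : ∀ i, b i ∈ MulAction.fixedPoints ((P : Subgroup (MulAction.stabilizer G x)).map (MulAction.stabilizer G x).subtype) α) : ∃ g ∈ Subgroup.normalizer ((((P : Subgroup (MulAction.stabilizer G x)).map (MulAction.stabilizer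 G x).subtype) : Subgroup G) : Set G), g • a = b := by
  refine aux hG x _ rfl P a b _ rfl ?_ ?_
  · intro y hy
    ext i
    exact congrArg (fun z => z) ((MulAction.mem_fixedPoints.mp (ha i)) ⟨y, hy⟩)
  · intro y hy
    ext i
    exact congrArg (fun z => z) ((MulAction.mem_fixedPoints.mp (hb i)) ⟨y, hy⟩)

end Cfsg.Agent.S4219
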