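import Cfsg.Statements.S4222
import Cfsg.Agent.Lib.FGS.Elem

set_option autoImplicit false
open Cfsg

namespace Cfsg.Agent.S4222

/-- If a normal subgroup `N` of a finite group is complete (its centre is trivial and every automorphism of `N` is inner), then the group is the internal direct product of `N` and the centralizer of `N`: the centralizer is a complement to `N`. -/
theorem result {T : Type*} [Group T] [Finite T] (N : Subgroup T) [N.Normal] (hz : Subgroup.center ↥N = ⊥) (ha : Function.Surjective (MulAut.conj : ↥N →* MulAut ↥N)) : (Subgroup.centralizer (N : Set T)).IsComplement' N := by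
  classical
  apply Subgroup.isComplement'_of_disjoint_and_mul_eq_univ
  · rw [Subgroup.disjoint_def]
    intro x hx hxN
    have hm : (⟨x, hxN⟩ : N) ∈ Subgroup.center ↥N := by
      rw [Subgroup.mem_center_iff]
      intro y
      ext
      exact Subgroup.mem_centralizer_iff.mp hx y y.2
    rw [hz, Subgroup.mem_bot] at hm
    exact congrArg Subtype.val hm
  · rw [Set.eq_univ_iff_forall]
    intro t
    obtain ⟨n, hn⟩ := ha (MulAut.conjNormal t)
    have hconj : ∀ y : N, (n : T) * y * (n : T)⁻¹ = t * y * t⁻¹ := by
      intro y
      have := DFunLike.congr_fun hn y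
      have h2 := congrArg Subtype.val this
      simpa [MulAut.conj_apply, MulAut.conjNormal_apply] using h2
    refine Set.mem_mul.mpr ⟨t * (n : T)⁻¹, ?_, n, n.2, by simp⟩
    rw [SetLike.mem_coe, Subgroup.mem_centralizer_iff]
    intro y hy
    have h3 := hconj ⟨(n : T)⁻¹ * y * n, by
      have := ‹N.Normal›.conj_mem y hy ((n : T)⁻¹)
      simpa using this⟩
    simp only at h3
    have h4 : (n : T) * ((n : T)⁻¹ * y * n) * (n : T)⁻¹ = y := by group
    rw [h4] at h3
    calc y * (t * (n : T)⁻¹) = (t * ((n : T)⁻¹ * y * n) * t⁻¹) * (t * (n : T)⁻¹) := by rw [← h3]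
      _ = t * (n : T)⁻¹ * y := by group

end Cfsg.Agent.S4222
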