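import Cfsg.Statements.S4224
import Cfsg.Agent.Lib.FGS.Regular

set_option autoImplicit false
open Cfsg
open scoped commutatorElement
open scoped Pointwise

namespace Cfsg.Agent.S4224

/-- In a regular `p`-group, for all elements `a`, `b` and every power `q = p^k`: `a^q` commutes with `b` if and only if the commutator `a⁻¹b⁻¹ab` has `q`-th power equal to `1`. -/
theorem result {G : Type*} [Group G] [Finite G] {p : ℕ} [Fact p.Prime] (hG : Cfsg.IsRegularPGroup p G) (a b : G) (k : ℕ) : a ^ p ^ k * b = b * a ^ p ^ k ↔ (a⁻¹ * b⁻¹ * a * b) ^ p ^ k = 1 := by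
  have h := CfsgLib.FGS.regPair hG k a⁻¹ b⁻¹
  have e : a⁻¹ * b⁻¹ * a⁻¹⁻¹ * b⁻¹⁻¹ = a⁻¹ * b⁻¹ * a * b := by simp
  constructor
  · intro hc
    rw [← e]
    apply h.d
    rw [inv_pow]
    have h2 : Commute (a ^ p ^ k) b := hc
    exact h2.inv_inv
  · intro hc
    rw [← e] at hc
    have h2 := h.c hc
    rw [inv_pow] at h2
    have h3 : Commute (a ^ p ^ k)⁻¹ b⁻¹ := h2
    have h4 := h3.inv_inv
    rw [inv_inv, inv_inv] at h4
    exact h4

end Cfsg.Agent.S4224
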