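import Cfsg.Statements.S4225
import Cfsg.Agent.Lib.FGS.Regular

set_option autoImplicit false
open Cfsg
open scoped commutatorElement
open scoped Pointwise

namespace Cfsg.Agent.S4225

/-- In a regular `p`-group, for every `k` the elements whose `p^k`-th power is `1` form a characteristic subgroup. -/
theorem result {G : Type*} [Group G] [Finite G] {p : ℕ} [Fact p.Prime] (hG : Cfsg.IsRegularPGroup p G) (k : ℕ) : ∃ H : Subgroup G, H.Characteristic ∧ (H : Set G) = {x : G | x ^ p ^ k = 1} := by
  classical
  have hE := fun x y => (CfsgLib.FGS.regPair hG k x y).e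
  let H : Subgroup G :=
    { carrier := {x : G | x ^ p ^ k = 1}
      mul_mem' := fun {a b} ha hb => hE a b ha hb
      one_mem' := one_pow _
      inv_mem' := fun {a} ha => by
        show a⁻¹ ^ p ^ k = 1
        rw [inv_pow]
        have h : a ^ p ^ k = 1 := ha
        rw [h, inv_one] }
  refine ⟨H, ?_, rfl⟩
  rw [Subgroup.characteristic_iff_le_map]
  intro f x hx
  refine ⟨f.symm x, ?_, by simp⟩
  show (f.symm x) ^ p ^ k = 1
  rw [← map_pow]
  have h : x ^ p ^ k = 1 := hx
  rw [h, map_one]

end Cfsg.Agent.S4225
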