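import Cfsg.Statements.S4275
import Cfsg.Agent.Lib.FGS.Basic

set_option autoImplicit false
open Cfsg

namespace Cfsg.Agent.S4275

/-- Let G be a transitive group of permutations of a finite set Ω, let o ∈ Ω, and let α be an automorphism of G. Then α is induced by conjugation by a permutation of Ω normalizing G if and only if the image under α of the stabilizer of o fixes some point of Ω. -/
theorem result {Ω : Type*} [Fintype Ω] (G : Subgroup (Equiv.Perm Ω)) (htr : MulAction.IsPretransitive G Ω) (o : Ω) (α : G ≃* G) : (∃ σ : Equiv.Perm Ω, σ ∈ Subgroup.normalizer (G : Set (Equiv.Perm Ω)) ∧ ∀ g : G, ((α g : G) : Equiv.Perm Ω) = σ * (g : Equiv.Perm Ω) * σ⁻¹) ↔ ∃ ω : Ω, ∀ g ∈ (MulAction.stabilizer G o).map α.toMonoidHom, g • ω = ω := by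
  classical
  constructor
  · rintro ⟨σ, _, hσ⟩
    refine ⟨σ o, ?_⟩
    rintro g' ⟨g, hg, rfl⟩
    have h1 : (g : Equiv.Perm Ω) o = o := hg
    show ((α g : G) : Equiv.Perm Ω) (σ o) = σ o
    rw [hσ g]
    simp [h1]
  · rintro ⟨ω, hω⟩
    have hact : ∀ (g : G) (z : Ω), g • z = (g : Equiv.Perm Ω) z := fun _ _ => rfl
    choose r hr using fun z : Ω => htr.exists_smul_eq o z
    let f : Ω → Ω := fun z => α (r z) • ω
    have hf : ∀ g : G, f (g • o) = α g • ω := by
      intro g
      show α (r (g • o)) • ω = α g • ω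
      have h1 : (r (g • o))⁻¹ * g ∈ MulAction.stabilizer G o := by
        rw [MulAction.mem_stabilizer_iff, mul_smul, inv_smul_eq_iff, hr]
      have h2 := hω (α ((r (g • o))⁻¹ * g)) ⟨_, h1, rfl⟩
      rw [map_mul, map_inv, mul_smul] at h2
      have h3 := congrArg (fun z => α (r (g • o)) • z) h2
      simpa using h3.symm
    have hfsurj : Function.Surjective f := by
      intro z
      obtain ⟨h, hh⟩ := htr.exists_smul_eq ω z
      refine ⟨α.symm h • o, ?_⟩
      rw [hf, MulEquiv.apply_symm_apply, hh]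
    have hfbij : Function.Bijective f :=
      ⟨Finite.injective_iff_surjective.mpr hfsurj, hfsurj⟩
    let σ : Equiv.Perm Ω := Equiv.ofBijective f hfbij
    have hσf : ∀ z, σ z = f z := fun _ => rfl
    have hint : ∀ (g : G) (z : Ω), σ (g • z) = α g • σ z := by
      intro g z
      obtain ⟨h, rfl⟩ := htr.exists_smul_eq o z
      rw [← mul_smul, hσf, hf, hσf, hf, map_mul, mul_smul]
    have hconj : ∀ g : G, ((α g : G) : Equiv.Perm Ω) = σ * (g : Equiv.Perm Ω) * σ⁻¹ := by
      intro g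
      ext z
      have h1 := hint g (σ⁻¹ z)
      have h2 : σ (σ⁻¹ z) = z := by simp
      rw [h2] at h1
      exact h1.symm
    refine ⟨σ, ?_, hconj⟩
    rw [Subgroup.mem_normalizer_iff]
    intro h
    constructor
    · intro hh
      have := hconj ⟨h, hh⟩
      have h2 : σ * h * σ⁻¹ = ((α ⟨h, hh⟩ : G) : Equiv.Perm Ω) := this.symm
      rw [h2]
      exact (α ⟨h, hh⟩).2
    · intro hh
      have h2 := hconj (α.symm ⟨σ * h * σ⁻¹, hh⟩)
      rw [MulEquiv.apply_symm_apply] at h2
      have h3 : σ * h * σ⁻¹ = σ * ((α.symm ⟨σ * h * σ⁻¹, hh⟩ : G) : Equiv.Perm Ω) * σ⁻¹ := h2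
      have h4 : h = ((α.symm ⟨σ * h * σ⁻¹, hh⟩ : G) : Equiv.Perm Ω) := by
        have h5 := mul_right_cancel h3
        exact mul_left_cancel h5
      rw [h4]
      exact (α.symm ⟨σ * h * σ⁻¹, hh⟩).2

end Cfsg.Agent.S4275
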