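import Cfsg.Statements.S4276
import Cfsg.Agent.Lib.FGS.Basic

set_option autoImplicit false
open Cfsg

namespace Cfsg.Agent.S4276

theorem h8_fact {K : Type*} [Group K] [Finite K] (A B : Subgroup K) (cop : Nat.Coprime A.index B.index) (k : K) :
    ∃ a ∈ A, ∃ b ∈ B, k = a * b := by
  classical
  have h1 : B.index ∣ B.relIndex A := by
    have h2 : B.index ∣ (A ⊓ B).index := Subgroup.index_dvd_of_le inf_le_right
    have h3 : (A ⊓ B).index = B.relIndex A * A.index := by
      rw [← Subgroup.inf_relIndex_left, Subgroup.relIndex_mul_index inf_le_left]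
    rw [h3] at h2
    exact Nat.Coprime.dvd_of_dvd_mul_right cop.symm h2
  have hS : (B.subgroupOf A).index = B.relIndex A := rfl
  let φ : A ⧸ B.subgroupOf A → K ⧸ B := fun q => Quotient.liftOn' q (fun a : A => (QuotientGroup.mk (a : K) : K ⧸ B)) (by
    intro x y h
    have := QuotientGroup.leftRel_apply.1 h
    rw [Subgroup.mem_subgroupOf] at this
    exact QuotientGroup.eq.2 (by simpa using this))
  have hφ : ∀ a : A, φ (QuotientGroup.mk a) = QuotientGroup.mk (a : K) := fun a => rfl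
  have hinj : Function.Injective φ := by
    intro p q
    induction p using QuotientGroup.induction_on with
    | H x =>
    induction q using QuotientGroup.induction_on with
    | H y =>
    intro h
    rw [hφ, hφ] at h
    have := QuotientGroup.eq.1 h
    refine QuotientGroup.eq.2 ?_
    rw [Subgroup.mem_subgroupOf]
    simpa using this
  have hle : Nat.card (K ⧸ B) ≤ Nat.card (A ⧸ B.subgroupOf A) := by
    have e1 : Nat.card (K ⧸ B) = B.index := rfl
    have e2 : Nat.card (A ⧸ B.subgroupOf A) = B.relIndex A := rfl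
    rw [e1, e2]
    exact Nat.le_of_dvd (Nat.pos_of_ne_zero (by
      intro h0
      have : (B.subgroupOf A).index ≠ 0 := Subgroup.index_ne_zero_of_finite
      exact this (hS.trans h0))) h1
  obtain ⟨q, hq⟩ := (hinj.bijective_of_nat_card_le hle).2 (QuotientGroup.mk k)
  induction q using QuotientGroup.induction_on with
  | H a =>
  rw [hφ] at hq
  have := QuotientGroup.eq.1 hq
  exact ⟨a, a.2, (a : K)⁻¹ * k, this, by group⟩

theorem h8_idx {K Ω : Type*} [Group K] [Finite K] [Finite Ω] (f : K →* Equiv.Perm Ω) (x : Ω) (X : Set Ω)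
    (hX : ∀ u, u ∈ X ↔ ∃ g, f g x = u) :
    ((MulAction.stabilizer (Equiv.Perm Ω) x).comap f).index = X.ncard := by
  classical
  letI : MulAction K Ω := MulAction.compHom Ω f
  have h1 := MulAction.index_stabilizer K x
  have h2 : MulAction.stabilizer K x = (MulAction.stabilizer (Equiv.Perm Ω) x).comap f := by
    ext g; rfl
  have h3 : MulAction.orbit K x = X := by
    ext u
    rw [hX]
    rfl
  rw [← h2, h1, h3]

theorem h8_three {Ω G : Type*} [Fintype Ω] [Group G] (a b : G →* Equiv.Perm Ω)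
    (ta2 : ∀ x y x' y' : Ω, x ≠ y → x' ≠ y' → ∃ g, a g x = x' ∧ a g y = y')
    (tb2 : ∀ x y x' y' : Ω, x ≠ y → x' ≠ y' → ∃ g, b g x = x' ∧ b g y = y')
    (ta1 : ∀ x x' : Ω, ∃ g, a g x = x') (tb1 : ∀ x x' : Ω, ∃ g, b g x = x')
    (R C : Ω → Ω → Prop) (hR : ∀ g x y, R x y → R (a g x) (b g y)) (hC : ∀ g x y, C x y → C (a g x) (b g y))
    (hdisj : ∀ x y, R x y → ¬ C x y)
    (x₁ y₁ : Ω) (hC1 : C x₁ y₁) (x₀ y₀ : Ω) (hR0 : R x₀ y₀) (x₂ y₂ : Ω) (h2R : ¬ R x₂ y₂) (h2C : ¬ C x₂ y₂) : False := by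
  classical
  have hR' : ∀ g x y, R (a g x) (b g y) ↔ R x y := by
    intro g x y
    refine ⟨fun h => ?_, hR g x y⟩
    have := hR g⁻¹ _ _ h
    simpa [map_inv] using this
  have hC' : ∀ g x y, C (a g x) (b g y) ↔ C x y := by
    intro g x y
    refine ⟨fun h => ?_, hC g x y⟩
    have := hC g⁻¹ _ _ h
    simpa [map_inv] using this
  let ir : Ω → Ω → ℤ := fun x y => if R x y then 1 else 0
  let ic : Ω → Ω → ℤ := fun x y => if C x y then 1 else 0
  have hir : ∀ g x y, ir (a g x) (b g y) = ir x y := by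
    intro g x y; simp only [ir, hR']
  have hic : ∀ g x y, ic (a g x) (b g y) = ic x y := by
    intro g x y; simp only [ic, hC']
  have hir0 : ∀ x y, 0 ≤ ir x y := by
    intro x y; simp only [ir]; split_ifs <;> norm_num
  have hic0 : ∀ x y, 0 ≤ ic x y := by
    intro x y; simp only [ic]; split_ifs <;> norm_num
  -- rows and columns
  obtain ⟨r, hr⟩ : ∃ r, ∀ x, ∑ y, ir x y = r := by
    refine ⟨∑ y, ir x₀ y, fun x => ?_⟩
    obtain ⟨g, hg⟩ := ta1 x₀ x
    rw [← hg, ← Equiv.sum_comp (b g)]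
    exact Finset.sum_congr rfl (fun y _ => hir g x₀ y)
  obtain ⟨c, hc⟩ : ∃ c, ∀ y, ∑ x, ic x y = c := by
    refine ⟨∑ x, ic x y₀, fun y => ?_⟩
    obtain ⟨g, hg⟩ := tb1 y₀ y
    rw [← hg, ← Equiv.sum_comp (a g)]
    exact Finset.sum_congr rfl (fun x _ => hic g x y₀)
  have hr1 : 1 ≤ r := by
    rw [← hr x₀]
    have : ir x₀ y₀ ≤ ∑ y, ir x₀ y := Finset.single_le_sum (fun y _ => hir0 x₀ y) (Finset.mem_univ y₀)
    have h1 : ir x₀ y₀ = 1 := by simp [ir, hR0]
    omega
  have hc1 : 1 ≤ c := by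
    rw [← hc y₁]
    have : ic x₁ y₁ ≤ ∑ x, ic x y₁ := Finset.single_le_sum (fun x _ => hic0 x y₁) (Finset.mem_univ x₁)
    have h1 : ic x₁ y₁ = 1 := by simp [ic, hC1]
    omega
  -- pair counts
  obtain ⟨d, hd⟩ : ∃ d, ∀ x x', x ≠ x' → ∑ y, ir x y * ir x' y = d := by
    by_cases h : ∃ u v : Ω, u ≠ v
    · obtain ⟨u, v, huv⟩ := h
      refine ⟨∑ y, ir u y * ir v y, fun x x' hxx => ?_⟩
      obtain ⟨g, hg1, hg2⟩ := ta2 u v x x' huv hxx
      rw [← hg1, ← hg2, ← Equiv.sum_comp (b g)]
      exact Finset.sum_congr rfl (fun y _ => by rw [hir, hir])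
    · push Not at h
      exact ⟨0, fun x x' hxx => absurd (h x x') hxx⟩
  obtain ⟨e, he⟩ : ∃ e, ∀ y y', y ≠ y' → ∑ x, ir x y * ic x y' = e := by
    by_cases h : ∃ u v : Ω, u ≠ v
    · obtain ⟨u, v, huv⟩ := h
      refine ⟨∑ x, ir x u * ic x v, fun y y' hyy => ?_⟩
      obtain ⟨g, hg1, hg2⟩ := tb2 u v y y' huv hyy
      rw [← hg1, ← hg2, ← Equiv.sum_comp (a g)]
      exact Finset.sum_congr rfl (fun x _ => by rw [hir, hic])
    · push Not at h
      exact ⟨0, fun y y' hyy => absurd (h y y') hyy⟩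
  have hsq : ∀ x y, ir x y * ir x y = ir x y := by
    intro x y; simp only [ir]; split_ifs <;> norm_num
  have hzero : ∀ x y, ir x y * ic x y = 0 := by
    intro x y
    simp only [ir, ic]
    by_cases h1 : R x y
    · simp [h1, hdisj x y h1]
    · simp [h1]
  -- the master equation
  have master : ∀ X Y, d * c + (r - d) * ic X Y = e * r - e * ir X Y := by
    intro X Y
    have way1 : ∑ x, ∑ y, ir X y * ir x y * ic x Y = d * c + (r - d) * ic X Y := by
      have h1 : ∀ x, ∑ y, ir X y * ir x y * ic x Y = (∑ y, ir X y * ir x y) * ic x Y := by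
        intro x; rw [Finset.sum_mul]
      simp only [h1]
      have h2 : ∑ x, (∑ y, ir X y * ir x y) * ic x Y = ∑ x, (d * ic x Y + (if x = X then (r - d) * ic X Y else 0)) := by
        refine Finset.sum_congr rfl (fun x _ => ?_)
        by_cases hx : x = X
        · subst hx
          simp only [hsq, if_true, hr]
          ring
        · rw [hd X x (Ne.symm hx)]
          simp [hx]
      rw [h2, Finset.sum_add_distrib, ← Finset.mul_sum, hc Y]
      simp
    have way2 : ∑ x, ∑ y, ir X y * ir x y * ic x Y = e * r - e * ir X Y := by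
      rw [Finset.sum_comm]
      have h1 : ∀ y, ∑ x, ir X y * ir x y * ic x Y = ir X y * ∑ x, ir x y * ic x Y := by
        intro y; rw [Finset.mul_sum]; exact Finset.sum_congr rfl (fun x _ => by ring)
      simp only [h1]
      have h2 : ∑ y, ir X y * ∑ x, ir x y * ic x Y = ∑ y, (e * ir X y - (if y = Y then e * ir X Y else 0)) := by
        refine Finset.sum_congr rfl (fun y _ => ?_)
        by_cases hy : y = Y
        · subst hy
          simp only [hzero, Finset.sum_const_zero, if_true]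
          ring
        · rw [he y Y hy]
          simp [hy]; ring
      rw [h2, Finset.sum_sub_distrib, ← Finset.mul_sum, hr X]
      simp
    rw [← way1, way2]
  have m1 := master x₂ y₂
  have m2 := master x₀ y₀
  have m3 := master x₁ y₁
  have i1 : ic x₂ y₂ = 0 := by simp [ic, h2C]
  have i2 : ir x₂ y₂ = 0 := by simp [ir, h2R]
  have i3 : ic x₀ y₀ = 0 := by simp [ic, hdisj _ _ hR0]
  have i4 : ir x₀ y₀ = 1 := by simp [ir, hR0]
  have i5 : ic x₁ y₁ = 1 := by simp [ic, hC1]
  have i6 : ir x₁ y₁ = 0 := by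
    simp only [ir]
    rw [if_neg]
    exact fun h => hdisj _ _ h hC1
  rw [i1, i2] at m1
  rw [i3, i4] at m2
  rw [i5, i6] at m3
  have he0 : e = 0 := by linarith
  rw [he0] at m1 m3
  have hd0 : d * c = 0 := by linarith
  have hd1 : d = 0 := by
    rcases mul_eq_zero.1 hd0 with h | h
    · exact h
    · omega
  rw [hd1] at m3
  have : r = 0 := by linarith
  omega

theorem h8_core {Ω G : Type*} [Fintype Ω] [Group G] [Finite G] [MulAction G Ω]
    (t1 : ∀ x x' : Ω, ∃ g : G, g • x = x')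
    (t2 : ∀ x y x' y' : Ω, x ≠ y → x' ≠ y' → ∃ g : G, g • x = x' ∧ g • y = y')
    (β : G ≃* G) (o ω : Ω)
    (hk : Nat.Coprime ({x : Ω | ∃ g : G, g • ω = x ∧ β g • o = o}).ncard (Fintype.card Ω))
    (hn : 1 < Fintype.card Ω) :
    ∃ ψ : Equiv.Perm Ω, ∀ (g : G) (x : Ω), ψ (g • x) = β (β g) • ψ x := by
  classical
  have t1β : ∀ x x' : Ω, ∃ g : G, β g • x = x' := fun x x' => by
    obtain ⟨g, hg⟩ := t1 x x'
    exact ⟨β.symm g, by simpa using hg⟩
  have t2β : ∀ x y x' y' : Ω, x ≠ y → x' ≠ y' → ∃ g : G, β g • x = x' ∧ β g • y = y' := fun x y x' y' h h' => by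
    obtain ⟨g, hg, hg'⟩ := t2 x y x' y' h h'
    exact ⟨β.symm g, by simpa using hg, by simpa using hg'⟩
  have t2ββ : ∀ x y x' y' : Ω, x ≠ y → x' ≠ y' → ∃ g : G, β (β g) • x = x' ∧ β (β g) • y = y' := fun x y x' y' h h' => by
    obtain ⟨g, hg, hg'⟩ := t2β x y x' y' h h'
    exact ⟨β.symm g, by simpa using hg, by simpa using hg'⟩
  let a : G →* Equiv.Perm Ω := MulAction.toPermHom G Ω
  let b : G →* Equiv.Perm Ω := a.comp β.toMonoidHom
  have ha : ∀ g x, a g x = g • x := fun g x => rfl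
  have hb : ∀ g x, b g x = β g • x := fun g x => rfl
  obtain ⟨R, hRdef⟩ : ∃ R : Ω → Ω → Prop, ∀ x y, R x y ↔ ∃ g : G, g • ω = x ∧ β g • o = y := ⟨_, fun _ _ => Iff.rfl⟩
  have hR : ∀ (h : G) x y, R x y → R (h • x) (β h • y) := by
    intro h x y hxy
    obtain ⟨g, rfl, rfl⟩ := (hRdef x y).1 hxy
    exact (hRdef _ _).2 ⟨h * g, mul_smul _ _ _, by rw [map_mul, mul_smul]⟩
  have hR' : ∀ (h : G) x y, R (h • x) (β h • y) ↔ R x y := by
    intro h x y
    refine ⟨fun hh => ?_, hR h x y⟩
    have := hR h⁻¹ _ _ hh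
    simpa [map_inv] using this
  have hRω : R ω o := (hRdef _ _).2 ⟨1, by simp, by simp⟩
  have claimA : ∀ x y x' y', ¬ R x y → ¬ R x' y' → ∃ h : G, h • x = x' ∧ β h • y = y' := by
    intro x y x' y' h1 h2
    by_contra hcon
    push Not at hcon
    refine h8_three a b t2 t2β t1 t1β R (fun u v => ∃ h : G, h • x = u ∧ β h • y = v) ?_ ?_ ?_ x y ⟨1, by simp, by simp⟩ ω o hRω x' y' h2 ?_
    · intro g u v h; exact hR g u v h
    · rintro g u v ⟨h, rfl, rfl⟩
      exact ⟨g * h, mul_smul _ _ _, by rw [hb, map_mul, mul_smul]⟩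
    · rintro u v huv ⟨h, rfl, rfl⟩
      exact h1 ((hR' h x y).1 huv)
    · rintro ⟨h, h3, h4⟩
      exact hcon h h3 h4
  -- counting
  let Nin : Ω → Finset Ω := fun y => Finset.univ.filter (fun x => R x y)
  let Nout : Ω → Finset Ω := fun x => Finset.univ.filter (fun y => R x y)
  have hmemIn : ∀ x y, x ∈ Nin y ↔ R x y := fun x y => by simp [Nin]
  have hmemOut : ∀ x y, y ∈ Nout x ↔ R x y := fun x y => by simp [Nout]
  obtain ⟨k, hkd⟩ : ∃ k, k = (Nin o).card := ⟨_, rfl⟩
  have hNin : ∀ y, (Nin y).card = k := by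
    intro y
    obtain ⟨g, hg⟩ := t1β o y
    rw [hkd, ← hg]
    symm
    apply Finset.card_bij (fun x _ => g • x)
    · intro x hx
      rw [hmemIn] at hx ⊢
      exact hR g x o hx
    · intro x _ x' _ h
      exact MulAction.injective g h
    · intro u hu
      rw [hmemIn] at hu
      refine ⟨g⁻¹ • u, ?_, by simp⟩
      rw [hmemIn]
      have := hR g⁻¹ _ _ hu
      simpa [map_inv] using this
  obtain ⟨r₀, hr₀⟩ : ∃ r₀, r₀ = (Nout ω).card := ⟨_, rfl⟩
  have hNout0 : ∀ x, (Nout x).card = r₀ := by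
    intro x
    obtain ⟨g, hg⟩ := t1 ω x
    rw [hr₀, ← hg]
    symm
    apply Finset.card_bij (fun y _ => β g • y)
    · intro y hy
      rw [hmemOut] at hy ⊢
      exact hR g ω y hy
    · intro y _ y' _ h
      exact MulAction.injective (β g) h
    · intro u hu
      rw [hmemOut] at hu
      refine ⟨(β g)⁻¹ • u, ?_, by simp⟩
      rw [hmemOut]
      have := hR g⁻¹ _ _ hu
      simpa [map_inv] using this
  have hn0 : 0 < Fintype.card Ω := by omega
  have hr₀k : r₀ = k := by
    have h := Finset.sum_card_bipartiteAbove_eq_sum_card_bipartiteBelow (s := (Finset.univ : Finset Ω)) (t := (Finset.univ : Finset Ω)) R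
    have e1 : ∀ x, (Finset.bipartiteAbove R (Finset.univ : Finset Ω) x).card = r₀ := by
      intro x; rw [← hNout0 x]; rfl
    have e2 : ∀ y, (Finset.bipartiteBelow R (Finset.univ : Finset Ω) y).card = k := by
      intro y; rw [← hNin y]; rfl
    simp only [e1, e2, Finset.sum_const, smul_eq_mul, Finset.card_univ] at h
    exact Nat.eq_of_mul_eq_mul_left hn0 h
  have hNout : ∀ x, (Nout x).card = k := fun x => by rw [hNout0, hr₀k]
  have hset : ({x : Ω | ∃ g : G, g • ω = x ∧ β g • o = o}).ncard = k := by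
    have : {x : Ω | ∃ g : G, g • ω = x ∧ β g • o = o} = ((Nin o : Finset Ω) : Set Ω) := by
      ext x
      simp only [Set.mem_setOf_eq, Finset.mem_coe, hmemIn, hRdef]
    rw [this, Set.ncard_coe_finset, hkd]
  rw [hset] at hk
  have hk1 : 1 ≤ k := by
    rw [← hNin o]
    exact Finset.card_pos.2 ⟨ω, (hmemIn _ _).2 hRω⟩
  have hkn : k < Fintype.card Ω := by
    have h1 : k ≤ Fintype.card Ω := by rw [← hNin o]; exact Finset.card_le_univ _
    rcases h1.lt_or_eq with h | h
    · exact h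
    · rw [h] at hk
      have : Fintype.card Ω = 1 := by simpa using hk
      omega
  obtain ⟨n, hnd⟩ : ∃ n, n = Fintype.card Ω := ⟨_, rfl⟩
  rw [← hnd] at hk hn hkn hn0
  -- the fixed-middle transitivity
  have hfix : ∀ y x x' z z', R x y → R x' y → ¬ R y z → ¬ R y z' →
      ∃ g : G, g • x = x' ∧ β g • y = y ∧ β (β g) • z = z' := by
    intro y x x' z z' hx hx' hz hz'
    let K : Subgroup G := (MulAction.stabilizer G y).comap β.toMonoidHom
    have hKmem : ∀ g : G, g ∈ K ↔ β g • y = y := fun g => Iff.rfl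
    let f₁ : K →* Equiv.Perm Ω := a.comp K.subtype
    let f₂ : K →* Equiv.Perm Ω := (b.comp β.toMonoidHom).comp K.subtype
    have hf₁ : ∀ (g : K) u, f₁ g u = (g : G) • u := fun g u => rfl
    have hf₂ : ∀ (g : K) u, f₂ g u = β (β (g : G)) • u := fun g u => rfl
    have hX : ∀ u, u ∈ ((Nin y : Finset Ω) : Set Ω) ↔ ∃ g : K, f₁ g x = u := by
      intro u
      simp only [Finset.mem_coe, hmemIn]
      constructor
      · intro hu
        obtain ⟨g₁, rfl, h1⟩ := (hRdef _ _).1 hx
        obtain ⟨g₂, rfl, h2⟩ := (hRdef _ _).1 hu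
        refine ⟨⟨g₂ * g₁⁻¹, ?_⟩, ?_⟩
        · rw [hKmem, map_mul, mul_smul, map_inv]
          have : (β g₁)⁻¹ • y = o := by rw [← h1]; simp
          rw [this, h2]
        · rw [hf₁]; simp [mul_smul]
      · rintro ⟨g, rfl⟩
        rw [hf₁]
        have := hR (g : G) x y hx
        rwa [(hKmem _).1 g.2] at this
    have hZ : ∀ u, u ∈ (((Nout y)ᶜ : Finset Ω) : Set Ω) ↔ ∃ g : K, f₂ g z = u := by
      intro u
      simp only [Finset.mem_coe, Finset.mem_compl, hmemOut]
      constructor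
      · intro hu
        obtain ⟨h, h1, h2⟩ := claimA y z y u hz hu
        refine ⟨⟨β.symm h, ?_⟩, ?_⟩
        · rw [hKmem]; simpa using h1
        · rw [hf₂]; simpa using h2
      · rintro ⟨g, rfl⟩ hu
        rw [hf₂] at hu
        apply hz
        have h1 := (hR' (β (g : G)) y z)
        rw [(hKmem _).1 g.2] at h1
        exact h1.1 hu
    have hA := h8_idx f₁ x _ hX
    have hB := h8_idx f₂ z _ hZ
    rw [Set.ncard_coe_finset, hNin y] at hA
    rw [Set.ncard_coe_finset, Finset.card_compl, hNout y, ← hnd] at hB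
    obtain ⟨A, hAd⟩ : ∃ A, A = (MulAction.stabilizer (Equiv.Perm Ω) x).comap f₁ := ⟨_, rfl⟩
    obtain ⟨B, hBd⟩ : ∃ B, B = (MulAction.stabilizer (Equiv.Perm Ω) z).comap f₂ := ⟨_, rfl⟩
    rw [← hAd] at hA
    rw [← hBd] at hB
    have hcop : Nat.Coprime B.index A.index := by
      rw [hA, hB]
      have : Nat.Coprime (n - k) k := by
        have h3 := hk.symm
        rwa [Nat.coprime_sub_self_left hkn.le]
      exact this
    obtain ⟨g₁, hg₁⟩ := (hX x').1 (Finset.mem_coe.2 ((hmemIn _ _).2 hx'))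
    obtain ⟨g₂, hg₂⟩ := (hZ z').1 (Finset.mem_coe.2 (Finset.mem_compl.2 (fun h => hz' ((hmemOut _ _).1 h))))
    obtain ⟨b', hb', a', ha', hfac⟩ := h8_fact B A hcop (g₂⁻¹ * g₁)
    have hafix : f₁ a' x = x := by
      rw [hAd] at ha'
      exact ha'
    have hbfix : f₂ b' z = z := by
      rw [hBd] at hb'
      exact hb'
    have hg : g₂ * b' = g₁ * a'⁻¹ := by
      have : g₁ = g₂ * (b' * a') := by rw [← hfac]; group
      rw [this]; group
    refine ⟨((g₂ * b' : K) : G), ?_, (hKmem _).1 (g₂ * b').2, ?_⟩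
    · rw [hg]
      have h1 : f₁ a'⁻¹ x = x := by
        have : f₁ a'⁻¹ (f₁ a' x) = x := by
          rw [map_inv]; simp
        rwa [hafix] at this
      have h2 : f₁ (g₁ * a'⁻¹) x = f₁ g₁ (f₁ a'⁻¹ x) := by rw [map_mul]; rfl
      rw [← hf₁, h2, h1, hg₁]
    · rw [← hf₂]
      have h2 : f₂ (g₂ * b') z = f₂ g₂ (f₂ b' z) := by rw [map_mul]; rfl
      rw [h2, hbfix, hg₂]
  have htriple : ∀ x y z x' y' z', R x y → ¬ R y z → R x' y' → ¬ R y' z' →
      ∃ g : G, g • x = x' ∧ β (β g) • z = z' := by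
    intro x y z x' y' z' h1 h2 h3 h4
    obtain ⟨g₀, hg₀⟩ := t1β y y'
    have h5 : R (g₀ • x) y' := by
      have := hR g₀ x y h1
      rwa [hg₀] at this
    have h6 : ¬ R y' (β (β g₀) • z) := by
      intro h
      have := (hR' (β g₀) y z)
      rw [hg₀] at this
      exact h2 (this.1 h)
    obtain ⟨g, hg1, _, hg3⟩ := hfix y' _ x' _ z' h5 h3 h6 h4
    refine ⟨g * g₀, by rw [mul_smul, hg1], ?_⟩
    rw [map_mul, map_mul, mul_smul, hg3]
  -- the number of paths
  let p : Ω → Ω → ℕ := fun x z => (Finset.univ.filter (fun y => R x y ∧ R y z)).card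
  have hpinv : ∀ (g : G) x z, p (g • x) (β (β g) • z) = p x z := by
    intro g x z
    symm
    apply Finset.card_bij (fun y _ => β g • y)
    · intro y hy
      simp only [Finset.mem_filter, Finset.mem_univ, true_and] at hy ⊢
      exact ⟨hR g x y hy.1, hR (β g) y z hy.2⟩
    · intro y _ y' _ h
      exact MulAction.injective (β g) h
    · intro u hu
      simp only [Finset.mem_filter, Finset.mem_univ, true_and] at hu
      refine ⟨(β g)⁻¹ • u, ?_, by simp⟩
      simp only [Finset.mem_filter, Finset.mem_univ, true_and]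
      constructor
      · have := hu.1
        have h2 := hR g⁻¹ _ _ this
        simpa [map_inv] using h2
      · have := hu.2
        have h2 := hR (β g)⁻¹ _ _ this
        simpa [map_inv] using h2
  have hpsum : ∀ x, ∑ z, p x z = k * k := by
    intro x
    have h1 : ∀ z, p x z = ∑ y, if R x y ∧ R y z then 1 else 0 := by
      intro z; simp only [p, Finset.card_filter]
    simp only [h1]
    rw [Finset.sum_comm]
    have h2 : ∀ y, (∑ z, if R x y ∧ R y z then 1 else 0) = if R x y then k else 0 := by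
      intro y
      by_cases hy : R x y
      · simp only [hy, true_and, if_true]
        rw [← hNout y, ← Finset.card_filter]
      · simp [hy]
    simp only [h2]
    rw [← Finset.sum_filter, Finset.sum_const, smul_eq_mul]
    have : (Finset.univ.filter (fun y => R x y)).card = k := hNout x
    rw [this]
  have hex0 : ∃ x₀ z₀, ∀ y, R x₀ y → R y z₀ := by
    by_contra hcon
    push Not at hcon
    have hconst : ∀ x z, p x z = p ω o := by
      intro x z
      obtain ⟨y, hy1, hy2⟩ := hcon x z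
      obtain ⟨y', hy1', hy2'⟩ := hcon ω o
      obtain ⟨g, hg1, hg2⟩ := htriple ω y' o x y z hy1' hy2' hy1 hy2
      rw [← hg1, ← hg2, hpinv]
    have h1 := hpsum ω
    simp only [hconst ω, Finset.sum_const, smul_eq_mul, Finset.card_univ] at h1
    rw [← hnd] at h1
    have h2 : n ∣ k * k := ⟨_, h1.symm⟩
    have h3 : Nat.Coprime n (k * k) := Nat.Coprime.mul_right hk.symm hk.symm
    have h4 : n = 1 := Nat.Coprime.eq_one_of_dvd h3 h2
    omega
  obtain ⟨x₀, z₀, h0⟩ := hex0
  have hT0 : ∀ y, R x₀ y ↔ R y z₀ := by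
    have hsub : Nout x₀ ⊆ Nin z₀ := by
      intro y hy
      rw [hmemOut] at hy
      rw [hmemIn]
      exact h0 y hy
    have heq : Nout x₀ = Nin z₀ := Finset.eq_of_subset_of_card_le hsub (by rw [hNin, hNout])
    intro y
    rw [← hmemOut, ← hmemIn, heq]
  have hTinv : ∀ (g : G) x z, (∀ y, R x y ↔ R y z) → ∀ y, R (g • x) y ↔ R y (β (β g) • z) := by
    intro g x z hT y
    have e : y = β g • ((β g)⁻¹ • y) := by simp
    rw [e, hR', hR', hT]
  have hex : ∀ x, ∃ z, ∀ y, R x y ↔ R y z := by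
    intro x
    obtain ⟨g, rfl⟩ := t1 x₀ x
    exact ⟨_, hTinv g x₀ z₀ hT0⟩
  have huz : ∀ x z z', (∀ y, R x y ↔ R y z) → (∀ y, R x y ↔ R y z') → z = z' := by
    intro x z z' h1 h2
    by_contra hne
    have h3 : ∀ y, R y z ↔ R y z' := fun y => (h1 y).symm.trans (h2 y)
    have h4 : ∀ z₁ z₂ y, R y z₁ ↔ R y z₂ := by
      intro z₁ z₂ y
      by_cases h12 : z₁ = z₂
      · rw [h12]
      obtain ⟨g, hg1, hg2⟩ := t2ββ z z' z₁ z₂ hne h12
      have e : y = β g • ((β g)⁻¹ • y) := by simp
      rw [← hg1, ← hg2, e, hR', hR', h3]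
    have h5 : Nout ω = Finset.univ := by
      ext u
      simp only [hmemOut, Finset.mem_univ, iff_true]
      exact (h4 o u ω).1 hRω
    have h6 := hNout ω
    rw [h5, Finset.card_univ, ← hnd] at h6
    omega
  have hux : ∀ x x' z, (∀ y, R x y ↔ R y z) → (∀ y, R x' y ↔ R y z) → x = x' := by
    intro x x' z h1 h2
    by_contra hne
    have h3 : ∀ y, R x y ↔ R x' y := fun y => (h1 y).trans (h2 y).symm
    have h4 : ∀ x₁ x₂ y, R x₁ y ↔ R x₂ y := by
      intro x₁ x₂ y
      by_cases h12 : x₁ = x₂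
      · rw [h12]
      obtain ⟨g, hg1, hg2⟩ := t2 x x' x₁ x₂ hne h12
      have e : y = β g • ((β g)⁻¹ • y) := by simp
      rw [← hg1, ← hg2, e, hR', hR', h3]
    have h5 : Nin o = Finset.univ := by
      ext u
      simp only [hmemIn, Finset.mem_univ, iff_true]
      exact (h4 ω u o).1 hRω
    have h6 := hNin o
    rw [h5, Finset.card_univ, ← hnd] at h6
    omega
  choose ψ hψ using hex
  have hinj : Function.Injective ψ := by
    intro x x' h
    refine hux x x' (ψ x) (hψ x) ?_
    rw [h]; exact hψ x'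
  have hbij : Function.Bijective ψ := Finite.injective_iff_bijective.1 hinj
  refine ⟨Equiv.ofBijective ψ hbij, fun g x => ?_⟩
  simp only [Equiv.ofBijective_apply]
  exact huz (g • x) _ _ (hψ _) (hTinv g x _ (hψ x))

/-- Let G be a doubly transitive group of permutations of a finite set Ω of size n, let o ∈ Ω, and let α be an automorphism of G of odd order. Suppose that the image under α of the stabilizer of o has an orbit on Ω whose length k is coprime to n. Then α is induced by conjugation by a permutation of Ω normalizing G, and k = 1 or k = n − 1. -/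
theorem result {Ω : Type*} [Fintype Ω] (G : Subgroup (Equiv.Perm Ω)) (h2 : MulAction.IsMultiplyPretransitive G Ω 2) (o : Ω) (α : MulAut G) (hα : Odd (orderOf α)) (ω : Ω) (hk : (Nat.card (MulAction.orbit ((MulAction.stabilizer G o).map α.toMonoidHom) ω)).Coprime (Fintype.card Ω)) : (∃ σ : Equiv.Perm Ω, σ ∈ Subgroup.normalizer (G : Set (Equiv.Perm Ω)) ∧ ∀ g : G, ((α g : G) : Equiv.Perm Ω) = σ * (g : Equiv.Perm Ω) * σ⁻¹) ∧ (Nat.card (MulAction.orbit ((MulAction.stabilizer G o).map α.toMonoidHom) ω) = 1 ∨ Nat.card (MulAction.orbit ((MulAction.stabilizer G o).map α.toMonoidHom) ω) = Fintype.card Ω - 1) := by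
  classical
  have t2 : ∀ x y x' y' : Ω, x ≠ y → x' ≠ y' → ∃ g : G, g • x = x' ∧ g • y = y' :=
    fun x y x' y' h h' => MulAction.is_two_pretransitive_iff.1 h2 h h'
  have t1' : MulAction.IsPretransitive G Ω := MulAction.isPretransitive_of_is_two_pretransitive (h2 := h2)
  have t1 : ∀ x x' : Ω, ∃ g : G, g • x = x' := fun x x' => t1'.exists_smul_eq x x'
  have hSet : ∀ K : Subgroup G, K = (MulAction.stabilizer G o).map α.toMonoidHom →
      (MulAction.orbit K ω : Set Ω) = {x : Ω | ∃ g : G, g • ω = x ∧ α.symm g • o = o} := by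
    intro K hK
    subst hK
    ext x
    simp only [Set.mem_setOf_eq, MulAction.mem_orbit_iff]
    constructor
    · rintro ⟨h, rfl⟩
      have hh := h.2
      obtain ⟨g, hg, hgh⟩ := hh
      refine ⟨(h : G), rfl, ?_⟩
      have : α.symm (h : G) = g := by
        rw [← hgh]; simp
      rw [this]; exact hg
    · rintro ⟨g, rfl, hg⟩
      refine ⟨⟨g, ?_⟩, rfl⟩
      exact ⟨α.symm g, hg, by simp⟩
  obtain ⟨K, hK⟩ : ∃ K, K = (MulAction.stabilizer G o).map α.toMonoidHom := ⟨_, rfl⟩
  rw [← hK] at hk ⊢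
  have hkset : Nat.Coprime ({x : Ω | ∃ g : G, g • ω = x ∧ α.symm g • o = o}).ncard (Fintype.card Ω) := by
    rw [← hSet K hK, ← Nat.card_coe_set_eq]
    exact hk
  have hmain : ∃ σ : Equiv.Perm Ω, ∀ g : G, ((α g : G) : Equiv.Perm Ω) = σ * (g : Equiv.Perm Ω) * σ⁻¹ := by
    by_cases hn : 1 < Fintype.card Ω
    · obtain ⟨ψ, hψ⟩ := h8_core t1 t2 α.symm o ω hkset hn
      have hψ' : ∀ g : G, ψ * (g : Equiv.Perm Ω) = ((α.symm (α.symm g) : G) : Equiv.Perm Ω) * ψ := by
        intro g
        ext x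
        exact congrArg id (hψ g x)
      have hpow : ∀ (j : ℕ) (g : G), ψ ^ j * (g : Equiv.Perm Ω) = (((α⁻¹ * α⁻¹) ^ j • g : G) : Equiv.Perm Ω) * ψ ^ j := by
        intro j
        induction j with
        | zero => intro g; simp
        | succ j ih =>
          intro g
          have e1 : ψ ^ (j + 1) * (g : Equiv.Perm Ω) = ψ ^ j * (ψ * (g : Equiv.Perm Ω)) := by
            rw [pow_succ, mul_assoc]
          rw [e1, hψ' g, ← mul_assoc, ih]
          have e2 : ((α⁻¹ * α⁻¹) ^ (j + 1) • g) = (α⁻¹ * α⁻¹) ^ j • (α.symm (α.symm g)) := by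
            rw [pow_succ, mul_smul]; rfl
          rw [e2, mul_assoc, pow_succ]
      obtain ⟨m, hm⟩ := hα
      have hαpow : α ^ (2 * m + 1) = 1 := by rw [← hm]; exact pow_orderOf_eq_one α
      have hγ : (α⁻¹ * α⁻¹) ^ (m + 1) = α⁻¹ := by
        have h1 : (α⁻¹ * α⁻¹) ^ (m + 1) = α⁻¹ ^ (2 * m + 1) * α⁻¹ := by
          rw [← pow_two, ← pow_mul, ← pow_succ]
          congr 1
        rw [h1, inv_pow, hαpow]
        simp
      refine ⟨(ψ ^ (m + 1))⁻¹, fun g => ?_⟩
      have h3 := hpow (m + 1) (α g)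
      rw [hγ] at h3
      have h4 : (α⁻¹ • α g) = g := by
        rw [MulAut.smul_def]; simp
      rw [h4] at h3
      rw [inv_inv, mul_assoc, ← h3]
      group
    · have hsub : Subsingleton Ω := by
        have : Fintype.card Ω ≤ 1 := by omega
        exact Fintype.card_le_one_iff_subsingleton.1 this
      refine ⟨1, fun g => ?_⟩
      ext x
      exact Subsingleton.elim _ _
  obtain ⟨σ, hσ⟩ := hmain
  refine ⟨⟨σ, ?_, hσ⟩, ?_⟩
  · rw [Subgroup.mem_set_normalizer_iff]
    intro h
    constructor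
    · intro hh
      have := hσ ⟨h, hh⟩
      change σ * h * σ⁻¹ ∈ G
      have h2 : σ * h * σ⁻¹ = ((α ⟨h, hh⟩ : G) : Equiv.Perm Ω) := this.symm
      rw [h2]; exact (α ⟨h, hh⟩).2
    · intro hh
      let g0 : G := ⟨σ * h * σ⁻¹, hh⟩
      have h1 := hσ (α.symm g0)
      have h2 : ((α (α.symm g0) : G) : Equiv.Perm Ω) = σ * h * σ⁻¹ := by simp [g0]
      rw [h2] at h1
      have h3 : h = ((α.symm g0 : G) : Equiv.Perm Ω) := by
        have := mul_right_cancel h1
        exact mul_left_cancel this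
      change h ∈ G
      rw [h3]; exact (α.symm g0).2
  · obtain ⟨o', ho'⟩ : ∃ o', o' = σ o := ⟨_, rfl⟩
    have hKmem : ∀ g : G, g ∈ K ↔ g • o' = o' := by
      intro g
      rw [hK]
      constructor
      · rintro ⟨g₀, hg₀, rfl⟩
        have h1 := hσ g₀
        change ((α g₀ : G) : Equiv.Perm Ω) o' = o'
        rw [h1, ho']
        have hinv : σ⁻¹ (σ o) = o := by simp
        simp only [Equiv.Perm.coe_mul, Function.comp_apply, hinv]
        have : (g₀ : Equiv.Perm Ω) o = o := hg₀
        rw [this]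
      · intro hg
        refine ⟨α.symm g, ?_, by simp⟩
        have h1 := hσ (α.symm g)
        have h2 : ((α (α.symm g) : G) : Equiv.Perm Ω) = g := by simp
        rw [h2] at h1
        have h3 : (g : Equiv.Perm Ω) o' = o' := hg
        rw [h1, ho'] at h3
        have hinv : σ⁻¹ (σ o) = o := by simp
        simp only [Equiv.Perm.coe_mul, Function.comp_apply, hinv] at h3
        exact σ.injective h3
    by_cases hω : ω = o'
    · left
      have h1 : (MulAction.orbit K ω : Set Ω) = {ω} := by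
        ext x
        simp only [MulAction.mem_orbit_iff, Set.mem_singleton_iff]
        constructor
        · rintro ⟨h, rfl⟩
          rw [hω]
          exact (hKmem h).1 h.2
        · rintro rfl
          exact ⟨1, one_smul _ _⟩
      rw [h1]
      simp
    · right
      have h1 : (MulAction.orbit K ω : Set Ω) = {o'}ᶜ := by
        ext x
        simp only [MulAction.mem_orbit_iff, Set.mem_compl_iff, Set.mem_singleton_iff]
        constructor
        · rintro ⟨h, rfl⟩ hc
          apply hω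
          have h2 : (h : G) • o' = o' := (hKmem h).1 h.2
          have h3 : (h : G) • ω = o' := hc
          exact MulAction.injective (h : G) (h3.trans h2.symm)
        · intro hx
          obtain ⟨g, hg1, hg2⟩ := t2 o' ω o' x (Ne.symm hω) (Ne.symm hx)
          exact ⟨⟨g, (hKmem g).2 hg1⟩, hg2⟩
      rw [h1, Nat.card_coe_set_eq, Set.ncard_compl]
      simp

end Cfsg.Agent.S4276
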