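import Cfsg.Statements.S4277
import Cfsg.Agent.Lib.FGS.Basic
import Cfsg.Agent.Lib.FGS.Elem
import Cfsg.Agent.S0675
import Cfsg.Agent.S4290
import Cfsg.Agent.Lib.H9.PrimeDeg2

set_option autoImplicit false
open Cfsg
open scoped commutatorElement
open scoped Pointwise

namespace Cfsg.Agent.S4277

theorem h8_solv_of_odd {Q : Type*} [Group Q] [Finite Q] (R : Subgroup Q) (hR : Group.IsSolvable R)
    (hodd : ∀ x : Q, Odd (orderOf x) → x ∈ R) : Group.IsSolvable Q := by
  classical
  obtain ⟨S, hS⟩ : ∃ S, S = Subgroup.normalClosure {x : Q | Odd (orderOf x)} := ⟨_, rfl⟩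
  have hSn : S.Normal := by rw [hS]; infer_instance
  have hSR : S ≤ R := by
    rw [hS]
    refine (Subgroup.closure_le _).2 ?_
    intro y hy
    obtain ⟨a, ha, hc⟩ := Group.mem_conjugatesOfSet_iff.1 hy
    refine hodd y ?_
    obtain ⟨c, rfl⟩ := isConj_iff.1 hc
    have : orderOf (c * a * c⁻¹) = orderOf a := by
      have := orderOf_injective (MulAut.conj c).toMonoidHom (MulAut.conj c).injective a
      simpa [MulAut.conj_apply] using this
    rw [this]
    exact ha
  have hSs : Group.IsSolvable S :=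
    Group.isSolvable_of_isSolvable_injective (f := Subgroup.inclusion hSR) (Subgroup.inclusion_injective hSR)
  have hQ2 : IsPGroup 2 (Q ⧸ S) := by
    intro x
    obtain ⟨a, rfl⟩ := QuotientGroup.mk_surjective x
    obtain ⟨e, k, hk, hek⟩ := Nat.exists_eq_two_pow_mul_odd (orderOf_pos a).ne'
    refine ⟨e, ?_⟩
    rw [← QuotientGroup.mk_pow, QuotientGroup.eq_one_iff, hS]
    apply Subgroup.subset_normalClosure
    show Odd (orderOf (a ^ 2 ^ e))
    rw [orderOf_pow_of_dvd (by positivity) (by rw [hek]; exact dvd_mul_right _ _), hek,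
      Nat.mul_div_cancel_left _ (by positivity)]
    exact hk
  haveI : Group.IsNilpotent (Q ⧸ S) := hQ2.isNilpotent
  have hqs : Group.IsSolvable (Q ⧸ S) := inferInstance
  refine Group.isSolvable_of_ker_le_range S.subtype (QuotientGroup.mk' S) ?_
  intro x hx
  rw [MonoidHom.mem_ker, QuotientGroup.mk'_apply, QuotientGroup.eq_one_iff] at hx
  exact ⟨⟨x, hx⟩, rfl⟩

theorem h8_norm_solv {Ω : Type*} [Fintype Ω] (hp : (Fintype.card Ω).Prime) (U : Subgroup (Equiv.Perm Ω))
    (hU : Nat.card U = Fintype.card Ω) :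
    Group.IsSolvable (Subgroup.normalizer (U : Set (Equiv.Perm Ω))) := by
  classical
  obtain ⟨p, hpd⟩ : ∃ p, p = Fintype.card Ω := ⟨_, rfl⟩
  rw [← hpd] at hp hU
  haveI : Fact p.Prime := ⟨hp⟩
  haveI : IsCyclic U := isCyclic_of_prime_card hU
  obtain ⟨u, a, ha⟩ : ∃ (u : U) (a : Ω), u • a ≠ a := by
    by_contra hcon
    push Not at hcon
    have h1 : Nat.card U = 1 := by
      rw [Nat.card_eq_one_iff_unique]
      refine ⟨⟨fun x y => ?_⟩, ⟨1⟩⟩
      apply Subtype.ext
      ext b
      have h1 := hcon x b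
      have h2 := hcon y b
      have h1' : (x : Equiv.Perm Ω) b = b := h1
      have h2' : (y : Equiv.Perm Ω) b = b := h2
      rw [h1', h2']
    rw [hU] at h1
    exact hp.one_lt.ne' h1
  haveI : MulAction.IsPretransitive U Ω :=
    CfsgLib.H9.isPretransitive_of_prime hp hU (by rw [Nat.card_eq_fintype_card]; exact hpd.symm) ha
  have hc := CfsgLib.H9.card_centralizer_le (G := Equiv.Perm Ω) (X := Ω) U a
  have hcomm : ∀ x y : U, x * y = y * x := fun x y => by
    letI := IsCyclic.commGroup (α := U)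
    exact mul_comm x y
  have hUC : U ≤ Subgroup.centralizer (U : Set (Equiv.Perm Ω)) := by
    intro x hx
    rw [Subgroup.mem_centralizer_iff]
    intro y hy
    have := hcomm ⟨y, hy⟩ ⟨x, hx⟩
    exact congrArg (fun z : U => (z : Equiv.Perm Ω)) this
  have hCU : U = Subgroup.centralizer (U : Set (Equiv.Perm Ω)) := by
    refine Subgroup.eq_of_le_of_card_ge hUC ?_
    rw [hU, hpd, ← Nat.card_eq_fintype_card]
    exact hc
  have hUs : Group.IsSolvable U := Group.isSolvable_of_comm hcomm
  have hAs : Group.IsSolvable (MulAut U) := by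
    refine Group.isSolvable_of_comm fun x y => ?_
    apply (IsCyclic.mulAutMulEquiv U).injective
    rw [map_mul, map_mul, mul_comm]
  refine Group.isSolvable_of_ker_le_range
    (Subgroup.inclusion (Subgroup.le_normalizer : U ≤ Subgroup.normalizer (U : Set (Equiv.Perm Ω)))) U.normalizerMonoidHom ?_
  intro x hx
  rw [Subgroup.normalizerMonoidHom_ker, Subgroup.mem_subgroupOf, ← hCU] at hx
  exact ⟨⟨x, hx⟩, rfl⟩

theorem h8_out_transport {G T : Type*} [Group G] [Group T] (e : G ≃* T)
    (h : Group.IsSolvable (Cfsg.Out T)) : Group.IsSolvable (Cfsg.Out G) := by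
  let f : MulAut T →* MulAut G := (MulAut.congr e.symm).toMonoidHom
  have hf : Cfsg.Inn T ≤ (Cfsg.Inn G).comap f := by
    rintro _ ⟨t, rfl⟩
    refine ⟨e.symm t, ?_⟩
    ext g
    simp [f, MulAut.conj_apply, map_mul]
  let F : Cfsg.Out T →* Cfsg.Out G := QuotientGroup.map _ _ f hf
  refine Group.isSolvable_of_surjective (f := F) ?_
  intro y
  obtain ⟨a, rfl⟩ := QuotientGroup.mk_surjective y
  refine ⟨QuotientGroup.mk ((MulAut.congr e) a), ?_⟩
  show QuotientGroup.mk (f ((MulAut.congr e) a)) = _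
  congr 1
  ext g
  simp [f]

theorem h8_out_perm {Ω : Type*} [Fintype Ω] (hp : (Fintype.card Ω).Prime) (T : Subgroup (Equiv.Perm Ω))
    (h2 : MulAction.IsMultiplyPretransitive T Ω 2) : Group.IsSolvable (Cfsg.Out T) := by
  classical
  obtain ⟨p, hpd⟩ : ∃ p, p = Fintype.card Ω := ⟨_, rfl⟩
  rw [← hpd] at hp
  haveI : Fact p.Prime := ⟨hp⟩
  haveI : MulAction.IsPretransitive T Ω := MulAction.isPretransitive_of_is_two_pretransitive (h2 := h2)
  haveI : Nonempty Ω := by
    rw [← Fintype.card_pos_iff, ← hpd]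
    exact hp.pos
  obtain ⟨o⟩ := ‹Nonempty Ω›
  have hind : (MulAction.stabilizer T o).index = p := by
    rw [MulAction.index_stabilizer, MulAction.orbit_eq_univ, Set.ncard_univ, Nat.card_eq_fintype_card, hpd]
  have hcardT : Nat.card T ∣ p.factorial := by
    have := Subgroup.card_subgroup_dvd_card T
    rwa [Nat.card_eq_fintype_card (α := Equiv.Perm Ω), Fintype.card_perm, ← hpd] at this
  have hpp : ¬ p * p ∣ p.factorial := by
    intro h
    obtain ⟨q, hq⟩ : ∃ q, p = q + 1 := ⟨p - 1, by have := hp.pos; omega⟩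
    have h3 : p.factorial = p * (p - 1).factorial := by
      rw [hq]; simp [Nat.factorial_succ]
    rw [h3] at h
    have h4 := Nat.dvd_of_mul_dvd_mul_left hp.pos h
    have h5 := (Nat.Prime.dvd_factorial hp).1 h4
    have := hp.pos
    omega
  have hHall : (Nat.card (MulAction.stabilizer T o)).Coprime (MulAction.stabilizer T o).index := by
    rw [hind, Nat.coprime_comm, Nat.Prime.coprime_iff_not_dvd hp]
    intro h
    apply hpp
    refine dvd_trans ?_ hcardT
    rw [← Subgroup.card_mul_index (MulAction.stabilizer T o), hind]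
    exact Nat.mul_dvd_mul_right h p
  obtain ⟨P⟩ : Nonempty (Sylow p T) := inferInstance
  have hPc : Nat.card P = p := CfsgLib.H9.WPoly.card_sylow_of_prime_degree hpd.symm T P
  obtain ⟨U, hUd⟩ : ∃ U, U = (P : Subgroup T).map T.subtype := ⟨_, rfl⟩
  have hUc : Nat.card U = p := by
    rw [hUd, Subgroup.card_map_of_injective T.subtype_injective]
    exact hPc
  have hZ : Group.IsSolvable (Subgroup.normalizer (U : Set (Equiv.Perm Ω))) :=
    h8_norm_solv (by rw [← hpd]; exact hp) U (by rw [hUc, hpd])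
  obtain ⟨Y, hYd⟩ : ∃ Y, Y = (Subgroup.normalizer (U : Set (Equiv.Perm Ω))).subgroupOf (Subgroup.normalizer (T : Set (Equiv.Perm Ω))) := ⟨_, rfl⟩
  have hYs : Group.IsSolvable Y := by
    subst hYd
    refine Group.isSolvable_of_isSolvable_injective
      (f := MonoidHom.codRestrict ((Subgroup.normalizer (T : Set (Equiv.Perm Ω))).subtype.comp (Subgroup.subtype _)) (Subgroup.normalizer (U : Set (Equiv.Perm Ω))) (fun y => y.2)) ?_
    intro a b hab
    apply Subtype.ext
    apply Subtype.ext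
    exact congrArg (fun z : Subgroup.normalizer (U : Set (Equiv.Perm Ω)) => (z : Equiv.Perm Ω)) hab
  obtain ⟨ψ, hψd⟩ : ∃ ψ : Subgroup.normalizer (T : Set (Equiv.Perm Ω)) →* Cfsg.Out T, ψ = (QuotientGroup.mk' (Cfsg.Inn T)).comp T.normalizerMonoidHom := ⟨_, rfl⟩
  have hRs : Group.IsSolvable (Y.map ψ) :=
    Group.isSolvable_of_surjective (f := ψ.subgroupMap Y) (ψ.subgroupMap_surjective Y)
  refine h8_solv_of_odd (Y.map ψ) hRs ?_
  intro q hq
  obtain ⟨a, ha⟩ := QuotientGroup.mk_surjective q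
  obtain ⟨e, k, hk, hek⟩ := Nat.exists_eq_two_pow_mul_odd (orderOf_pos a).ne'
  have hcop : (2 ^ e).Coprime (orderOf q) := by
    apply Nat.Coprime.pow_left
    rw [Nat.coprime_two_left]
    exact hq
  obtain ⟨u, hu⟩ := exists_pow_eq_self_of_coprime hcop
  obtain ⟨x, hxd⟩ : ∃ x, x = (a ^ (2 ^ e)) ^ u := ⟨_, rfl⟩
  have hxq : (x : Cfsg.Out T) = q := by
    rw [hxd, QuotientGroup.mk_pow, QuotientGroup.mk_pow, ← hu, ha]
  have hxo : Odd (orderOf x) := by
    refine Odd.of_dvd_nat hk (orderOf_dvd_of_pow_eq_one ?_)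
    rw [hxd, ← pow_mul, ← pow_mul]
    have : 2 ^ e * (u * k) = orderOf a * u := by rw [hek]; ring
    rw [this, pow_mul, pow_orderOf_eq_one, one_pow]
  obtain ⟨σ, hσ, hσ2⟩ := Cfsg.Agent.S4290.result T h2 o hHall x hxo
  let P2 : Sylow p T := Sylow.ofCard ((P : Subgroup T).map x.toMonoidHom) (by
    rw [Subgroup.card_map_of_injective x.injective]
    exact P.card_eq_multiplicity)
  obtain ⟨t, ht⟩ := MulAction.exists_smul_eq T P2 P
  have ht2 : MulAut.conj t • (P2 : Subgroup T) = (P : Subgroup T) := by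
    rw [← Sylow.coe_subgroup_smul, ht]
  have hσ'' : (t : Equiv.Perm Ω) * σ ∈ Subgroup.normalizer (U : Set (Equiv.Perm Ω)) := by
    rw [Subgroup.mem_normalizer_iff_map_conj_eq]
    refine Subgroup.eq_of_le_of_card_ge ?_ ?_
    · rintro _ ⟨g, hg, rfl⟩
      rw [hUd] at hg
      obtain ⟨g', hg', rfl⟩ := hg
      have h3 : t * x g' * t⁻¹ ∈ (P : Subgroup T) := by
        rw [← ht2, CfsgLib.FGS.mem_conj_smul_iff]
        have : t⁻¹ * (t * x g' * t⁻¹) * t = x g' := by group
        rw [this]
        exact ⟨g', hg', rfl⟩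
      rw [hUd]
      refine ⟨_, h3, ?_⟩
      show ((t * x g' * t⁻¹ : T) : Equiv.Perm Ω) = _
      have h4 := hσ2 g'
      simp only [MulAut.smul_def, MulEquiv.coe_toMonoidHom, MulAut.conj_apply, Subgroup.coe_mul, Subgroup.coe_inv, h4]
      show _ = (t : Equiv.Perm Ω) * σ * ((T.subtype g' : Equiv.Perm Ω)) * ((t : Equiv.Perm Ω) * σ)⁻¹
      simp only [Subgroup.coe_subtype]
      group
    · rw [Subgroup.card_map_of_injective (MulAut.conj _).injective]
  refine ⟨⟨(t : Equiv.Perm Ω) * σ, ?_⟩, ?_, ?_⟩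
  · exact Subgroup.mul_mem _ (Subgroup.le_normalizer t.2) hσ
  · rw [hYd]
    exact hσ''
  · have h5 : (⟨(t : Equiv.Perm Ω) * σ, Subgroup.mul_mem _ (Subgroup.le_normalizer t.2) hσ⟩ : Subgroup.normalizer (T : Set (Equiv.Perm Ω))) = ⟨t, Subgroup.le_normalizer t.2⟩ * ⟨σ, hσ⟩ := rfl
    show ψ _ = q
    rw [h5, map_mul, hψd, ← hxq]
    have h6 : T.normalizerMonoidHom ⟨σ, hσ⟩ = x := by
      ext g
      exact (hσ2 g).symm ▸ rfl
    have h7 : T.normalizerMonoidHom ⟨t, Subgroup.le_normalizer t.2⟩ = MulAut.conj t := by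
      ext g
      rfl
    simp only [MonoidHom.comp_apply, h6, h7, QuotientGroup.mk'_apply]
    have h8 : ((MulAut.conj t : MulAut T) : Cfsg.Out T) = 1 := by
      rw [QuotientGroup.eq_one_iff]
      exact ⟨t, rfl⟩
    rw [h8, one_mul]


/-- A case of the Schreier conjecture: if a finite simple group G has a subgroup of prime index, then the outer automorphism group of G is solvable. -/
theorem result {G : Type*} [Group G] [Finite G] [IsSimpleGroup G] (H : Subgroup G) (hH : H.index.Prime) : Group.IsSolvable (Cfsg.Out G) := by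
  classical
  by_cases hcp : (Nat.card G).Prime
  · haveI : Fact (Nat.card G).Prime := ⟨hcp⟩
    haveI : IsCyclic G := isCyclic_of_prime_card rfl
    have hAs : Group.IsSolvable (MulAut G) := by
      refine Group.isSolvable_of_comm fun x y => ?_
      apply (IsCyclic.mulAutMulEquiv G).injective
      rw [map_mul, map_mul, mul_comm]
    exact Group.isSolvable_of_surjective (f := QuotientGroup.mk' (Cfsg.Inn G)) (QuotientGroup.mk'_surjective _)
  · have hnc := CfsgLib.H9.not_isMulCommutative_of_not_prime hcp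
    letI : Fintype (G ⧸ H) := Fintype.ofFinite _
    have hcard : (Fintype.card (G ⧸ H)).Prime := by
      rw [← Nat.card_eq_fintype_card]
      exact hH
    obtain ⟨ρ, hρd⟩ : ∃ ρ, ρ = MulAction.toPermHom G (G ⧸ H) := ⟨_, rfl⟩
    have hρ : ∀ (g : G) (z : G ⧸ H), ρ g z = g • z := by
      intro g z
      rw [hρd]
      rfl
    have hinj : Function.Injective ρ := by
      rw [← MonoidHom.ker_eq_bot_iff]
      rcases (inferInstance : (ρ.ker).Normal).eq_bot_or_eq_top with h | h
      · exact h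
      · exfalso
        have hHt : H = ⊤ := by
          rw [eq_top_iff]
          intro g _
          have h1 : g ∈ ρ.ker := by rw [h]; trivial
          have h2 : ρ g ((1 : G) : G ⧸ H) = ((1 : G) : G ⧸ H) := by
            rw [MonoidHom.mem_ker.1 h1]; rfl
          rw [hρ] at h2
          have h3 : ((g : G) : G ⧸ H) = ((1 : G) : G ⧸ H) := by
            rw [← h2]
            show _ = ((g * 1 : G) : G ⧸ H)
            rw [mul_one]
          rw [QuotientGroup.eq] at h3
          simpa using (H.inv_mem h3)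
        rw [hHt, Subgroup.index_top] at hH
        exact Nat.not_prime_one hH
    have htr : MulAction.IsPretransitive ρ.range (G ⧸ H) := by
      refine ⟨fun a b => ?_⟩
      obtain ⟨g, hg⟩ := MulAction.exists_smul_eq G a b
      refine ⟨⟨ρ g, ⟨g, rfl⟩⟩, ?_⟩
      show ρ g a = b
      rw [hρ, hg]
    have e : G ≃* ρ.range := MonoidHom.ofInjective hinj
    refine h8_out_transport e ?_
    rcases Cfsg.Agent.S0675.result hcard ρ.range with h | h
    · exfalso
      have hs : Group.IsSolvable G := Group.isSolvable_of_isSolvable_injective (f := e.toMonoidHom) e.injective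
      exact hnc ⟨⟨(IsSimpleGroup.comm_iff_isSolvable.2 hs)⟩⟩
    · exact h8_out_perm hcard ρ.range h

end Cfsg.Agent.S4277
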