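import Cfsg.Statements.S4283
import Cfsg.Agent.Lib.FGS.FrobEq
import Cfsg.Agent.Lib.FGS.Elem

set_option autoImplicit false
open Cfsg

namespace Cfsg.Agent.S4283

/-- Let G be a finite group with centre Z and let K, H be abelian subgroups of G containing Z such that G/Z is a Frobenius group with complement H/Z and kernel K/Z. Then the conjugacy class sizes of G are exactly 1, [G : K] and [G : H], and these two indices are coprime. (This is the converse half of the characterization of finite groups whose conjugacy class sizes are exactly 1, m and n with m and n coprime.) -/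
theorem result {G : Type*} [Group G] [Finite G] (K H : Subgroup G) (hZK : Subgroup.center G ≤ K) (hZH : Subgroup.center G ≤ H) (hK : IsMulCommutative K) (hH : IsMulCommutative H) (hFrob : Cfsg.IsFrobeniusComplement (H.map (QuotientGroup.mk' (Subgroup.center G)))) (hker : Cfsg.frobeniusKernel (H.map (QuotientGroup.mk' (Subgroup.center G))) = (K.map (QuotientGroup.mk' (Subgroup.center G)) : Set (G ⧸ Subgroup.center G))) : Set.range (fun x : G => (Subgroup.centralizer ({x} : Set G)).index) = ({1, K.index, H.index} : Set ℕ) ∧ K.index.Coprime H.index := by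
  classical
  set Z := Subgroup.center G with hZ
  set π : G →* G ⧸ Z := QuotientGroup.mk' Z with hπdef
  have hπs : Function.Surjective π := QuotientGroup.mk'_surjective Z
  have hkerπ : π.ker = Z := QuotientGroup.ker_mk' Z
  set Hb := H.map π with hHb
  set Kb := K.map π with hKb
  have hinK : ∀ x, π x ∈ Kb ↔ x ∈ K := by
    intro x
    constructor
    · rintro ⟨y, hy, hyx⟩
      have h1 : y⁻¹ * x ∈ π.ker := by
        rw [MonoidHom.mem_ker, map_mul, map_inv, hyx, inv_mul_cancel]
      rw [hkerπ] at h1
      have h2 := K.mul_mem hy (hZK h1)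
      simpa using h2
    · intro hx
      exact ⟨x, hx, rfl⟩
  have hinH : ∀ x, π x ∈ Hb ↔ x ∈ H := by
    intro x
    constructor
    · rintro ⟨y, hy, hyx⟩
      have h1 : y⁻¹ * x ∈ π.ker := by
        rw [MonoidHom.mem_ker, map_mul, map_inv, hyx, inv_mul_cancel]
      rw [hkerπ] at h1
      have h2 := H.mul_mem hy (hZH h1)
      simpa using h2
    · intro hx
      exact ⟨x, hx, rfl⟩
  have hπ1 : ∀ x, π x = 1 ↔ x ∈ Z := by
    intro x
    rw [← MonoidHom.mem_ker, hkerπ]
  have hKbset : (Kb : Set (G ⧸ Z)) = frobeniusKernel Hb := hker.symm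
  haveI hKbn : Kb.Normal := CfsgLib.Lead.frob_normal Kb hKbset
  -- sizes
  have hcardK : Nat.card Kb = Hb.index := by
    rw [← CfsgLib.Solv.card_frobeniusKernel hFrob, hker]
    rfl
  have hidxH : H.index = Hb.index := (Subgroup.index_map_eq (f := π) (H := H) hπs (by rw [hkerπ]; exact hZH)).symm
  have hidxK : K.index = Kb.index := (Subgroup.index_map_eq (f := π) (H := K) hπs (by rw [hkerπ]; exact hZK)).symm
  have hKbidx : Kb.index = Nat.card Hb := by
    have h1 := Hb.card_mul_index
    have h2 := Kb.card_mul_index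
    rw [hcardK] at h2
    have hpos : 0 < Hb.index := Nat.pos_of_ne_zero Subgroup.index_ne_zero_of_finite
    apply Nat.eq_of_mul_eq_mul_left hpos
    rw [h2, mul_comm, h1]
  have hcop : K.index.Coprime H.index := by
    rw [hidxK, hidxH, hKbidx]
    have h1 := CfsgLib.Solv.index_modEq_one hFrob
    have h2 := h1.gcd_eq
    rw [Nat.gcd_one_left] at h2
    rw [Nat.coprime_comm]
    exact h2
  refine ⟨?_, hcop⟩
  -- centralizers
  have hCH : ∀ x ∈ H, x ∉ Z → Subgroup.centralizer ({x} : Set G) = H := by
    intro x hx hxZ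
    apply le_antisymm
    · intro g hg
      rw [Subgroup.mem_centralizer_singleton_iff] at hg
      rw [← hinH]
      by_contra hgn
      apply hxZ
      rw [← hπ1]
      apply CfsgLib.Lead.frob_ti hFrob (π g) hgn (π x) ((hinH x).mpr hx)
      have : (π g)⁻¹ * π x * π g = π x := by
        rw [← map_inv, ← map_mul, ← map_mul]
        congr 1
        rw [mul_assoc, ← hg]
        group
      rw [this]
      exact (hinH x).mpr hx
    · intro g hg
      rw [Subgroup.mem_centralizer_singleton_iff]
      exact congrArg Subtype.val (hH.is_comm.comm (⟨g, hg⟩ : H) ⟨x, hx⟩)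
  have hCK : ∀ x ∈ K, x ∉ Z → Subgroup.centralizer ({x} : Set G) = K := by
    intro x hx hxZ
    apply le_antisymm
    · intro g hg
      rw [Subgroup.mem_centralizer_singleton_iff] at hg
      rw [← hinK]
      by_contra hgn
      obtain ⟨u, hu1, hu2⟩ := CfsgLib.Lead.frob_mem_conj Kb hKbset (π g) hgn
      apply hxZ
      rw [← hπ1]
      have h3 : u⁻¹ * π x * u ∈ Kb := by
        have := hKbn.conj_mem (π x) ((hinK x).mpr hx) u⁻¹
        rwa [inv_inv] at this
      have h4 := CfsgLib.Lead.frob_centralizer_trivial hFrob Kb hKbset (u⁻¹ * π g * u) hu1 hu2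
        (u⁻¹ * π x * u) h3 (by
          have h5 : π g * π x = π x * π g := by
            rw [← map_mul, ← map_mul, hg]
          calc (u⁻¹ * π g * u) * (u⁻¹ * π x * u) = u⁻¹ * (π g * π x) * u := by group
            _ = u⁻¹ * (π x * π g) * u := by rw [h5]
            _ = _ := by group)
      have h6 : π x = u * (u⁻¹ * π x * u) * u⁻¹ := by group
      rw [h6, h4]
      group
    · intro g hg
      rw [Subgroup.mem_centralizer_singleton_iff]
      exact congrArg Subtype.val (hK.is_comm.comm (⟨g, hg⟩ : K) ⟨x, hx⟩)
  have hidxconj : ∀ x u : G, (Subgroup.centralizer ({u⁻¹ * x * u} : Set G)).index = (Subgroup.centralizer ({x} : Set G)).index := by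
    intro x u
    rw [CfsgLib.FGS.index_centralizer_eq_card_conj, CfsgLib.FGS.index_centralizer_eq_card_conj]
    apply Nat.card_congr
    apply Equiv.subtypeEquivRight
    intro h
    have h1 : IsConj x (u⁻¹ * x * u) := by
      rw [isConj_iff]
      exact ⟨u⁻¹, by group⟩
    exact ⟨fun h2 => h1.trans h2, fun h2 => h1.symm.trans h2⟩
  ext n
  simp only [Set.mem_range, Set.mem_insert_iff, Set.mem_singleton_iff]
  constructor
  · rintro ⟨x, rfl⟩
    by_cases hxZ : x ∈ Z
    · left
      have : Subgroup.centralizer ({x} : Set G) = ⊤ := by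
        rw [eq_top_iff]
        intro g _
        rw [Subgroup.mem_centralizer_singleton_iff]
        exact (Subgroup.mem_center_iff.mp hxZ g)
      rw [this, Subgroup.index_top]
    · right
      by_cases hxK : x ∈ K
      · left
        rw [hCK x hxK hxZ]
      · right
        have hxK' : π x ∉ Kb := fun h => hxK ((hinK x).mp h)
        obtain ⟨u, hu1, hu2⟩ := CfsgLib.Lead.frob_mem_conj Kb hKbset (π x) hxK'
        obtain ⟨u', rfl⟩ := hπs u
        have h1 : π (u'⁻¹ * x * u') ∈ Hb := by
          rw [map_mul, map_mul, map_inv]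
          exact hu1
        have h2 : u'⁻¹ * x * u' ∈ H := (hinH _).mp h1
        have h3 : u'⁻¹ * x * u' ∉ Z := by
          rw [← hπ1, map_mul, map_mul, map_inv]
          exact hu2
        rw [← hidxconj x u', hCH _ h2 h3]
  · rintro (rfl | rfl | rfl)
    · refine ⟨1, ?_⟩
      have : Subgroup.centralizer ({1} : Set G) = ⊤ := by
        rw [eq_top_iff]
        intro g _
        rw [Subgroup.mem_centralizer_singleton_iff]
        group
      rw [this, Subgroup.index_top]
    · -- need x ∈ K \ Z
      have hKne : Kb ≠ ⊥ := by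
        intro h
        rw [h, Subgroup.card_bot] at hcardK
        apply hFrob.2.1
        exact Subgroup.index_eq_one.mp hcardK.symm
      obtain ⟨k, hk, hk1⟩ : ∃ k ∈ Kb, k ≠ 1 := by
        by_contra hcon
        apply hKne
        rw [eq_bot_iff]
        intro w hw
        by_contra hw1
        exact hcon ⟨w, hw, hw1⟩
      obtain ⟨x, hx, rfl⟩ := hk
      refine ⟨x, ?_⟩
      rw [hCK x hx (fun hz => hk1 ((hπ1 x).mpr hz))]
    · obtain ⟨k, hk, hk1⟩ : ∃ k ∈ Hb, k ≠ 1 := by
        by_contra hcon
        apply hFrob.1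
        rw [eq_bot_iff]
        intro w hw
        by_contra hw1
        exact hcon ⟨w, hw, hw1⟩
      obtain ⟨x, hx, rfl⟩ := hk
      refine ⟨x, ?_⟩
      rw [hCH x hx (fun hz => hk1 ((hπ1 x).mpr hz))]

end Cfsg.Agent.S4283
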