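import Cfsg.Statements.S4297
import Cfsg.Agent.Lib.FGS.FrobCon

set_option autoImplicit false
open Cfsg

namespace Cfsg.Agent.S4297

/-- The fixed-point-free action of the dicyclic group. -/
noncomputable def quatAct {F : Type} [Field F] (n : ℕ) (z : ZMod (2 * n) → F) :
    QuaternionGroup n → (F × F →+ F × F)
  | .a i => AddMonoidHom.mk' (fun w => (z i * w.1, (z i)⁻¹ * w.2)) (by
      intro a b
      ext <;> simp [mul_add])
  | .xa i => AddMonoidHom.mk' (fun w => ((z i)⁻¹ * w.2, -(z i * w.1))) (by
      intro a b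
      ext <;> simp [mul_add, add_comm])


/-- For every n ≥ 2 the dicyclic group of order 4n (generated by an element a of order 2n and an element x with x² = aⁿ and x a x⁻¹ = a⁻¹) occurs as a Frobenius complement of some finite Frobenius group. -/
theorem result (n : ℕ) (hn : 2 ≤ n) :
    ∃ (L : Type) (_ : Group L) (_ : Finite L) (H : Subgroup L), Cfsg.IsFrobeniusComplement H ∧ Nonempty (H ≃* QuaternionGroup n) := by
  classical
  haveI : NeZero n := ⟨by omega⟩
  haveI : NeZero (2 * n) := ⟨by omega⟩
  obtain ⟨q, hq, hq2, hq1⟩ := Nat.exists_prime_gt_modEq_one (k := 2 * n) 2 (by omega)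
  haveI : Fact q.Prime := ⟨hq⟩
  have hdvd : 2 * n ∣ q - 1 := (Nat.modEq_iff_dvd' hq.one_lt.le).mp hq1.symm
  obtain ⟨g, hg⟩ := IsCyclic.exists_ofOrder_eq_natCard (α := (ZMod q)ˣ)
  have hcard : Nat.card (ZMod q)ˣ = q - 1 := by
    rw [Nat.card_eq_fintype_card, ZMod.card_units]
  obtain ⟨t, ht⟩ := hdvd
  have htpos : 0 < t := by
    rcases Nat.eq_zero_or_pos t with h0 | h0
    · have : q - 1 = 0 := by rw [ht, h0, mul_zero]
      have := hq.one_lt
      omega
    · exact h0
  set u := g ^ t with hu
  have hou : orderOf u = 2 * n := by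
    rw [hu, orderOf_pow' g htpos.ne', hg, hcard, ht, Nat.gcd_mul_left_left]
    exact Nat.mul_div_cancel _ htpos
  let ζ : ZMod q := (u : ZMod q)
  have hζne : ζ ≠ 0 := u.ne_zero
  have hζo : orderOf ζ = 2 * n := by
    have h1 : orderOf ζ = orderOf u := orderOf_units
    rw [h1, hou]
  let z : ZMod (2 * n) → ZMod q := fun i => ζ ^ i.val
  have hz0 : z 0 = 1 := by simp [z]
  have hzne : ∀ i, z i ≠ 0 := fun i => pow_ne_zero _ hζne
  have hzadd : ∀ i j, z (i + j) = z i * z j := by
    intro i j
    simp only [z]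
    have := pow_mod_orderOf ζ (i.val + j.val)
    rw [hζo] at this
    rw [ZMod.val_add, ← pow_add, this]
  have hzsub : ∀ i j, z (j - i) = z j * (z i)⁻¹ := by
    intro i j
    have h1 : z j = z (j - i) * z i := by rw [← hzadd, sub_add_cancel]
    rw [h1, mul_assoc, mul_inv_cancel₀ (hzne i), mul_one]
  have hz1 : ∀ i, z i = 1 → i = 0 := by
    intro i hi
    have h1 : orderOf ζ ∣ i.val := orderOf_dvd_of_pow_eq_one hi
    rw [hζo] at h1
    have h2 : i.val < 2 * n := ZMod.val_lt i
    have h3 : i.val = 0 := Nat.eq_zero_of_dvd_of_lt h1 h2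
    exact (ZMod.val_eq_zero i).mp h3
  have hnne : ((n : ℕ) : ZMod (2 * n)) ≠ 0 := by
    intro h0
    have h1 := (ZMod.natCast_eq_zero_iff n (2 * n)).mp h0
    have h2 := Nat.le_of_dvd (by omega) h1
    omega
  have hzn : z ((n : ℕ) : ZMod (2 * n)) = -1 := by
    have h1 : z ((n : ℕ) : ZMod (2 * n)) * z ((n : ℕ) : ZMod (2 * n)) = 1 := by
      rw [← hzadd]
      have h2 : ((n : ℕ) : ZMod (2 * n)) + (n : ℕ) = 0 := by
        have : ((n + n : ℕ) : ZMod (2 * n)) = 0 := by
          rw [(by ring : n + n = 2 * n)]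
          exact ZMod.natCast_self _
        exact_mod_cast this
      rw [h2, hz0]
    have h3 : (z ((n : ℕ) : ZMod (2 * n)) - 1) * (z ((n : ℕ) : ZMod (2 * n)) + 1) = 0 := by
      linear_combination h1
    rcases mul_eq_zero.mp h3 with h4 | h4
    · exact absurd (hz1 _ (sub_eq_zero.mp h4)) hnne
    · exact eq_neg_of_add_eq_zero_left h4
  have h2ne : (2 : ZMod q) ≠ 0 := by
    intro h
    have h1 : ((2 : ℕ) : ZMod q) = 0 := by exact_mod_cast h
    have h3 := (ZMod.natCast_eq_zero_iff 2 q).mp h1
    have h4 := Nat.le_of_dvd (by norm_num) h3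
    omega
  haveI : Nontrivial (QuaternionGroup n) :=
    ⟨⟨QuaternionGroup.a 0, QuaternionGroup.xa 0, fun h => by cases h⟩⟩
  obtain ⟨L, hL, hLf, H, hH, e⟩ := CfsgLib.FGS.exists_frobenius_of_fpf_add (quatAct n z)
    (by
      apply AddMonoidHom.ext
      intro w
      change quatAct n z (QuaternionGroup.a 0) w = w
      simp [quatAct, hz0])
    (by
      intro a b w
      cases a with
      | a i =>
        cases b with
        | a j =>
          simp only [QuaternionGroup.a_mul_a, quatAct, AddMonoidHom.mk'_apply, hzadd]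
          ext
          · simp; ring
          · simp [mul_inv]; ring
        | xa j =>
          simp only [QuaternionGroup.a_mul_xa, quatAct, AddMonoidHom.mk'_apply, hzsub]
          ext
          · simp; ring
          · simp [mul_inv, hzne]; field_simp [hzne]
      | xa i =>
        cases b with
        | a j =>
          simp only [QuaternionGroup.xa_mul_a, quatAct, AddMonoidHom.mk'_apply, hzadd]
          ext
          · simp; ring
          · simp; ring
        | xa j =>
          simp only [QuaternionGroup.xa_mul_xa, quatAct, AddMonoidHom.mk'_apply]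
          have h1 : z (((n : ℕ) : ZMod (2 * n)) + j - i) = -(z j * (z i)⁻¹) := by
            rw [add_sub_assoc, hzadd, hzsub, hzn]
            ring
          rw [h1]
          ext
          · simp; field_simp [hzne]
          · simp [mul_inv, hzne]; field_simp [hzne])
    (by
      intro h hh w hw
      cases h with
      | a i =>
        have hi : i ≠ 0 := fun h0 => hh (by rw [h0]; rfl)
        have h1 : z i * w.1 = w.1 := congrArg Prod.fst hw
        have h2 : (z i)⁻¹ * w.2 = w.2 := congrArg Prod.snd hw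
        have h3 : (z i - 1) * w.1 = 0 := by rw [sub_mul, h1, one_mul, sub_self]
        have h4 : z i - 1 ≠ 0 := fun h0 => hi (hz1 i (sub_eq_zero.mp h0))
        have h5 : w.1 = 0 := (mul_eq_zero.mp h3).resolve_left h4
        have h6 : ((z i)⁻¹ - 1) * w.2 = 0 := by rw [sub_mul, h2, one_mul, sub_self]
        have h7 : (z i)⁻¹ - 1 ≠ 0 := fun h0 => hi (hz1 i (inv_eq_one.mp (sub_eq_zero.mp h0)))
        exact Prod.ext h5 ((mul_eq_zero.mp h6).resolve_left h7)
      | xa i =>
        have h1 : (z i)⁻¹ * w.2 = w.1 := congrArg Prod.fst hw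
        have h2 : -(z i * w.1) = w.2 := congrArg Prod.snd hw
        have h3 : (2 : ZMod q) * w.2 = 0 := by
          rw [← h1] at h2
          rw [← mul_assoc, mul_inv_cancel₀ (hzne i), one_mul] at h2
          linear_combination -h2
        have h4 : w.2 = 0 := (mul_eq_zero.mp h3).resolve_left h2ne
        have h5 : w.1 = 0 := by rw [← h1, h4, mul_zero]
        exact Prod.ext h5 h4)
  exact ⟨L, hL, hLf, H, hH, e⟩

end Cfsg.Agent.S4297
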