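import Cfsg.Statements.S4298
import Cfsg.Agent.Lib.FGS.FrobCon

set_option autoImplicit false
open Cfsg

namespace Cfsg.Agent.S4298

/-- Table of an embedding `SL(2,3) → SL(2,5)`. -/
def enc : List ℕ := [0, 0, 0, 0, 0, 0, 0, 0, 0, 0, 0, 0, 0, 0, 0, 105, 309, 491, 0, 0, 0, 45, 289, 471, 0, 0, 0, 0, 126, 0, 0, 431, 0, 0, 223, 0, 0, 411, 0, 0, 0, 377, 617, 0, 0, 0, 243, 0, 597, 0, 0, 0, 0, 90, 0, 0, 504, 0, 0, 557, 0, 0, 349, 0, 0, 537, 0, 60, 0, 183, 0, 0, 0, 0, 369, 163, 0, 0, 0, 253, 0]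

def lk (a b c d : ZMod 3) : ℕ := enc.getD (a.val + 3 * b.val + 9 * c.val + 27 * d.val) 0

def E00 (a b c d : ZMod 3) : ZMod 5 := ((lk a b c d : ℕ) : ZMod 5)
def E01 (a b c d : ZMod 3) : ZMod 5 := ((lk a b c d / 5 : ℕ) : ZMod 5)
def E10 (a b c d : ZMod 3) : ZMod 5 := ((lk a b c d / 25 : ℕ) : ZMod 5)
def E11 (a b c d : ZMod 3) : ZMod 5 := ((lk a b c d / 125 : ℕ) : ZMod 5)

theorem gen : ∀ a b c d : ZMod 3, a * d - b * c = 1 → ∀ a' b' c' d' : ZMod 3, a' * d' - b' * c' = 1 →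
    E00 (a * a' + b * c') (a * b' + b * d') (c * a' + d * c') (c * b' + d * d') =
      E00 a b c d * E00 a' b' c' d' + E01 a b c d * E10 a' b' c' d' ∧
    E01 (a * a' + b * c') (a * b' + b * d') (c * a' + d * c') (c * b' + d * d') =
      E00 a b c d * E01 a' b' c' d' + E01 a b c d * E11 a' b' c' d' ∧
    E10 (a * a' + b * c') (a * b' + b * d') (c * a' + d * c') (c * b' + d * d') =
      E10 a b c d * E00 a' b' c' d' + E11 a b c d * E10 a' b' c' d' ∧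
    E11 (a * a' + b * c') (a * b' + b * d') (c * a' + d * c') (c * b' + d * d') =
      E10 a b c d * E01 a' b' c' d' + E11 a b c d * E11 a' b' c' d' := by
  decide +kernel

theorem gen_one : E00 1 0 0 1 = 1 ∧ E01 1 0 0 1 = 0 ∧ E10 1 0 0 1 = 0 ∧ E11 1 0 0 1 = 1 := by
  decide +kernel

theorem gen_fpf : ∀ a b c d : ZMod 3, a * d - b * c = 1 → ¬ (a = 1 ∧ b = 0 ∧ c = 0 ∧ d = 1) →
    ∀ u v : ZMod 5, E00 a b c d * u + E01 a b c d * v = u → E10 a b c d * u + E11 a b c d * v = v →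
      u = 0 ∧ v = 0 := by
  decide +kernel

/-- The action. -/
def act (g : Matrix.SpecialLinearGroup (Fin 2) (ZMod 3)) : ZMod 5 × ZMod 5 →+ ZMod 5 × ZMod 5 :=
  AddMonoidHom.mk' (fun w =>
    (E00 (g.1 0 0) (g.1 0 1) (g.1 1 0) (g.1 1 1) * w.1 + E01 (g.1 0 0) (g.1 0 1) (g.1 1 0) (g.1 1 1) * w.2,
     E10 (g.1 0 0) (g.1 0 1) (g.1 1 0) (g.1 1 1) * w.1 + E11 (g.1 0 0) (g.1 0 1) (g.1 1 0) (g.1 1 1) * w.2))
    (by
      intro x y
      ext <;> simp <;> ring)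

theorem det_eq (g : Matrix.SpecialLinearGroup (Fin 2) (ZMod 3)) :
    g.1 0 0 * g.1 1 1 - g.1 0 1 * g.1 1 0 = 1 := by
  have := g.2
  rwa [Matrix.det_fin_two] at this


/-- The group SL(2,3) of order 24 (the binary tetrahedral group) occurs as a Frobenius complement of some finite Frobenius group. -/
theorem result :
    ∃ (L : Type) (_ : Group L) (_ : Finite L) (H : Subgroup L), Cfsg.IsFrobeniusComplement H ∧ Nonempty (H ≃* Matrix.SpecialLinearGroup (Fin 2) (ZMod 3)) := by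
  classical
  let t : Matrix.SpecialLinearGroup (Fin 2) (ZMod 3) := ⟨!![1, 1; 0, 1], by
    rw [Matrix.det_fin_two]
    decide⟩
  haveI : Nontrivial (Matrix.SpecialLinearGroup (Fin 2) (ZMod 3)) := by
    refine ⟨⟨t, 1, fun h => ?_⟩⟩
    have := congrArg (fun g : Matrix.SpecialLinearGroup (Fin 2) (ZMod 3) => g.1 0 1) h
    simp [t] at this
  haveI : Fact (Nat.Prime 5) := ⟨by norm_num⟩
  refine CfsgLib.FGS.exists_frobenius_of_fpf_add act ?_ ?_ ?_
  · apply AddMonoidHom.ext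
    intro w
    obtain ⟨h1, h2, h3, h4⟩ := gen_one
    simp [act, h1, h2, h3, h4]
  · intro g h w
    obtain ⟨h1, h2, h3, h4⟩ := gen _ _ _ _ (det_eq g) _ _ _ _ (det_eq h)
    have e00 : (g * h).1 0 0 = g.1 0 0 * h.1 0 0 + g.1 0 1 * h.1 1 0 := by
      simp [Matrix.mul_apply, Fin.sum_univ_two]
    have e01 : (g * h).1 0 1 = g.1 0 0 * h.1 0 1 + g.1 0 1 * h.1 1 1 := by
      simp [Matrix.mul_apply, Fin.sum_univ_two]
    have e10 : (g * h).1 1 0 = g.1 1 0 * h.1 0 0 + g.1 1 1 * h.1 1 0 := by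
      simp [Matrix.mul_apply, Fin.sum_univ_two]
    have e11 : (g * h).1 1 1 = g.1 1 0 * h.1 0 1 + g.1 1 1 * h.1 1 1 := by
      simp [Matrix.mul_apply, Fin.sum_univ_two]
    apply Prod.ext
    · simp only [act, AddMonoidHom.mk'_apply, e00, e01, e10, e11, h1, h2]
      ring
    · simp only [act, AddMonoidHom.mk'_apply, e00, e01, e10, e11, h3, h4]
      ring
  · intro g hg w hw
    have hne : ¬ (g.1 0 0 = 1 ∧ g.1 0 1 = 0 ∧ g.1 1 0 = 0 ∧ g.1 1 1 = 1) := by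
      rintro ⟨h1, h2, h3, h4⟩
      apply hg
      apply Subtype.ext
      ext i j
      fin_cases i <;> fin_cases j <;> simp [h1, h2, h3, h4]
    obtain ⟨h5, h6⟩ := gen_fpf _ _ _ _ (det_eq g) hne w.1 w.2 (congrArg Prod.fst hw) (congrArg Prod.snd hw)
    exact Prod.ext h5 h6

end Cfsg.Agent.S4298
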