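import Cfsg.Statements.S4299
import Cfsg.Agent.Lib.FGS.FrobCon

set_option autoImplicit false
open Cfsg

namespace Cfsg.Agent.S4299

/-- Every nontrivial finite cyclic group occurs as a Frobenius complement of some finite Frobenius group. -/
theorem result {C : Type*} [Group C] [Finite C] [IsCyclic C] [Nontrivial C] :
    ∃ (L : Type) (_ : Group L) (_ : Finite L) (H : Subgroup L), Cfsg.IsFrobeniusComplement H ∧ Nonempty (C ≃* H) := by
  classical
  have hn : 1 < Nat.card C := Finite.one_lt_card
  obtain ⟨q, hq, -, hq1⟩ := Nat.exists_prime_gt_modEq_one (k := Nat.card C) 1 (by omega)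
  haveI : Fact q.Prime := ⟨hq⟩
  have hdvd : Nat.card C ∣ q - 1 := (Nat.modEq_iff_dvd' hq.one_lt.le).mp hq1.symm
  obtain ⟨g, hg⟩ := IsCyclic.exists_ofOrder_eq_natCard (α := (ZMod q)ˣ)
  have hcard : Nat.card (ZMod q)ˣ = q - 1 := by
    rw [Nat.card_eq_fintype_card, ZMod.card_units]
  obtain ⟨t, ht⟩ := hdvd
  have htpos : 0 < t := by
    rcases Nat.eq_zero_or_pos t with h0 | h0
    · have : q - 1 = 0 := by rw [ht, h0, mul_zero]
      have := hq.one_lt
      omega
    · exact h0
  set u := g ^ t with hu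
  have hou : orderOf u = Nat.card C := by
    rw [hu, orderOf_pow' g htpos.ne', hg, hcard, ht, Nat.gcd_mul_left_left]
    exact Nat.mul_div_cancel _ htpos
  let U := Subgroup.zpowers u
  have hUc : Nat.card U = Nat.card C := by rw [Nat.card_zpowers, hou]
  let e : C ≃* U := mulEquivOfCyclicCardEq hUc.symm
  haveI : Nontrivial U := by
    have : 1 < Nat.card U := by rw [hUc]; exact hn
    exact Finite.one_lt_card_iff_nontrivial.mp this
  let f : U → ZMod q →+ ZMod q := fun v => AddMonoidHom.mulLeft (((v : (ZMod q)ˣ)) : ZMod q)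
  obtain ⟨L, hL, hLf, H, hH, ⟨e2⟩⟩ := CfsgLib.FGS.exists_frobenius_of_fpf_add f
    (by
      ext w
      simp [f])
    (by
      intro a b w
      simp [f, mul_assoc])
    (by
      intro h hh w hw
      have h1 : ((h : (ZMod q)ˣ) : ZMod q) * w = w := hw
      have h2 : (((h : (ZMod q)ˣ) : ZMod q) - 1) * w = 0 := by
        rw [sub_mul, h1, one_mul, sub_self]
      rcases mul_eq_zero.mp h2 with h3 | h3
      · exfalso
        apply hh
        apply Subtype.ext
        apply Units.ext
        simpa [sub_eq_zero] using h3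
      · exact h3)
  exact ⟨L, hL, hLf, H, hH, ⟨e.trans e2.symm⟩⟩

end Cfsg.Agent.S4299
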