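import Cfsg.Statements.S4300
import Cfsg.Agent.Lib.FGS.Basic

set_option autoImplicit false
open Cfsg

namespace Cfsg.Agent.S4300

/-- Let G act faithfully and primitively on a set X, and suppose the stabilizer of some point is a simple group. Then either G is simple, or G has a normal subgroup, neither trivial nor the whole group, that acts regularly on X (transitively with trivial point stabilizers). -/
theorem result {G : Type*} [Group G] {X : Type*} [MulAction G X] [FaithfulSMul G X]
    (hprim : MulAction.IsPreprimitive G X) (x : X) (hsimple : IsSimpleGroup (MulAction.stabilizer G x)) :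
    IsSimpleGroup G ∨ ∃ N : Subgroup G, N.Normal ∧ N ≠ ⊥ ∧ N ≠ ⊤ ∧
      MulAction.IsPretransitive N X ∧ ∀ y : X, MulAction.stabilizer N y = ⊥ := by
  classical
  by_cases hG : IsSimpleGroup G
  · exact Or.inl hG
  right
  haveI hnt : Nontrivial G := by
    obtain ⟨a, b, hab⟩ := (hsimple.toNontrivial).exists_pair_ne
    exact ⟨⟨a.1, b.1, fun h => hab (Subtype.ext h)⟩⟩
  obtain ⟨N, hN, hN1, hN2⟩ : ∃ N : Subgroup G, N.Normal ∧ N ≠ ⊥ ∧ N ≠ ⊤ := by
    by_contra h
    apply hG
    refine ⟨fun N hN => ?_⟩
    by_contra h2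
    rw [not_or] at h2
    exact h ⟨N, hN, h2.1, h2.2⟩
  haveI := hN
  have hfix : MulAction.fixedPoints N X ≠ Set.univ := by
    intro h
    apply hN1
    rw [Subgroup.eq_bot_iff_forall]
    intro n hn
    apply (FaithfulSMul.eq_of_smul_eq_smul (α := X))
    intro z
    have h1 : z ∈ MulAction.fixedPoints N X := by
      rw [h]
      trivial
    rw [one_smul]
    exact h1 ⟨n, hn⟩
  have htr : MulAction.IsPretransitive N X :=
    MulAction.IsQuasiPreprimitive.isPretransitive_of_normal hfix
  refine ⟨N, hN, hN1, hN2, htr, ?_⟩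
  have hnorm : (N.subgroupOf (MulAction.stabilizer G x)).Normal := Subgroup.normal_subgroupOf
  rcases hsimple.eq_bot_or_eq_top_of_normal _ hnorm with h | h
  · intro y
    obtain ⟨n, rfl⟩ := htr.exists_smul_eq x y
    rw [Subgroup.eq_bot_iff_forall]
    rintro ⟨m, hm⟩ hm2
    have h1 : ((n : G)⁻¹ * m * (n : G)) • x = x := by
      have h2 : (m : G) • ((n : G) • x) = (n : G) • x := by
        have := MulAction.mem_stabilizer_iff.mp hm2
        exact this
      rw [mul_smul, mul_smul, h2, inv_smul_smul]
    have h3 : (n : G)⁻¹ * m * (n : G) ∈ N := by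
      have := hN.conj_mem m hm (n : G)⁻¹
      simpa using this
    have h4 : (⟨(n : G)⁻¹ * m * (n : G), MulAction.mem_stabilizer_iff.mpr h1⟩ :
        MulAction.stabilizer G x) ∈ N.subgroupOf (MulAction.stabilizer G x) := by
      rw [Subgroup.mem_subgroupOf]
      exact h3
    rw [h, Subgroup.mem_bot] at h4
    have h5 : (n : G)⁻¹ * m * (n : G) = 1 := congrArg Subtype.val h4
    apply Subtype.ext
    show m = 1
    have h6 : m = (n : G) * ((n : G)⁻¹ * m * (n : G)) * (n : G)⁻¹ := by group
    rw [h6, h5]
    group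
  · exfalso
    apply hN2
    rw [eq_top_iff]
    intro g _
    obtain ⟨n, hn⟩ := htr.exists_smul_eq x (g • x)
    have h1 : (n : G)⁻¹ * g ∈ MulAction.stabilizer G x := by
      rw [MulAction.mem_stabilizer_iff, mul_smul]
      have h2 : (n : G) • x = g • x := hn
      rw [← h2, inv_smul_smul]
    have h3 : (⟨(n : G)⁻¹ * g, h1⟩ : MulAction.stabilizer G x) ∈
        N.subgroupOf (MulAction.stabilizer G x) := by
      rw [h]
      trivial
    rw [Subgroup.mem_subgroupOf] at h3
    have h4 : (n : G) * ((n : G)⁻¹ * g) ∈ N := N.mul_mem n.2 h3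
    simpa using h4

end Cfsg.Agent.S4300
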