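import Cfsg.Statements.S4301
import Cfsg.Agent.Lib.FGS.Basic

set_option autoImplicit false
open Cfsg

namespace Cfsg.Agent.S4301

section aux
variable {X : Type*} (G : Subgroup (Equiv.Perm (Option X)))

/-- the set `G ∪ G h G`. -/
def InS (h f : Equiv.Perm (Option X)) : Prop :=
  f ∈ G ∨ ∃ a ∈ G, ∃ b ∈ G, f = a * h * b

theorem exists_two_trans {k : ℕ} (hk : 2 ≤ k) (hkX : Nonempty (Fin k ↪ X))
    (htrans : ∀ a b : Fin k ↪ X, ∃ f ∈ G, ∀ i, f (some (a i)) = some (b i))
    {p q p' q' : X} (hpq : p ≠ q) (hpq' : p' ≠ q') :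
    ∃ f ∈ G, f (some p) = some p' ∧ f (some q) = some q' := by
  classical
  obtain ⟨a₀⟩ := hkX
  let i0 : Fin k := ⟨0, by omega⟩
  let i1 : Fin k := ⟨1, by omega⟩
  have hi : i0 ≠ i1 := by simp [i0, i1, Fin.ext_iff]
  have hmk : ∀ p q : X, p ≠ q → ∃ a : Fin k ↪ X, a i0 = p ∧ a i1 = q := by
    intro p q hpq
    let σ₁ : Equiv.Perm X := Equiv.swap (a₀ i0) p
    let σ₂ : Equiv.Perm X := Equiv.swap (σ₁ (a₀ i1)) q
    have h1 : σ₁ (a₀ i0) = p := Equiv.swap_apply_left _ _
    have h2 : p ≠ σ₁ (a₀ i1) := by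
      rw [← h1]
      intro h
      exact hi (a₀.injective (σ₁.injective h))
    refine ⟨a₀.trans (σ₂ * σ₁).toEmbedding, ?_, ?_⟩
    · show σ₂ (σ₁ (a₀ i0)) = p
      rw [h1]
      exact Equiv.swap_apply_of_ne_of_ne h2 hpq
    · show σ₂ (σ₁ (a₀ i1)) = q
      exact Equiv.swap_apply_left _ _
  obtain ⟨a, ha0, ha1⟩ := hmk p q hpq
  obtain ⟨b, hb0, hb1⟩ := hmk p' q' hpq'
  obtain ⟨f, hf, hfab⟩ := htrans a b
  refine ⟨f, hf, ?_, ?_⟩
  · rw [← ha0, ← hb0]; exact hfab i0
  · rw [← ha1, ← hb1]; exact hfab i1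

end aux


/-- One-point extension of a multiply transitive group. Let X be a set and G a group of permutations of Option X (the set X with one extra point ∗ = none) all of whose elements fix ∗, such that G is k-transitive on the points of X for some k ≥ 2, X having at least k points. Suppose a permutation h of Option X and an element g of G satisfy: h interchanges ∗ with a point x of X and fixes a point y of X; g interchanges x and y; (g h)³ and h² lie in G; and for every f in G fixing x, the product h f h lies in G and fixes x. Then an element of the group generated by G and h fixes ∗ exactly when it lies in G, and that group acts (k+1)-transitively on Option X. -/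
theorem result {X : Type*} (G : Subgroup (Equiv.Perm (Option X))) (hfix : ∀ f ∈ G, f none = none)
    (k : ℕ) (hk : 2 ≤ k) (hkX : Nonempty (Fin k ↪ X))
    (htrans : ∀ a b : Fin k ↪ X, ∃ f ∈ G, ∀ i, f (some (a i)) = some (b i))
    (h g : Equiv.Perm (Option X)) (hg : g ∈ G) (x y : X)
    (h1 : h none = some x) (h2 : h (some x) = none) (h3 : h (some y) = some y)
    (h4 : g (some x) = some y) (h5 : g (some y) = some x)
    (h6 : (g * h) ^ 3 ∈ G) (h7 : h ^ 2 ∈ G)
    (h8 : ∀ f ∈ G, f (some x) = some x → h * f * h ∈ G ∧ (h * f * h) (some x) = some x) :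
    (∀ f ∈ Subgroup.closure ((G : Set (Equiv.Perm (Option X))) ∪ {h}), f none = none ↔ f ∈ G) ∧
      MulAction.IsMultiplyPretransitive (Subgroup.closure ((G : Set (Equiv.Perm (Option X))) ∪ {h})) (Option X) (k + 1) := by
  classical
  have hxy : x ≠ y := by
    rintro rfl
    rw [h2] at h3
    exact absurd h3 (by simp)
  have hh2inv : (h ^ 2)⁻¹ ∈ G := G.inv_mem h7
  have hsq : h * h = h ^ 2 := (sq h).symm
  -- step A
  have hA : ∀ a ∈ G, a (some x) ≠ some x → ∃ u ∈ G, ∃ v ∈ G, u (some x) = some x ∧ v (some x) = some x ∧ a = u * g * v := by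
    intro a ha hax
    obtain ⟨z, hz⟩ : ∃ z, a (some x) = some z := by
      cases hc : a (some x) with
      | none =>
        exfalso
        have h1 : a (some x) = a none := by rw [hc, hfix a ha]
        exact absurd (a.injective h1) (by simp)
      | some z => exact ⟨z, rfl⟩
    have hzx : x ≠ z := by
      rintro rfl
      exact hax hz
    obtain ⟨u, hu, hu1, hu2⟩ := exists_two_trans G hk hkX htrans hxy hzx
    refine ⟨u, hu, g⁻¹ * u⁻¹ * a, G.mul_mem (G.mul_mem (G.inv_mem hg) (G.inv_mem hu)) ha, hu1, ?_, by group⟩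
    have h1 : u⁻¹ (some z) = some y := by
      rw [Equiv.Perm.inv_eq_iff_eq]
      exact hu2.symm
    have h2' : g⁻¹ (some y) = some x := by
      rw [Equiv.Perm.inv_eq_iff_eq]
      exact h4.symm
    show g⁻¹ (u⁻¹ (a (some x))) = some x
    rw [hz, h1, h2']
  -- step B
  have hB1 : ∀ u ∈ G, u (some x) = some x → h * u * h⁻¹ ∈ G := by
    intro u hu hux
    have h1 := (h8 u hu hux).1
    have : h * u * h⁻¹ = (h * u * h) * (h ^ 2)⁻¹ := by
      rw [sq]; group
    rw [this]
    exact G.mul_mem h1 hh2inv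
  have hB2 : ∀ u ∈ G, u (some x) = some x → h⁻¹ * u * h ∈ G := by
    intro u hu hux
    have h1 := (h8 u hu hux).1
    have : h⁻¹ * u * h = (h ^ 2)⁻¹ * (h * u * h) := by
      rw [sq]; group
    rw [this]
    exact G.mul_mem hh2inv h1
  -- step C
  have hC : ∀ y', InS G h y' → InS G h (h * y') := by
    rintro y' (hy | ⟨a, ha, b, hb, rfl⟩)
    · exact Or.inr ⟨1, G.one_mem, y', hy, by simp⟩
    · by_cases hax : a (some x) = some x
      · left
        have : h * (a * h * b) = (h * a * h) * b := by group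
        rw [this]
        exact G.mul_mem (h8 a ha hax).1 hb
      · right
        obtain ⟨u, hu, v, hv, hux, hvx, rfl⟩ := hA a ha hax
        have hc : (g * h) ^ 3 = g * h * g * h * g * h := by
          simp only [pow_succ, pow_zero, one_mul, mul_assoc]
        refine ⟨(h * u * h⁻¹) * g⁻¹ * (g * h) ^ 3 * (h ^ 2)⁻¹, ?_, g⁻¹ * (h⁻¹ * v * h) * b, ?_, ?_⟩
        · exact G.mul_mem (G.mul_mem (G.mul_mem (hB1 u hu hux) (G.inv_mem hg)) h6) hh2inv
        · exact G.mul_mem (G.mul_mem (G.inv_mem hg) (hB2 v hv hvx)) hb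
        · rw [hc, sq]
          group
  have hGl : ∀ z ∈ G, ∀ y', InS G h y' → InS G h (z * y') := by
    rintro z hz y' (ih | ⟨a, ha, b, hb, rfl⟩)
    · exact Or.inl (G.mul_mem hz ih)
    · exact Or.inr ⟨z * a, G.mul_mem hz ha, b, hb, by group⟩
  have hInS : ∀ t ∈ Subgroup.closure ((G : Set (Equiv.Perm (Option X))) ∪ {h}), InS G h t := by
    intro t ht
    induction ht using Subgroup.closure_induction_left with
    | one => exact Or.inl G.one_mem
    | mul_left z hz y' _ ih =>
      rcases hz with hz | hz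
      · exact hGl z hz _ ih
      · rw [Set.mem_singleton_iff] at hz
        rw [hz]
        exact hC _ ih
    | inv_mul_cancel z hz y' _ ih =>
      rcases hz with hz | hz
      · exact hGl _ (G.inv_mem hz) _ ih
      · rw [Set.mem_singleton_iff] at hz
        rw [hz]
        have : h⁻¹ * y' = (h ^ 2)⁻¹ * (h * y') := by
          rw [sq]; group
        rw [this]
        exact hGl _ hh2inv _ (hC _ ih)
  set T := Subgroup.closure ((G : Set (Equiv.Perm (Option X))) ∪ {h}) with hT
  have hGT : G ≤ T := fun f hf => Subgroup.subset_closure (Or.inl hf)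
  have hhT : h ∈ T := Subgroup.subset_closure (Or.inr rfl)
  have hstab : ∀ f ∈ T, f none = none ↔ f ∈ G := by
    intro f hf
    constructor
    · intro hfn
      rcases hInS f hf with h' | ⟨a, ha, b, hb, rfl⟩
      · exact h'
      · exfalso
        have h1 : (a * h * b) none = a (some x) := by
          show a (h (b none)) = a (some x)
          rw [hfix b hb, h1]
        rw [h1] at hfn
        rw [← hfix a ha] at hfn
        exact absurd (a.injective hfn) (by simp)
    · exact hfix f
  refine ⟨hstab, ?_⟩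
  -- transitivity
  have hmove : ∀ p : Option X, ∃ t ∈ T, t p = none := by
    intro p
    cases p with
    | none => exact ⟨1, T.one_mem, rfl⟩
    | some z =>
      by_cases hzx : z = x
      · exact ⟨h, hhT, by rw [hzx, h2]⟩
      · -- some element of `G` moves z to x
        obtain ⟨w, hw⟩ : ∃ w, w ≠ z := ⟨x, Ne.symm hzx⟩
        obtain ⟨f, hf, hf1, -⟩ := exists_two_trans G hk hkX htrans (Ne.symm hw) hxy
        exact ⟨h * f, T.mul_mem hhT (hGT hf), by
          show h (f (some z)) = none
          rw [hf1, h2]⟩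
  have hnf : ∀ a : Fin (k + 1) ↪ Option X, ∃ t ∈ T, ∃ a' : Fin k ↪ X,
      (∀ i : Fin k, t (a i.castSucc) = some (a' i)) ∧ t (a (Fin.last k)) = none := by
    intro a
    obtain ⟨t, ht, htn⟩ := hmove (a (Fin.last k))
    have hne : ∀ i : Fin k, t (a i.castSucc) ≠ none := by
      intro i hi
      rw [← htn] at hi
      have := a.injective (t.injective hi)
      exact absurd this (Fin.castSucc_lt_last i).ne
    let a' : Fin k → X := fun i => (t (a i.castSucc)).get (Option.isSome_iff_ne_none.mpr (hne i))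
    have ha' : ∀ i, t (a i.castSucc) = some (a' i) := fun i => (Option.some_get _).symm
    refine ⟨t, ht, ⟨a', ?_⟩, ha', htn⟩
    intro i j hij
    have h1 : t (a i.castSucc) = t (a j.castSucc) := by
      rw [ha', ha', hij]
    have := a.injective (t.injective h1)
    exact Fin.castSucc_injective _ this
  rw [MulAction.isMultiplyPretransitive_iff]
  intro a b
  obtain ⟨ta, hta, a', ha1, ha2⟩ := hnf a
  obtain ⟨tb, htb, b', hb1, hb2⟩ := hnf b
  obtain ⟨f, hf, hfab⟩ := htrans a' b'
  refine ⟨⟨tb⁻¹ * f * ta, T.mul_mem (T.mul_mem (T.inv_mem htb) (hGT hf)) hta⟩, ?_⟩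
  ext1 i
  show (tb⁻¹ * f * ta) (a i) = b i
  induction i using Fin.lastCases with
  | last =>
    show tb⁻¹ (f (ta (a (Fin.last k)))) = b (Fin.last k)
    rw [ha2, hfix f hf, Equiv.Perm.inv_eq_iff_eq, hb2]
  | cast i =>
    show tb⁻¹ (f (ta (a i.castSucc))) = b i.castSucc
    rw [ha1, hfab, Equiv.Perm.inv_eq_iff_eq, hb1]

end Cfsg.Agent.S4301
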