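import Cfsg.Statements.S4309
import Cfsg.Agent.Lib.FGS.Syl
import Cfsg.Agent.Lib.PLocal.CardSup

set_option autoImplicit false
open Cfsg

namespace Cfsg.Agent.S4309

/-- Let `π` be a set of primes, `G` a finite group with a Hall `π`-subgroup `H` (every prime divisor of the order of `H` lies in `π` and no prime of `π` divides its index), and `A` a normal subgroup of `G`. Then `H ∩ A` is a Hall `π`-subgroup of `A` and the image of `H` in `G/A` is a Hall `π`-subgroup of `G/A`. -/
theorem result {G : Type*} [Group G] [Finite G] (π : Set ℕ)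
    (H A : Subgroup G) [A.Normal] (hH : Cfsg.IsPiHall π H) :
    Cfsg.IsPiHall π ((H ⊓ A).subgroupOf A) ∧ Cfsg.IsPiHall π (H.map (QuotientGroup.mk' A)) := by
  classical
  obtain ⟨hH1, hH2⟩ := hH
  constructor
  · constructor
    · intro p hp hd
      apply hH1 p hp
      have h1 : Nat.card ((H ⊓ A).subgroupOf A) = Nat.card (H ⊓ A : Subgroup G) :=
        Nat.card_congr (Subgroup.subgroupOfEquivOfLe inf_le_right).toEquiv
      rw [h1] at hd
      exact hd.trans (Subgroup.card_dvd_of_le inf_le_left)
    · intro p hp hπ hd
      apply hH2 p hp hπ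
      refine hd.trans ?_
      set a := ((H ⊓ A).subgroupOf A).index with ha
      have h1 : Nat.card ((H ⊓ A).subgroupOf A) = Nat.card (H ⊓ A : Subgroup G) :=
        Nat.card_congr (Subgroup.subgroupOfEquivOfLe inf_le_right).toEquiv
      have h2 : Nat.card (H ⊓ A : Subgroup G) * a = Nat.card A := by
        rw [← h1, ha]
        exact Subgroup.card_mul_index _
      have h3 := CfsgLib.PLocal.card_sup_mul_card_inf H A (by
        rw [Subgroup.normalizer_eq_top]
        exact le_top)
      have h4 : Nat.card ↥(H ⊔ A) = Nat.card H * a := by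
        have h5 : 0 < Nat.card (H ⊓ A : Subgroup G) := Nat.card_pos
        apply Nat.eq_of_mul_eq_mul_right h5
        rw [h3, ← h2]
        ring
      have h6 : Nat.card ↥(H ⊔ A) ∣ Nat.card G := Subgroup.card_subgroup_dvd_card _
      rw [h4, ← Subgroup.card_mul_index H] at h6
      exact Nat.dvd_of_mul_dvd_mul_left Nat.card_pos h6
  · constructor
    · intro p hp hd
      exact hH1 p hp (hd.trans (Subgroup.card_map_dvd H _))
    · intro p hp hπ hd
      exact hH2 p hp hπ (hd.trans (Subgroup.index_map_dvd H (QuotientGroup.mk'_surjective A)))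

end Cfsg.Agent.S4309
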