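import Cfsg.Statements.S4314
import Cfsg.Agent.Lib.FGS.Basic

set_option autoImplicit false
open Cfsg
open scoped commutatorElement
open scoped Pointwise

namespace Cfsg.Agent.S4314

theorem h8_trans {G : Type*} [Group G] [Finite G] (M : Subgroup G) {p : ℕ} (hp : p.Prime) (hM : M.index = p) (y : G)
    (hy : orderOf (y : G ⧸ M.normalCore) = p) (g : G) : ∃ (i : ℤ), ∃ m ∈ M, g = y ^ i * m := by
  classical
  have hy1 : y ∉ M.normalCore := by
    intro h
    have : (y : G ⧸ M.normalCore) = 1 := (QuotientGroup.eq_one_iff y).2 h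
    rw [this, orderOf_one] at hy
    exact hp.one_lt.ne hy
  have hyp : y ^ p ∈ M.normalCore := by
    rw [← QuotientGroup.eq_one_iff, QuotientGroup.mk_pow, ← hy, pow_orderOf_eq_one]
  obtain ⟨g₀, hg₀⟩ : ∃ g₀ : G, g₀⁻¹ * y * g₀⁻¹⁻¹ ∉ M := by
    by_contra hcon
    push Not at hcon
    apply hy1
    intro b
    have := hcon b⁻¹
    simpa using this
  rw [inv_inv] at hg₀
  have hinj : Function.Injective (fun i : Fin p => ((y ^ (i : ℕ) * g₀ : G) : G ⧸ M)) := by
    have key : ∀ i j : ℕ, i < j → j < p → ((y ^ i * g₀ : G) : G ⧸ M) ≠ ((y ^ j * g₀ : G) : G ⧸ M) := by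
      intro i j hij hjp he
      rw [QuotientGroup.eq] at he
      have e1 : (y ^ i * g₀)⁻¹ * (y ^ j * g₀) = g₀⁻¹ * y ^ (j - i) * g₀ := by
        have : y ^ j = y ^ i * y ^ (j - i) := by rw [← pow_add]; congr 1; omega
        rw [this]; group
      rw [e1] at he
      have hco : Nat.Coprime (j - i) p := by
        rw [Nat.coprime_comm, hp.coprime_iff_not_dvd]
        intro hd
        have := Nat.le_of_dvd (by omega) hd
        omega
      have hgcd := Nat.gcd_eq_gcd_ab (j - i) p
      rw [hco.gcd_eq_one] at hgcd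
      have h1 : g₀⁻¹ * y ^ p * g₀ ∈ M := by
        have := M.normalCore_le (M.normalCore_normal.conj_mem _ hyp g₀⁻¹)
        simpa using this
      have h2 : g₀⁻¹ * y * g₀ = (g₀⁻¹ * y ^ (j - i) * g₀) ^ (Nat.gcdA (j - i) p) * (g₀⁻¹ * y ^ p * g₀) ^ (Nat.gcdB (j - i) p) := by
        have e2 : ∀ (u : G) (k : ℤ), (g₀⁻¹ * u * g₀) ^ k = g₀⁻¹ * u ^ k * g₀ := by
          intro u k
          have := conj_zpow (a := g₀⁻¹) (b := u) (i := k)
          simpa using this
        rw [e2, e2]
        have e3 : y = (y ^ (j - i)) ^ (Nat.gcdA (j - i) p) * (y ^ p) ^ (Nat.gcdB (j - i) p) := by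
          rw [← zpow_natCast, ← zpow_natCast, ← zpow_mul, ← zpow_mul, ← zpow_add, ← hgcd]
          simp
        calc g₀⁻¹ * y * g₀ = g₀⁻¹ * ((y ^ (j - i)) ^ (Nat.gcdA (j - i) p) * (y ^ p) ^ (Nat.gcdB (j - i) p)) * g₀ := by rw [← e3]
          _ = _ := by group
      apply hg₀
      rw [h2]
      exact M.mul_mem (M.zpow_mem he _) (M.zpow_mem h1 _)
    intro i j hij
    by_contra hne
    have hij' : (i : ℕ) ≠ j := fun h => hne (Fin.ext h)
    rcases lt_or_gt_of_ne hij' with h | h
    · exact key _ _ h j.2 hij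
    · exact key _ _ h i.2 hij.symm
  have hsurj : Function.Surjective (fun i : Fin p => ((y ^ (i : ℕ) * g₀ : G) : G ⧸ M)) := by
    have h1 : Nat.card (Fin p) = Nat.card (G ⧸ M) := by
      rw [Nat.card_eq_fintype_card, Fintype.card_fin]
      exact hM.symm
    exact ((Nat.bijective_iff_injective_and_card _).2 ⟨hinj, h1⟩).2
  obtain ⟨i₀, hi₀⟩ := hsurj ((1 : G) : G ⧸ M)
  obtain ⟨i, hi⟩ := hsurj (g : G ⧸ M)
  have hi₀' : (y ^ (i₀ : ℕ) * g₀)⁻¹ * 1 ∈ M := QuotientGroup.eq.1 hi₀
  have hi' : (y ^ (i : ℕ) * g₀)⁻¹ * g ∈ M := QuotientGroup.eq.1 hi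
  have hu : y ^ (i₀ : ℕ) * g₀ ∈ M := by
    have := M.inv_mem hi₀'
    simpa using this
  refine ⟨(i : ℤ) - (i₀ : ℤ), (y ^ (i₀ : ℕ) * g₀) * ((y ^ (i : ℕ) * g₀)⁻¹ * g), M.mul_mem hu hi', ?_⟩
  rw [zpow_sub, zpow_natCast, zpow_natCast]
  group

theorem h8_cent_le {G : Type*} [Group G] [Finite G] (M : Subgroup G) {p : ℕ} (hp : p.Prime) (hM : M.index = p) (y : G)
    (hy : orderOf (y : G ⧸ M.normalCore) = p) {c : G} (hc : c * y = y * c) :
    (c : G ⧸ M.normalCore) ∈ Subgroup.zpowers (y : G ⧸ M.normalCore) := by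
  obtain ⟨i, m, hm, rfl⟩ := h8_trans M hp hM y hy c
  have hmy : m * y = y * m := by
    have h1 : Commute (y ^ i) y := (Commute.refl y).zpow_left i
    have h2 : y ^ i * m * y = y * (y ^ i * m) := hc
    have h3 : y * (y ^ i * m) = y ^ i * (y * m) := by
      rw [← mul_assoc, ← h1.eq, mul_assoc]
    rw [h3, mul_assoc] at h2
    exact mul_left_cancel h2
  have hmD : m ∈ M.normalCore := by
    intro b
    obtain ⟨j, m₀, hm₀, hb⟩ := h8_trans M hp hM y hy b⁻¹
    have h1 : Commute (y ^ j) m := Commute.zpow_left (a := y) (b := m) hmy.symm j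
    have h4 : b = (y ^ j * m₀)⁻¹ := by rw [← hb, inv_inv]
    have h5 : b * m * b⁻¹ = m₀⁻¹ * m * m₀ := by
      rw [h4, inv_inv]
      calc (y ^ j * m₀)⁻¹ * m * (y ^ j * m₀) = m₀⁻¹ * ((y ^ j)⁻¹ * (m * y ^ j)) * m₀ := by group
        _ = m₀⁻¹ * ((y ^ j)⁻¹ * (y ^ j * m)) * m₀ := by rw [h1.eq]
        _ = _ := by group
    rw [h5]
    exact M.mul_mem (M.mul_mem (M.inv_mem hm₀) hm) hm₀
  have h6 : ((y ^ i * m : G) : G ⧸ M.normalCore) = (y : G ⧸ M.normalCore) ^ i := by
    rw [QuotientGroup.mk_mul, (QuotientGroup.eq_one_iff m).2 hmD, mul_one, QuotientGroup.mk_zpow]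
  rw [h6]
  exact Subgroup.zpow_mem _ (Subgroup.mem_zpowers _) _

theorem h8_chain {G : Type*} [Group G] [Finite G] {C R : Subgroup G} (hCR : C ≤ R) (hC : C.index = 1 ∨ C.index.Prime) (hR : R ≠ ⊤) :
    C = R ∧ R.index.Prime := by
  have h1 := Subgroup.relIndex_mul_index hCR
  have hR1 : R.index ≠ 1 := fun h => hR (Subgroup.index_eq_one.1 h)
  have hC1 : C.index ≠ 1 := by
    intro h
    rw [h] at h1
    exact hR1 (Nat.eq_one_of_mul_eq_one_left h1)
  have hCp := hC.resolve_left hC1
  have hdvd : R.index ∣ C.index := ⟨_, by rw [← h1, mul_comm]⟩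
  have hRe : R.index = C.index := ((Nat.dvd_prime hCp).1 hdvd).resolve_left hR1
  have hrel : C.relIndex R = 1 := by
    rw [hRe] at h1
    exact Nat.eq_of_mul_eq_mul_right hCp.pos (by rw [h1, one_mul])
  exact ⟨le_antisymm hCR (Subgroup.relIndex_eq_one.1 hrel), hRe ▸ hCp⟩

theorem h8_core {G : Type*} [Group G] [Finite G]
    (h : ∀ x : G, (Subgroup.centralizer ({x} : Set G)).index = 1 ∨ ((Subgroup.centralizer ({x} : Set G)).index).Prime)
    (x : G) (hM : ¬ (Subgroup.centralizer ({x} : Set G)).Normal) :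
    ∃ p q : ℕ, p.Prime ∧ q.Prime ∧ p ≠ q ∧ Nat.card (G ⧸ Subgroup.center G) = p * q ∧ ¬ IsMulCommutative (G ⧸ Subgroup.center G) := by
  classical
  obtain ⟨M, hMdef⟩ : ∃ M, M = Subgroup.centralizer ({x} : Set G) := ⟨_, rfl⟩
  rw [← hMdef] at hM
  have hMC : ∀ c : G, c ∈ M ↔ x * c = c * x := by
    intro c
    rw [hMdef, Subgroup.mem_centralizer_singleton_iff]
    exact ⟨fun h => h.symm, fun h => h.symm⟩
  have hMp : M.index.Prime := by
    have := h x
    rw [← hMdef] at this
    refine this.resolve_left ?_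
    intro h1
    apply hM
    rw [Subgroup.index_eq_one.1 h1]
    infer_instance
  obtain ⟨p, hp⟩ : ∃ p, p = M.index := ⟨_, rfl⟩
  rw [← hp] at hMp
  haveI hpF : Fact p.Prime := ⟨hMp⟩
  have hDM : M.normalCore ≤ M := Subgroup.normalCore_le M
  have hcardD : Nat.card (G ⧸ M.normalCore) = M.normalCore.relIndex M * p := by
    have := Subgroup.relIndex_mul_index hDM
    rw [← hp] at this
    rw [this]
    rfl
  have hpdvd : p ∣ Nat.card (G ⧸ M.normalCore) := ⟨_, by rw [hcardD, mul_comm]⟩
  obtain ⟨ybar, hybar⟩ := exists_prime_orderOf_dvd_card' p hpdvd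
  obtain ⟨y, rfl⟩ := QuotientGroup.mk_surjective ybar
  obtain ⟨R, hRdef⟩ : ∃ R, R = (Subgroup.zpowers (y : G ⧸ M.normalCore)).comap (QuotientGroup.mk' M.normalCore) := ⟨_, rfl⟩
  have hRmem : ∀ c : G, c ∈ R ↔ (c : G ⧸ M.normalCore) ∈ Subgroup.zpowers (y : G ⧸ M.normalCore) := by
    intro c
    rw [hRdef]
    rfl
  have hRindex : R.index = (Subgroup.zpowers (y : G ⧸ M.normalCore)).index := by
    rw [hRdef]
    exact Subgroup.index_comap_of_surjective _ (QuotientGroup.mk'_surjective _)
  have hcardG : Nat.card (G ⧸ M.normalCore) = p * R.index := by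
    rw [hRindex, ← Subgroup.card_mul_index (Subgroup.zpowers (y : G ⧸ M.normalCore)), Nat.card_zpowers, hybar]
  -- `M` is proper
  have hMtop : M ≠ ⊤ := by
    intro h1
    rw [h1, Subgroup.index_top] at hp
    exact hMp.one_lt.ne' hp
  -- elements over `y`
  have hy' : ∀ d ∈ M.normalCore, orderOf ((y * d : G) : G ⧸ M.normalCore) = p := by
    intro d hd
    rw [QuotientGroup.mk_mul, (QuotientGroup.eq_one_iff d).2 hd, mul_one]
    exact hybar
  have hyR : ∀ d ∈ M.normalCore, y * d ∈ R := by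
    intro d hd
    rw [hRmem, QuotientGroup.mk_mul, (QuotientGroup.eq_one_iff d).2 hd, mul_one]
    exact Subgroup.mem_zpowers _
  have hyR0 : y ∈ R := by
    have := hyR 1 (Subgroup.one_mem _)
    simpa using this
  -- `R` is proper
  have hRtop : R ≠ ⊤ := by
    intro h1
    have h2 : R.index = 1 := by rw [h1, Subgroup.index_top]
    rw [h2, mul_one, hcardD] at hcardG
    have h3 : M.normalCore.relIndex M = 1 := by
      exact Nat.eq_of_mul_eq_mul_right hMp.pos (by rw [hcardG, one_mul])
    have h4 : M ≤ M.normalCore := Subgroup.relIndex_eq_one.1 h3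
    have h5 : M = M.normalCore := le_antisymm h4 hDM
    apply hM
    rw [h5]
    infer_instance
  have hCy : ∀ d ∈ M.normalCore, Subgroup.centralizer ({y * d} : Set G) = R ∧ R.index.Prime := by
    intro d hd
    refine h8_chain ?_ (h _) hRtop
    intro c hc
    rw [Subgroup.mem_centralizer_singleton_iff] at hc
    rw [hRmem]
    have h1 := h8_cent_le M hMp hp.symm (y * d) (hy' d hd) hc
    rw [QuotientGroup.mk_mul, (QuotientGroup.eq_one_iff d).2 hd, mul_one] at h1
    exact h1
  have hq : R.index.Prime := (hCy 1 (Subgroup.one_mem _)).2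
  -- `y` centralises `D`
  have hyD : ∀ d ∈ M.normalCore, y * d = d * y := by
    intro d hd
    have h1 : y ∈ Subgroup.centralizer ({y * d} : Set G) := by
      rw [(hCy d hd).1]
      exact hyR0
    rw [Subgroup.mem_centralizer_singleton_iff] at h1
    have h2 : y * (d * y) = y * (y * d) := by
      rw [← mul_assoc, h1, mul_assoc]
    exact (mul_left_cancel h2).symm
  -- `y` is not in `M`
  have hyM : y ∉ M := by
    intro h1
    apply hMtop
    rw [Subgroup.eq_top_iff']
    intro g
    obtain ⟨i, m, hm, rfl⟩ := h8_trans M hMp hp.symm y hybar g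
    exact M.mul_mem (M.zpow_mem h1 i) hm
  -- overgroups of `M`
  have hover : ∀ T : Subgroup G, M ≤ T → y ∈ T → T = ⊤ := by
    intro T hT hyT
    rw [Subgroup.eq_top_iff']
    intro g
    obtain ⟨i, m, hm, rfl⟩ := h8_trans M hMp hp.symm y hybar g
    exact T.mul_mem (T.zpow_mem hyT i) (hT hm)
  -- the order of `M/D`
  have hMcard : M.normalCore.relIndex M = R.index := by
    rw [hcardD, mul_comm] at hcardG
    exact Nat.eq_of_mul_eq_mul_left hMp.pos hcardG
  -- the other overgroups
  have hover2 : ∀ T : Subgroup G, M ≤ T → T ≠ ⊤ → T = M := by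
    intro T hT hTtop
    have h1 := Subgroup.relIndex_mul_index hT
    rw [← hp] at h1
    have h2 : T.index ∣ p := ⟨_, by rw [← h1, mul_comm]⟩
    have h3 : T.index ≠ 1 := fun h4 => hTtop (Subgroup.index_eq_one.1 h4)
    have h4 := ((Nat.dvd_prime hMp).1 h2).resolve_left h3
    rw [h4] at h1
    have h5 : M.relIndex T = 1 := Nat.eq_of_mul_eq_mul_right hMp.pos (by rw [h1, one_mul])
    exact (le_antisymm hT (Subgroup.relIndex_eq_one.1 h5)).symm
  -- the image of `M`
  obtain ⟨Mb, hMb⟩ : ∃ Mb, Mb = M.map (QuotientGroup.mk' M.normalCore) := ⟨_, rfl⟩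
  have hMbindex : Mb.index = p := by
    rw [hMb, Subgroup.index_map, QuotientGroup.ker_mk', sup_eq_left.2 hDM, ← hp,
      MonoidHom.range_eq_top.2 (QuotientGroup.mk'_surjective _), Subgroup.index_top, mul_one]
  have hMbcard : Nat.card Mb = R.index := by
    have h1 := Subgroup.card_mul_index Mb
    rw [hMbindex, hcardG, mul_comm] at h1
    exact Nat.eq_of_mul_eq_mul_left hMp.pos h1
  have hMbcomap : Mb.comap (QuotientGroup.mk' M.normalCore) = M := by
    rw [hMb]
    apply Subgroup.comap_map_eq_self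
    rw [QuotientGroup.ker_mk']
    exact hDM
  have hMbnot : ¬ Mb.Normal := by
    intro h1
    apply hM
    rw [← hMbcomap]
    exact Subgroup.Normal.comap h1 _
  have hmemMb : ∀ u ∈ M, (u : G ⧸ M.normalCore) ∈ Mb := by
    intro u hu
    rw [hMb]
    exact ⟨u, hu, rfl⟩
  -- `M/D` is self-centralising
  have hM_cent : ∀ z ∈ M, z ∉ M.normalCore → ∀ c : G, z * c = c * z → c ∈ M := by
    intro z hz hzD c hc
    by_contra hcM
    have hzb : Mb = Subgroup.zpowers (z : G ⧸ M.normalCore) := by
      symm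
      apply Subgroup.eq_of_le_of_card_ge
      · rw [Subgroup.zpowers_le]
        exact hmemMb z hz
      · rw [hMbcard]
        have h1 : Nat.card (Subgroup.zpowers (z : G ⧸ M.normalCore)) ∣ Nat.card Mb := by
          apply Subgroup.card_dvd_of_le
          rw [Subgroup.zpowers_le]
          exact hmemMb z hz
        rw [hMbcard] at h1
        have h2 : Nat.card (Subgroup.zpowers (z : G ⧸ M.normalCore)) ≠ 1 := by
          intro h3
          rw [Subgroup.card_eq_one, Subgroup.zpowers_eq_bot] at h3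
          exact hzD ((QuotientGroup.eq_one_iff z).1 h3)
        rw [((Nat.dvd_prime hq).1 h1).resolve_left h2]
    obtain ⟨T, hT⟩ : ∃ T, T = (Subgroup.centralizer (Mb : Set (G ⧸ M.normalCore))).comap (QuotientGroup.mk' M.normalCore) := ⟨_, rfl⟩
    have hcomm : ∀ u ∈ Mb, ∀ v ∈ Mb, u * v = v * u := by
      intro u hu v hv
      rw [hzb] at hu hv
      obtain ⟨i, rfl⟩ := Subgroup.mem_zpowers_iff.1 hu
      obtain ⟨j, rfl⟩ := Subgroup.mem_zpowers_iff.1 hv
      exact ((Commute.refl _).zpow_zpow _ _).eq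
    have hMT : M ≤ T := by
      intro u hu
      rw [hT, Subgroup.mem_comap, Subgroup.mem_centralizer_iff]
      intro v hv
      exact hcomm v hv _ (hmemMb u hu)
    have hcT : c ∈ T := by
      rw [hT, Subgroup.mem_comap, Subgroup.mem_centralizer_iff]
      intro v hv
      rw [hzb] at hv
      obtain ⟨i, rfl⟩ := Subgroup.mem_zpowers_iff.1 hv
      have h1 : Commute (z : G ⧸ M.normalCore) (c : G ⧸ M.normalCore) := by
        show (z : G ⧸ M.normalCore) * c = c * z
        rw [← QuotientGroup.mk_mul, hc, QuotientGroup.mk_mul]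
      exact (h1.zpow_left i).eq
    have hTtop : T = ⊤ := by
      by_contra hne
      have := hover2 T hMT hne
      rw [this] at hcT
      exact hcM hcT
    apply hMbnot
    refine ⟨fun n hn g => ?_⟩
    obtain ⟨g', rfl⟩ := QuotientGroup.mk_surjective g
    have h1 : g' ∈ T := by rw [hTtop]; exact Subgroup.mem_top _
    rw [hT, Subgroup.mem_comap, Subgroup.mem_centralizer_iff] at h1
    have h2 := h1 n hn
    have h3 : (g' : G ⧸ M.normalCore) * n * (g' : G ⧸ M.normalCore)⁻¹ = n := by
      have h4 : n * (g' : G ⧸ M.normalCore) = (g' : G ⧸ M.normalCore) * n := h2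
      rw [← h4]
      group
    rw [h3]
    exact hn
  have hxM : x ∈ M := (hMC x).2 rfl
  have hxD : x ∉ M.normalCore := by
    intro h1
    exact hyM ((hMC y).2 (hyD x h1).symm)
  have hCz : ∀ z ∈ M, z ∉ M.normalCore → Subgroup.centralizer ({z} : Set G) = M := by
    intro z hz hzD
    refine (h8_chain ?_ (h z) hMtop).1
    intro c hc
    rw [Subgroup.mem_centralizer_singleton_iff] at hc
    exact hM_cent z hz hzD c hc.symm
  have hDcent : ∀ d ∈ M.normalCore, d ∈ Subgroup.center G := by
    intro d hd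
    have h1 : ∀ m ∈ M, d * m = m * d := by
      intro m hm
      have h2 : d * x ∉ M.normalCore := fun h3 => hxD (by
        have := Subgroup.mul_mem _ (Subgroup.inv_mem _ hd) h3
        simpa using this)
      have h3 : m ∈ Subgroup.centralizer ({d * x} : Set G) := by
        rw [hCz (d * x) (M.mul_mem (hDM hd) hxM) h2]
        exact hm
      rw [Subgroup.mem_centralizer_singleton_iff] at h3
      have h4 := (hMC m).1 hm
      have h5 : d * m * x = m * d * x := by
        calc d * m * x = d * (m * x) := by group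
          _ = d * (x * m) := by rw [h4]
          _ = d * x * m := by group
          _ = m * (d * x) := h3.symm
          _ = _ := by group
      exact mul_right_cancel h5
    have h2 : Subgroup.centralizer ({d} : Set G) = ⊤ := by
      apply hover
      · intro m hm
        rw [Subgroup.mem_centralizer_singleton_iff]
        exact (h1 m hm).symm
      · rw [Subgroup.mem_centralizer_singleton_iff]
        exact hyD d hd
    rw [Subgroup.mem_center_iff]
    intro g
    have h3 : g ∈ Subgroup.centralizer ({d} : Set G) := by rw [h2]; exact Subgroup.mem_top _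
    rw [Subgroup.mem_centralizer_singleton_iff] at h3
    exact h3
  have hZD : M.normalCore = Subgroup.center G := by
    apply le_antisymm
    · exact hDcent
    · apply Subgroup.normal_le_normalCore.2
      intro z hz
      rw [hMC]
      exact Subgroup.mem_center_iff.1 hz x
  have hnc : ¬ IsMulCommutative (G ⧸ M.normalCore) := by
    intro h1
    apply hMbnot
    refine ⟨fun n hn g => ?_⟩
    have h3 : g * n * g⁻¹ = n := by
      have := h1.is_comm.comm g n
      rw [this]
      group
    rw [h3]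
    exact hn
  have hpq : p ≠ R.index := by
    intro h1
    apply hnc
    haveI : Fact p.Prime := hpF
    have h2 : Nat.card (G ⧸ M.normalCore) = p ^ 2 := by
      rw [hcardG, ← h1, pow_two]
    exact IsPGroup.isMulCommutative_of_card_eq_prime_sq h2
  have hfinal : ∀ (D : Subgroup G) [D.Normal], D = Subgroup.center G → Nat.card (G ⧸ D) = p * R.index → ¬ IsMulCommutative (G ⧸ D) →
      ∃ p q : ℕ, p.Prime ∧ q.Prime ∧ p ≠ q ∧ Nat.card (G ⧸ Subgroup.center G) = p * q ∧ ¬ IsMulCommutative (G ⧸ Subgroup.center G) := by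
    intro D _ hD h1 h2
    subst hD
    exact ⟨p, R.index, hMp, hq, hpq, h1, h2⟩
  exact hfinal _ hZD hcardG hnc

theorem h8_comm_of_index {G : Type*} [Group G] [Finite G] (T : Subgroup G) [T.Normal] (hT : T.index = 1 ∨ T.index.Prime) (a b : G) :
    a * b * a⁻¹ * b⁻¹ ∈ T := by
  rcases hT with h1 | h1
  · rw [Subgroup.index_eq_one.1 h1]
    exact Subgroup.mem_top _
  · haveI : Fact (Nat.card (G ⧸ T)).Prime := ⟨h1⟩
    haveI : IsCyclic (G ⧸ T) := isCyclic_of_prime_card rfl
    letI : CommGroup (G ⧸ T) := IsCyclic.commGroup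
    rw [← QuotientGroup.eq_one_iff]
    have h2 : (a : G ⧸ T) * b = b * a := mul_comm _ _
    simp only [QuotientGroup.mk_mul, QuotientGroup.mk_inv]
    rw [h2]
    group

/-- Let `G` be a finite group every conjugacy class of which has size 1 or a prime. Then either `G` is nilpotent of class at most 2, or `G/Z(G)` is a non-abelian group of order `pq` for distinct primes `p, q` (a Frobenius group of order `pq`). -/
theorem result {G : Type*} [Group G] [Finite G]
    (h : ∀ x : G, (Subgroup.centralizer ({x} : Set G)).index = 1 ∨ ((Subgroup.centralizer ({x} : Set G)).index).Prime) :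
    Subgroup.upperCentralSeries G 2 = ⊤ ∨
      ∃ p q : ℕ, p.Prime ∧ q.Prime ∧ p ≠ q ∧ Nat.card (G ⧸ Subgroup.center G) = p * q ∧ ¬ IsMulCommutative (G ⧸ Subgroup.center G) := by
  by_cases hN : ∀ x : G, (Subgroup.centralizer ({x} : Set G)).Normal
  · left
    rw [Subgroup.eq_top_iff']
    intro a
    have e : (2 : ℕ) = 1 + 1 := rfl
    rw [e, Subgroup.mem_upperCentralSeries_succ_iff]
    intro b
    rw [Subgroup.upperCentralSeries_one, Subgroup.mem_center_iff]
    intro c
    haveI := hN c
    have h1 := h8_comm_of_index _ (h c) a b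
    rw [Subgroup.mem_centralizer_singleton_iff] at h1
    exact h1.symm
  · push Not at hN
    obtain ⟨x, hx⟩ := hN
    right
    exact h8_core h x hx

end Cfsg.Agent.S4314
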