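import Cfsg.Statements.S4320
import Cfsg.Agent.Lib.FGS.Basic

set_option autoImplicit false
open Cfsg
open scoped commutatorElement
open scoped Pointwise

namespace Cfsg.Agent.S4320

open Subgroup

private lemma exists_basis_abelian (Q : Type*) [CommGroup Q] [Finite Q] :
    ∃ (ι : Type) (_ : Fintype ι) (b : ι → Q) (m : ι → ℕ), Subgroup.closure (Set.range b) = ⊤ ∧
      (∀ i, b i ^ m i = 1) ∧ ∏ i, m i = Nat.card Q := by
  classical
  obtain ⟨ι, hι, n, hn, ⟨e⟩⟩ := CommGroup.equiv_prod_multiplicative_zmod_of_finite Q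
  haveI : ∀ i, NeZero (n i) := fun i => ⟨by have := hn i; omega⟩
  let u : ∀ i, ((i : ι) → Multiplicative (ZMod (n i))) := fun i => Pi.mulSingle i (Multiplicative.ofAdd 1)
  refine ⟨ι, hι, fun i => e.symm (u i), n, ?_, ?_, ?_⟩
  · rw [eq_top_iff]
    intro σ _
    have h1 : e σ = ∏ i, Pi.mulSingle i (e σ i) := (Finset.univ_prod_mulSingle (e σ)).symm
    have h2 : ∀ i, Pi.mulSingle i (e σ i) = (u i) ^ (Multiplicative.toAdd (e σ i)).val := by
      intro i
      have h3 : e σ i = (Multiplicative.ofAdd (1 : ZMod (n i))) ^ (Multiplicative.toAdd (e σ i)).val := by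
        rw [← ofAdd_nsmul, nsmul_one, ZMod.natCast_zmod_val]
        rfl
      conv_lhs => rw [h3]
      rw [Pi.mulSingle_pow]
    have h4 : σ = e.symm (e σ) := (e.symm_apply_apply σ).symm
    rw [h4, h1, map_prod]
    refine Subgroup.prod_mem _ fun i _ => ?_
    rw [h2, map_pow]
    have h5 : e.symm (u i) ∈ Subgroup.closure (Set.range fun i => e.symm (u i)) := Subgroup.subset_closure ⟨i, rfl⟩
    exact Subgroup.pow_mem _ h5 _
  · intro i
    have h6 : (u i) ^ n i = 1 := by
      ext j
      by_cases hj : j = i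
      · subst hj
        simp only [u, Pi.pow_apply, Pi.mulSingle_eq_same, Pi.one_apply]
        rw [← ofAdd_nsmul, nsmul_one, ZMod.natCast_self]
        rfl
      · simp [u, Pi.mulSingle_eq_of_ne hj]
    rw [← map_pow, h6, map_one]
  · rw [Nat.card_congr e.toEquiv, Nat.card_pi]
    refine Finset.prod_congr rfl fun i _ => ?_
    rw [Nat.card_congr (Multiplicative.toAdd (α := ZMod (n i))), Nat.card_zmod]

private lemma det_smul_eq_zero {Λ R M : Type*} [Fintype Λ] [DecidableEq Λ] [CommRing R] [AddCommGroup M] [Module R M]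
    (Q : Matrix Λ Λ R) (y : Λ → M) (h : ∀ r, ∑ l, Q r l • y l = 0) (j : Λ) : Q.det • y j = 0 := by
  have key := Matrix.adjugate_mul Q
  calc Q.det • y j = ∑ l, (Q.det • (1 : Matrix Λ Λ R)) j l • y l := by
        rw [Finset.sum_eq_single j]
        · simp
        · intro l _ hl
          simp [Matrix.one_apply_ne hl.symm]
        · simp
    _ = ∑ l, (Q.adjugate * Q) j l • y l := by rw [key]
    _ = ∑ l, ∑ r, (Q.adjugate j r * Q r l) • y l := by
        refine Finset.sum_congr rfl fun l _ => ?_
        rw [Matrix.mul_apply, Finset.sum_smul]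
    _ = ∑ r, Q.adjugate j r • ∑ l, Q r l • y l := by
        rw [Finset.sum_comm]
        refine Finset.sum_congr rfl fun r _ => ?_
        rw [Finset.smul_sum]
        refine Finset.sum_congr rfl fun l _ => ?_
        rw [mul_smul]
    _ = 0 := by simp [h]

section algebra
variable {G : Type*} [Group G]

private abbrev RG (G : Type*) [Group G] := MonoidAlgebra ℤ (Abelianization G)

private noncomputable def ofR (g : G) : RG G := MonoidAlgebra.single (Abelianization.of g) 1

private lemma ofR_mul (g h : G) : ofR (g * h) = ofR g * ofR h := by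
  simp [ofR, MonoidAlgebra.single_mul_single]

private lemma ofR_one : ofR (1 : G) = 1 := by
  simp [ofR, MonoidAlgebra.one_def]

private lemma ofR_inv_mul (g : G) : ofR g⁻¹ * ofR g = 1 := by
  rw [← ofR_mul, inv_mul_cancel, ofR_one]

private lemma ofR_pow (g : G) (n : ℕ) : ofR (g ^ n) = ofR g ^ n := by
  induction n with
  | zero => simp [ofR_one]
  | succ n ih => rw [pow_succ, ofR_mul, ih, pow_succ]

private lemma ofR_of_mem {a : G} (ha : a ∈ commutator G) : ofR a = 1 := by
  have h1 : Abelianization.of a = 1 := (QuotientGroup.eq_one_iff a).2 ha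
  simp [ofR, h1, MonoidAlgebra.one_def]

private noncomputable def eps : RG G →+* ℤ :=
  (MonoidAlgebra.lift ℤ ℤ (Abelianization G) (1 : Abelianization G →* ℤ)).toRingHom

private lemma eps_single (σ : Abelianization G) (r : ℤ) : eps (MonoidAlgebra.single σ r : RG G) = r := by
  show (MonoidAlgebra.lift ℤ ℤ (Abelianization G) (1 : Abelianization G →* ℤ)) (MonoidAlgebra.single σ r) = r
  rw [MonoidAlgebra.lift_single]
  simp

private lemma eps_ofR (g : G) : eps (ofR g) = 1 := eps_single _ _

variable {M : Type*} [AddCommGroup M] [Module (RG G) M]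

private lemma d_one (d : G → M) (hd : ∀ g h, d (g * h) = d g + ofR g • d h) : d 1 = 0 := by
  have h := hd 1 1
  rw [mul_one, ofR_one, one_smul] at h
  exact left_eq_add.1 h

private lemma d_inv (d : G → M) (hd : ∀ g h, d (g * h) = d g + ofR g • d h) (x : G) :
    d x⁻¹ = - (ofR x⁻¹ • d x) := by
  have h := hd x⁻¹ x
  rw [inv_mul_cancel, d_one d hd] at h
  exact (eq_neg_of_add_eq_zero_left h.symm)

private lemma d_pow (d : G → M) (hd : ∀ g h, d (g * h) = d g + ofR g • d h) (x : G) (n : ℕ) :
    d (x ^ n) = (∑ k ∈ Finset.range n, ofR x ^ k) • d x := by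
  induction n with
  | zero => simp [d_one d hd]
  | succ n ih =>
    rw [pow_succ, hd, ih, Finset.sum_range_succ, add_smul, ofR_pow]

/-- Fox vectors. -/
private def FV {Λ : Type*} [Fintype Λ] (d : G → M) (y : Λ → M) (s : Λ → RG G) (x : G) (ρ : Λ → RG G) (w : Λ → ℤ) : Prop :=
  (∑ l, ρ l • y l = d x) ∧ (∑ l, ρ l * s l = ofR x - 1) ∧ ∀ l, eps (ρ l) = w l

variable {Λ : Type*} [Fintype Λ] {d : G → M} {y : Λ → M} {s : Λ → RG G}

private lemma FV_one (hd : ∀ g h, d (g * h) = d g + ofR g • d h) :
    FV d y s 1 (fun _ => 0) (fun _ => 0) :=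
  ⟨by simp [d_one d hd], by simp [ofR_one], fun _ => map_zero _⟩

private lemma FV_mul (hd : ∀ g h, d (g * h) = d g + ofR g • d h) {x x' : G} {ρ τ : Λ → RG G} {w w' : Λ → ℤ}
    (h1 : FV d y s x ρ w) (h2 : FV d y s x' τ w') :
    FV d y s (x * x') (fun l => ρ l + ofR x * τ l) (fun l => w l + w' l) := by
  refine ⟨?_, ?_, ?_⟩
  · simp only [add_smul, mul_smul, Finset.sum_add_distrib, ← Finset.smul_sum]
    rw [h1.1, h2.1, hd]
  · simp only [add_mul, mul_assoc, Finset.sum_add_distrib, ← Finset.mul_sum]
    rw [h1.2.1, h2.2.1, ofR_mul]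
    ring
  · intro l
    rw [map_add, map_mul, eps_ofR, one_mul, h1.2.2, h2.2.2]

private lemma FV_inv (hd : ∀ g h, d (g * h) = d g + ofR g • d h) {x : G} {ρ : Λ → RG G} {w : Λ → ℤ}
    (h1 : FV d y s x ρ w) :
    FV d y s x⁻¹ (fun l => - (ofR x⁻¹ * ρ l)) (fun l => - w l) := by
  refine ⟨?_, ?_, ?_⟩
  · simp only [neg_smul, mul_smul, Finset.sum_neg_distrib, ← Finset.smul_sum]
    rw [h1.1, d_inv d hd]
  · simp only [neg_mul, mul_assoc, Finset.sum_neg_distrib, ← Finset.mul_sum]
    rw [h1.2.1]
    have := ofR_inv_mul x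
    linear_combination -this
  · intro l
    rw [map_neg, map_mul, eps_ofR, one_mul, h1.2.2]

end algebra

set_option maxHeartbeats 2000000 in
private theorem pit_module {G : Type*} [Group G] [Finite G] [Fintype (Abelianization G)] {M : Type*} [AddCommGroup M]
    [Module (RG G) M] (d : G → M) (hd : ∀ g h, d (g * h) = d g + ofR g • d h) (x : G) :
    (∑ σ : Abelianization G, (MonoidAlgebra.single σ 1 : RG G)) • d x = 0 := by
  classical
  haveI : Finite (Abelianization G) := Finite.of_fintype _
  obtain ⟨ι, hι, b, m, hb, hbm, hm⟩ := exists_basis_abelian (Abelianization G)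
  choose g hg using fun i => QuotientGroup.mk'_surjective (commutator G) (b i)
  have hg' : ∀ i, Abelianization.of (g i) = b i := hg
  haveI : Fintype (commutator G) := Fintype.ofFinite _
  let y : (ι ⊕ commutator G) → M := Sum.elim (fun i => d (g i)) (fun a => d (a : G))
  let s : (ι ⊕ commutator G) → RG G := Sum.elim (fun i => ofR (g i) - 1) (fun _ => 0)
  -- unit vectors
  have hunit : ∀ (l₀ : ι ⊕ commutator G), ∑ l, (if l = l₀ then (1 : RG G) else 0) • y l = y l₀ := by
    intro l₀
    simp [ite_smul]
  have hunit' : ∀ (l₀ : ι ⊕ commutator G), ∑ l, (if l = l₀ then (1 : RG G) else 0) * s l = s l₀ := by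
    intro l₀
    simp [ite_mul]
  have hunitε : ∀ (l₀ l : ι ⊕ commutator G), eps (if l = l₀ then (1 : RG G) else 0) = if l = l₀ then 1 else 0 := by
    intro l₀ l
    split_ifs <;> simp
  -- all elements have Fox vectors
  let K : Subgroup G :=
    { carrier := {x | ∃ ρ w, FV d y s x ρ w}
      one_mem' := ⟨_, _, FV_one hd⟩
      mul_mem' := by
        rintro a b ⟨ρ, w, h⟩ ⟨τ, w', h'⟩
        exact ⟨_, _, FV_mul hd h h'⟩
      inv_mem' := by
        rintro a ⟨ρ, w, h⟩
        exact ⟨_, _, FV_inv hd h⟩ }
  have hKg : ∀ i, g i ∈ K := by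
    intro i
    refine ⟨_, _, hunit (Sum.inl i), ?_, hunitε (Sum.inl i)⟩
    rw [hunit']
    rfl
  have hKc : commutator G ≤ K := by
    intro a ha
    refine ⟨_, _, hunit (Sum.inr ⟨a, ha⟩), ?_, hunitε (Sum.inr ⟨a, ha⟩)⟩
    rw [hunit', ofR_of_mem ha, sub_self]
    rfl
  have hKtop : K = ⊤ := by
    have h1 : K.map (Abelianization.of) = ⊤ := by
      rw [eq_top_iff, ← hb, Subgroup.closure_le]
      rintro _ ⟨i, rfl⟩
      exact ⟨g i, hKg i, hg' i⟩
    rw [eq_top_iff]
    intro x _
    have h2 : Abelianization.of x ∈ K.map (Abelianization.of) := by rw [h1]; exact Subgroup.mem_top _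
    obtain ⟨k, hk, hkx⟩ := h2
    have h3 : k⁻¹ * x ∈ commutator G := QuotientGroup.eq.1 hkx
    have h4 : x = k * (k⁻¹ * x) := by group
    rw [h4]
    exact K.mul_mem hk (hKc h3)
  have hex : ∀ x : G, ∃ ρ w, FV d y s x ρ w := fun x => by
    have : x ∈ K := by rw [hKtop]; exact Subgroup.mem_top x
    exact this
  -- elements of the commutator subgroup have Fox vectors with entries in the augmentation ideal
  let K' : Subgroup G :=
    { carrier := {x | ∃ ρ, FV d y s x ρ (fun _ => 0)}
      one_mem' := ⟨_, FV_one hd⟩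
      mul_mem' := by
        rintro a b ⟨ρ, h⟩ ⟨τ, h'⟩
        have := FV_mul hd h h'
        simp only [add_zero] at this
        exact ⟨_, this⟩
      inv_mem' := by
        rintro a ⟨ρ, h⟩
        have := FV_inv hd h
        simp only [neg_zero] at this
        exact ⟨_, this⟩ }
  have hK'c : commutator G ≤ K' := by
    rw [_root_.commutator_def, Subgroup.commutator_le]
    intro u _ v _
    obtain ⟨ρ, w, hu⟩ := hex u
    obtain ⟨τ, w', hv⟩ := hex v
    have h1 := FV_mul hd (FV_mul hd (FV_mul hd hu hv) (FV_inv hd hu)) (FV_inv hd hv)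
    rw [← commutatorElement_def] at h1
    refine ⟨_, h1.1, h1.2.1, fun l => ?_⟩
    rw [h1.2.2]
    ring
  have hex0 : ∀ a : commutator G, ∃ ρ, FV d y s (a : G) ρ (fun _ => 0) := fun a => hK'c a.2
  choose P hP using hex0
  -- the matrix
  have hT : ∀ i, g i ^ m i ∈ commutator G := by
    intro i
    apply (QuotientGroup.eq_one_iff _).1
    show Abelianization.of (g i ^ m i) = 1
    rw [map_pow, hg', hbm]
  let T : ι → commutator G := fun i => ⟨g i ^ m i, hT i⟩
  let ν : ι → RG G := fun i => ∑ k ∈ Finset.range (m i), ofR (g i) ^ k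
  let Q : Matrix (ι ⊕ commutator G) (ι ⊕ commutator G) (RG G) := Matrix.of fun r l =>
    Sum.elim (fun i => (if l = Sum.inl i then ν i else 0) - P (T i) l)
      (fun a => (if l = Sum.inr a then 1 else 0) - P a l) r
  have hQy : ∀ r, ∑ l, Q r l • y l = 0 := by
    rintro (i | a)
    · simp only [Q, Matrix.of_apply, Sum.elim_inl, sub_smul, Finset.sum_sub_distrib, ite_smul, zero_smul,
        Finset.sum_ite_eq', Finset.mem_univ, if_true]
      rw [(hP (T i)).1]
      show ν i • d (g i) - d (g i ^ m i) = 0
      rw [d_pow d hd, sub_self]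
    · simp only [Q, Matrix.of_apply, Sum.elim_inr, sub_smul, Finset.sum_sub_distrib, ite_smul, zero_smul,
        Finset.sum_ite_eq', Finset.mem_univ, if_true, one_smul]
      rw [(hP a).1]
      show d (a : G) - d (a : G) = 0
      rw [sub_self]
  have hQs : ∀ r, ∑ l, Q r l • s l = 0 := by
    rintro (i | a)
    · simp only [Q, Matrix.of_apply, Sum.elim_inl, smul_eq_mul, sub_mul, Finset.sum_sub_distrib, ite_mul, zero_mul,
        Finset.sum_ite_eq', Finset.mem_univ, if_true]
      rw [(hP (T i)).2.1]
      show ν i * (ofR (g i) - 1) - (ofR (g i ^ m i) - 1) = 0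
      rw [ofR_pow, geom_sum_mul, sub_self]
    · simp only [Q, Matrix.of_apply, Sum.elim_inr, smul_eq_mul, sub_mul, Finset.sum_sub_distrib, ite_mul, zero_mul,
        Finset.sum_ite_eq', Finset.mem_univ, if_true, one_mul]
      rw [(hP a).2.1, ofR_of_mem a.2]
      show (0 : RG G) - (1 - 1) = 0
      simp
  have hεν : ∀ i, eps (ν i) = (m i : ℤ) := by
    intro i
    simp only [ν, map_sum, map_pow, eps_ofR, one_pow, Finset.sum_const, Finset.card_range]
    simp
  have hQε : (eps (G := G)).mapMatrix Q = Matrix.diagonal (Sum.elim (fun i => (m i : ℤ)) (fun _ => 1)) := by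
    ext r l
    rw [RingHom.mapMatrix_apply, Matrix.map_apply]
    rcases r with i | a
    · show eps ((if l = Sum.inl i then ν i else 0) - P (T i) l) = _
      rw [map_sub, (hP (T i)).2.2 l, sub_zero]
      by_cases hl : l = Sum.inl i
      · subst hl
        simp [hεν]
      · rw [if_neg hl, Matrix.diagonal_apply_ne _ (Ne.symm hl)]
        simp
    · show eps ((if l = Sum.inr a then 1 else 0) - P a l) = _
      rw [map_sub, (hP a).2.2 l, sub_zero]
      by_cases hl : l = Sum.inr a
      · subst hl
        simp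
      · rw [if_neg hl, Matrix.diagonal_apply_ne _ (Ne.symm hl)]
        simp
  have hεdet : eps Q.det = (Nat.card (Abelianization G) : ℤ) := by
    rw [RingHom.map_det, hQε, Matrix.det_diagonal, Fintype.prod_sum_type]
    simp only [Sum.elim_inl, Sum.elim_inr, Finset.prod_const_one, mul_one]
    rw [← hm]
    simp
  obtain ⟨D, hD⟩ : ∃ D, D = Q.det := ⟨_, rfl⟩
  rw [← hD] at hεdet
  have hDy : ∀ j, D • y j = 0 := fun j => by rw [hD]; exact det_smul_eq_zero Q y hQy j
  have hDs : ∀ j, D • s j = 0 := fun j => by rw [hD]; exact det_smul_eq_zero Q s hQs j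
  -- `D` is invariant
  let Stab : Subgroup (Abelianization G) :=
    { carrier := {σ | D * MonoidAlgebra.single σ 1 = D}
      one_mem' := by
        show D * MonoidAlgebra.single 1 1 = D
        rw [← MonoidAlgebra.one_def, mul_one]
      mul_mem' := by
        intro a b ha hb
        show D * MonoidAlgebra.single (a * b) 1 = D
        have h1 : (MonoidAlgebra.single (a * b) 1 : RG G) = MonoidAlgebra.single a 1 * MonoidAlgebra.single b 1 := by
          simp [MonoidAlgebra.single_mul_single]
        rw [h1, ← mul_assoc, show D * MonoidAlgebra.single a 1 = D from ha]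
        exact hb
      inv_mem' := by
        intro a ha
        show D * MonoidAlgebra.single a⁻¹ 1 = D
        have h1 : (MonoidAlgebra.single a 1 : RG G) * MonoidAlgebra.single a⁻¹ 1 = 1 := by
          simp [MonoidAlgebra.single_mul_single, MonoidAlgebra.one_def]
        have h2 : D * MonoidAlgebra.single a 1 = D := ha
        calc D * MonoidAlgebra.single a⁻¹ 1 = (D * MonoidAlgebra.single a 1) * MonoidAlgebra.single a⁻¹ 1 := by rw [h2]
          _ = D * (MonoidAlgebra.single a 1 * MonoidAlgebra.single a⁻¹ 1) := mul_assoc _ _ _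
          _ = D := by rw [h1, mul_one] }
  have hStab : Stab = ⊤ := by
    rw [eq_top_iff, ← hb, Subgroup.closure_le]
    rintro _ ⟨i, rfl⟩
    show D * MonoidAlgebra.single (b i) 1 = D
    have h1 := hDs (Sum.inl i)
    have h2 : D * (ofR (g i) - 1) = 0 := h1
    rw [mul_sub, mul_one, sub_eq_zero] at h2
    rw [← hg' i]
    exact h2
  have hinv : ∀ σ : Abelianization G, D * MonoidAlgebra.single σ 1 = D := by
    intro σ
    have : σ ∈ Stab := by rw [hStab]; exact Subgroup.mem_top _
    exact this
  have hcoeff : ∀ τ σ : Abelianization G, D.coeff (τ * σ) = D.coeff τ := by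
    intro τ σ
    have h1 : (D * MonoidAlgebra.single σ 1).coeff (τ * σ) = D.coeff τ * 1 :=
      MonoidAlgebra.coeff_mul_single_eq_coeff_mul τ (by intro m' _; exact mul_left_inj σ)
    rw [hinv, mul_one] at h1
    exact h1
  have hDN : D = (∑ σ : Abelianization G, (MonoidAlgebra.single σ 1 : RG G)) := by
    -- first all coefficients agree
    have hc : ∀ τ, D.coeff τ = D.coeff 1 := by
      intro τ
      have := hcoeff 1 τ
      rw [one_mul] at this
      exact this
    have hDc : D = (D.coeff 1) • (∑ σ : Abelianization G, (MonoidAlgebra.single σ 1 : RG G)) := by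
      ext τ
      rw [hc τ, MonoidAlgebra.coeff_smul_apply, MonoidAlgebra.coeff_sum, Finsupp.finsetSum_apply]
      simp [MonoidAlgebra.coeff_single, Finsupp.single_apply]
    have hεN : eps (∑ σ : Abelianization G, (MonoidAlgebra.single σ 1 : RG G)) = (Nat.card (Abelianization G) : ℤ) := by
      rw [map_sum]
      simp [eps_single, Nat.card_eq_fintype_card]
    have h3 : (D.coeff 1) * (Nat.card (Abelianization G) : ℤ) = (Nat.card (Abelianization G) : ℤ) := by
      conv_rhs => rw [← hεdet, hDc]
      have : eps ((D.coeff 1) • (∑ σ : Abelianization G, (MonoidAlgebra.single σ 1 : RG G))) =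
          (D.coeff 1) * eps (∑ σ : Abelianization G, (MonoidAlgebra.single σ 1 : RG G)) := by
        rw [zsmul_eq_mul, map_mul, map_intCast]
        simp
      rw [this, hεN]
    have h4 : D.coeff 1 = 1 := by
      have h5 : (Nat.card (Abelianization G) : ℤ) ≠ 0 := by
        exact_mod_cast Nat.card_pos.ne'
      exact mul_right_cancel₀ h5 (by rw [h3, one_mul])
    rw [h4, one_smul] at hDc
    exact hDc
  -- conclusion
  obtain ⟨ρ, w, hx⟩ := hex x
  rw [← hDN, ← hx.1, Finset.smul_sum]
  refine Finset.sum_eq_zero fun l _ => ?_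
  rw [smul_comm, hDy, smul_zero]

private theorem pit_action {G : Type*} [Group G] [Finite G] [Fintype (Abelianization G)] {M : Type*} [AddCommGroup M]
    (ρ : Abelianization G →* AddMonoid.End M) (d : G → M)
    (hd : ∀ g h, d (g * h) = d g + ρ (Abelianization.of g) (d h)) (x : G) :
    ∑ σ : Abelianization G, ρ σ (d x) = 0 := by
  let Φ : RG G →ₐ[ℤ] AddMonoid.End M := MonoidAlgebra.lift ℤ (AddMonoid.End M) (Abelianization G) ρ
  letI inst : Module (RG G) M := Module.compHom M Φ.toRingHom
  have hsm : ∀ (σ : Abelianization G) (m : M), (MonoidAlgebra.single σ 1 : RG G) • m = ρ σ m := by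
    intro σ m
    show (Φ (MonoidAlgebra.single σ 1)) m = ρ σ m
    show (MonoidAlgebra.lift ℤ (AddMonoid.End M) (Abelianization G) ρ (MonoidAlgebra.single σ 1)) m = ρ σ m
    rw [MonoidAlgebra.lift_single, one_smul]
  have h := pit_module d (fun g h => by
    rw [hd]
    congr 1
    exact (hsm _ _).symm) x
  rw [Finset.sum_smul] at h
  rw [← h]
  exact Finset.sum_congr rfl fun σ _ => (hsm σ _).symm

private theorem pit_final {G : Type*} [Group G] [Finite G] (g : G) :
    MonoidHom.transfer (Abelianization.of : ↥(commutator G) →* Abelianization ↥(commutator G)) g = 1 := by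
  classical
  obtain ⟨H, hH⟩ : ∃ H : Subgroup G, H = commutator G := ⟨_, rfl⟩
  let T : (commutator G).LeftTransversal := default
  let rep : G ⧸ commutator G → G := fun q => (T.2.leftQuotientEquiv q : G)
  have hrep : ∀ q : G ⧸ commutator G, ((rep q : G) : G ⧸ commutator G) = q := fun q =>
    Subgroup.IsComplement.quotientGroupMk_leftQuotientEquiv T.2 q
  have ha : ∀ (g : G) (q : G ⧸ commutator G), (rep q)⁻¹ * g * rep (g⁻¹ • q) ∈ commutator G := by
    intro g q
    have h1 : ((g * rep (g⁻¹ • q) : G) : G ⧸ commutator G) = q := by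
      have h9 : ((g * rep (g⁻¹ • q) : G) : G ⧸ commutator G) = g • ((rep (g⁻¹ • q) : G) : G ⧸ commutator G) := rfl
      rw [h9, hrep, smul_inv_smul]
    have h2 : ((rep q : G) : G ⧸ commutator G) = ((g * rep (g⁻¹ • q) : G) : G ⧸ commutator G) := by
      rw [h1, hrep]
    have h3 := QuotientGroup.eq.1 h2
    rwa [← mul_assoc] at h3
  let ϕ : ↥(commutator G) →* Abelianization ↥(commutator G) := Abelianization.of
  let a : G → (G ⧸ commutator G) → ↥(commutator G) := fun g q => ⟨_, ha g q⟩
  have hcoc : ∀ (g h : G) (q : G ⧸ commutator G), a (g * h) q = a g q * a h (g⁻¹ • q) := by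
    intro g h q
    apply Subtype.ext
    show (rep q)⁻¹ * (g * h) * rep ((g * h)⁻¹ • q) = (rep q)⁻¹ * g * rep (g⁻¹ • q) * ((rep (g⁻¹ • q))⁻¹ * h * rep (h⁻¹ • (g⁻¹ • q)))
    rw [mul_inv_rev, mul_smul]
    group
  letI : Fintype (G ⧸ commutator G) := (commutator G).fintypeQuotientOfFiniteIndex
  letI : Fintype (Abelianization G) := (commutator G).fintypeQuotientOfFiniteIndex
  have htr : MonoidHom.transfer ϕ g = ∏ q : G ⧸ commutator G, ϕ (a g q) := by
    rw [MonoidHom.transfer_def ϕ T g]
    unfold Subgroup.leftTransversals.diff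
    refine Finset.prod_congr rfl fun q _ => ?_
    congr 1
    apply Subtype.ext
    show (rep q)⁻¹ * (((g • T).2.leftQuotientEquiv q : G)) = (rep q)⁻¹ * g * rep (g⁻¹ • q)
    rw [Subgroup.smul_apply_eq_smul_apply_inv_smul, mul_assoc]
    rfl
  -- the module
  let M := Abelianization G → Additive (Abelianization ↥(commutator G))
  let ρ : Abelianization G →* AddMonoid.End M :=
    { toFun := fun σ =>
        { toFun := fun f q => f (σ⁻¹ * q)
          map_zero' := rfl
          map_add' := fun _ _ => rfl }
      map_one' := by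
        ext f q
        show f ((1 : Abelianization G)⁻¹ * q) = f q
        rw [inv_one, one_mul]
      map_mul' := by
        intro σ τ
        ext f q
        show f ((σ * τ)⁻¹ * q) = f (τ⁻¹ * (σ⁻¹ * q))
        rw [mul_inv_rev, mul_assoc] }
  let d : G → M := fun g q => Additive.ofMul (ϕ (a g q))
  have hd : ∀ g h, d (g * h) = d g + ρ (Abelianization.of g) (d h) := by
    intro g h
    funext q
    have hq : ((Abelianization.of g)⁻¹ * q : Abelianization G) = (g⁻¹ • (show G ⧸ commutator G from q)) := by
      induction q using QuotientGroup.induction_on with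
      | H z => rfl
    show Additive.ofMul (ϕ (a (g * h) q)) = Additive.ofMul (ϕ (a g q)) + Additive.ofMul (ϕ (a h ((Abelianization.of g)⁻¹ * q)))
    rw [hq]
    have h7 := hcoc g h q
    rw [show a (g * h) q = a g q * a h (g⁻¹ • (show G ⧸ commutator G from q)) from h7, map_mul, ofMul_mul]
  have key := pit_action ρ d hd g
  have key2 := congrFun key (1 : Abelianization G)
  have h0 : ∑ q : Abelianization G, d g q = 0 := by
    rw [Finset.sum_apply] at key2
    refine Eq.trans ?_ key2
    refine (Equiv.sum_comp (Equiv.inv (Abelianization G)) (fun q => d g q)).symm.trans ?_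
    refine Finset.sum_congr rfl fun σ _ => ?_
    show d g σ⁻¹ = d g (σ⁻¹ * 1)
    rw [mul_one]
  rw [show (Abelianization.of : ↥(commutator G) →* Abelianization ↥(commutator G)) = ϕ from rfl, htr]
  have h1 : Additive.ofMul (∏ q : G ⧸ commutator G, ϕ (a g q)) = ∑ q : Abelianization G, d g q := by
    rw [ofMul_prod]
    rfl
  rw [h0] at h1
  exact Additive.ofMul.injective h1

/-- The Principal Ideal Theorem of class field theory in its group-theoretic form: for every finite group `G`, the transfer homomorphism from `G` into the abelianization `G'/G''` of its derived subgroup `G'` is the trivial homomorphism. -/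
theorem result {G : Type*} [Group G] [Finite G] :
    MonoidHom.transfer (Abelianization.of : ↥(commutator G) →* Abelianization ↥(commutator G)) =
      (1 : G →* Abelianization ↥(commutator G)) := by
  ext g
  exact pit_final g

end Cfsg.Agent.S4320
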