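import Cfsg.Statements.S4416
import Cfsg.Agent.Lib.FGS.ExtraTwo

set_option autoImplicit false
open Cfsg
open scoped commutatorElement
open scoped Pointwise

namespace Cfsg.Agent.S4416

/-- Classification of extraspecial 2-groups in intrinsic form. An extraspecial 2-group has order 2^(2m+1) for some m ≥ 1, and the number of its elements squaring to the identity is either 2^(2m) + 2^m or 2^(2m) − 2^m; two extraspecial 2-groups of the same order with the same number of such elements are isomorphic. (The two cases are the central products of m dihedral groups of order 8, and of m − 1 dihedral groups with one quaternion group.) -/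
theorem result (E : Type*) [Group E] [Finite E] (hE : Cfsg.IsExtraspecial 2 E) :
    (∃ m : ℕ, 1 ≤ m ∧ Nat.card E = 2 ^ (2 * m + 1) ∧
      (Nat.card {x : E // x ^ 2 = 1} = 2 ^ (2 * m) + 2 ^ m ∨ Nat.card {x : E // x ^ 2 = 1} = 2 ^ (2 * m) - 2 ^ m)) ∧
    ∀ (E' : Type*) [Group E'] [Finite E'], Cfsg.IsExtraspecial 2 E' → Nat.card E' = Nat.card E →
      Nat.card {x : E' // x ^ 2 = 1} = Nat.card {x : E // x ^ 2 = 1} → Nonempty (E ≃* E') := by
  open CfsgLib.FGS.ExtraTwo CfsgLib.ExS.Rank in
  constructor
  · obtain ⟨m, hm, hc⟩ := exists_m hE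
    refine ⟨m, hm, hc, ?_⟩
    rcases classify hE m hm hc with ⟨⟨f⟩⟩ | ⟨⟨f⟩⟩
    · left
      rw [count_iso f, count_plus]
    · right
      rw [count_iso f, count_minus m hm]
  · intro E' _ _ hE' hcard hcount
    obtain ⟨m, hm, hc⟩ := exists_m hE
    have hc' : Nat.card E' = 2 ^ (2 * m + 1) := hcard.trans hc
    rcases classify hE m hm hc with ⟨⟨f⟩⟩ | ⟨⟨f⟩⟩ <;> rcases classify hE' m hm hc' with ⟨⟨f'⟩⟩ | ⟨⟨f'⟩⟩
    · exact ⟨f.trans f'.symm⟩
    · exfalso
      rw [count_iso f, count_iso f', count_plus, count_minus m hm] at hcount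
      exact count_ne m hcount.symm
    · exfalso
      rw [count_iso f, count_iso f', count_plus, count_minus m hm] at hcount
      exact count_ne m hcount
    · exact ⟨f.trans f'.symm⟩

end Cfsg.Agent.S4416
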