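import Cfsg.Statements.S4421
import Cfsg.Agent.Lib.FGS.Elem

set_option autoImplicit false
open Cfsg

namespace Cfsg.Agent.S4421

/-- A factorization of a normalizer from two-step control of fusion. Let `G` be a finite group and `A ≤ S ≤ H` subgroups of `G` such that: (i) `S` controls the `G`-fusion of `A` in the sense that every `G`-conjugate of `A` lying in `S` is an `S`-conjugate of `A`; (ii) `H` controls the `G`-fusion of `S` in the same sense; (iii) every conjugate of `S` by an element of the normalizer of `A` lies in `H`. Then `N_G(A) = N_H(A) · (N_G(S) ∩ N_G(A))`: every element of the normalizer of `A` is a product of an element of `H` normalizing `A` and an element normalizing both `S` and `A`. -/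
theorem result {G : Type*} [Group G] [Finite G] (A S H : Subgroup G)
    (hAS : A ≤ S) (hSH : S ≤ H)
    (h1 : ∀ g : G, A.map (MulAut.conj g).toMonoidHom ≤ S → ∃ s ∈ S, A.map (MulAut.conj g).toMonoidHom = A.map (MulAut.conj s).toMonoidHom)
    (h2 : ∀ g : G, S.map (MulAut.conj g).toMonoidHom ≤ H → ∃ y ∈ H, S.map (MulAut.conj g).toMonoidHom = S.map (MulAut.conj y).toMonoidHom)
    (h3 : ∀ x ∈ Subgroup.normalizer (A : Set G), S.map (MulAut.conj x).toMonoidHom ≤ H) :
    ∀ x ∈ Subgroup.normalizer (A : Set G), ∃ y ∈ H ⊓ Subgroup.normalizer (A : Set G),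
      ∃ z ∈ Subgroup.normalizer (S : Set G) ⊓ Subgroup.normalizer (A : Set G), x = y * z := by
  intro x hx
  obtain ⟨y, hy, heq⟩ := h2 x (h3 x hx)
  -- `z = y⁻¹ x` normalizes `S`
  have hz : y⁻¹ * x ∈ Subgroup.normalizer (S : Set G) := by
    apply CfsgLib.FGS.mem_normalizer_of_map_conj_eq
    rw [CfsgLib.FGS.map_conj_mul, heq, CfsgLib.FGS.map_conj_inv_map_conj]
  have hAS' : A.map (MulAut.conj y⁻¹).toMonoidHom ≤ S := by
    have h4 : A.map (MulAut.conj y⁻¹).toMonoidHom = A.map (MulAut.conj (y⁻¹ * x)).toMonoidHom := by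
      rw [CfsgLib.FGS.map_conj_mul, CfsgLib.FGS.map_conj_eq_of_mem_normalizer hx]
    rw [h4, ← CfsgLib.FGS.map_conj_eq_of_mem_normalizer hz]
    exact Subgroup.map_mono hAS
  obtain ⟨s, hs, hseq⟩ := h1 _ hAS'
  have hys : y * s ∈ Subgroup.normalizer (A : Set G) := by
    apply CfsgLib.FGS.mem_normalizer_of_map_conj_eq
    rw [CfsgLib.FGS.map_conj_mul, ← hseq, CfsgLib.FGS.map_conj_map_conj_inv]
  refine ⟨y * s, ⟨H.mul_mem hy (hSH hs), hys⟩, s⁻¹ * (y⁻¹ * x), ⟨?_, ?_⟩, by group⟩
  · refine Subgroup.mul_mem _ ?_ hz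
    apply Subgroup.inv_mem
    apply CfsgLib.FGS.mem_normalizer_of_map_conj_eq
    ext w
    rw [CfsgLib.FGS.mem_map_conj_iff]
    constructor
    · intro hw
      have := S.mul_mem (S.mul_mem hs hw) (S.inv_mem hs)
      simpa [mul_assoc] using this
    · intro hw
      exact S.mul_mem (S.mul_mem (S.inv_mem hs) hw) hs
  · have : s⁻¹ * (y⁻¹ * x) = (y * s)⁻¹ * x := by group
    rw [this]
    exact Subgroup.mul_mem _ (Subgroup.inv_mem _ hys) hx

end Cfsg.Agent.S4421
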