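import Cfsg.Statements.S4422
import Cfsg.Agent.Lib.FGS.Elem

set_option autoImplicit false
open Cfsg

namespace Cfsg.Agent.S4422

/-- Primitive divisors of `q^e - 1` are congruent to 1 modulo `e`. Let `q ≥ 2` and `e ≥ 1` be natural numbers and let `m` be a divisor of `q^e - 1` that is coprime to `q^i - 1` for every `1 ≤ i < e` (so `m` divides the primitive part of `q^e - 1`, the largest such divisor). Then `m ≡ 1 (mod e)`. -/
theorem result (q e m : ℕ) (hq : 2 ≤ q) (he : 1 ≤ e)
    (hm : m ∣ q ^ e - 1) (hcop : ∀ i : ℕ, 1 ≤ i → i < e → Nat.Coprime m (q ^ i - 1)) :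
    m % e = 1 % e := by
  have hqe : 1 < q ^ e := Nat.one_lt_pow (by omega) (by omega)
  have hq1 : q ^ e - 1 ≠ 0 := by omega
  have hm0 : m ≠ 0 := by
    rintro rfl
    exact hq1 (Nat.eq_zero_of_zero_dvd hm)
  -- every prime divisor is `≡ 1`
  have hprime : ∀ r : ℕ, r.Prime → r ∣ m → r ≡ 1 [MOD e] := by
    intro r hr hrm
    haveI := Fact.mk hr
    have h1 : r ∣ q ^ e - 1 := hrm.trans hm
    have h2 : (q : ZMod r) ^ e = 1 := by
      have h3 : ((q ^ e - 1 : ℕ) : ZMod r) = 0 := (ZMod.natCast_eq_zero_iff _ _).mpr h1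
      rw [Nat.cast_sub hqe.le, Nat.cast_pow, Nat.cast_one, sub_eq_zero] at h3
      exact h3
    have h4 : orderOf (q : ZMod r) ∣ e := orderOf_dvd_of_pow_eq_one h2
    have he0 : e ≠ 0 := by omega
    have hd : orderOf (q : ZMod r) = e := by
      by_contra hne
      have hle := Nat.le_of_dvd (by omega) h4
      have hlt : orderOf (q : ZMod r) < e := lt_of_le_of_ne hle hne
      have hpos : 0 < orderOf (q : ZMod r) := by
        apply orderOf_pos_iff.mpr
        rw [isOfFinOrder_iff_pow_eq_one]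
        exact ⟨e, by omega, h2⟩
      have h5 := hcop _ hpos hlt
      have h6 : r ∣ q ^ orderOf (q : ZMod r) - 1 := by
        have h7 : 1 ≤ q ^ orderOf (q : ZMod r) := Nat.one_le_pow _ _ (by omega)
        rw [← ZMod.natCast_eq_zero_iff, Nat.cast_sub h7, Nat.cast_pow, Nat.cast_one, pow_orderOf_eq_one, sub_self]
      have h8 := Nat.dvd_gcd hrm h6
      rw [h5] at h8
      exact hr.one_lt.ne' (Nat.dvd_one.mp h8)
    have hq0 : (q : ZMod r) ≠ 0 := by
      intro h0
      rw [h0, zero_pow he0] at h2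
      exact zero_ne_one h2
    have h9 : e ∣ r - 1 := by
      rw [← hd]
      exact ZMod.orderOf_dvd_card_sub_one hq0
    exact ((Nat.modEq_iff_dvd' hr.one_lt.le).mpr h9).symm
  -- all of `m`
  have hall : ∀ m : ℕ, m ≠ 0 → (∀ r : ℕ, r.Prime → r ∣ m → r ≡ 1 [MOD e]) → m ≡ 1 [MOD e] := by
    intro m
    induction m using Nat.recOnMul with
    | zero => intro h; exact absurd rfl h
    | one => intro _ _; exact Nat.ModEq.refl _
    | prime p hp => intro _ h; exact h p hp (dvd_refl p)
    | mul a b ha hb =>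
      intro h0 h
      have ha0 : a ≠ 0 := left_ne_zero_of_mul h0
      have hb0 : b ≠ 0 := right_ne_zero_of_mul h0
      have h1 := ha ha0 (fun r hr hd => h r hr (hd.mul_right b))
      have h2 := hb hb0 (fun r hr hd => h r hr (hd.mul_left a))
      simpa using h1.mul h2
  exact hall m hm0 hprime

end Cfsg.Agent.S4422
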