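import Cfsg.Statements.S4430
import Cfsg.Agent.Lib.Block.Value

set_option autoImplicit false
open Cfsg

namespace Cfsg.Agent.S4430

/-- Let H be a subgroup of the finite group G, b a block of H whose induced block B₀ in G is defined (relative to a maximal ideal M of the algebraic integers containing p), and ξ ∈ b. For a block B of G let n_B be the value at 1 of the B-part of the induced character ξ^G (a natural number: the sum over χ ∈ B of the multiplicity of χ in ξ^G times χ(1)). Then for B = B₀ the exact power of p dividing n_B equals the exact power of p dividing ξ^G(1), while for every other block B either n_B = 0 or n_B is divisible by a strictly higher power of p than ξ^G(1). -/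
theorem result {G : Type*} [Group G] [Fintype G] (p : ℕ) [Fact p.Prime] (M : Ideal Cfsg.AlgInt) (hM : Cfsg.IsPModular p M) (H : Subgroup G) [Fintype H] (b : Set (Cfsg.IrrCharacter H)) (B₀ : Set (Cfsg.IrrCharacter G)) (hind : Cfsg.IsInducedBlock M H b B₀) (ξ : Cfsg.IrrCharacter H) (hξ : ξ ∈ b) : (∃ n : ℕ, Cfsg.blockPart B₀ (Cfsg.indFun H (ξ : H → ℂ)) 1 = (n : ℂ) ∧ n ≠ 0 ∧ n.factorization p = (Cfsg.charDegree (Cfsg.indFun H (ξ : H → ℂ))).factorization p) ∧ ∀ B : Set (Cfsg.IrrCharacter G), Cfsg.IsPBlock M B → B ≠ B₀ → ∃ n : ℕ, Cfsg.blockPart B (Cfsg.indFun H (ξ : H → ℂ)) 1 = (n : ℂ) ∧ (n = 0 ∨ (Cfsg.charDegree (Cfsg.indFun H (ξ : H → ℂ))).factorization p < n.factorization p) := by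
  classical
  have hN : ∀ B' : Set (Cfsg.IrrCharacter G), Cfsg.blockPart B' (Cfsg.indFun H (ξ : H → ℂ)) 1 =
      CfsgLib.Block.nB B' (ξ : H → ℂ) := by
    intro B'
    rw [Cfsg.blockPart, CfsgLib.Block.nB]
    simp only [CfsgLib.Block.finsum_mem_eq_sum_ite]
    refine Finset.sum_congr rfl fun χ _ => ?_
    split_ifs
    · rw [CfsgLib.Char.classInner_congr_fintype (Fintype.ofFinite G) ‹Fintype G› _ _]
    · rfl
  obtain ⟨⟨n, hn, h1, h2⟩, h3⟩ := CfsgLib.Block.nB_factorization hM hind hξ
  refine ⟨⟨n, by rw [hN, hn], h1, h2⟩, fun B hB hne => ?_⟩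
  obtain ⟨m, hm, hm'⟩ := h3 B hB hne
  exact ⟨m, by rw [hN, hm], hm'⟩

end Cfsg.Agent.S4430
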