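import Cfsg.Statements.S4458
import Cfsg.Agent.Lib.Char.TwoDeg

set_option autoImplicit false
open Cfsg

namespace Cfsg.Agent.S4458

/-- If a finite group has exactly two irreducible character degrees, 1 and m with m ≠ 1, then its commutator subgroup is abelian. -/
theorem result {G : Type*} [Group G] [Finite G] (m : ℕ) (hcd : ∀ χ : Cfsg.IrrCharacter G, Cfsg.charDegree (χ : G → ℂ) = 1 ∨ Cfsg.charDegree (χ : G → ℂ) = m) (hm : ∃ χ : Cfsg.IrrCharacter G, Cfsg.charDegree (χ : G → ℂ) = m) (hm1 : m ≠ 1) : ∀ a ∈ commutator G, ∀ b ∈ commutator G, a * b = b * a := by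
  cases nonempty_fintype G
  have hcd' : ∀ ψ : G → ℂ, Cfsg.IsIrrCharacter G ψ → ψ 1 = 1 ∨ ψ 1 = m := by
    intro ψ hψ
    have h0 := CfsgLib.Char.irr_one_eq_charDegree (⟨ψ, hψ⟩ : Cfsg.IrrCharacter G)
    rcases hcd ⟨ψ, hψ⟩ with h | h
    · left
      rw [h] at h0
      simpa using h0
    · right
      rw [h] at h0
      exact h0
  have hm' : ∃ ψ : G → ℂ, Cfsg.IsIrrCharacter G ψ ∧ ψ 1 = m := by
    obtain ⟨ψ, hψ⟩ := hm
    refine ⟨ψ, ψ.2, ?_⟩
    have h0 := CfsgLib.Char.irr_one_eq_charDegree ψ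
    rw [hψ] at h0
    exact h0
  rcases CfsgLib.Char.two_deg_main m hm1 hcd' hm' with ⟨D, h1, h2, h3, h4⟩ | ⟨p, e, h1, h2, P, A, h3, h4, h5, h6, h7, h8, hnil⟩
  · intro a ha b hb
    exact h2 a (h4 ha) b (h4 hb)
  · haveI := hnil
    exact CfsgLib.Char.derived_abelian_of_monomial m (fun χ hχ => CfsgLib.Char.monomial_of_nilpotent _ G rfl χ hχ) hcd'

end Cfsg.Agent.S4458
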