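import Cfsg.Statements.S4477
import Cfsg.Agent.Lib.Char.AFT

set_option autoImplicit false
open Cfsg

namespace Cfsg.Agent.S4477

/-- Let G be a finite 2-group whose number of involutions is congruent to 1 modulo 4. Then G is cyclic or its commutator subgroup has index 4. -/
theorem result {G : Type*} [Group G] [Finite G] (hG : IsPGroup 2 G) (ht : Nat.card {x : G // orderOf x = 2} % 4 = 1) : IsCyclic G ∨ (commutator G).index = 4 := by
  letI : Fintype G := Fintype.ofFinite G
  exact CfsgLib.Char.aft_main hG ht

end Cfsg.Agent.S4477
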