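import Cfsg.Statements.S4479
import Cfsg.Agent.Lib.Block.V4Order

set_option autoImplicit false
open Cfsg

namespace Cfsg.Agent.S4479

/-- An order formula from the principal 2-block. Let G be a finite group of order 4·g₀ with g₀ odd having no normal 2-complement (no normal subgroup of order g₀); let P be a Sylow 2-subgroup, J an involution of P, and fix a maximal ideal M of the algebraic integers containing 2. Suppose the principal 2-block consists of the principal character and three further distinct characters χ₁, χ₂, χ₃ of degrees x₁, x₂, x₃, with χ_i(J) = ε_i = ±1. Then, writing c(J) and c(P) for the orders of the centralizers of J and of P, the order of G equals 8·α·c(J)³/c(P)² with α = x₁x₂x₃ / ((x₁ + ε₁)(x₂ + ε₂)(x₃ + ε₃)). -/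
theorem result {G : Type*} [Group G] [Finite G] (M : Ideal Cfsg.AlgInt) (hM : Cfsg.IsPModular 2 M) (g₀ : ℕ) (hg₀ : Odd g₀) (hG : Nat.card G = 4 * g₀) (hnc : ¬ ∃ N : Subgroup G, N.Normal ∧ Nat.card N = g₀) (P : Sylow 2 G) (J : G) (hJ : J ∈ (P : Subgroup G)) (hJ2 : orderOf J = 2) (χ₁ χ₂ χ₃ : Cfsg.IrrCharacter G) (ε₁ ε₂ ε₃ : ℤ) (hB : Cfsg.principalBlock M G = {χ : Cfsg.IrrCharacter G | (χ : G → ℂ) = (fun _ => 1) ∨ χ = χ₁ ∨ χ = χ₂ ∨ χ = χ₃}) (hdist : (χ₁ : G → ℂ) ≠ (fun _ => 1) ∧ (χ₂ : G → ℂ) ≠ (fun _ => 1) ∧ (χ₃ : G → ℂ) ≠ (fun _ => 1) ∧ χ₁ ≠ χ₂ ∧ χ₁ ≠ χ₃ ∧ χ₂ ≠ χ₃) (hε : (ε₁ = 1 ∨ ε₁ = -1) ∧ (ε₂ = 1 ∨ ε₂ = -1) ∧ (ε₃ = 1 ∨ ε₃ = -1)) (hval : (χ₁ : G → ℂ) J = ε₁ ∧ (χ₂ : G → ℂ) J = ε₂ ∧ (χ₃ : G → ℂ) J = ε₃) : (Nat.card G : ℚ) = 8 * (((Cfsg.charDegree (χ₁ : G → ℂ) : ℚ) * Cfsg.charDegree (χ₂ : G → ℂ) * Cfsg.charDegree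 (χ₃ : G → ℂ)) / ((Cfsg.charDegree (χ₁ : G → ℂ) + ε₁) * (Cfsg.charDegree (χ₂ : G → ℂ) + ε₂) * (Cfsg.charDegree (χ₃ : G → ℂ) + ε₃))) * (Nat.card (Subgroup.centralizer ({J} : Set G)) : ℚ) ^ 3 / (Nat.card (Subgroup.centralizer ((P : Subgroup G) : Set G)) : ℚ) ^ 2 := by
  classical
  letI : Fintype G := Fintype.ofFinite G
  obtain ⟨hV, hone⟩ := CfsgLib.Block.v4_of_no_complement hg₀ hG hnc
  obtain ⟨S, hS, hE1, hE4, h41, h42, h43⟩ := CfsgLib.Block.v4_formula_core hM hV hone P hJ hJ2 hB hdist hε hval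
  set x₁ := Cfsg.charDegree (χ₁ : G → ℂ) with hx₁
  set x₂ := Cfsg.charDegree (χ₂ : G → ℂ) with hx₂
  set x₃ := Cfsg.charDegree (χ₃ : G → ℂ) with hx₃
  set c := Nat.card (Subgroup.centralizer ({J} : Set G)) with hc
  set cP := Nat.card (Subgroup.centralizer ((P : Subgroup G) : Set G)) with hcP
  set h := (Subgroup.centralizer ({J} : Set G)).index with hh
  have hG' : h * c = Nat.card G := Subgroup.index_mul_card _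
  have hcP0 : (cP : ℚ) ≠ 0 := by
    have : cP ≠ 0 := Nat.card_pos.ne'
    exact_mod_cast this
  have hsq : ∀ ε : ℤ, (ε = 1 ∨ ε = -1) → (ε : ℚ) * ε = 1 := by
    intro ε h
    rcases h with h | h <;> rw [h] <;> norm_num
  have hs1 := hsq _ hε.1
  have hs2 := hsq _ hε.2.1
  have hs3 := hsq _ hε.2.2
  have hne : ∀ (x : ℕ) (ε : ℤ), (ε = 1 ∨ ε = -1) → (4 : ℤ) ∣ (x : ℤ) - ε → ((x : ℚ) + ε) ≠ 0 := by
    intro x ε hε' hd h0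
    have h1 : (x : ℤ) + ε = 0 := by exact_mod_cast h0
    obtain ⟨k, hk⟩ := hd
    rcases hε' with rfl | rfl <;> omega
  have hY1 := hne x₁ ε₁ hε.1 h41
  have hY2 := hne x₂ ε₂ hε.2.1 h42
  have hY3 := hne x₃ ε₃ hε.2.2 h43
  have hE1' : 4 * (S : ℚ) * ((x₁ : ℚ) * x₂ * x₃) = (h : ℚ) * ((x₁ : ℚ) * x₂ * x₃ + ε₁ * x₂ * x₃ + ε₂ * x₁ * x₃ + ε₃ * x₁ * x₂) := by
    exact_mod_cast hE1
  have hE4' : (1 : ℚ) + ε₁ * x₁ + ε₂ * x₂ + ε₃ * x₃ = 0 := by exact_mod_cast hE4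
  have hprod : ((x₁ : ℚ) + ε₁) * ((x₂ : ℚ) + ε₂) * ((x₃ : ℚ) + ε₃) = (x₁ : ℚ) * x₂ * x₃ + ε₁ * x₂ * x₃ + ε₂ * x₁ * x₃ + ε₃ * x₁ * x₂ := by
    linear_combination ((ε₁ : ℚ) * ε₂ * ε₃) * hE4' - (ε₂ : ℚ) * ε₃ * x₁ * hs1 - (ε₁ : ℚ) * ε₃ * x₂ * hs2 - (ε₁ : ℚ) * ε₂ * x₃ * hs3
  have hS' : (S : ℚ) * (cP : ℚ) ^ 2 = 2 * (c : ℚ) ^ 2 := by exact_mod_cast hS
  have hG'' : (h : ℚ) * c = (Nat.card G : ℚ) := by exact_mod_cast hG'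
  have hY : ((x₁ : ℚ) + ε₁) * ((x₂ : ℚ) + ε₂) * ((x₃ : ℚ) + ε₃) ≠ 0 := mul_ne_zero (mul_ne_zero hY1 hY2) hY3
  rw [← hG'']
  have hfinal : (h : ℚ) * c * (((x₁ : ℚ) + ε₁) * ((x₂ : ℚ) + ε₂) * ((x₃ : ℚ) + ε₃) * (cP : ℚ) ^ 2) = 8 * ((x₁ : ℚ) * x₂ * x₃) * (c : ℚ) ^ 3 := by
    rw [hprod]
    linear_combination (-(c : ℚ) * (cP : ℚ) ^ 2) * hE1' + (4 * (c : ℚ) * ((x₁ : ℚ) * x₂ * x₃)) * hS'
  field_simp
  linear_combination hfinal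

end Cfsg.Agent.S4479
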