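import Cfsg.Statements.S4480
import Cfsg.Agent.Lib.Block.V4Order

set_option autoImplicit false
open Cfsg

namespace Cfsg.Agent.S4480

/-- Same setting as the Klein-four order formula: G of order 4·g₀ (g₀ odd) with no normal 2-complement, P a Sylow 2-subgroup, J an involution of P, M over 2, principal 2-block {1, χ₁, χ₂, χ₃} with χ_i(J) = ε_i = ±1. Suppose ε₁ε₂ε₃ = −1 and ε₃ = −1, and put q = x₃ = χ₃(1). Then there is a natural number m with 4·c(J) = m·c(P)·(q + 1), and the order of G equals (m³·c(P)/4)·(q³ − q)/2, that is 8·#G = m³·c(P)·(q³ − q). -/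
theorem result {G : Type*} [Group G] [Finite G] (M : Ideal Cfsg.AlgInt) (hM : Cfsg.IsPModular 2 M) (g₀ : ℕ) (hg₀ : Odd g₀) (hG : Nat.card G = 4 * g₀) (hnc : ¬ ∃ N : Subgroup G, N.Normal ∧ Nat.card N = g₀) (P : Sylow 2 G) (J : G) (hJ : J ∈ (P : Subgroup G)) (hJ2 : orderOf J = 2) (χ₁ χ₂ χ₃ : Cfsg.IrrCharacter G) (ε₁ ε₂ ε₃ : ℤ) (hB : Cfsg.principalBlock M G = {χ : Cfsg.IrrCharacter G | (χ : G → ℂ) = (fun _ => 1) ∨ χ = χ₁ ∨ χ = χ₂ ∨ χ = χ₃}) (hdist : (χ₁ : G → ℂ) ≠ (fun _ => 1) ∧ (χ₂ : G → ℂ) ≠ (fun _ => 1) ∧ (χ₃ : G → ℂ) ≠ (fun _ => 1) ∧ χ₁ ≠ χ₂ ∧ χ₁ ≠ χ₃ ∧ χ₂ ≠ χ₃) (hε : (ε₁ = 1 ∨ ε₁ = -1) ∧ (ε₂ = 1 ∨ ε₂ = -1) ∧ (ε₃ = 1 ∨ ε₃ = -1)) (hval : (χ₁ : G → ℂ) J = ε₁ ∧ (χ₂ : G → ℂ) J = ε₂ ∧ (χ₃ : G → ℂ) J = ε₃) (hprod : ε₁ * ε₂ * ε₃ = -1) (hε₃ : ε₃ = -1) : ∃ m : ℕ, 4 * Nat.card (Subgroup.centralizer ({J} : Set G)) = m * Nat.card (Subgroup.centralizer ((P : Subgroup G) : Set G)) * (Cfsg.charDegree (χ₃ : G →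 ℂ) + 1) ∧ 8 * Nat.card G = m ^ 3 * Nat.card (Subgroup.centralizer ((P : Subgroup G) : Set G)) * (Cfsg.charDegree (χ₃ : G → ℂ) ^ 3 - Cfsg.charDegree (χ₃ : G → ℂ)) := by
  classical
  letI : Fintype G := Fintype.ofFinite G
  obtain ⟨hV, hone⟩ := CfsgLib.Block.v4_of_no_complement hg₀ hG hnc
  obtain ⟨S, hS, hE1, hE4, h41, h42, h43⟩ := CfsgLib.Block.v4_formula_core hM hV hone P hJ hJ2 hB hdist hε hval
  subst hε₃
  have hx₁pos : 1 ≤ Cfsg.charDegree (χ₁ : G → ℂ) := Nat.pos_of_ne_zero (CfsgLib.Block.charDegree_ne_zero χ₁.2)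
  have hx₂pos : 1 ≤ Cfsg.charDegree (χ₂ : G → ℂ) := Nat.pos_of_ne_zero (CfsgLib.Block.charDegree_ne_zero χ₂.2)
  have hx₃pos : 1 ≤ Cfsg.charDegree (χ₃ : G → ℂ) := Nat.pos_of_ne_zero (CfsgLib.Block.charDegree_ne_zero χ₃.2)
  have hε12 : ε₁ = 1 ∧ ε₂ = 1 := by
    rcases hε.1 with h1 | h1 <;> rcases hε.2.1 with h2 | h2
    · exact ⟨h1, h2⟩
    · rw [h1, h2] at hprod; norm_num at hprod
    · rw [h1, h2] at hprod; norm_num at hprod
    · exfalso
      rw [h1, h2] at hE4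
      omega
  obtain ⟨rfl, rfl⟩ := hε12
  have hdeg := CfsgLib.Block.v4_conj_pair hM hV hone hJ2 hB hdist (by simpa using hval.1) (by simpa using hval.2.1) (by simpa using hval.2.2)
  rw [← hdeg] at hE1 hE4 h42
  set x := Cfsg.charDegree (χ₁ : G → ℂ) with hx
  set q := Cfsg.charDegree (χ₃ : G → ℂ) with hq
  set c := Nat.card (Subgroup.centralizer ({J} : Set G)) with hc
  set cP := Nat.card (Subgroup.centralizer ((P : Subgroup G) : Set G)) with hcP
  set h := (Subgroup.centralizer ({J} : Set G)).index with hh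
  have hG' : h * c = Nat.card G := Subgroup.index_mul_card _
  have hqx : q = 2 * x + 1 := by
    have : (1 : ℤ) + 1 * (x : ℤ) + 1 * (x : ℤ) + (-1) * (q : ℤ) = 0 := by exact_mod_cast hE4
    omega
  -- `c` is a multiple of `cP`
  have hle : Subgroup.centralizer ((P : Subgroup G) : Set G) ≤ Subgroup.centralizer ({J} : Set G) := by
    intro g hg
    rw [Subgroup.mem_centralizer_iff] at hg
    rw [Subgroup.mem_centralizer_singleton_iff]
    exact (hg J hJ).symm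
  obtain ⟨R, hR⟩ : cP ∣ c := Subgroup.card_dvd_of_le hle
  have hcP0 : cP ≠ 0 := Nat.card_pos.ne'
  have hc0 : c ≠ 0 := Nat.card_pos.ne'
  have hSR : S = 2 * R ^ 2 := by
    have h1 : S * cP ^ 2 = (2 * R ^ 2) * cP ^ 2 := by
      rw [hS, hR]
      ring
    exact Nat.eq_of_mul_eq_mul_right (by positivity) h1
  obtain ⟨t, ht⟩ : ∃ t, x + 1 = 2 * t := by
    obtain ⟨k, hk⟩ := h41
    have : Even (x + 1) := by
      rw [Nat.even_iff]
      omega
    obtain ⟨t, ht⟩ := this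
    exact ⟨t, by omega⟩
  have htpos : 1 ≤ t := by omega
  have hmain : R ^ 2 * (x * q) = h * t ^ 2 := by
    have h1 : (4 : ℤ) * (S : ℤ) * ((x : ℤ) * x * q) = (h : ℤ) * ((x : ℤ) * x * q + 1 * x * q + 1 * x * q + (-1) * x * x) := hE1
    have h2 : (x : ℤ) ≠ 0 := by
      have : x ≠ 0 := by omega
      exact_mod_cast this
    have h3 : ((R : ℤ) ^ 2 * ((x : ℤ) * q)) = (h : ℤ) * (t : ℤ) ^ 2 := by
      have hq' : (q : ℤ) = 2 * x + 1 := by exact_mod_cast hqx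
      have ht' : (x : ℤ) + 1 = 2 * t := by exact_mod_cast ht
      have hS' : (S : ℤ) = 2 * (R : ℤ) ^ 2 := by exact_mod_cast hSR
      rw [hS'] at h1
      apply mul_left_cancel₀ h2
      have h4 : (x : ℤ) * x * q + 1 * x * q + 1 * x * q + (-1) * x * x = 2 * x * (2 * t) ^ 2 := by
        rw [← ht', hq']
        ring
      rw [h4] at h1
      have h5 : (8 : ℤ) * ((x : ℤ) * ((R : ℤ) ^ 2 * ((x : ℤ) * q))) = 8 * ((x : ℤ) * ((h : ℤ) * (t : ℤ) ^ 2)) := by
        linear_combination h1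
      linarith
    exact_mod_cast h3
  have hcop : Nat.Coprime (t ^ 2) (x * q) := by
    apply Nat.Coprime.pow_left
    apply Nat.Coprime.mul_right
    · have : Nat.gcd t x ∣ 1 := by
        have h1 : Nat.gcd t x ∣ x + 1 := by
          rw [ht]
          exact (Nat.gcd_dvd_left t x).trans (dvd_mul_left _ _)
        exact (Nat.dvd_add_right (Nat.gcd_dvd_right t x)).1 h1
      exact Nat.dvd_one.1 this
    · have : Nat.gcd t q ∣ 1 := by
        have h1 : Nat.gcd t q ∣ q + 1 := by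
          have : q + 1 = 4 * t := by omega
          rw [this]
          exact (Nat.gcd_dvd_left t q).trans (dvd_mul_left _ _)
        exact (Nat.dvd_add_right (Nat.gcd_dvd_right t q)).1 h1
      exact Nat.dvd_one.1 this
  have hdvd : t ^ 2 ∣ R ^ 2 := by
    apply hcop.dvd_of_dvd_mul_right
    rw [hmain]
    exact dvd_mul_left _ _
  have hdvd' : t ∣ R := (Nat.pow_dvd_pow_iff (by norm_num)).1 hdvd
  obtain ⟨m, hm⟩ := hdvd'
  have hhm : h = m ^ 2 * (x * q) := by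
    have h1 : (m ^ 2 * (x * q)) * t ^ 2 = h * t ^ 2 := by
      rw [← hmain, hm]
      ring
    exact (Nat.eq_of_mul_eq_mul_right (by positivity) h1).symm
  refine ⟨m, ?_, ?_⟩
  · rw [hR, hm]
    have : q + 1 = 4 * t := by omega
    rw [this]
    ring
  · have hq3 : q ^ 3 - q = 8 * q * x * t := by
      have h1 : q ^ 3 = q + 8 * q * x * t := by
        have h2 : (q : ℤ) ^ 3 = q + 8 * q * x * t := by
          have hq' : (q : ℤ) = 2 * x + 1 := by exact_mod_cast hqx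
          have ht' : (x : ℤ) + 1 = 2 * t := by exact_mod_cast ht
          have h3 : (q : ℤ) ^ 3 - q - 8 * q * x * t = 4 * q * x * ((x : ℤ) + 1 - 2 * t) := by
            rw [hq']
            ring
          rw [ht'] at h3
          linarith
        exact_mod_cast h2
      omega
    rw [hq3, ← hG', hhm, hR, hm]
    ring

end Cfsg.Agent.S4480
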