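import Cfsg.Statements.S4483
import Cfsg.Agent.Lib.Block.Real
import Cfsg.Agent.Lib.Block.BrauerFeit
import Cfsg.Agent.Lib.Block.DefectThm

set_option autoImplicit false
open Cfsg

namespace Cfsg.Agent.S4483

/-- Let G be a finite group of order 2^n·g₀ with g₀ odd, and M a maximal ideal of the algebraic integers containing 2. Every real-valued irreducible character of G of odd degree lies in the principal 2-block; consequently G has at most 2^(2n) real-valued irreducible characters of odd degree. -/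
theorem result {G : Type*} [Group G] [Finite G] (M : Ideal Cfsg.AlgInt) (hM : Cfsg.IsPModular 2 M) : (∀ χ : Cfsg.IrrCharacter G, (∀ g : G, ((χ : G → ℂ) g).im = 0) → Odd (Cfsg.charDegree (χ : G → ℂ)) → χ ∈ Cfsg.principalBlock M G) ∧ Nat.card {χ : Cfsg.IrrCharacter G // (∀ g : G, ((χ : G → ℂ) g).im = 0) ∧ Odd (Cfsg.charDegree (χ : G → ℂ))} ≤ 2 ^ (2 * (Nat.card G).factorization 2) := by
  classical
  cases nonempty_fintype G
  haveI hp2 : Fact (Nat.Prime 2) := ⟨Nat.prime_two⟩
  have key : ∀ χ : Cfsg.IrrCharacter G, (∀ g : G, ((χ : G → ℂ) g).im = 0) → Odd (Cfsg.charDegree (χ : G → ℂ)) → χ ∈ Cfsg.principalBlock M G := by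
    intro χ hreal hodd
    by_contra hnot
    set B := Cfsg.blockOf M (χ : G → ℂ) with hBdef
    have hB : Cfsg.IsPBlock M B := ⟨χ, rfl⟩
    have hPr := hM.isPrime
    have hχB : χ ∈ B := CfsgLib.Block.self_mem_blockOf hPr χ
    have hstarχ : (CfsgLib.Block.starIrr χ) = χ := by
      apply Subtype.ext
      funext g
      exact Complex.conj_eq_iff_im.mpr (hreal g)
    have hstar : ∀ ψ ∈ B, CfsgLib.Block.starIrr ψ ∈ B := by
      intro ψ hψ g
      have h1 := hψ g⁻¹
      rw [CfsgLib.Block.centralChar_star]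
      have h2 : Cfsg.centralChar (χ : G → ℂ) g = Cfsg.centralChar (χ : G → ℂ) g⁻¹ := by
        have := CfsgLib.Block.centralChar_star (θ := χ) g
        rw [hstarχ] at this
        exact this
      rw [h2]
      exact h1
    have hBne : B ≠ Cfsg.principalBlock M G := by
      intro h
      apply hnot
      rw [← h]
      exact hχB
    obtain ⟨D, hD⟩ := CfsgLib.Block.exists_defectGroup hM hB
    have hcard := CfsgLib.Block.card_defectGroup hM hB hD
    have hmin : CfsgLib.Block.minNu 2 B = 0 := by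
      have h1 : (Cfsg.charDegree (χ : G → ℂ)).factorization 2 = 0 :=
        Nat.factorization_eq_zero_of_not_dvd (Odd.not_two_dvd_nat hodd)
      have h2 := Nat.sInf_le (s := (fun χ : Cfsg.IrrCharacter G => (Cfsg.charDegree (χ : G → ℂ)).factorization 2) '' B) ⟨χ, hχB, h1⟩
      exact Nat.le_zero.mp h2
    have hdef : Cfsg.blockDefect 2 B = (Nat.card G).factorization 2 := by
      rw [CfsgLib.Block.blockDefect_eq, hmin, Nat.sub_zero]
    rw [hdef] at hcard
    let P : Sylow 2 G := Sylow.ofCard D hcard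
    have hPD : (P : Subgroup G) = D := Sylow.coe_ofCard D hcard
    have hfull : Cfsg.IsDefectGroup 2 M B (P : Subgroup G) := by rw [hPD]; exact hD
    apply CfsgLib.Block.real_block_of_full_defect hM hB P hfull hBne
    ext ψ
    constructor
    · rintro ⟨χ', hχ', hψ⟩
      have h3 : ψ = CfsgLib.Block.starIrr χ' := Subtype.ext hψ
      rw [h3]
      exact hstar χ' hχ'
    · intro hψ
      refine ⟨CfsgLib.Block.starIrr ψ, hstar ψ hψ, ?_⟩
      funext g
      simp [CfsgLib.Block.starIrr]
  refine ⟨key, ?_⟩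
  have hB₀ : Cfsg.IsPBlock M (Cfsg.principalBlock M G) := ⟨⟨fun _ => 1, CfsgLib.Char.isIrrCharacter_one⟩, rfl⟩
  have h1 := CfsgLib.Block.card_block_bound hM hB₀
  have h2 : Cfsg.blockDefect 2 (Cfsg.principalBlock M G) ≤ (Nat.card G).factorization 2 := by
    rw [CfsgLib.Block.blockDefect_eq]
    exact Nat.sub_le _ _
  have h3 : 2 ^ (2 * Cfsg.blockDefect 2 (Cfsg.principalBlock M G)) ≤ 2 ^ (2 * (Nat.card G).factorization 2) :=
    Nat.pow_le_pow_right (by norm_num) (Nat.mul_le_mul_left 2 h2)
  have h4 : 1 ≤ 2 ^ (2 * (Nat.card G).factorization 2) := Nat.one_le_two_pow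
  have h6 : 4 * Nat.card (Cfsg.principalBlock M G) ≤ 2 ^ (2 * (Nat.card G).factorization 2) + 4 :=
    le_trans h1 (Nat.add_le_add_right h3 4)
  have h5 : Nat.card (Cfsg.principalBlock M G) ≤ 2 ^ (2 * (Nat.card G).factorization 2) := by
    generalize 2 ^ (2 * (Nat.card G).factorization 2) = X at h4 h6 ⊢
    generalize Nat.card (Cfsg.principalBlock M G) = c at h6 ⊢
    omega
  refine le_trans ?_ h5
  letI : Fintype (Cfsg.IrrCharacter G) := CfsgLib.Char.irrFintype
  let f : {χ : Cfsg.IrrCharacter G // (∀ g : G, ((χ : G → ℂ) g).im = 0) ∧ Odd (Cfsg.charDegree (χ : G → ℂ))} → Cfsg.principalBlock M G :=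
    fun x => ⟨x.1, key x.1 x.2.1 x.2.2⟩
  have hf : Function.Injective f := by
    intro a b hab
    apply Subtype.ext
    have h7 : (f a).1 = (f b).1 := by rw [hab]
    exact h7
  exact Nat.card_le_card_of_injective f hf

end Cfsg.Agent.S4483
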