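import Cfsg.Statements.S4486
import Cfsg.Agent.Lib.Char.StarP6

set_option autoImplicit false
open Cfsg

namespace Cfsg.Agent.S4486

/-- Let G be a finite group and p a prime dividing its order such that every non-identity element of a Sylow p-subgroup P has the same centralizer as P; let p^n be the order of P. If G has a non-principal irreducible character χ of degree x with x² < p^n − 1, then either G has a proper normal subgroup containing P, or G has a normal subgroup of index p^n and x = 1. -/
theorem result {G : Type*} [Group G] [Finite G] (p : ℕ) (hp : p.Prime) (hpG : p ∣ Nat.card G) (P : Sylow p G) (hstar : ∀ x ∈ (P : Subgroup G), x ≠ 1 → Subgroup.centralizer ({x} : Set G) = Subgroup.centralizer ((P : Subgroup G) : Set G)) (n : ℕ) (hn : Nat.card P = p ^ n) (χ : Cfsg.IrrCharacter G) (h1 : (χ : G → ℂ) ≠ fun _ => 1) (hdeg : Cfsg.charDegree (χ : G → ℂ) ^ 2 + 1 < p ^ n) : (∃ K : Subgroup G, K.Normal ∧ K ≠ ⊤ ∧ (P : Subgroup G) ≤ K) ∨ ((∃ N : Subgroup G, N.Normal ∧ N.index = p ^ n) ∧ Cfsg.charDegree (χ : G → ℂ)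 = 1) := by
  classical
  cases nonempty_fintype G
  haveI : Fact p.Prime := ⟨hp⟩
  have hstarS : CfsgLib.Char.StarSylow P := by
    refine ⟨?_, hstar⟩
    intro h0
    have h1 : Nat.card P = 1 := by
      have : Nat.card (P : Subgroup G) = 1 := by
        rw [h0]
        simp
      exact this
    have h2 := hdeg
    rw [← hn, h1] at h2
    omega
  have h1 := CfsgLib.Char.star_dichotomy hstarS χ h1 (by
    show Cfsg.charDegree (χ : G → ℂ) ^ 2 + 1 < Nat.card P
    rw [hn]
    exact hdeg)
  rcases h1 with h1 | ⟨⟨N, hN, hNi⟩, h2⟩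
  · exact Or.inl h1
  · right
    refine ⟨⟨N, hN, ?_⟩, h2⟩
    rw [hNi]
    exact hn

end Cfsg.Agent.S4486
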