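import Cfsg.Statements.S4636
import Mathlib

set_option autoImplicit false
open scoped Pointwise
open Cfsg

namespace Cfsg.Agent.S4636

/-- Two subgroups of equal order inside a cyclic subgroup coincide. -/
private lemma eq_of_card_eq_of_le_cyclic {G : Type*} [Group G] [Finite G] (P : Subgroup G) (hcyc : IsCyclic P)
    (A B : Subgroup G) (hA : A ≤ P) (hB : B ≤ P) (h : Nat.card A = Nat.card B) : A = B := by
  classical
  have : Fintype P := Fintype.ofFinite _
  set n := Nat.card A with hn
  have hnpos : 0 < n := Nat.card_pos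
  have hle := IsCyclic.card_pow_eq_one_le (α := P) (n := n) hnpos
  -- the set S of elements of P with x^n=1
  let S : Finset P := Finset.univ.filter (fun a : P => a ^ n = 1)
  have hAS : ∀ (C : Subgroup G), C ≤ P → Nat.card C = n → (C.subgroupOf P : Set P) = (S : Set P) := by
    intro C hC hCn
    have hsub : ((C.subgroupOf P : Subgroup P) : Set P) ⊆ (S : Set P) := by
      intro x hx
      simp only [S, Finset.coe_filter, Finset.mem_univ, true_and, Set.mem_ofPred_eq]
      have hx' : (x : G) ∈ C := hx
      have : (⟨x, hx'⟩ : C) ^ n = 1 := by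
        rw [← hCn]; exact pow_card_eq_one'
      ext
      simpa using congrArg (fun y : C => (y : G)) this
    have hcard : Nat.card (C.subgroupOf P) = n := by
      rw [← hCn]
      exact Nat.card_congr (Subgroup.subgroupOfEquivOfLe hC).toEquiv
    apply Set.eq_of_subset_of_ncard_le hsub
    rw [Set.ncard_coe_finset]
    have : ((C.subgroupOf P : Subgroup P) : Set P).ncard = n := by
      rw [← hcard]; rfl
    rw [this]
    exact hle
  have h1 := hAS A hA rfl
  have h2 := hAS B hB h.symm
  have h3 : A.subgroupOf P = B.subgroupOf P := SetLike.coe_injective (h1.trans h2.symm)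
  have := congrArg (fun C : Subgroup P => C.map P.subtype) h3
  simpa [Subgroup.map_subgroupOf_eq_of_le, hA, hB] using this

/-- Let P be a nontrivial cyclic p-subgroup of the finite group G and Z its subgroup of order p. For every x outside N_G(Z), P meets its conjugate xPx⁻¹ trivially; consequently N_G(Q) ≤ N_G(Z) for every nontrivial subgroup Q of P. -/
theorem result {G : Type*} [Group G] [Finite G] (p : ℕ) [Fact p.Prime] (P : Subgroup G) (hP : IsPGroup p P) (hP1 : P ≠ ⊥) (hcyc : IsCyclic P) (Z : Subgroup G) (hZ : Z ≤ P) (hZcard : Nat.card Z = p) : (∀ x : G, x ∉ Subgroup.normalizer (Z : Set G) → P ⊓ MulAut.conj x • P = ⊥) ∧ ∀ Q : Subgroup G, Q ≤ P → Q ≠ ⊥ → Subgroup.normalizer (Q : Set G) ≤ Subgroup.normalizer (Z : Set G) := by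
  classical
  -- any nontrivial subgroup of P contains Z
  have hsub : ∀ Q : Subgroup G, Q ≤ P → Q ≠ ⊥ → Z ≤ Q := by
    intro Q hQ hQ1
    have hQp : IsPGroup p Q := hP.to_le hQ
    have hQnt : Nontrivial Q := by
      rwa [Subgroup.nontrivial_iff_ne_bot]
    have hpdvd : p ∣ Nat.card Q := by
      obtain ⟨k, hk⟩ := IsPGroup.iff_card.mp hQp
      rw [hk]
      have : k ≠ 0 := by
        rintro rfl
        have : Nat.card Q = 1 := by simpa using hk
        exact (Finite.one_lt_card (α := Q)).ne' this
      exact dvd_pow_self p this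
    obtain ⟨x, hx⟩ := exists_prime_orderOf_dvd_card' p hpdvd
    have hZ' : Subgroup.zpowers (x : G) = Z := by
      apply eq_of_card_eq_of_le_cyclic P hcyc
      · rw [Subgroup.zpowers_le]; exact hQ x.2
      · exact hZ
      · rw [Nat.card_zpowers, hZcard, Subgroup.orderOf_coe, hx]
    rw [← hZ', Subgroup.zpowers_le]
    exact x.2
  have hconjcard : ∀ x : G, Nat.card ↥(MulAut.conj x • Z) = p := by
    intro x
    rw [← hZcard, Subgroup.pointwise_smul_def]
    exact Subgroup.card_map_of_injective (MulAut.conj x).injective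
  have hnorm_of : ∀ x : G, MulAut.conj x • Z = Z → x ∈ Subgroup.normalizer (Z : Set G) := by
    intro x hx
    rw [Subgroup.mem_normalizer_iff_map_conj_eq]
    rw [Subgroup.pointwise_smul_def] at hx
    exact hx
  constructor
  · intro x hx
    by_contra hne
    apply hx
    apply hnorm_of
    -- R := P ⊓ xPx⁻¹ nontrivial, contains Z and xZx⁻¹ (the latter in cyclic xPx⁻¹)
    set R := P ⊓ MulAut.conj x • P with hR
    have hZR : Z ≤ R := hsub R inf_le_left hne
    -- conj back: x⁻¹ R x ≤ P is nontrivial, contains Z
    have hback : MulAut.conj x⁻¹ • R ≤ P := by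
      intro a ha
      rw [Subgroup.mem_pointwise_smul_iff_inv_smul_mem] at ha
      have h2 : _ ∈ MulAut.conj x • P := ha.2
      rw [Subgroup.mem_pointwise_smul_iff_inv_smul_mem] at h2
      simpa [mul_assoc] using h2
    have hbackne : MulAut.conj x⁻¹ • R ≠ ⊥ := by
      intro h
      apply hne
      have := congrArg (fun C => MulAut.conj x • C) h
      simpa [smul_smul] using this
    have hZ2 : Z ≤ MulAut.conj x⁻¹ • R := hsub _ hback hbackne
    -- so conj x • Z ≤ R ≤ P, same order as Z, hence equal to Z
    apply eq_of_card_eq_of_le_cyclic P hcyc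
    · intro a ha
      rw [Subgroup.mem_pointwise_smul_iff_inv_smul_mem] at ha
      have h3 := hZ2 ha
      rw [Subgroup.mem_pointwise_smul_iff_inv_smul_mem] at h3
      have h4 : a ∈ R := by simpa [smul_smul, mul_assoc] using h3
      exact h4.1
    · exact hZ
    · rw [hconjcard, hZcard]
  · intro Q hQ hQ1 n hn
    have hZQ := hsub Q hQ hQ1
    apply hnorm_of
    rw [Subgroup.mem_normalizer_iff_map_conj_eq] at hn
    have hQn : MulAut.conj n • Q = Q := by
      rw [Subgroup.pointwise_smul_def]; exact hn
    apply eq_of_card_eq_of_le_cyclic P hcyc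
    · rw [← hQn] at hQ
      calc MulAut.conj n • Z ≤ MulAut.conj n • Q := Subgroup.pointwise_smul_le_pointwise_smul_iff.mpr hZQ
        _ ≤ P := hQ
    · exact hZ
    · rw [hconjcard, hZcard]

end Cfsg.Agent.S4636
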