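import Cfsg.Statements.S4665
import Cfsg.Agent.Lib.Char.Ortho
import Mathlib

set_option autoImplicit false

namespace Cfsg.Agent.S4665

open CfsgLib.Char

/-- Fix a prime p, a maximal ideal M of the algebraic integers containing p, and a p-block B of the finite group G, and let p^a be the p-part of the order of G. Let χ be an integer combination of the irreducible characters in B. If the function that agrees with χ on p-regular elements and vanishes on p-singular elements is again an integer combination of the irreducible characters in B, then p^a divides χ(1). -/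
theorem result {G : Type*} [Group G] [Fintype G] (p : ℕ) [Fact p.Prime] (M : Ideal Cfsg.AlgInt) (hM : Cfsg.IsPModular p M) (B : Set (Cfsg.IrrCharacter G)) (hB : Cfsg.IsPBlock M B) (χ : G → ℂ) (hχ : (∃ n : Cfsg.IrrCharacter G → ℤ, ∀ g : G, χ g = ∑ᶠ ψ ∈ B, (n ψ : ℂ) * (ψ : G → ℂ) g)) (h0 : (∃ n : Cfsg.IrrCharacter G → ℤ, ∀ g : G, Cfsg.pRegularPart p χ g = ∑ᶠ ψ ∈ B, (n ψ : ℂ) * (ψ : G → ℂ) g)) : ∃ k : ℤ, χ 1 = (p ^ (Nat.card G).factorization p : ℂ) * k := by
  classical
  obtain ⟨n, hn⟩ := h0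
  obtain ⟨P⟩ : Nonempty (Sylow p G) := inferInstance
  have hcardP : Nat.card P = p ^ (Nat.card G).factorization p := Sylow.card_eq_multiplicity P
  haveI : Fintype P := Fintype.ofFinite _
  have hφ : ∀ u : P, Cfsg.pRegularPart p χ (u : G) = if u = 1 then χ 1 else 0 := by
    intro u
    unfold Cfsg.pRegularPart
    by_cases hu : u = 1
    · subst hu
      simp [Cfsg.IsPRegular, (Fact.out : p.Prime).one_lt.ne']
    · rw [if_neg hu]
      have hp' : p ∣ orderOf u := P.isPGroup'.dvd_orderOf hu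
      simp [Cfsg.IsPRegular, hp']
  -- sum over P
  have hsum1 : ∑ u : P, Cfsg.pRegularPart p χ (u : G) = χ 1 := by
    simp only [hφ]
    simp
  -- each irreducible restricted
  have hres : ∀ ψ : Cfsg.IrrCharacter G, ∃ m : ℕ, ∑ u : P, (ψ : G → ℂ) (u : G) = (Nat.card P : ℂ) * m := by
    intro ψ
    have hc : Cfsg.IsCharacter P (fun x : P => (ψ : G → ℂ) x) := ψ.2.isCharacter.restrict P
    obtain ⟨m, hm⟩ := hc.classInner_nat (isIrrCharacter_one (G := P))
    refine ⟨m, ?_⟩
    rw [Cfsg.classInner] at hm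
    have hP0 : (Nat.card P : ℂ) ≠ 0 := by
      exact_mod_cast Nat.card_pos.ne'
    simp only [map_one, mul_one] at hm
    rw [← hm, mul_inv_cancel_left₀ hP0]
  choose m hm using hres
  have hfin : B.Finite := Set.toFinite B
  have hsum2 : ∑ u : P, Cfsg.pRegularPart p χ (u : G) =
      (Nat.card P : ℂ) * ((∑ ψ ∈ hfin.toFinset, n ψ * (m ψ : ℤ) : ℤ) : ℂ) := by
    have : ∀ u : P, Cfsg.pRegularPart p χ (u : G) = ∑ ψ ∈ hfin.toFinset, (n ψ : ℂ) * (ψ : G → ℂ) (u : G) := by
      intro u
      rw [hn, finsum_mem_eq_finite_toFinset_sum _ hfin]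
    simp only [this]
    rw [Finset.sum_comm]
    push_cast
    rw [Finset.mul_sum]
    refine Finset.sum_congr rfl (fun ψ _ => ?_)
    rw [← Finset.mul_sum, hm]
    ring
  refine ⟨∑ ψ ∈ hfin.toFinset, n ψ * (m ψ : ℤ), ?_⟩
  rw [← hsum1, hsum2, hcardP]
  push_cast
  ring

end Cfsg.Agent.S4665
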