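import Cfsg.Statements.S4666
import Cfsg.Agent.Lib.Block.Rank

set_option autoImplicit false
open Cfsg

namespace Cfsg.Agent.S4666

/-- Fix a prime p and a maximal ideal M of the algebraic integers containing p, and a p-block B of the finite group G of defect d. For every integer combination χ of the irreducible characters in B, p^d times the function that agrees with χ on p-regular elements and vanishes elsewhere is again an integer combination of the irreducible characters in B. -/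
theorem result {G : Type*} [Group G] [Fintype G] (p : ℕ) [Fact p.Prime] (M : Ideal Cfsg.AlgInt) (hM : Cfsg.IsPModular p M) (B : Set (Cfsg.IrrCharacter G)) (hB : Cfsg.IsPBlock M B) (χ : G → ℂ) (hχ : (∃ n : Cfsg.IrrCharacter G → ℤ, ∀ g : G, χ g = ∑ᶠ ψ ∈ B, (n ψ : ℂ) * (ψ : G → ℂ) g)) : (∃ n : Cfsg.IrrCharacter G → ℤ, ∀ g : G, (p ^ Cfsg.blockDefect p B : ℂ) * Cfsg.pRegularPart p χ g = ∑ᶠ ψ ∈ B, (n ψ : ℂ) * (ψ : G → ℂ) g) := by
  classical
  obtain ⟨n, hn⟩ := hχ
  have hex : ∀ ψ : Cfsg.IrrCharacter G, ∃ a : Cfsg.IrrCharacter G → ℤ, ψ ∈ B → ((∀ ζ, ζ ∉ B → a ζ = 0) ∧ ∀ x,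
      ((p ^ Cfsg.blockDefect p B : ℕ) : ℂ) * CfsgLib.Block.regPart p (ψ : G → ℂ) x =
        ∑ ζ : Cfsg.IrrCharacter G, (a ζ : ℂ) * (ζ : G → ℂ) x) := by
    intro ψ
    by_cases hψ : ψ ∈ B
    · obtain ⟨a, h1, h2⟩ := CfsgLib.Block.tl_int_comb hM hB hψ
      exact ⟨a, fun _ => ⟨h1, h2⟩⟩
    · exact ⟨0, fun h => absurd h hψ⟩
  choose a ha using hex
  let b : Cfsg.IrrCharacter G → ℤ := fun ζ => ∑ ψ : Cfsg.IrrCharacter G, if ψ ∈ B then n ψ * a ψ ζ else 0
  refine ⟨b, fun g => ?_⟩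
  have hreg : ∀ (ϑ : G → ℂ) x, Cfsg.pRegularPart p ϑ x = CfsgLib.Block.regPart p ϑ x := by
    intro ϑ x
    by_cases hx : p ∣ orderOf x
    · rw [CfsgLib.Block.regPart_of_singular _ hx]
      simp [Cfsg.pRegularPart, Cfsg.IsPRegular, hx]
    · rw [CfsgLib.Block.regPart_of_regular _ hx]
      simp [Cfsg.pRegularPart, Cfsg.IsPRegular, hx]
  have h1 : CfsgLib.Block.regPart p χ g = ∑ ψ : Cfsg.IrrCharacter G, if ψ ∈ B then (n ψ : ℂ) * CfsgLib.Block.regPart p (ψ : G → ℂ) g else 0 := by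
    by_cases hg : p ∣ orderOf g
    · simp [CfsgLib.Block.regPart_of_singular _ hg]
    · simp only [CfsgLib.Block.regPart_of_regular _ hg]
      rw [hn, CfsgLib.Block.finsum_mem_eq_sum_ite]
  simp only [CfsgLib.Block.finsum_mem_eq_sum_ite]
  rw [hreg, h1, Finset.mul_sum]
  have hb : ∀ ζ : Cfsg.IrrCharacter G, (if ζ ∈ B then (b ζ : ℂ) * (ζ : G → ℂ) g else 0) =
      ∑ ψ : Cfsg.IrrCharacter G, if ψ ∈ B then (n ψ : ℂ) * ((a ψ ζ : ℂ) * (ζ : G → ℂ) g) else 0 := by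
    intro ζ
    by_cases hζ : ζ ∈ B
    · rw [if_pos hζ]
      simp only [b]
      push_cast
      rw [Finset.sum_mul]
      refine Finset.sum_congr rfl fun ψ _ => ?_
      split_ifs
      · ring
      · ring
    · rw [if_neg hζ]
      symm
      refine Finset.sum_eq_zero fun ψ _ => ?_
      split_ifs with hψ
      · rw [(ha ψ hψ).1 ζ hζ]
        simp
      · rfl
  simp only [hb]
  rw [Finset.sum_comm]
  refine Finset.sum_congr rfl fun ψ _ => ?_
  by_cases hψ : ψ ∈ B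
  · simp only [if_pos hψ]
    rw [← Finset.mul_sum, ← (ha ψ hψ).2 g]
    push_cast
    ring
  · simp [if_neg hψ]

end Cfsg.Agent.S4666
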