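import Cfsg.Statements.S4683
import Cfsg.Agent.Lib.Block.KB2

set_option autoImplicit false
open Cfsg

namespace Cfsg.Agent.S4683

/-- Fix a prime p and a maximal ideal M of the algebraic integers containing p, a p-block B of the finite group G, a p-element u and a p-block e of C = C_G(u) such that (⟨u⟩, e) is a Brauer pair of B (a Brauer element of B). For χ ∈ B let χ_u be the e-part of the class function c ↦ χ(u c) on C and χ_u' the e-part of c ↦ χ(u⁻¹ c). Then the sum over χ ∈ B and over the p-regular elements s of C of χ_u(s)·χ_u'(s⁻¹) equals the order of C times the p-regular rank of e (the number of irreducible Brauer characters of e). -/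
theorem result {G : Type*} [Group G] [Fintype G] (p : ℕ) [Fact p.Prime] (M : Ideal Cfsg.AlgInt) (hM : Cfsg.IsPModular p M) (B : Set (Cfsg.IrrCharacter G)) (u : G) (hu : ∃ k : ℕ, orderOf u = p ^ k) (e : Set (Cfsg.IrrCharacter (Subgroup.centralizer (Subgroup.zpowers u : Set G)))) (hBe : Cfsg.IsBrauerPairOf p M B (Subgroup.zpowers u) e) : ∑ᶠ χ ∈ B, ∑ᶠ s : Subgroup.centralizer (Subgroup.zpowers u : Set G), Cfsg.pRegularPart p (Cfsg.blockPart e (fun c : Subgroup.centralizer (Subgroup.zpowers u : Set G) => (χ : G → ℂ) (u * c))) s * Cfsg.blockPart e (fun c : Subgroup.centralizer (Subgroup.zpowers u : Set G) => (χ : G → ℂ) (u⁻¹ * c)) s⁻¹ = (Nat.card (Subgroup.centralizer (Subgroup.zpowers u : Set G)) : ℂ) * (Cfsg.blockRank p e : ℂ) := by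
  classical
  letI F : Fintype (Subgroup.centralizer (Subgroup.zpowers u : Set G)) := Fintype.ofFinite _
  obtain ⟨k, hk⟩ := hu
  have hQ : IsPGroup p (Subgroup.zpowers u) := by
    rw [IsPGroup.iff_card]
    exact ⟨k, by rw [Nat.card_zpowers, hk]⟩
  have hind := (CfsgLib.Block.isPair_iff_isInduced hM hQ).1 hBe
  have hC : Subgroup.centralizer (Subgroup.zpowers u : Set G) = Subgroup.centralizer ({u} : Set G) := by
    apply le_antisymm
    · exact Subgroup.centralizer_le (by simp)
    · intro z hz
      rw [Subgroup.mem_centralizer_iff]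
      rintro _ ⟨i, rfl⟩
      have h1 : Commute z u := (Subgroup.mem_centralizer_singleton_iff.1 hz)
      exact (h1.zpow_right i).symm.eq
  have key : ∀ (C : Subgroup G) (hC : C = Subgroup.centralizer ({u} : Set G)) (e : Set (Cfsg.IrrCharacter C))
      (hind : Cfsg.IsInducedBlock M C e B),
      ∑ᶠ χ ∈ B, ∑ᶠ s : C, Cfsg.pRegularPart p (Cfsg.blockPart e (fun c : C => (χ : G → ℂ) (u * c))) s * Cfsg.blockPart e (fun c : C => (χ : G → ℂ) (u⁻¹ * c)) s⁻¹ = (Nat.card C : ℂ) * (Cfsg.blockRank p e : ℂ) := by
    intro C hC e hind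
    subst hC
    letI : Fintype (Subgroup.centralizer ({u} : Set G)) := Fintype.ofFinite _
    exact CfsgLib.Block.s4683_aux hM hk hind.1 hind
  exact key _ hC e hind

end Cfsg.Agent.S4683
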