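import Cfsg.Statements.S4702
import Cfsg.Agent.Lib.H9.Sharp3Even

set_option autoImplicit false
open Cfsg

namespace Cfsg.Agent.S4702

/-- Let G be a triply transitive permutation group on a finite set of odd size m ≥ 3 in which only the identity fixes three or more points. Then m = 2^a + 1 for some a ≥ 1 and G is isomorphic to SL(2, 2^a). -/
theorem result {α : Type*} [Fintype α] [DecidableEq α] (hm : 3 ≤ Fintype.card α) (hodd : Odd (Fintype.card α)) (G : Subgroup (Equiv.Perm α)) (h3 : MulAction.IsMultiplyPretransitive G α 3) (hfix : ∀ g : G, 3 ≤ Nat.card (MulAction.fixedBy α g) → g = 1) : ∃ a : ℕ, 1 ≤ a ∧ Fintype.card α = 2 ^ a + 1 ∧ ∃ (F : Type) (_ : Field F) (_ : Fintype F), Fintype.card F = 2 ^ a ∧ Nonempty (G ≃* Matrix.SpecialLinearGroup (Fin 2) F) := by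
  classical
  have hS : CfsgLib.H9.Sharp3.IsSharp3 G α :=
    { trans := by
        intro a b c a' b' c' hab hac hbc hab' hac' hbc'
        obtain ⟨g, hg⟩ := h3.exists_smul_eq (CfsgLib.H9.Sharp3.emb3 hab hac hbc) (CfsgLib.H9.Sharp3.emb3 hab' hac' hbc')
        exact ⟨g, DFunLike.congr_fun hg 0, DFunLike.congr_fun hg 1, DFunLike.congr_fun hg 2⟩
      sharp := by
        intro g a b c hab hac hbc ha hb hc
        apply hfix g
        have hsub : (({a, b, c} : Finset α) : Set α) ⊆ MulAction.fixedBy α g := by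
          intro x hx
          simp only [Finset.coe_insert, Finset.coe_singleton, Set.mem_insert_iff, Set.mem_singleton_iff] at hx
          rcases hx with rfl | rfl | rfl
          · exact ha
          · exact hb
          · exact hc
        have h1 := Set.ncard_le_ncard hsub (Set.toFinite _)
        rw [Set.ncard_coe_finset, Finset.card_eq_three.2 ⟨a, b, c, hab, hac, hbc, rfl⟩] at h1
        exact h1 }
  haveI : Nonempty α := by
    apply Fintype.card_pos_iff.1
    omega
  obtain ⟨o⟩ := ‹Nonempty α›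
  haveI : Nonempty α := ⟨o⟩
  have hS2 := hS.stabilizer o
  have hY : Nat.card (SubMulAction.ofStabilizer G o) + 1 = Nat.card α := SubMulAction.nat_card_ofStabilizer_add_one_eq G o
  rw [Nat.card_eq_fintype_card (α := α)] at hY
  haveI : Nontrivial (SubMulAction.ofStabilizer G o) := by
    apply Finite.one_lt_card_iff_nontrivial.1
    omega
  obtain ⟨p, j, hp, hj, hcard, -⟩ := CfsgLib.H9.Sharp2.exists_card_eq_prime_pow hS2
  rw [hcard] at hY
  have h2 : p = 2 := by
    rcases hodd with ⟨k, hk⟩
    have h5 : 2 ∣ p ^ j := ⟨k, by omega⟩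
    exact ((Nat.prime_dvd_prime_iff_eq Nat.prime_two hp).1 (Nat.prime_two.dvd_of_dvd_pow h5)).symm
  subst h2
  have hα : Fintype.card α = 2 ^ j + 1 := hY.symm
  obtain ⟨F, i1, i2, h1, -, h3'⟩ := CfsgLib.H9.Sharp3Even.main_even hS hj hα
  exact ⟨j, hj, hα, F, i1, i2, h1, h3'⟩

end Cfsg.Agent.S4702
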