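import Cfsg.Statements.S4717
import Cfsg.Agent.Lib.Block.Defic

set_option autoImplicit false
open Cfsg

namespace Cfsg.Agent.S4717

/-- Let p be a prime, M a maximal ideal of the algebraic integers containing p, and r a natural number; say that a finite group X has deficiency class r when X has no non-principal p-block of defect ≥ r. If G has deficiency class r then so does the centralizer of every p-element of G; conversely, if r > 0 and the centralizer of every element of order p has deficiency class r, then G has deficiency class r. -/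
theorem result {G : Type*} [Group G] [Finite G] (p : ℕ) [Fact p.Prime] (M : Ideal Cfsg.AlgInt) (hM : Cfsg.IsPModular p M) (r : ℕ) : ((∀ B' : Set (Cfsg.IrrCharacter G), Cfsg.IsPBlock M B' → B' ≠ Cfsg.principalBlock M G → Cfsg.blockDefect p B' < r) → ∀ y : G, (∃ k : ℕ, orderOf y = p ^ k) → (∀ B' : Set (Cfsg.IrrCharacter ↥(Subgroup.centralizer ({y} : Set G))), Cfsg.IsPBlock M B' → B' ≠ Cfsg.principalBlock M ↥(Subgroup.centralizer ({y} : Set G)) → Cfsg.blockDefect p B' < r)) ∧ (0 < r → (∀ y : G, orderOf y = p → (∀ B' : Set (Cfsg.IrrCharacter ↥(Subgroup.centralizer ({y} : Set G))), Cfsg.IsPBlock M B' → B' ≠ Cfsg.principalBlock M ↥(Subgroup.centralizer ({y} : Set G)) → Cfsg.blockDefect p B' < r)) → (∀ B' : Set (Cfsg.IrrCharacter G), Cfsg.IsPBlock M B' → B' ≠ Cfsg.principalBlock M G → Cfsg.blockDefect p B' < r)) := by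
  classical
  letI : Fintype G := Fintype.ofFinite G
  have hP' := hM.isPrime
  constructor
  · intro h y hy B' hB' hne
    obtain ⟨k, hk⟩ := hy
    letI : Fintype (Subgroup.centralizer ({y} : Set G)) := Fintype.ofFinite _
    obtain ⟨B, hB⟩ := CfsgLib.Block.inducedBlockDefined_centralizer hM hk hB'
    by_contra hc
    push Not at hc
    have hBr : Cfsg.blockDefect p B' ≤ Cfsg.blockDefect p B := by
      obtain ⟨g, hg⟩ := CfsgLib.Block.exists_defectClass hM hB'
      obtain ⟨D⟩ := (inferInstance : Nonempty (Sylow p (Subgroup.centralizer ({g} : Set (Subgroup.centralizer ({y} : Set G))))))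
      obtain ⟨E, hE, hle⟩ := CfsgLib.Block.defect_le_of_induced hM hB (D := (D : Subgroup _).map (Subgroup.centralizer ({g} : Set (Subgroup.centralizer ({y} : Set G)))).subtype) ⟨g, hg, D, rfl⟩
      have h1 := CfsgLib.Block.card_defectGroup hM hB' (D := (D : Subgroup _).map (Subgroup.centralizer ({g} : Set (Subgroup.centralizer ({y} : Set G)))).subtype) ⟨g, hg, D, rfl⟩
      have h2 := CfsgLib.Block.card_defectGroup hM hB.2.1 hE
      have h3 := Subgroup.card_dvd_of_le hle
      rw [Subgroup.card_map_of_injective (Subgroup.subtype_injective _), h1, h2] at h3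
      exact (Nat.pow_dvd_pow_iff_le_right (Fact.out : p.Prime).one_lt).1 h3
    have hB0 : B = Cfsg.principalBlock M G := by
      by_contra hn
      have := h B hB.2.1 hn
      omega
    subst hB0
    exact hne ((CfsgLib.Block.third_main hM ⟨_, hB⟩).1 hB)
  · intro _ h B' hB' hne
    by_contra hc
    push Not at hc
    obtain ⟨g, hg⟩ := CfsgLib.Block.exists_defectClass hM hB'
    obtain ⟨Q⟩ := (inferInstance : Nonempty (Sylow p (Subgroup.centralizer ({g} : Set G))))
    set D : Subgroup G := (Q : Subgroup _).map (Subgroup.centralizer ({g} : Set G)).subtype with hDdef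
    have hcard := CfsgLib.Block.card_defectGroup hM hB' (D := D) ⟨g, hg, Q, rfl⟩
    have hDp : IsPGroup p D := CfsgLib.Block.isPGroup_map_sylow _ Q
    have hd0 : 0 < Cfsg.blockDefect p B' := by omega
    have hDne : D ≠ ⊥ := by
      intro h0
      rw [h0] at hcard
      simp only [Subgroup.card_bot] at hcard
      have := Nat.one_lt_pow hd0.ne' (Fact.out : p.Prime).one_lt
      omega
    obtain ⟨y, hyD, hyo, hyc⟩ := CfsgLib.Block.exists_central_order_p hDp hDne
    letI : Fintype (Subgroup.centralizer ({y} : Set G)) := Fintype.ofFinite _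
    have hzp : IsPGroup p (Subgroup.zpowers y) := by
      rw [IsPGroup.iff_card]
      exact ⟨1, by rw [Nat.card_zpowers, hyo, pow_one]⟩
    obtain ⟨b, hb, hbd⟩ := CfsgLib.Block.exists_induced_defect_ge hM hzp
      (CfsgLib.Block.zpowers_le_centralizer_singleton y) (CfsgLib.Block.centralizer_zpowers_le_singleton y)
      (CfsgLib.Block.centralizer_singleton_le_normalizer_zpowers y) hB' hg Q
      (by rw [Subgroup.zpowers_le]; exact hyD)
      (fun c hc => Subgroup.mem_centralizer_singleton_iff.2 (hyc c hc))
    have hb0 : b = Cfsg.principalBlock M (Subgroup.centralizer ({y} : Set G)) := by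
      by_contra hn
      have := h y hyo b hb.1 hn
      omega
    have hb1 := (CfsgLib.Block.third_main hM ⟨_, hb⟩).2 hb0
    exact hne (CfsgLib.Block.induced_unique hM hb hb1)

end Cfsg.Agent.S4717
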