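import Cfsg.Statements.S4718
import Cfsg.Agent.Lib.Block.BrauerFeit
import Cfsg.Agent.Lib.Block.Landau

set_option autoImplicit false
universe u
open Cfsg

namespace Cfsg.Agent.S4718

/-- Let p be a prime and a a natural number. There is a bound N such that every finite group whose Sylow p-subgroups have order p^a and whose only p-block (relative to a maximal ideal of the algebraic integers containing p) is the principal block has order at most N. -/
theorem result (p : ℕ) [Fact p.Prime] (a : ℕ) : ∃ N : ℕ, ∀ (G : Type u) [Group G] [Finite G] (M : Ideal Cfsg.AlgInt), Cfsg.IsPModular p M → (Nat.card G).factorization p = a → (∀ B : Set (Cfsg.IrrCharacter G), Cfsg.IsPBlock M B → B = Cfsg.principalBlock M G) → Nat.card G ≤ N := by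
  classical
  obtain ⟨N, hN⟩ := CfsgLib.Block.landau.{u} ((p ^ (2 * a) + 4) / 4)
  refine ⟨N, fun G _ _ M hM ha h => hN G ?_⟩
  letI : Fintype G := Fintype.ofFinite G
  have hB0 : Cfsg.IsPBlock M (Cfsg.principalBlock M G) := ⟨CfsgLib.Block.oneIrr G, rfl⟩
  have h1 := CfsgLib.Block.card_block_bound hM hB0
  have h2 : Cfsg.blockDefect p (Cfsg.principalBlock M G) = a := by
    rw [CfsgLib.Block.blockDefect_eq, CfsgLib.Block.minNu_principal hM.isPrime, Nat.sub_zero, ha]
  rw [h2] at h1
  have h3 : Nat.card (Cfsg.principalBlock M G) = Nat.card (ConjClasses G) := by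
    rw [← CfsgLib.Char.card_irr_eq]
    have h4 : ∀ χ : Cfsg.IrrCharacter G, χ ∈ Cfsg.principalBlock M G := by
      intro χ
      rw [← h _ ⟨χ, rfl⟩]
      exact CfsgLib.Block.self_mem_blockOf hM.isPrime χ
    exact Nat.card_congr (Equiv.subtypeUnivEquiv h4)
  rw [h3] at h1
  exact (Nat.le_div_iff_mul_le (by norm_num)).2 (by linarith)

end Cfsg.Agent.S4718
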