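import Cfsg.Statements.S4723
import Cfsg.Agent.Lib.Block.Stab723

set_option autoImplicit false
open Cfsg

namespace Cfsg.Agent.S4723

/-- Let p be a prime, M a maximal ideal of the algebraic integers containing p, H a normal subgroup of the finite group G and b a p-block of H. Let T be the stabilizer of b in G. Then b contains a character θ of height zero whose own stabilizer in G (the elements g with θ(g h g⁻¹) = θ(h) for all h ∈ H) has index prime to p in T, i.e. contains a Sylow p-subgroup of T. -/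
theorem result {G : Type*} [Group G] [Finite G] (p : ℕ) [Fact p.Prime] (M : Ideal Cfsg.AlgInt) (hM : Cfsg.IsPModular p M) (H : Subgroup G) [H.Normal] (b : Set (Cfsg.IrrCharacter ↥H)) (hb : Cfsg.IsPBlock M b) (T : Subgroup G) (hT : (∀ g : G, g ∈ T ↔ ∀ θ ∈ b, ∀ θ' : Cfsg.IrrCharacter ↥H, (∀ h h' : ↥H, (h' : G) = g * h * g⁻¹ → (θ' : ↥H → ℂ) h' = (θ : ↥H → ℂ) h) → θ' ∈ b)) : ∃ θ ∈ b, Cfsg.blockHeight p b (θ : ↥H → ℂ) = 0 ∧ ∃ S : Subgroup G, S ≤ T ∧ (∀ g : G, g ∈ S ↔ (g ∈ T ∧ ∀ h h' : ↥H, (h' : G) = g * h * g⁻¹ → (θ : ↥H → ℂ) h' = (θ : ↥H → ℂ) h)) ∧ ¬ p ∣ S.relIndex T := by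
  classical
  letI : Fintype G := Fintype.ofFinite _
  letI : Fintype H := Fintype.ofFinite _
  have hHT : H ≤ T := by
    intro h₀ hh₀
    rw [hT]
    intro θ hθ θ' hθ'
    have hthe : θ' = θ := by
      apply Subtype.ext
      funext x
      have h1 := hθ' ((⟨h₀, hh₀⟩ : H)⁻¹ * x * ((⟨h₀, hh₀⟩ : H)⁻¹)⁻¹) x (by
        show (x : G) = h₀ * (h₀⁻¹ * (x : G) * h₀⁻¹⁻¹) * h₀⁻¹
        group)
      rw [h1]
      exact θ.2.isClassFunction x _
    rw [hthe]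
    exact hθ
  obtain ⟨P⟩ : Nonempty (Sylow p T) := inferInstance
  let P₀ : Subgroup G := (P : Subgroup T).map T.subtype
  have hP₀T : P₀ ≤ T := Subgroup.map_subtype_le _
  have hXT : H ⊔ P₀ ≤ T := sup_le hHT hP₀T
  have hHX : H ≤ H ⊔ P₀ := le_sup_left
  letI : Fintype ↥(H ⊔ P₀) := Fintype.ofFinite _
  letI : Fintype ↥(H.subgroupOf (H ⊔ P₀)) := Fintype.ofFinite _
  let κ : ↥(H.subgroupOf (H ⊔ P₀)) ≃* H := Subgroup.subgroupOfEquivOfLe hHX
  have hc : Cfsg.IsPBlock M (CfsgLib.Block.setT κ.symm b) := CfsgLib.Block.isPBlock_setT _ hb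
  have hst : CfsgLib.Block.IsStable (H.subgroupOf (H ⊔ P₀)) (CfsgLib.Block.setT κ.symm b) := by
    intro x θ₁ hθ₁
    refine (CfsgLib.Block.mem_setT _).2 ?_
    refine (hT _).1 (T.inv_mem (hXT x.2)) _ ((CfsgLib.Block.mem_setT _).1 hθ₁) _ ?_
    intro h h' hh'
    show ((CfsgLib.Block.conjIrr (H.subgroupOf (H ⊔ P₀)) x θ₁ : Cfsg.IrrCharacter ↥(H.subgroupOf (H ⊔ P₀))) : ↥(H.subgroupOf (H ⊔ P₀)) → ℂ) (κ.symm h') = (θ₁ : ↥(H.subgroupOf (H ⊔ P₀)) → ℂ) (κ.symm h)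
    rw [CfsgLib.Block.coe_conjIrr, CfsgLib.Char.conjOn_apply]
    refine congrArg (θ₁ : ↥(H.subgroupOf (H ⊔ P₀)) → ℂ) (Subtype.ext (Subtype.ext ?_))
    show (x : G) * (h' : G) * (x : G)⁻¹ = (h : G)
    rw [hh']
    group
  have hk : ∃ k, (H.subgroupOf (H ⊔ P₀)).index = p ^ k := by
    have hr : (H.subgroupOf (H ⊔ P₀)).index = H.relIndex P₀ := by
      show H.relIndex (H ⊔ P₀) = H.relIndex P₀
      rw [sup_comm, Subgroup.relIndex_sup_right]
    have hd : H.relIndex P₀ ∣ Nat.card P₀ := Subgroup.index_dvd_card _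
    have hP₀p : IsPGroup p P₀ := P.isPGroup'.map _
    obtain ⟨n, hn⟩ := IsPGroup.iff_card.1 hP₀p
    rw [hn] at hd
    obtain ⟨j, -, hj⟩ := (Nat.dvd_prime_pow (Fact.out : p.Prime)).1 hd
    exact ⟨j, hr.trans hj⟩
  obtain ⟨k, hk⟩ := hk
  obtain ⟨τ, hτc, hτν, hτinv⟩ := CfsgLib.Block.stab_core hM (H.subgroupOf (H ⊔ P₀)) hk hc hst
  have hθb : (CfsgLib.Block.irrT κ.symm).symm τ ∈ b := (CfsgLib.Block.mem_setT _).1 hτc
  have hdegθ : Cfsg.charDegree (((CfsgLib.Block.irrT κ.symm).symm τ : Cfsg.IrrCharacter H) : H → ℂ) = Cfsg.charDegree (τ : ↥(H.subgroupOf (H ⊔ P₀)) → ℂ) := by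
    rw [← CfsgLib.Block.charDegree_irrT κ.symm ((CfsgLib.Block.irrT κ.symm).symm τ), Equiv.apply_symm_apply]
  have hclaim : ∀ g : G, (∀ h h' : H, (h' : G) = g * h * g⁻¹ → (((CfsgLib.Block.irrT κ.symm).symm τ : Cfsg.IrrCharacter H) : H → ℂ) h' = (((CfsgLib.Block.irrT κ.symm).symm τ : Cfsg.IrrCharacter H) : H → ℂ) h) ↔
      CfsgLib.Char.conjOn H g (((CfsgLib.Block.irrT κ.symm).symm τ : Cfsg.IrrCharacter H) : H → ℂ) = (((CfsgLib.Block.irrT κ.symm).symm τ : Cfsg.IrrCharacter H) : H → ℂ) := by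
    intro g
    constructor
    · intro hg
      funext h
      rw [CfsgLib.Char.conjOn_apply]
      exact hg h _ rfl
    · intro e h h' hh
      have h1 := congrFun e h
      rw [CfsgLib.Char.conjOn_apply] at h1
      have e2 : h' = ⟨g * h * g⁻¹, (inferInstance : H.Normal).conj_mem h h.2 g⟩ := Subtype.ext hh
      rw [e2]
      exact h1
  refine ⟨_, hθb, ?_, T ⊓ CfsgLib.Char.inertiaGroup H (((CfsgLib.Block.irrT κ.symm).symm τ : Cfsg.IrrCharacter H) : H → ℂ), inf_le_left, fun g => ?_, ?_⟩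
  · refine (CfsgLib.Block.blockHeight_eq_zero_iff hθb).2 ?_
    rw [hdegθ, hτν, CfsgLib.Block.minNu_setT']
  · rw [Subgroup.mem_inf]
    exact and_congr_right fun _ => (hclaim g).symm
  · have hle : (P : Subgroup T) ≤ (T ⊓ CfsgLib.Char.inertiaGroup H (((CfsgLib.Block.irrT κ.symm).symm τ : Cfsg.IrrCharacter H) : H → ℂ)).subgroupOf T := by
      intro x hx
      refine Subgroup.mem_subgroupOf.2 ⟨x.2, ?_⟩
      have hxP : (x : G) ∈ H ⊔ P₀ := Subgroup.mem_sup_right ⟨x, hx, rfl⟩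
      show CfsgLib.Char.conjOn H (x : G) (((CfsgLib.Block.irrT κ.symm).symm τ : Cfsg.IrrCharacter H) : H → ℂ) = _
      funext h
      rw [CfsgLib.Char.conjOn_apply]
      have h1 := congrFun (hτinv ⟨x, hxP⟩) (κ.symm h)
      rw [CfsgLib.Char.conjOn_apply] at h1
      exact h1
    intro hdvd
    have h1 : ((T ⊓ CfsgLib.Char.inertiaGroup H (((CfsgLib.Block.irrT κ.symm).symm τ : Cfsg.IrrCharacter H) : H → ℂ)).subgroupOf T).index ∣ (P : Subgroup T).index := Subgroup.index_dvd_of_le hle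
    exact P.not_dvd_index (hdvd.trans h1)

end Cfsg.Agent.S4723
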