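import Cfsg.Statements.S4730
import Cfsg.Agent.Lib.Block.BrauerFeit
import Cfsg.Agent.Lib.Block.DefectThm
import Cfsg.Agent.Lib.Char.TensorIrr

set_option autoImplicit false
open Cfsg

namespace Cfsg.Agent.S4730

/-- Let p be a prime, M a maximal ideal of the algebraic integers containing p, and G a finite group with trivial centre, Sylow p-subgroup P of order p^a and centre Z(P) of order p^b. If χ is a faithful irreducible character of G whose degree is a power of p, then the p-block of χ has defect at most a − b; in particular, if P is abelian then χ lies in a block of defect zero. -/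
theorem result {G : Type*} [Group G] [Finite G] (p : ℕ) [Fact p.Prime] (M : Ideal Cfsg.AlgInt) (hM : Cfsg.IsPModular p M) (hZ : Subgroup.center G = ⊥) (P : Sylow p G) (a b : ℕ) (ha : Nat.card P = p ^ a) (hb : Nat.card (Subgroup.center ↥(P : Subgroup G)) = p ^ b) (χ : Cfsg.IrrCharacter G) (hfaith : ∀ g : G, (χ : G → ℂ) g = (χ : G → ℂ) 1 → g = 1) (n : ℕ) (hdeg : Cfsg.charDegree (χ : G → ℂ) = p ^ n) : Cfsg.blockDefect p (Cfsg.blockOf M (χ : G → ℂ)) ≤ a - b ∧ (IsMulCommutative ↥(P : Subgroup G) → Cfsg.blockDefect p (Cfsg.blockOf M (χ : G → ℂ)) = 0) := by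
  classical
  cases nonempty_fintype G
  haveI hNN : Fintype P := Fintype.ofFinite _
  have hPr := hM.isPrime
  have hpp : p.Prime := Fact.out
  -- the index of a centralizer of an element of `Z(P)` is prime to `p`
  have hidx : ∀ z : Subgroup.center ↥(P : Subgroup G), ¬ p ∣ (Subgroup.centralizer ({((z : ↥(P : Subgroup G)) : G)} : Set G)).index := by
    intro z hdvd
    have hle : (P : Subgroup G) ≤ Subgroup.centralizer ({((z : ↥(P : Subgroup G)) : G)} : Set G) := by
      intro x hx
      rw [Subgroup.mem_centralizer_singleton_iff]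
      have h1 := (Subgroup.mem_center_iff.mp z.2) ⟨x, hx⟩
      have h2 := congrArg Subtype.val h1
      exact h2
    exact Sylow.not_dvd_index P (dvd_trans hdvd (Subgroup.index_dvd_of_le hle))
  -- `χ` vanishes on `Z(P)` outside the identity
  have hvan : ∀ z : Subgroup.center ↥(P : Subgroup G), z ≠ 1 → (χ : G → ℂ) ((z : ↥(P : Subgroup G)) : G) = 0 := by
    intro z hz
    obtain ⟨χ₀, hχ₀⟩ := χ
    have hχ₀' := hχ₀
    obtain ⟨m, ρ, hρ, rfl⟩ := hχ₀'
    haveI := hρ
    have hd1 : ρ.character 1 = (m : ℂ) := by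
      show LinearMap.trace ℂ _ (ρ 1) = _
      rw [(map_one ρ : ρ 1 = 1), LinearMap.trace_one]
      simp
    have hmdeg : m = p ^ n := by
      have h1 : Cfsg.charDegree ρ.character = m := CfsgLib.Char.charDegree_eq hd1
      rw [← h1]
      exact hdeg
    have hcop : Nat.Coprime m (Subgroup.centralizer ({((z : ↥(P : Subgroup G)) : G)} : Set G)).index := by
      rw [hmdeg]
      exact Nat.Coprime.pow_left _ ((Nat.Prime.coprime_iff_not_dvd hpp).mpr (hidx z))
    rcases CfsgLib.Char.eq_zero_or_norm_eq ρ _ hcop with h | h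
    · exact h
    · exfalso
      have h2 : ‖ρ.character ((z : ↥(P : Subgroup G)) : G)‖ = ‖ρ.character 1‖ := by
        rw [h, hd1]
        simp
      have h3 := CfsgLib.Char.mem_center_of_norm_eq hχ₀ hfaith h2
      rw [hZ, Subgroup.mem_bot] at h3
      apply hz
      apply Subtype.ext
      apply Subtype.ext
      exact h3
  -- the block
  have key : ∀ ψ : Cfsg.IrrCharacter G, ψ ∈ Cfsg.blockOf M (χ : G → ℂ) → p ^ b ∣ Cfsg.charDegree (ψ : G → ℂ) := by
    intro ψ hψ
    set d := Cfsg.charDegree (ψ : G → ℂ) with hd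
    have hd1 : (ψ : G → ℂ) 1 = d := CfsgLib.Char.irr_one_eq_charDegree ψ
    have hd0 : (d : ℂ) ≠ 0 := by
      rw [← hd1]
      exact ψ.2.map_one_ne_zero
    have hd00 : d ≠ 0 := by
      intro h
      apply hd0
      rw [h]
      simp
    have h1 : ∀ z : Subgroup.center ↥(P : Subgroup G), z ≠ 1 →
        (ψ : G → ℂ) ((z : ↥(P : Subgroup G)) : G) / (d : ℂ) ∈ CfsgLib.Block.locI hPr := by
      intro z hz
      have h2 := hψ ((z : ↥(P : Subgroup G)) : G)
      have h3 : Cfsg.centralChar (χ : G → ℂ) ((z : ↥(P : Subgroup G)) : G) = 0 := by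
        rw [Cfsg.centralChar, hvan z hz]
        simp
      rw [h3, zero_sub] at h2
      have h4 : Cfsg.centralChar (ψ : G → ℂ) ((z : ↥(P : Subgroup G)) : G) ∈ CfsgLib.Block.locI hPr := by
        have h5 := (CfsgLib.Block.locI hPr).neg_mem h2
        rwa [neg_neg] at h5
      have h6 := CfsgLib.Block.natCast_inv_mem hM (hidx z)
      have h7 := CfsgLib.Block.locI_mul_left hPr h6 h4
      have h8 : (((Subgroup.centralizer ({((z : ↥(P : Subgroup G)) : G)} : Set G)).index : ℕ) : ℂ) ≠ 0 :=
        CfsgLib.Block.natCast_ne_zero_of_not_dvd hM (hidx z)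
      have h9 : (((Subgroup.centralizer ({((z : ↥(P : Subgroup G)) : G)} : Set G)).index : ℕ) : ℂ)⁻¹ *
          Cfsg.centralChar (ψ : G → ℂ) ((z : ↥(P : Subgroup G)) : G) = (ψ : G → ℂ) ((z : ↥(P : Subgroup G)) : G) / (d : ℂ) := by
        rw [Cfsg.centralChar, hd1]
        field_simp
      rwa [h9] at h7
    -- the multiplicity of the trivial character
    letI : Fintype (Subgroup.center ↥(P : Subgroup G)) := Fintype.ofFinite _
    let f : Subgroup.center ↥(P : Subgroup G) →* G := (P : Subgroup G).subtype.comp (Subgroup.center ↥(P : Subgroup G)).subtype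
    have hchar := ψ.2.isCharacter.comp f
    obtain ⟨m, hm⟩ := hchar.classInner_nat (CfsgLib.Char.isIrrCharacter_one (G := Subgroup.center ↥(P : Subgroup G)))
    have hcard0 : (Nat.card (Subgroup.center ↥(P : Subgroup G)) : ℂ) ≠ 0 := CfsgLib.Char.card_ne_zero_C _
    have hsum : ∑ z : Subgroup.center ↥(P : Subgroup G), (ψ : G → ℂ) ((z : ↥(P : Subgroup G)) : G) = ((p ^ b * m : ℕ) : ℂ) := by
      rw [CfsgLib.Char.classInner_def] at hm
      have h2 : ∑ z : Subgroup.center ↥(P : Subgroup G), (ψ : G → ℂ) ((z : ↥(P : Subgroup G)) : G) =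
          (Nat.card (Subgroup.center ↥(P : Subgroup G)) : ℂ) * ((Nat.card (Subgroup.center ↥(P : Subgroup G)) : ℂ)⁻¹ *
            ∑ z : Subgroup.center ↥(P : Subgroup G), (ψ : G → ℂ) ((z : ↥(P : Subgroup G)) : G)) := by
        field_simp
      rw [h2]
      have h3 : (Nat.card (Subgroup.center ↥(P : Subgroup G)) : ℂ)⁻¹ * ∑ z : Subgroup.center ↥(P : Subgroup G), (ψ : G → ℂ) ((z : ↥(P : Subgroup G)) : G) = (m : ℂ) := by
        rw [← hm]
        congr 1
        refine Finset.sum_congr rfl fun z _ => ?_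
        simp [f]
      rw [h3, hb]
      push_cast
      ring
    -- the key congruence
    have hcongr : ((p ^ b * m : ℕ) : ℂ) / (d : ℂ) - 1 ∈ CfsgLib.Block.locI hPr := by
      rw [← hsum, Finset.sum_div, ← Finset.add_sum_erase _ _ (Finset.mem_univ (1 : Subgroup.center ↥(P : Subgroup G)))]
      have h2 : (ψ : G → ℂ) (((1 : Subgroup.center ↥(P : Subgroup G)) : ↥(P : Subgroup G)) : G) / (d : ℂ) = 1 := by
        have : (((1 : Subgroup.center ↥(P : Subgroup G)) : ↥(P : Subgroup G)) : G) = 1 := rfl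
        rw [this, hd1]
        exact div_self hd0
      rw [h2, add_sub_cancel_left]
      apply CfsgLib.Block.locI_sum
      intro z hz
      exact h1 z (Finset.ne_of_mem_erase hz)
    -- conclusion
    by_contra hnd
    have hfac : d = p ^ (d.factorization p) * (d / p ^ (d.factorization p)) := (Nat.mul_div_cancel' (Nat.ordProj_dvd d p)).symm
    set e := d.factorization p with he
    set u := d / p ^ e with hu
    have hnu : ¬ p ∣ u := Nat.not_dvd_ordCompl hpp hd00
    have heb : e < b := by
      by_contra hle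
      push Not at hle
      apply hnd
      rw [hfac]
      exact Dvd.dvd.mul_right (pow_dvd_pow p hle) _
    obtain ⟨c, hc⟩ : ∃ c, b = e + 1 + c := ⟨b - (e + 1), by omega⟩
    have hp0 : (p : ℂ) ≠ 0 := CfsgLib.Block.p_ne_zero_C hM
    have hu0 : (u : ℂ) ≠ 0 := CfsgLib.Block.natCast_ne_zero_of_not_dvd hM hnu
    have h2 : ((p ^ b * m : ℕ) : ℂ) / (d : ℂ) = (p : ℂ) * (((p ^ c * m : ℕ) : ℂ) * (u : ℂ)⁻¹) := by
      have hd2 : (d : ℂ) = (p : ℂ) ^ e * (u : ℂ) := by
        conv_lhs => rw [hfac]
        push_cast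
        ring
      rw [hd2, hc]
      push_cast
      field_simp
      ring
    have h3 : ((p ^ b * m : ℕ) : ℂ) / (d : ℂ) ∈ CfsgLib.Block.locI hPr := by
      rw [h2]
      apply CfsgLib.Block.locI_mul_right hPr
      · exact (CfsgLib.Block.locR hPr).mul_mem (CfsgLib.Block.locR_natCast hPr _) (CfsgLib.Block.natCast_inv_mem hM hnu)
      · exact CfsgLib.Block.p_mem_locI hM
    have h4 := (CfsgLib.Block.locI hPr).sub_mem h3 hcongr
    rw [sub_sub_cancel] at h4
    exact CfsgLib.Block.one_notMem_locI hPr h4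
  -- the defect bound
  have hne : (Cfsg.blockOf M (χ : G → ℂ)).Nonempty := ⟨χ, CfsgLib.Block.self_mem_blockOf hPr χ⟩
  have hmin : b ≤ CfsgLib.Block.minNu p (Cfsg.blockOf M (χ : G → ℂ)) := by
    obtain ⟨ζ, hζ, hζe⟩ := CfsgLib.Block.exists_minNu_eq (p := p) hne
    rw [← hζe]
    exact (hpp.pow_dvd_iff_le_factorization (CfsgLib.Block.charDegree_ne_zero ζ.2)).mp (key ζ hζ)
  have hfa : (Nat.card G).factorization p = a := by
    have h1 := Sylow.card_eq_multiplicity P
    rw [ha] at h1
    exact (Nat.pow_right_injective hpp.two_le h1).symm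
  have hdef : Cfsg.blockDefect p (Cfsg.blockOf M (χ : G → ℂ)) ≤ a - b := by
    rw [CfsgLib.Block.blockDefect_eq, hfa]
    omega
  refine ⟨hdef, fun hab => ?_⟩
  have hab' : b = a := by
    have h1 : Subgroup.center ↥(P : Subgroup G) = ⊤ := by
      ext x
      simp only [Subgroup.mem_top, iff_true]
      rw [Subgroup.mem_center_iff]
      intro y
      exact mul_comm' y x
    have h2 : Nat.card (Subgroup.center ↥(P : Subgroup G)) = Nat.card P := by
      rw [h1]
      exact Subgroup.card_top
    rw [hb, ha] at h2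
    exact Nat.pow_right_injective hpp.two_le h2
  subst hab'
  omega

end Cfsg.Agent.S4730
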