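import Cfsg.Statements.S4735
import Cfsg.Agent.Lib.Char.BlkPrin

set_option autoImplicit false
open Cfsg

namespace Cfsg.Agent.S4735

/-- Let p be a prime, M a maximal ideal of the algebraic integers containing p, G a finite group, H = O_p'(G) and Ḡ = G/H. For x ∈ G write λ(G, x) for the sum of |χ(x)|^2 over the irreducible characters χ in the principal p-block of G. Then λ(G, x) is a positive integer, λ(G, x) = λ(Ḡ, x̄) where x̄ is the image of x, and λ(G, x) ≤ #C_Ḡ(x̄). Moreover λ(G, 1) = [G : H] if and only if the principal block is the only p-block of Ḡ. -/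
theorem result {G : Type*} [Group G] [Finite G] (p : ℕ) [Fact p.Prime] (M : Ideal Cfsg.AlgInt) (hM : Cfsg.IsPModular p M) (x : G) : (∃ n : ℕ, 0 < n ∧ ∑ᶠ χ ∈ Cfsg.principalBlock M G, Complex.normSq ((χ : G → ℂ) x) = n) ∧ ∑ᶠ χ ∈ Cfsg.principalBlock M G, Complex.normSq ((χ : G → ℂ) x) = ∑ᶠ ψ ∈ Cfsg.principalBlock M (G ⧸ Cfsg.pPrimeCore p G), Complex.normSq ((ψ : G ⧸ Cfsg.pPrimeCore p G → ℂ) (QuotientGroup.mk x)) ∧ ∑ᶠ χ ∈ Cfsg.principalBlock M G, Complex.normSq ((χ : G → ℂ) x) ≤ (Nat.card ↥(Subgroup.centralizer ({(QuotientGroup.mk x : G ⧸ Cfsg.pPrimeCore p G)} : Set (G ⧸ Cfsg.pPrimeCore p G))) : ℝ) ∧ ((∑ᶠ χ ∈ Cfsg.principalBlock M G, Cfsg.charDegree (χ : G → ℂ) ^ 2) = (Cfsg.pPrimeCore p G).index ↔ ∀ B : Set (Cfsg.IrrCharacter (G ⧸ Cfsg.pPrimeCore p G)), Cfsg.IsPBlock M B → B = Cfsg.principalBlock M (G ⧸ Cfsg.pPrimeCore p G)) := by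
  classical
  cases nonempty_fintype G
  set N := Cfsg.pPrimeCore p G with hNdef
  haveI hNn : N.Normal := CfsgLib.Solv.pPrimeCore_normal' p
  have hpp : p.Prime := Fact.out
  have hNp : ¬ p ∣ Nat.card N := fun h =>
    hpp.one_lt.ne' (Nat.eq_one_of_dvd_coprimes (CfsgLib.Solv.pPrimeCore_coprime (G := G) p) h dvd_rfl)
  have hP := hM.isPrime
  letI : Fintype (G ⧸ N) := Fintype.ofFinite _
  have h2 : ∑ᶠ χ ∈ Cfsg.principalBlock M G, Complex.normSq ((χ : G → ℂ) x) = ∑ᶠ ψ ∈ Cfsg.principalBlock M (G ⧸ N), Complex.normSq ((ψ : G ⧸ N → ℂ) (QuotientGroup.mk x)) :=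
    CfsgLib.Char.finsum_principal_quot hM N hNp (fun χ : Cfsg.IrrCharacter G => Complex.normSq ((χ : G → ℂ) x))
  refine ⟨CfsgLib.Char.principal_norm_sum_nat hM x, h2, ?_, ?_⟩
  · rw [h2]
    set T : Finset (Cfsg.IrrCharacter (G ⧸ N)) := Finset.univ.filter (· ∈ Cfsg.principalBlock M (G ⧸ N)) with hT
    have hfin : ∑ᶠ ψ ∈ Cfsg.principalBlock M (G ⧸ N), Complex.normSq ((ψ : G ⧸ N → ℂ) (QuotientGroup.mk x)) = ∑ ψ ∈ T, Complex.normSq ((ψ : G ⧸ N → ℂ) (QuotientGroup.mk x)) := by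
      rw [finsum_mem_eq_finite_toFinset_sum _ (Set.toFinite _)]
      congr 1
      ext; simp [hT]
    rw [hfin]
    have h3 := CfsgLib.Char.column_orthogonality (QuotientGroup.mk x : G ⧸ N) (QuotientGroup.mk x : G ⧸ N)
    rw [if_pos (IsConj.refl _)] at h3
    have h4 : ((∑ ψ : Cfsg.IrrCharacter (G ⧸ N), Complex.normSq ((ψ : G ⧸ N → ℂ) (QuotientGroup.mk x)) : ℝ) : ℂ) =
        ((Nat.card (Subgroup.centralizer ({(QuotientGroup.mk x : G ⧸ N)} : Set (G ⧸ N))) : ℝ) : ℂ) := by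
      push_cast
      rw [← h3]
      refine Finset.sum_congr rfl fun ψ _ => ?_
      rw [Complex.mul_conj]
    have h5 : ∑ ψ : Cfsg.IrrCharacter (G ⧸ N), Complex.normSq ((ψ : G ⧸ N → ℂ) (QuotientGroup.mk x)) =
        (Nat.card (Subgroup.centralizer ({(QuotientGroup.mk x : G ⧸ N)} : Set (G ⧸ N))) : ℝ) := by
      exact_mod_cast h4
    rw [← h5]
    exact Finset.sum_le_sum_of_subset_of_nonneg (Finset.subset_univ _) (fun _ _ _ => Complex.normSq_nonneg _)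
  · have h6 : ∑ᶠ χ ∈ Cfsg.principalBlock M G, Cfsg.charDegree (χ : G → ℂ) ^ 2 = ∑ᶠ ψ ∈ Cfsg.principalBlock M (G ⧸ N), Cfsg.charDegree (ψ : G ⧸ N → ℂ) ^ 2 :=
      CfsgLib.Char.finsum_principal_quot hM N hNp (fun χ : Cfsg.IrrCharacter G => Cfsg.charDegree (χ : G → ℂ) ^ 2)
    rw [h6]
    set T : Finset (Cfsg.IrrCharacter (G ⧸ N)) := Finset.univ.filter (· ∈ Cfsg.principalBlock M (G ⧸ N)) with hT
    have hfin : ∑ᶠ ψ ∈ Cfsg.principalBlock M (G ⧸ N), Cfsg.charDegree (ψ : G ⧸ N → ℂ) ^ 2 = ∑ ψ ∈ T, Cfsg.charDegree (ψ : G ⧸ N → ℂ) ^ 2 := by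
      rw [finsum_mem_eq_finite_toFinset_sum _ (Set.toFinite _)]
      congr 1
      ext; simp [hT]
    rw [hfin]
    have htot : ∑ ψ : Cfsg.IrrCharacter (G ⧸ N), Cfsg.charDegree (ψ : G ⧸ N → ℂ) ^ 2 = N.index :=
      CfsgLib.Char.sum_deg_sq
    constructor
    · intro h7 B hB
      have hall : ∀ ψ : Cfsg.IrrCharacter (G ⧸ N), ψ ∈ T := by
        by_contra hcon
        push Not at hcon
        obtain ⟨ψ, hψ⟩ := hcon
        have h8 : ∑ ψ ∈ T, Cfsg.charDegree (ψ : G ⧸ N → ℂ) ^ 2 < ∑ ψ : Cfsg.IrrCharacter (G ⧸ N), Cfsg.charDegree (ψ : G ⧸ N → ℂ) ^ 2 := by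
          apply Finset.sum_lt_sum_of_subset (Finset.subset_univ _) (Finset.mem_univ ψ) hψ
          · have := CfsgLib.Block.charDegree_ne_zero ψ.2
            positivity
          · exact fun _ _ _ => Nat.zero_le _
        rw [h7, htot] at h8
        exact lt_irrefl _ h8
      obtain ⟨ψ₀, rfl⟩ := hB
      have h9 : ψ₀ ∈ Cfsg.principalBlock M (G ⧸ N) := (Finset.mem_filter.mp (hall ψ₀)).2
      exact (CfsgLib.Block.blockOf_eq_of_sameBlock hP h9).symm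
    · intro h7
      have hall : T = Finset.univ := by
        ext ψ
        simp only [hT, Finset.mem_filter, Finset.mem_univ, true_and, iff_true]
        rw [← h7 _ ⟨ψ, rfl⟩]
        exact CfsgLib.Block.self_mem_blockOf hP ψ
      rw [hall, htot]

end Cfsg.Agent.S4735
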