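import Cfsg.Statements.S5015
import Cfsg.Agent.Lib.RootSub.RankOne

set_option autoImplicit false
open Cfsg

namespace Cfsg.Agent.S5015

/-- Let a group Y act doubly transitively on a set Ω with at least three points, and suppose that the stabilizer of a point α contains a nilpotent subgroup A, normalized by that stabilizer, which acts regularly on the points other than α. Then for any y in Y moving α, the subgroups A and y A y⁻¹ are the unipotent subgroups of a rank one group, and the normal closure of A in Y (the subgroup generated by all conjugates of A) is generated by A and y A y⁻¹ alone. -/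
theorem result {Y Ω : Type*} [Group Y] [MulAction Y Ω]
    (h2 : MulAction.IsMultiplyPretransitive Y Ω 2) (hΩ : 3 ≤ ENat.card Ω) (α : Ω) (A : Subgroup Y)
    (hA : A ≤ MulAction.stabilizer Y α) (hAn : ∀ y ∈ MulAction.stabilizer Y α, Cfsg.conjBy A y = A)
    (hnil : Group.IsNilpotent A) (hreg : ∀ β γ : Ω, β ≠ α → γ ≠ α → ∃! a : Y, a ∈ A ∧ a • β = γ)
    (y : Y) (hy : y ∉ MulAction.stabilizer Y α) :
    Cfsg.IsRankOnePair A (Cfsg.conjBy A y) ∧ Subgroup.normalClosure (A : Set Y) = A ⊔ Cfsg.conjBy A y := by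
  classical
  have memS : ∀ {g : Y}, g ∈ MulAction.stabilizer Y α ↔ g • α = α := Iff.rfl
  set β : Ω := y • α with hβ
  have hβα : β ≠ α := fun e => hy (memS.2 e)
  have hy'α : y⁻¹ • α ≠ α := by
    intro e
    apply hβα
    have := congrArg (fun z => y • z) e
    simpa using this.symm
  -- conjugates depend only on the image point
  have hpt : ∀ g g' : Y, g • α = g' • α → Cfsg.conjBy A g = Cfsg.conjBy A g' := by
    intro g g' e
    have h1 : g⁻¹ * g' ∈ MulAction.stabilizer Y α := by
      apply memS.2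
      rw [mul_smul, ← e, inv_smul_smul]
    have h2 := hAn _ h1
    have h3 : Cfsg.conjBy A g' = Cfsg.conjBy (Cfsg.conjBy A (g⁻¹ * g')) g := by
      rw [CfsgLib.RankOne.conjBy_conjBy]
      congr 1
      group
    rw [h3, h2]
  have hfix : ∀ a ∈ A, ∀ γ : Ω, γ ≠ α → a • γ = γ → a = 1 := by
    intro a ha γ hγ e
    obtain ⟨c, _, huniq⟩ := hreg γ γ hγ hγ
    rw [huniq a ⟨ha, e⟩, huniq 1 ⟨A.one_mem, one_smul _ _⟩]
  have hAα : ∀ a ∈ A, a • α = α := fun a ha => hA ha
  have hmove : ∀ a ∈ A, ∀ γ : Ω, γ ≠ α → a • γ ≠ α := by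
    intro a ha γ hγ e
    apply hγ
    have h1 := hAα a⁻¹ (A.inv_mem ha)
    have := congrArg (fun z => a⁻¹ • z) e
    simp only [inv_smul_smul] at this
    rw [this, h1]
  have hexists : ∀ γ γ' : Ω, γ ≠ α → γ' ≠ α → ∃ a ∈ A, a • γ = γ' := by
    intro γ γ' h1 h2
    obtain ⟨c, ⟨hc, e⟩, _⟩ := hreg γ γ' h1 h2
    exact ⟨c, hc, e⟩
  -- a third point
  obtain ⟨δ, hδα, hδβ⟩ : ∃ δ : Ω, δ ≠ α ∧ δ ≠ β := by
    by_contra hcon
    push Not at hcon
    have hsub : (Set.univ : Set Ω) ⊆ {α, β} := by
      intro z _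
      by_cases hz : z = α
      · exact Or.inl hz
      · exact Or.inr (hcon z hz)
    have h1 : ENat.card Ω ≤ 2 := by
      rw [← Set.encard_univ]
      calc (Set.univ : Set Ω).encard ≤ ({α, β} : Set Ω).encard := Set.encard_le_encard hsub
        _ ≤ 2 := by
          rw [Set.encard_pair hβα.symm]
    have h3 : (3 : ENat) ≤ 2 := hΩ.trans h1
    exact absurd h3 (by norm_num)
  have hne : A ≠ Cfsg.conjBy A y := by
    intro e
    obtain ⟨a, ha, e2⟩ := hexists β δ hβα hδα
    have h1 : a ∈ Cfsg.conjBy A y := by rw [← e]; exact ha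
    have h2 := hAα _ (CfsgLib.RankOne.mem_conjBy.1 h1)
    have h3 : a • β = β := by
      rw [hβ]
      have := congrArg (fun z => y • z) h2
      simp only [mul_smul, smul_inv_smul] at this
      exact this
    exact hδβ (e2.symm.trans h3)
  have hpair : Cfsg.IsRankOnePair A (Cfsg.conjBy A y) := by
    refine ⟨hne, hnil, ?_, ?_, ?_⟩
    · have e : A ≃* (Cfsg.conjBy A y : Subgroup Y) :=
        A.equivMapOfInjective _ (MulAut.conj y).injective
      exact Group.nilpotent_of_mulEquiv e
    · intro a ha ha1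
      have h1 : a⁻¹ • β ≠ β := by
        intro e
        exact inv_ne_one.2 ha1 (hfix _ (A.inv_mem ha) β hβα e)
      have h2 : a⁻¹ • β ≠ α := hmove _ (A.inv_mem ha) β hβα
      have h3 : y⁻¹ • a⁻¹ • β ≠ α := by
        intro e
        apply h1
        have := congrArg (fun z => y • z) e
        simpa [hβ] using this
      obtain ⟨c, hc, e⟩ := hexists (y⁻¹ • α) (y⁻¹ • a⁻¹ • β) hy'α h3
      have hc' : y * c⁻¹ * y⁻¹ ∈ Cfsg.conjBy A y :=
        CfsgLib.RankOne.conj_mem_conjBy y (A.inv_mem hc)
      have e2 : (y * c⁻¹ * y⁻¹)⁻¹ • α = a⁻¹ • β := by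
        have : (y * c⁻¹ * y⁻¹)⁻¹ = y * c * y⁻¹ := by group
        rw [this, mul_smul, mul_smul, e, smul_inv_smul]
      refine ⟨y * c⁻¹ * y⁻¹, hc', ?_, ?_⟩
      · intro e3
        rw [e3] at e2
        simp only [inv_one, one_smul] at e2
        exact h2 e2.symm
      · rw [CfsgLib.RankOne.conjBy_conjBy]
        apply hpt
        rw [e2, mul_smul]
    · intro b hb hb1
      have hc := CfsgLib.RankOne.mem_conjBy.1 hb
      set c := y⁻¹ * b * y with hcdef
      have hc1 : c ≠ 1 := by
        intro e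
        apply hb1
        have e2 : b = y * c * y⁻¹ := by rw [hcdef]; group
        rw [e2, e]; group
      have hbinv : b⁻¹ = y * c⁻¹ * y⁻¹ := by rw [hcdef]; group
      set γ : Ω := b⁻¹ • α with hγ
      have hγval : γ = y • c⁻¹ • y⁻¹ • α := by
        rw [hγ, hbinv, mul_smul, mul_smul]
      have hγβ : γ ≠ β := by
        intro e
        have hbβ : b • β = β := by
          have e2 : b = y * c * y⁻¹ := by rw [hcdef]; group
          rw [hβ, e2, mul_smul, mul_smul, inv_smul_smul, hAα c hc]
        have h5 : b • γ = α := by rw [hγ, smul_inv_smul]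
        rw [e, hbβ] at h5
        exact hβα h5
      have hγα : γ ≠ α := by
        intro e
        rw [hγval] at e
        have e3 : c⁻¹ • y⁻¹ • α = y⁻¹ • α := by
          have := congrArg (fun z => y⁻¹ • z) e
          simpa using this
        exact inv_ne_one.2 hc1 (hfix _ (A.inv_mem hc) _ hy'α e3)
      obtain ⟨a', ha', e⟩ := hexists β γ hβα hγα
      refine ⟨a'⁻¹, A.inv_mem ha', ?_, ?_⟩
      · intro e2
        have : a' = 1 := by simpa using e2
        rw [this, one_smul] at e
        exact hγβ e.symm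
      · rw [CfsgLib.RankOne.conjBy_conjBy, inv_inv]
        apply hpt
        rw [mul_smul, ← hβ, e]
  refine ⟨hpair, ?_⟩
  apply le_antisymm
  · -- every conjugate of `A` lies in `A ⊔ yAy⁻¹`
    have hconj : ∀ g : Y, Cfsg.conjBy A g ≤ A ⊔ Cfsg.conjBy A y := by
      intro g
      by_cases hg : g • α = α
      · have := hAn g (memS.2 hg)
        rw [this]
        exact le_sup_left
      · obtain ⟨a, ha, e⟩ := hexists β (g • α) hβα hg
        have h1 : Cfsg.conjBy A g = Cfsg.conjBy (Cfsg.conjBy A y) a := by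
          rw [CfsgLib.RankOne.conjBy_conjBy]
          apply hpt
          rw [mul_smul, ← hβ, e]
        rw [h1]
        intro x hx
        have h2 := CfsgLib.RankOne.mem_conjBy.1 hx
        have e2 : x = a * (a⁻¹ * x * a) * a⁻¹ := by group
        rw [e2]
        have ha' : a ∈ A ⊔ Cfsg.conjBy A y := (le_sup_left : A ≤ _) ha
        exact Subgroup.mul_mem _ (Subgroup.mul_mem _ ha' ((le_sup_right : Cfsg.conjBy A y ≤ _) h2))
          (Subgroup.inv_mem _ ha')
    haveI hnorm : (A ⊔ Cfsg.conjBy A y).Normal := by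
      constructor
      intro n hn g
      have h1 : g * n * g⁻¹ ∈ Cfsg.conjBy (A ⊔ Cfsg.conjBy A y) g :=
        CfsgLib.RankOne.conj_mem_conjBy g hn
      rw [CfsgLib.RankOne.conjBy_sup, CfsgLib.RankOne.conjBy_conjBy] at h1
      exact (sup_le (hconj g) (hconj (g * y))) h1
    exact Subgroup.normalClosure_le_normal (le_sup_left : A ≤ _)
  · apply sup_le
    · exact Subgroup.le_normalClosure
    · intro x hx
      have h1 := CfsgLib.RankOne.mem_conjBy.1 hx
      have h2 : y⁻¹ * x * y ∈ Subgroup.normalClosure (A : Set Y) := Subgroup.le_normalClosure h1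
      have e : x = y * (y⁻¹ * x * y) * y⁻¹ := by group
      rw [e]
      exact (Subgroup.normalClosure_normal).conj_mem _ h2 y

end Cfsg.Agent.S5015
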