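import Cfsg.Statements.S5016
import Cfsg.Agent.Lib.RootSub.SL2

set_option autoImplicit false
open Cfsg

namespace Cfsg.Agent.S5016

/-- For any field k, the special linear group SL₂(k) is a special rank one group with abelian unipotent subgroups, the unipotent subgroups being the group of lower unitriangular matrices and the group of upper unitriangular matrices. -/
theorem result (k : Type*) [Field k] :
    Cfsg.IsRankOneGroup (Matrix.SpecialLinearGroup (Fin 2) k) (Cfsg.lowerUnipotentSL2 k) (Cfsg.upperUnipotentSL2 k) ∧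
    Cfsg.IsSpecialRankOnePair (Cfsg.lowerUnipotentSL2 k) (Cfsg.upperUnipotentSL2 k) ∧
    Cfsg.HasAbelianUnipotents (Cfsg.lowerUnipotentSL2 k) (Cfsg.upperUnipotentSL2 k) := by
  rw [CfsgLib.RankOne.SL2.lower_eq, CfsgLib.RankOne.SL2.upper_eq]
  refine ⟨⟨CfsgLib.RankOne.SL2.sup_eq_top, CfsgLib.RankOne.SL2.pair⟩, ⟨CfsgLib.RankOne.SL2.pair, ?_⟩,
    CfsgLib.RankOne.SL2.isMulCommutative_loS, CfsgLib.RankOne.SL2.isMulCommutative_upS⟩
  intro a ha ha1 b hb hb1 h
  exact CfsgLib.RankOne.SL2.special ha ha1 hb hb1 h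

end Cfsg.Agent.S5016
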