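import Cfsg.Statements.S5017
import Cfsg.Agent.Lib.RootSub.RankOne

set_option autoImplicit false
open Cfsg

namespace Cfsg.Agent.S5017

/-- Let X be a rank one group with unipotent subgroups A and B and N a normal subgroup of X. Then either X = N A or N lies in the centre of X. Consequently a perfect rank one group is quasisimple. -/
theorem result {X : Type*} [Group X] {A B : Subgroup X} (h : Cfsg.IsRankOneGroup X A B) :
    (∀ N : Subgroup X, N.Normal → N ⊔ A = ⊤ ∨ N ≤ Subgroup.center X) ∧
    (Group.IsPerfect X → Cfsg.IsQuasisimple X) := by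
  obtain ⟨htop, hp⟩ := h
  have hdich : ∀ N : Subgroup X, N.Normal → N ⊔ A = ⊤ ∨ N ≤ Subgroup.center X := by
    intro N hN
    rcases CfsgLib.RankOne.normal_dichotomy hp (N := N) (by rw [htop]; exact le_top)
      (fun x _ n hn => hN.conj_mem n hn x) with h1 | h1
    · left; rw [h1, htop]
    · right
      intro n hn
      have h2 := h1 n hn
      rw [htop] at h2
      rw [Subgroup.mem_center_iff]
      intro g
      exact (Subgroup.mem_centralizer_iff.1 h2 g (by simp))
  refine ⟨hdich, ?_⟩
  intro hperf
  refine ⟨hperf, ?_⟩
  have hnontriv : Subgroup.center X ≠ ⊤ := by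
    intro e
    apply hp.ne
    obtain ⟨a, ha, ha1⟩ := CfsgLib.RankOne.exists_ne_one_left hp
    have h1 : a ∈ Subgroup.center X := by rw [e]; trivial
    have h2 : Cfsg.conjBy B a = B := CfsgLib.RankOne.conjBy_of_center h1 B
    exact absurd (CfsgLib.RankOne.eq_one_of_conjBy_eq hp ha h2) ha1
  have : Nontrivial (X ⧸ Subgroup.center X) := QuotientGroup.nontrivial_iff.2 hnontriv
  refine { eq_bot_or_eq_top_of_normal := ?_ }
  intro Nbar hNbar
  let N : Subgroup X := Nbar.comap (QuotientGroup.mk' (Subgroup.center X))
  have hN : N.Normal := hNbar.comap _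
  rcases hdich N hN with h1 | h1
  · right
    -- `X / N` is a nilpotent perfect group
    have hsurj : Function.Surjective ((QuotientGroup.mk' N).comp A.subtype) := by
      intro q
      induction q using QuotientGroup.induction_on with
      | H g =>
      have hg : g ∈ ((N ⊔ A : Subgroup X) : Set X) := by rw [h1]; trivial
      rw [Subgroup.normal_mul] at hg
      obtain ⟨n, hn, a, ha, rfl⟩ := Set.mem_mul.1 hg
      refine ⟨⟨a, ha⟩, ?_⟩
      simp only [MonoidHom.comp_apply, Subgroup.subtype_apply, QuotientGroup.mk'_apply]
      rw [QuotientGroup.eq]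
      have := hN.conj_mem n hn a⁻¹
      simpa [mul_assoc] using this
    have hnilA : Group.IsNilpotent A := hp.nilpotent_left
    have hnilq : Group.IsNilpotent (X ⧸ N) := Group.nilpotent_of_surjective _ hsurj
    have hN_top : N = ⊤ := by
      by_contra hne
      have : Nontrivial (X ⧸ N) := QuotientGroup.nontrivial_iff.2 hne
      exact Group.IsPerfect.not_isNilpotent (G := X ⧸ N) hnilq
    rw [eq_top_iff]
    intro q _
    induction q using QuotientGroup.induction_on with
    | H g =>
    have : g ∈ N := by rw [hN_top]; trivial
    exact this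
  · left
    rw [eq_bot_iff]
    intro q hq
    induction q using QuotientGroup.induction_on with
    | H g =>
    have h2 : g ∈ Subgroup.center X := h1 hq
    rw [Subgroup.mem_bot]
    exact (QuotientGroup.eq_one_iff g).2 h2

end Cfsg.Agent.S5017
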