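import Cfsg.Statements.S5018
import Cfsg.Agent.Lib.RootSub.RankOne

set_option autoImplicit false
open Cfsg

namespace Cfsg.Agent.S5018

/-- A rank one group is not nilpotent, and its second centre equals its centre. -/
theorem result {X : Type*} [Group X] {A B : Subgroup X} (h : Cfsg.IsRankOneGroup X A B) :
    Subgroup.upperCentralSeries X 2 = Subgroup.center X ∧ ¬ Group.IsNilpotent X := by
  obtain ⟨htop, hp⟩ := h
  have hZ2 : Subgroup.upperCentralSeries X 2 ≤ Subgroup.center X := by
    have hN : (Subgroup.upperCentralSeries X 2).Normal := inferInstance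
    rcases CfsgLib.RankOne.exists_move_or_central hp (N := Subgroup.upperCentralSeries X 2) (by rw [htop]; exact le_top)
      (fun x _ n hn => hN.conj_mem n hn x) with ⟨m, hm, e⟩ | h1
    · exfalso
      -- some element of the second centre moves `A` to `B`
      obtain ⟨a, ha, ha1⟩ := CfsgLib.RankOne.exists_ne_one_left hp
      apply ha1
      apply CfsgLib.RankOne.eq_one_of_conjBy_eq hp ha
      have hc : m * a * m⁻¹ * a⁻¹ ∈ Subgroup.center X := by
        have h2 := Subgroup.mem_upperCentralSeries_succ_iff.1 hm a
        rw [Subgroup.upperCentralSeries_one] at h2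
        exact h2
      set c := m * a * m⁻¹ * a⁻¹ with hcdef
      have h3 : a * m = c⁻¹ * m * a := by
        have h4 : c * a * m = m * a := by rw [hcdef]; group
        have h5 : a * m = c⁻¹ * (c * a * m) := by group
        rw [h5, h4]
        group
      rw [← e, CfsgLib.RankOne.conjBy_conjBy, h3, ← CfsgLib.RankOne.conjBy_conjBy,
        CfsgLib.RankOne.conjBy_of_mem ha, ← CfsgLib.RankOne.conjBy_conjBy, e]
      exact CfsgLib.RankOne.conjBy_of_center (Subgroup.inv_mem _ hc) B
    · intro n hn
      have h2 := h1 n hn
      rw [htop] at h2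
      rw [Subgroup.mem_center_iff]
      intro g
      exact (Subgroup.mem_centralizer_iff.1 h2 g (by simp))
  have hZ : ∀ n, Subgroup.upperCentralSeries X n ≤ Subgroup.center X := by
    intro n
    induction n with
    | zero =>
      intro x hx
      have : x = 1 := by simpa using hx
      rw [this]
      exact Subgroup.one_mem _
    | succ n ih =>
      intro x hx
      apply hZ2
      rw [Subgroup.mem_upperCentralSeries_succ_iff]
      intro y
      rw [Subgroup.upperCentralSeries_one]
      exact ih (Subgroup.mem_upperCentralSeries_succ_iff.1 hx y)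
  refine ⟨le_antisymm hZ2 ?_, ?_⟩
  · rw [← Subgroup.upperCentralSeries_one]
    exact Subgroup.upperCentralSeries_mono X (by norm_num : 1 ≤ 2)
  · intro hnil
    obtain ⟨n, hn⟩ := Group.IsNilpotent.nilpotent X
    obtain ⟨a, ha, ha1⟩ := CfsgLib.RankOne.exists_ne_one_left hp
    have h1 : a ∈ Subgroup.center X := hZ n (by rw [hn]; trivial)
    exact ha1 (CfsgLib.RankOne.eq_one_of_conjBy_eq hp ha (CfsgLib.RankOne.conjBy_of_center h1 B))

end Cfsg.Agent.S5018
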