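import Cfsg.Statements.S5026
import Cfsg.Agent.Lib.RootSub.RootSet

set_option autoImplicit false
open Cfsg

namespace Cfsg.Agent.S5026

/-- Let S be a degenerate set of abstract root subgroups of G (a set of abstract transvection groups) and let a, b be commuting non-identity elements of members of S with a b ≠ 1. Then the members of S centralizing a b are exactly those centralizing both a and b. -/
theorem result {G : Type*} [Group G] {S : Set (Subgroup G)} (hS : Cfsg.IsRootSubgroupSet S) (hdeg : Cfsg.IsDegenerateRootSet S)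
    {a b : G} (ha : a ∈ Cfsg.rootElements S) (hb : b ∈ Cfsg.rootElements S) (hab : a * b = b * a) (hab1 : a * b ≠ 1) :
    Cfsg.centralizingMembers S (Subgroup.zpowers (a * b)) =
      Cfsg.centralizingMembers S (Subgroup.zpowers a) ∩ Cfsg.centralizingMembers S (Subgroup.zpowers b) := by
  ext E
  constructor
  · rintro ⟨hE, hcen⟩
    have h1 := CfsgLib.RootSet.le_centralizer_zpowers_iff.1 hcen
    obtain ⟨h2, h3⟩ := CfsgLib.RootSet.centralizing_mul hS hdeg ha hb hab hab1 hE h1
    exact ⟨⟨hE, CfsgLib.RootSet.le_centralizer_zpowers_iff.2 h2⟩,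
      ⟨hE, CfsgLib.RootSet.le_centralizer_zpowers_iff.2 h3⟩⟩
  · rintro ⟨⟨hE, h1⟩, ⟨_, h2⟩⟩
    refine ⟨hE, CfsgLib.RootSet.le_centralizer_zpowers_iff.2 ?_⟩
    have h1' := CfsgLib.RootSet.le_centralizer_zpowers_iff.1 h1
    have h2' := CfsgLib.RootSet.le_centralizer_zpowers_iff.1 h2
    intro e he
    have e1 : e * (a * b) = (e * a) * b := by group
    rw [e1, h1' e he, mul_assoc, h2' e he, mul_assoc]

end Cfsg.Agent.S5026
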