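import Cfsg.Statements.S5049
import Cfsg.Agent.Lib.Solv.Core
import Cfsg.Prelude.Def_RootSubgroups

set_option autoImplicit false
open Cfsg

namespace Cfsg.Agent.S5049

section aux
variable {G : Type*} [Group G]

theorem sq_one_of_mem {D : Set G} (hD : Cfsg.IsRootInvolutionSet D) {x : G} (hx : x ∈ D) : x * x = 1 := by
  have h := pow_orderOf_eq_one x
  rw [hD.orderOf_eq x hx, pow_two] at h
  exact h

theorem inv_eq_of_mem {D : Set G} (hD : Cfsg.IsRootInvolutionSet D) {x : G} (hx : x ∈ D) : x⁻¹ = x :=
  inv_eq_of_mul_eq_one_left (sq_one_of_mem hD hx)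

theorem pair_odd {D : Set G} (hD : Cfsg.IsOddTranspositionSet D) {x y : G} (hx : x ∈ D) (hy : y ∈ D) :
    x * y = y * x ∨ Odd (orderOf (x * y)) := by
  rcases hD.1.pair x hx y hy with h | h | ⟨h, _⟩
  · exact Or.inl h
  · exact Or.inr h
  · exact absurd h (hD.2 x hx y hy)

end aux

/-- Let G be a finite group generated by a set D of odd transpositions (root involutions with no product of order 4), Q = O₂(G), and for a ∈ D let Q_a be the commutator subgroup of Q with a. Then every member of D commuting with a centralizes Q_a; and for b ∈ D with ab of odd order greater than 1, the centralizer of ab in Q is the intersection of the centralizers of a and b in Q. -/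
theorem result {G : Type*} [Group G] [Finite G] {D : Set G} (hD : Cfsg.IsOddTranspositionSet D) {a : G} (ha : a ∈ D) :
    (∀ e ∈ Cfsg.commutingMembers D a, ∀ q ∈ ⁅Cfsg.pCore 2 G, Subgroup.zpowers a⁆, e * q = q * e) ∧
    (∀ b ∈ Cfsg.oddPartners D a,
      Cfsg.pCore 2 G ⊓ Subgroup.centralizer {a * b} = Cfsg.pCore 2 G ⊓ Subgroup.centralizer {a} ⊓ Subgroup.centralizer {b}) := by
  classical
  have hDr := hD.1
  have hQn : (Cfsg.pCore 2 G).Normal := CfsgLib.Solv.pCore_normal' 2
  have hQp : IsPGroup 2 (Cfsg.pCore 2 G) := CfsgLib.Solv.pCore_isPGroup 2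
  -- elements of `Q` have `2`-power order; odd order forces triviality
  have hodd : ∀ y ∈ Cfsg.pCore 2 G, Odd (orderOf y) → y = 1 := by
    intro y hy hy2
    obtain ⟨n, hn⟩ := hQp ⟨y, hy⟩
    have h1 : y ^ 2 ^ n = 1 := by
      have := congrArg Subtype.val hn
      simpa using this
    have h2 : orderOf y ∣ 2 ^ n := orderOf_dvd_of_pow_eq_one h1
    have h3 : orderOf y = 1 := by
      obtain ⟨k, _, hk⟩ := (Nat.dvd_prime_pow Nat.prime_two).1 h2
      rcases k with _ | k
      · simpa using hk
      · exfalso
        rw [hk] at hy2
        exact (Nat.not_odd_iff_even.2 (by simp [pow_succ])) hy2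
    exact orderOf_eq_one_iff.1 h3
  -- Lemma 1
  have hL1 : ∀ x ∈ D, ∀ q ∈ Cfsg.pCore 2 G, x * (q * x * q⁻¹) = (q * x * q⁻¹) * x := by
    intro x hx q hq
    have ht : q * x * q⁻¹ ∈ D := hDr.conj_mem x hx q
    rcases pair_odd hD hx ht with h | h
    · exact h
    · have hmem : x * (q * x * q⁻¹) ∈ Cfsg.pCore 2 G := by
        have h1 := hQn.conj_mem q hq x
        have e : x * (q * x * q⁻¹) = (x * q * x⁻¹) * q⁻¹ := by
          rw [inv_eq_of_mem hDr hx]
          group
        rw [e]
        exact Subgroup.mul_mem _ h1 (Subgroup.inv_mem _ hq)
      have h1 := hodd _ hmem h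
      have h2 : q * x * q⁻¹ = x⁻¹ := eq_inv_of_mul_eq_one_right h1
      rw [h2, inv_eq_of_mem hDr hx]
  constructor
  · rintro e ⟨heD, hea⟩ q hq
    -- `e` commutes with `t = q a q⁻¹`
    have hkey : ∀ q' ∈ Cfsg.pCore 2 G, e * (q' * a * q'⁻¹) = (q' * a * q'⁻¹) * e := by
      intro q' hq'
      have hat := hL1 a ha q' hq'
      have hwQ : a * (q' * a * q'⁻¹) ∈ Cfsg.pCore 2 G := by
        have h1 := hQn.conj_mem q' hq' a
        have e' : a * (q' * a * q'⁻¹) = (a * q' * a⁻¹) * q'⁻¹ := by
          rw [inv_eq_of_mem hDr ha]
          group
        rw [e']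
        exact Subgroup.mul_mem _ h1 (Subgroup.inv_mem _ hq')
      set t := q' * a * q'⁻¹ with ht
      have htD : t ∈ D := hDr.conj_mem a ha q'
      rcases pair_odd hD heD htD with h | h
      · exact h
      · -- `(e t)²` lies in `Q`
        have hes := sq_one_of_mem hDr heD
        have hts := sq_one_of_mem hDr htD
        have has := sq_one_of_mem hDr ha
        have hsq : (e * t) ^ 2 ∈ Cfsg.pCore 2 G := by
          have h1 := hQn.conj_mem _ hwQ e
          have h2 : e * (a * t) * e⁻¹ * (a * t)⁻¹ = (e * t) ^ 2 := by
            have e1 : e⁻¹ = e := inv_eq_of_mem hDr heD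
            have e2 : (a * t)⁻¹ = t * a := by
              rw [mul_inv_rev, inv_eq_of_mem hDr ha, inv_eq_of_mem hDr htD]
            rw [e1, e2, pow_two]
            calc e * (a * t) * e * (t * a) = (e * a) * t * e * t * a := by group
              _ = (a * e) * t * e * t * a := by rw [hea]
              _ = a * ((e * t) * (e * t)) * a := by group
              _ = ((e * t) * (e * t)) * (a * a) := by
                have hc1 : Commute a (e * t) := by
                  apply Commute.mul_right
                  · exact hea.symm
                  · exact hat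
                have hc2 : Commute a ((e * t) * (e * t)) := hc1.mul_right hc1
                rw [hc2.eq, mul_assoc]
              _ = (e * t) * (e * t) := by rw [has, mul_one]
          have h3 : e * (a * t) * e⁻¹ * (a * t)⁻¹ ∈ Cfsg.pCore 2 G :=
            Subgroup.mul_mem _ h1 (Subgroup.inv_mem _ hwQ)
          rwa [h2] at h3
        have hodd2 : Odd (orderOf ((e * t) ^ 2)) := by
          apply Odd.of_dvd_nat h
          apply orderOf_dvd_of_pow_eq_one
          rw [← pow_mul, mul_comm, pow_mul, pow_orderOf_eq_one, one_pow]
        have h1 := hodd _ hsq hodd2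
        have h2 : orderOf (e * t) ∣ 2 := orderOf_dvd_of_pow_eq_one h1
        have h3 : orderOf (e * t) = 1 := by
          rcases (Nat.dvd_prime Nat.prime_two).1 h2 with h4 | h4
          · exact h4
          · rw [h4] at h
            exact absurd h (by decide)
        have h5 : e * t = 1 := orderOf_eq_one_iff.1 h3
        have h6 : t = e⁻¹ := eq_inv_of_mul_eq_one_right h5
        rw [h6]
        group
    have hle : ⁅Cfsg.pCore 2 G, Subgroup.zpowers a⁆ ≤ Subgroup.centralizer ({e} : Set G) := by
      rw [Subgroup.commutator_le]
      intro q' hq' g hg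
      obtain ⟨n, rfl⟩ := Subgroup.mem_zpowers_iff.1 hg
      rw [Subgroup.mem_centralizer_iff]
      intro z hz
      rw [show z = e from hz]
      have hc1 : Commute e (q' * a * q'⁻¹) := hkey q' hq'
      have hc2 : Commute e a := hea
      have e1 : q' * a ^ n * q'⁻¹ = (q' * a * q'⁻¹) ^ n := conj_zpow.symm
      show e * (q' * a ^ n * q'⁻¹ * (a ^ n)⁻¹) = (q' * a ^ n * q'⁻¹ * (a ^ n)⁻¹) * e
      rw [e1]
      exact ((hc1.zpow_right n).mul_right (hc2.zpow_right n).inv_right).eq
    have hmem := hle hq
    exact Subgroup.mem_centralizer_iff.1 hmem e rfl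
  · rintro b ⟨hbD, hba, hbodd⟩
    apply le_antisymm
    · rintro q ⟨hqQ, hqc⟩
      have hcq : q * (a * b) = (a * b) * q := (Subgroup.mem_centralizer_iff.1 hqc (a * b) rfl).symm
      set t := q * a * q⁻¹ with ht
      set u := q * b * q⁻¹ with hu
      have htD : t ∈ D := hDr.conj_mem a ha q
      have huD : u ∈ D := hDr.conj_mem b hbD q
      have has := sq_one_of_mem hDr ha
      have hbs := sq_one_of_mem hDr hbD
      have hts := sq_one_of_mem hDr htD
      have hus := sq_one_of_mem hDr huD
      have hat : a * t = t * a := hL1 a ha q hqQ
      have hbu : b * u = u * b := hL1 b hbD q hqQ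
      have htu : t * u = a * b := by
        rw [ht, hu]
        calc q * a * q⁻¹ * (q * b * q⁻¹) = q * (a * b) * q⁻¹ := by group
          _ = (a * b) * q * q⁻¹ := by rw [hcq]
          _ = a * b := by group
      set w := a * t with hw
      have hat0 : t * a = a * t := hat.symm.trans hw
      have hwb : w = b * u := by
        have h1 : t = a * b * u := by
          calc t = t * (u * u) := by rw [hus, mul_one]
            _ = (t * u) * u := by group
            _ = a * b * u := by rw [htu]
        rw [hw, h1]
        calc a * (a * b * u) = (a * a) * (b * u) := by group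
          _ = b * u := by rw [has, one_mul]
      have hwa : Commute w a := by
        rw [hw]
        exact (Commute.refl a).mul_left hat0
      have hwb' : Commute w b := by
        rw [hwb]
        exact (Commute.refl b).mul_left hbu.symm
      have hw2 : w * w = 1 := by
        rw [hw]
        calc a * t * (a * t) = a * (t * a) * t := by group
          _ = a * (a * t) * t := by rw [hat0]
          _ = (a * a) * (t * t) := by group
          _ = 1 := by rw [has, hts, one_mul]
      set y := a * b with hy
      have hyw : Commute y w := by
        rw [hy]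
        exact (hwa.symm).mul_left hwb'.symm
      have hy1 : y ≠ 1 := by
        intro h0
        apply hba
        have h1 : b = a⁻¹ := eq_inv_of_mul_eq_one_right h0
        rw [h1, inv_eq_of_mem hDr ha]
      have hwone : w = 1 := by
        by_contra hw1
        have hordw : orderOf w = 2 := orderOf_eq_prime (by rw [pow_two]; exact hw2) hw1
        have hty : t * b = y * w := by
          have h1 : t = a * w := by
            rw [hw]
            calc t = (a * a) * t := by rw [has, one_mul]
              _ = a * (a * t) := by group
          rw [h1, hy]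
          calc a * w * b = a * (w * b) := by group
            _ = a * (b * w) := by rw [hwb'.eq]
            _ = a * b * w := by group
        have hcop : Nat.Coprime (orderOf y) (orderOf w) := by
          rw [hordw]
          exact Nat.coprime_two_right.2 hbodd
        have hord : orderOf (t * b) = orderOf y * 2 := by
          rw [hty, hyw.orderOf_mul_eq_mul_orderOf_of_coprime hcop, hordw]
        have hy3 : 2 ≤ orderOf y := by
          have h1 : orderOf y ≠ 1 := fun h => hy1 (orderOf_eq_one_iff.1 h)
          have h2 : orderOf y ≠ 0 := fun h => by rw [h] at hbodd; exact absurd hbodd (by decide)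
          omega
        rcases pair_odd hD htD hbD with h1 | h1
        · have h2 : (t * b) ^ 2 = 1 := by
            rw [pow_two]
            calc t * b * (t * b) = t * (b * t) * b := by group
              _ = t * (t * b) * b := by rw [h1]
              _ = (t * t) * (b * b) := by group
              _ = 1 := by rw [hts, hbs, one_mul]
          have h3 : orderOf (t * b) ∣ 2 := orderOf_dvd_of_pow_eq_one h2
          rw [hord] at h3
          have h4 := Nat.le_of_dvd (by norm_num) h3
          omega
        · rw [hord] at h1
          exact absurd h1 (by simp)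
      -- now `q` commutes with `a` and then with `b`
      have hta : t = a := by
        have h1 : t = a⁻¹ := by
          have : a * t = 1 := hwone
          exact eq_inv_of_mul_eq_one_right this
        rw [h1, inv_eq_of_mem hDr ha]
      have hqa : q * a = a * q := by
        have : q * a * q⁻¹ = a := hta
        calc q * a = (q * a * q⁻¹) * q := by group
          _ = a * q := by rw [this]
      have hqb : q * b = b * q := by
        have h1 : a * (q * b) = a * (b * q) := by
          calc a * (q * b) = (a * q) * b := by group
            _ = (q * a) * b := by rw [hqa]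
            _ = q * (a * b) := by group
            _ = (a * b) * q := hcq
            _ = a * (b * q) := by group
        exact mul_left_cancel h1
      refine ⟨⟨hqQ, Subgroup.mem_centralizer_iff.2 ?_⟩, Subgroup.mem_centralizer_iff.2 ?_⟩
      · intro z hz
        rw [show z = a from hz]
        exact hqa.symm
      · intro z hz
        rw [show z = b from hz]
        exact hqb.symm
    · rintro q ⟨⟨hqQ, hqa⟩, hqb⟩
      refine ⟨hqQ, Subgroup.mem_centralizer_iff.2 ?_⟩
      intro z hz
      rw [show z = a * b from hz]
      have h1 : a * q = q * a := Subgroup.mem_centralizer_iff.1 hqa a rfl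
      have h2 : b * q = q * b := Subgroup.mem_centralizer_iff.1 hqb b rfl
      calc a * b * q = a * (b * q) := by group
        _ = a * (q * b) := by rw [h2]
        _ = (a * q) * b := by group
        _ = (q * a) * b := by rw [h1]
        _ = q * (a * b) := by group

end Cfsg.Agent.S5049
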