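import Cfsg.Statements.S5057
-- import your own Cfsg.Agent.* helpers here

set_option autoImplicit false
open Cfsg

namespace Cfsg.Agent.S5057

open Equiv in
theorem perm_orders : ∀ g : Perm (Fin 6), Perm.sign g = 1 → g ^ 3 = 1 ∨ g ^ 4 = 1 ∨ g ^ 5 = 1 := by
  decide +kernel

/-- a fixed double transposition -/
def a₀ : Equiv.Perm (Fin 6) := Equiv.swap 0 1 * Equiv.swap 2 3

open Equiv in
theorem perm_conj : ∀ b : Perm (Fin 6), Perm.sign b = 1 → b ≠ 1 → b * b = 1 →
    ∃ g : Perm (Fin 6), Perm.sign g = 1 ∧ b = g * a₀ * g⁻¹ := by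
  decide +kernel

theorem exists_base : ∃ b₀ : ↥(alternatingGroup (Fin 6)), b₀ ≠ 1 ∧ orderOf b₀ = 2 ∧
    ∀ b : ↥(alternatingGroup (Fin 6)), orderOf b = 2 → ∃ g : ↥(alternatingGroup (Fin 6)), b = g * b₀ * g⁻¹ := by
  have hsq : ∀ d : ↥(alternatingGroup (Fin 6)), orderOf d = 2 → d * d = 1 := by
    intro d hd
    have := pow_orderOf_eq_one d
    rw [hd, pow_two] at this
    exact this
  -- an element of the set
  have hb₀ : a₀ ∈ alternatingGroup (Fin 6) := by
    rw [Equiv.Perm.mem_alternatingGroup]
    decide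
  let b₀ : ↥(alternatingGroup (Fin 6)) := ⟨a₀, hb₀⟩
  have hb₀1 : b₀ ≠ 1 := by
    intro h
    have h1 : a₀ = 1 := congrArg Subtype.val h
    have h2 : a₀ ≠ 1 := by decide
    exact h2 h1
  have hb₀2 : b₀ * b₀ = 1 := by
    apply Subtype.ext
    show a₀ * a₀ = 1
    decide
  have hb₀ord : orderOf b₀ = 2 := orderOf_eq_prime (by rw [pow_two]; exact hb₀2) hb₀1
  have hconj : ∀ b : ↥(alternatingGroup (Fin 6)), orderOf b = 2 → ∃ g : ↥(alternatingGroup (Fin 6)), b = g * b₀ * g⁻¹ := by
    intro b hb
    have hb1 : b.1 ≠ 1 := by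
      intro h
      have h1 : b = 1 := Subtype.ext h
      rw [h1, orderOf_one] at hb
      omega
    have hb2 : b.1 * b.1 = 1 := congrArg Subtype.val (hsq b hb)
    obtain ⟨g, hg, e⟩ := perm_conj b.1 (Equiv.Perm.mem_alternatingGroup.1 b.2) hb1 hb2
    exact ⟨⟨g, Equiv.Perm.mem_alternatingGroup.2 hg⟩, Subtype.ext e⟩
  exact ⟨b₀, hb₀1, hb₀ord, hconj⟩

/-- The involutions of the alternating group of degree 6 form a class of root involutions (a single conjugacy class of involutions generating the group, any two of which commute, have product of odd order, or have product of order 4 whose square is again an involution of the class), and the product of any two of them has order at most 5. -/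
theorem result :
    Cfsg.IsRootInvolutionClass {g : ↥(alternatingGroup (Fin 6)) | orderOf g = 2} ∧
    ∀ d ∈ {g : ↥(alternatingGroup (Fin 6)) | orderOf g = 2}, ∀ e ∈ {g : ↥(alternatingGroup (Fin 6)) | orderOf g = 2},
      orderOf (d * e) ≤ 5 := by
  classical
  -- orders in the alternating group
  have hord : ∀ x : ↥(alternatingGroup (Fin 6)), x ^ 3 = 1 ∨ x ^ 4 = 1 ∨ x ^ 5 = 1 := by
    intro x
    have h := perm_orders x.1 (Equiv.Perm.mem_alternatingGroup.1 x.2)
    rcases h with h | h | h
    · exact Or.inl (Subtype.ext (by simpa using h))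
    · exact Or.inr (Or.inl (Subtype.ext (by simpa using h)))
    · exact Or.inr (Or.inr (Subtype.ext (by simpa using h)))
  have hordle : ∀ x : ↥(alternatingGroup (Fin 6)), orderOf x ≤ 5 ∧ orderOf x ≠ 0 ∧ orderOf x ≠ 6 := by
    intro x
    rcases hord x with h | h | h
    · have h1 := orderOf_dvd_of_pow_eq_one h
      have h2 := Nat.le_of_dvd (by norm_num) h1
      refine ⟨by omega, ?_, by omega⟩
      intro h0
      rw [h0] at h1
      simp at h1
    · have h1 := orderOf_dvd_of_pow_eq_one h
      have h2 := Nat.le_of_dvd (by norm_num) h1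
      refine ⟨by omega, ?_, by omega⟩
      intro h0
      rw [h0] at h1
      simp at h1
    · have h1 := orderOf_dvd_of_pow_eq_one h
      have h2 := Nat.le_of_dvd (by norm_num) h1
      refine ⟨by omega, ?_, by omega⟩
      intro h0
      rw [h0] at h1
      simp at h1
  have hsq : ∀ d : ↥(alternatingGroup (Fin 6)), orderOf d = 2 → d * d = 1 := by
    intro d hd
    have := pow_orderOf_eq_one d
    rw [hd, pow_two] at this
    exact this
  have hconjmem : ∀ d ∈ {g : ↥(alternatingGroup (Fin 6)) | orderOf g = 2}, ∀ g : ↥(alternatingGroup (Fin 6)),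
      g * d * g⁻¹ ∈ {g : ↥(alternatingGroup (Fin 6)) | orderOf g = 2} := by
    intro d hd g
    show orderOf (g * d * g⁻¹) = 2
    have h1 := (MulAut.conj g).orderOf_eq d
    rw [MulAut.conj_apply] at h1
    rw [h1]
    exact hd
  obtain ⟨b₀, hb₀1, hb₀ord, hconj⟩ := exists_base
  have hgen : Subgroup.closure {g : ↥(alternatingGroup (Fin 6)) | orderOf g = 2} = ⊤ := by
    have : IsSimpleGroup ↥(alternatingGroup (Fin 6)) :=
      alternatingGroup.isSimpleGroup (by simp)
    have hle : Subgroup.normalClosure {g : ↥(alternatingGroup (Fin 6)) | orderOf g = 2} ≤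
        Subgroup.closure {g : ↥(alternatingGroup (Fin 6)) | orderOf g = 2} := by
      rw [Subgroup.normalClosure]
      apply Subgroup.closure_mono
      intro x hx
      obtain ⟨a, ha, hax⟩ := Group.mem_conjugatesOfSet_iff.1 hx
      obtain ⟨g, rfl⟩ := isConj_iff.1 hax
      exact hconjmem a ha g
    rcases (Subgroup.normalClosure_normal (s := {g : ↥(alternatingGroup (Fin 6)) | orderOf g = 2})).eq_bot_or_eq_top with h | h
    · exfalso
      have hm : b₀ ∈ ({g : ↥(alternatingGroup (Fin 6)) | orderOf g = 2} : Set ↥(alternatingGroup (Fin 6))) := hb₀ord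
      have : b₀ ∈ Subgroup.normalClosure {g : ↥(alternatingGroup (Fin 6)) | orderOf g = 2} :=
        Subgroup.subset_normalClosure hm
      rw [h] at this
      exact hb₀1 (Subgroup.mem_bot.1 this)
    · rw [eq_top_iff, ← h]
      exact hle
  refine ⟨⟨⟨?_, hgen, hconjmem, ?_⟩, ⟨b₀, hb₀ord⟩, ?_⟩, ?_⟩
  · intro d hd
    exact hd
  · intro a ha b hb
    have h1 := hordle (a * b)
    have h3 : ∀ n, orderOf (a * b) = n → n = 1 ∨ n = 2 → a * b = b * a := by
      intro n hn hn2
      have hpow : (a * b) * (a * b) = 1 := by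
        rcases hn2 with rfl | rfl
        · have := orderOf_eq_one_iff.1 hn
          rw [this, one_mul]
        · have := pow_orderOf_eq_one (a * b)
          rw [hn, pow_two] at this
          exact this
      have ha2 := hsq a ha
      have hb2 := hsq b hb
      calc a * b = a * b * ((a * b) * (a * b))⁻¹ * ((a * b) * (a * b)) := by group
        _ = (a * b) * ((a * b) * (a * b))⁻¹ := by rw [hpow]; simp
        _ = b⁻¹ * a⁻¹ := by group
        _ = b * a := by
          rw [inv_eq_of_mul_eq_one_left ha2, inv_eq_of_mul_eq_one_left hb2]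
    obtain ⟨h5, h0, _⟩ := h1
    have hcases : orderOf (a * b) = 1 ∨ orderOf (a * b) = 2 ∨ orderOf (a * b) = 3 ∨ orderOf (a * b) = 4 ∨ orderOf (a * b) = 5 := by
      omega
    rcases hcases with h | h | h | h | h
    · exact Or.inl (h3 1 h (Or.inl rfl))
    · exact Or.inl (h3 2 h (Or.inr rfl))
    · right; left; rw [h]; decide
    · right; right
      refine ⟨h, ?_⟩
      show orderOf ((a * b) ^ 2) = 2
      rw [orderOf_pow' _ (by norm_num), h]
      norm_num
    · right; left; rw [h]; decide
  · intro a ha b hb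
    obtain ⟨g, hg⟩ := hconj a ha
    obtain ⟨h, hh⟩ := hconj b hb
    refine ⟨h * g⁻¹, ?_⟩
    rw [hh, hg]
    group
  · intro d _ e _
    exact (hordle (d * e)).1

end Cfsg.Agent.S5057
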