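import Cfsg.Statements.S5059


set_option autoImplicit false
universe u
open Cfsg

namespace Cfsg.Agent.S5059

/-- Let k be a field of characteristic not 2 with k not of order 3, M a finite-dimensional k-vector space and G ≤ GL(M) such that (G, M) is a quadratic pair (M irreducible for G, and G generated by its quadratically acting elements σ whose scalar family 1 + c(σ − 1), c ∈ k, lies in G). Write 𝒬_d for the quadratic elements of G of minimal commutator rank, E(σ) for the subgroup generated by the members of 𝒬_d with the same fixed space and commutator space as σ, and Σ for the set of these subgroups. Then for σ ∈ 𝒬_d the subgroup E(σ) consists exactly of those members together with the identity, it is abelian, and if k has prime characteristic p every element of E(σ) has order dividing p. -/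
theorem result {k : Type u} [Field k] (hk2 : ringChar k ≠ 2) (hk3 : Nat.card k ≠ 3)
    {M : Type u} [AddCommGroup M] [Module k M] [FiniteDimensional k M]
    {G : Subgroup (LinearMap.GeneralLinearGroup k M)} (hG : Cfsg.IsQuadraticPair G)
    {σ : LinearMap.GeneralLinearGroup k M} (hσ : σ ∈ Cfsg.minimalQuadraticElements G) :
    (Cfsg.sameActionSubgroup G σ : Set (LinearMap.GeneralLinearGroup k M)) = Cfsg.sameActionClass G σ ∪ {1} ∧
    IsMulCommutative ↥(Cfsg.sameActionSubgroup G σ) ∧
    (∀ p : ℕ, p.Prime → ringChar k = p → ∀ x ∈ Cfsg.sameActionSubgroup G σ, x ^ p = 1) := by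
  classical
  set x₀ : M →ₗ[k] M := (σ : M →ₗ[k] M) - 1 with hx₀
  have hσq : σ ∈ Cfsg.quadraticElements G := hσ.1
  have hx₀sq : x₀ * x₀ = 0 := hσq.2.1.1
  -- image inside kernel
  have hBC : ∀ m, x₀ m ∈ LinearMap.ker x₀ := by
    intro m
    rw [LinearMap.mem_ker]
    have : (x₀ * x₀) m = 0 := by rw [hx₀sq]; rfl
    exact this
  -- the class
  have hprops : ∀ τ ∈ Cfsg.sameActionClass G σ,
      τ ∈ G ∧ LinearMap.ker ((τ : M →ₗ[k] M) - 1) = LinearMap.ker x₀ ∧
      LinearMap.range ((τ : M →ₗ[k] M) - 1) = LinearMap.range x₀ := by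
    intro τ hτ
    exact ⟨hτ.1.1.1, hτ.2.1, hτ.2.2⟩
  -- products of nilpotent elements vanish
  have hprod0 : ∀ y z : M →ₗ[k] M, LinearMap.ker y = LinearMap.ker x₀ → LinearMap.range z = LinearMap.range x₀ →
      y * z = 0 := by
    intro y z hy hz
    ext m
    have h1 : z m ∈ LinearMap.range x₀ := by rw [← hz]; exact ⟨m, rfl⟩
    obtain ⟨n, hn⟩ := h1
    have h2 : z m ∈ LinearMap.ker y := by
      rw [hy, ← hn]
      exact hBC n
    exact h2
  -- units of the form `1 + y` with `y² = 0`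
  let mkU : ∀ y : M →ₗ[k] M, y * y = 0 → LinearMap.GeneralLinearGroup k M := fun y hy =>
    ⟨1 + y, 1 - y, by
      rw [mul_sub, mul_one, add_mul, one_mul, hy]
      abel, by
      rw [sub_mul, one_mul, mul_add, mul_one, hy]
      abel⟩
  have hmkU : ∀ y hy, ((mkU y hy : LinearMap.GeneralLinearGroup k M) : M →ₗ[k] M) = 1 + y := fun _ _ => rfl
  -- the `scalar` elements
  have hscal : ∀ τ ∈ Cfsg.quadraticElements G, ∀ c : k, ∀ hy,
      mkU (c • ((τ : M →ₗ[k] M) - 1)) hy ∈ G := by
    intro τ hτ c hy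
    apply hτ.2.2
    exact ⟨c, rfl⟩
  -- general recognition lemma
  have hrecog : ∀ ρ : LinearMap.GeneralLinearGroup k M, ρ ∈ Cfsg.quadraticElements G →
      LinearMap.ker x₀ ≤ LinearMap.ker ((ρ : M →ₗ[k] M) - 1) →
      LinearMap.range ((ρ : M →ₗ[k] M) - 1) ≤ LinearMap.range x₀ →
      ρ ∈ Cfsg.sameActionClass G σ := by
    intro ρ hρ hker hran
    have h1 : Cfsg.commutatorRank σ ≤ Cfsg.commutatorRank ρ := hσ.2 ρ hρ
    have h2 : Cfsg.commutatorRank ρ ≤ Cfsg.commutatorRank σ := Submodule.finrank_mono hran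
    have h3 : Cfsg.commutatorRank ρ = Cfsg.commutatorRank σ := le_antisymm h2 h1
    have hran' : LinearMap.range ((ρ : M →ₗ[k] M) - 1) = LinearMap.range x₀ :=
      Submodule.eq_of_le_of_finrank_eq hran h3
    have hkerdim : Module.finrank k (LinearMap.ker x₀) = Module.finrank k (LinearMap.ker ((ρ : M →ₗ[k] M) - 1)) := by
      have e1 := LinearMap.finrank_range_add_finrank_ker x₀
      have e2 := LinearMap.finrank_range_add_finrank_ker ((ρ : M →ₗ[k] M) - 1)
      have e3 : Module.finrank k (LinearMap.range ((ρ : M →ₗ[k] M) - 1)) = Module.finrank k (LinearMap.range x₀) := h3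
      omega
    have hker' : LinearMap.ker ((ρ : M →ₗ[k] M) - 1) = LinearMap.ker x₀ :=
      (Submodule.eq_of_le_of_finrank_eq hker hkerdim).symm
    refine ⟨⟨hρ, ?_⟩, hker', hran'⟩
    intro τ hτ
    rw [show Cfsg.commutatorRank ρ = Cfsg.commutatorRank σ from h3]
    exact hσ.2 τ hτ
  -- closure under products
  have hmul : ∀ τ₁ ∈ Cfsg.sameActionClass G σ, ∀ τ₂ ∈ Cfsg.sameActionClass G σ,
      τ₁ * τ₂ ∈ Cfsg.sameActionClass G σ ∪ {1} := by
    intro τ₁ h₁ τ₂ h₂
    obtain ⟨hG₁, hk₁, hr₁⟩ := hprops τ₁ h₁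
    obtain ⟨hG₂, hk₂, hr₂⟩ := hprops τ₂ h₂
    set x₁ : M →ₗ[k] M := (τ₁ : M →ₗ[k] M) - 1 with hx₁
    set x₂ : M →ₗ[k] M := (τ₂ : M →ₗ[k] M) - 1 with hx₂
    have h12 : x₁ * x₂ = 0 := hprod0 _ _ hk₁ hr₂
    have h21 : x₂ * x₁ = 0 := hprod0 _ _ hk₂ hr₁
    have h11 : x₁ * x₁ = 0 := h₁.1.1.2.1.1
    have h22 : x₂ * x₂ = 0 := h₂.1.1.2.1.1
    have hcoe : ((τ₁ * τ₂ : LinearMap.GeneralLinearGroup k M) : M →ₗ[k] M) - 1 = x₁ + x₂ := by
      have e1 : (τ₁ : M →ₗ[k] M) = 1 + x₁ := by rw [hx₁]; abel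
      have e2 : (τ₂ : M →ₗ[k] M) = 1 + x₂ := by rw [hx₂]; abel
      rw [Units.val_mul, e1, e2, add_mul, mul_add, mul_add, one_mul, mul_one, one_mul, h12]
      abel
    by_cases htriv : τ₁ * τ₂ = 1
    · exact Or.inr htriv
    left
    apply hrecog
    · refine ⟨G.mul_mem hG₁ hG₂, ⟨?_, ?_⟩, ?_⟩
      · rw [hcoe]
        rw [mul_add, add_mul, add_mul, h11, h12, h21, h22]
        simp
      · intro h0
        apply htriv
        apply Units.ext
        have : ((τ₁ * τ₂ : LinearMap.GeneralLinearGroup k M) : M →ₗ[k] M) = 1 := sub_eq_zero.1 h0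
        exact this
      · rintro μ ⟨c, hc⟩
        rw [hcoe] at hc
        have hy₁ : (c • x₁) * (c • x₁) = 0 := by
          rw [smul_mul_smul_comm, h11, smul_zero]
        have hy₂ : (c • x₂) * (c • x₂) = 0 := by
          rw [smul_mul_smul_comm, h22, smul_zero]
        have hμ : μ = mkU (c • x₁) hy₁ * mkU (c • x₂) hy₂ := by
          apply Units.ext
          rw [hc, Units.val_mul, hmkU (c • x₁) hy₁, hmkU (c • x₂) hy₂, add_mul, mul_add, mul_add, one_mul, mul_one, one_mul,
            smul_mul_smul_comm, h12, smul_zero, smul_add]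
          abel
        rw [hμ]
        exact G.mul_mem (hscal τ₁ h₁.1.1 c hy₁) (hscal τ₂ h₂.1.1 c hy₂)
    · rw [hcoe]
      intro m hm
      have h1 : m ∈ LinearMap.ker x₁ := by rw [hk₁]; exact hm
      have h2 : m ∈ LinearMap.ker x₂ := by rw [hk₂]; exact hm
      rw [LinearMap.mem_ker] at h1 h2 ⊢
      rw [LinearMap.add_apply, h1, h2, add_zero]
    · rw [hcoe]
      rintro _ ⟨m, rfl⟩
      rw [LinearMap.add_apply]
      refine Submodule.add_mem _ ?_ ?_
      · rw [← hr₁]; exact ⟨m, rfl⟩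
      · rw [← hr₂]; exact ⟨m, rfl⟩
  -- closure under inverses
  have hinv : ∀ τ ∈ Cfsg.sameActionClass G σ, τ⁻¹ ∈ Cfsg.sameActionClass G σ := by
    intro τ hτ
    obtain ⟨hG₁, hk₁, hr₁⟩ := hprops τ hτ
    set x : M →ₗ[k] M := (τ : M →ₗ[k] M) - 1 with hx
    have hxx : x * x = 0 := hτ.1.1.2.1.1
    have hcoe : ((τ⁻¹ : LinearMap.GeneralLinearGroup k M) : M →ₗ[k] M) - 1 = -x := by
      have e1 : (τ : M →ₗ[k] M) = 1 + x := by rw [hx]; abel
      have e2 : ((τ⁻¹ : LinearMap.GeneralLinearGroup k M) : M →ₗ[k] M) = 1 - x := by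
        have h1 : ((τ⁻¹ : LinearMap.GeneralLinearGroup k M) : M →ₗ[k] M) * (τ : M →ₗ[k] M) = 1 := by
          rw [← Units.val_mul, inv_mul_cancel]
          rfl
        have h2 : (1 - x) * (τ : M →ₗ[k] M) = 1 := by
          rw [e1, sub_mul, one_mul, mul_add, mul_one, hxx]
          abel
        exact (Units.mul_left_inj τ).1 (h1.trans h2.symm)
      rw [e2]
      abel
    apply hrecog
    · refine ⟨G.inv_mem hG₁, ⟨?_, ?_⟩, ?_⟩
      · rw [hcoe, neg_mul_neg]
        exact hxx
      · rw [hcoe]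
        exact neg_ne_zero.2 hτ.1.1.2.1.2
      · rintro μ ⟨c, hc⟩
        rw [hcoe] at hc
        apply hτ.1.1.2.2
        refine ⟨-c, ?_⟩
        rw [hc, smul_neg, neg_smul]
    · rw [hcoe, LinearMap.ker_neg, hk₁]
    · rw [hcoe, LinearMap.range_neg, hr₁]
  -- the subgroup
  let S₀ : Subgroup (LinearMap.GeneralLinearGroup k M) :=
    { carrier := Cfsg.sameActionClass G σ ∪ {1}
      mul_mem' := by
        rintro a b (ha | ha) (hb | hb)
        · exact hmul a ha b hb
        · rw [show b = 1 from hb, mul_one]; exact Or.inl ha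
        · rw [show a = 1 from ha, one_mul]; exact Or.inl hb
        · rw [show a = 1 from ha, show b = 1 from hb, one_mul]; exact Or.inr rfl
      one_mem' := Or.inr rfl
      inv_mem' := by
        rintro a (ha | ha)
        · exact Or.inl (hinv a ha)
        · rw [show a = 1 from ha, inv_one]; exact Or.inr rfl }
  have hS₀ : Cfsg.sameActionSubgroup G σ = S₀ := by
    apply le_antisymm
    · rw [Cfsg.sameActionSubgroup, Subgroup.closure_le]
      intro a ha
      exact Or.inl ha
    · rintro a (ha | ha)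
      · exact Subgroup.subset_closure ha
      · rw [show a = 1 from ha]
        exact Subgroup.one_mem _
  have hcomm : ∀ a ∈ S₀, ∀ b ∈ S₀, a * b = b * a := by
    rintro a (ha | ha) b (hb | hb)
    · obtain ⟨_, hk₁, hr₁⟩ := hprops a ha
      obtain ⟨_, hk₂, hr₂⟩ := hprops b hb
      have h12 := hprod0 _ _ hk₁ hr₂
      have h21 := hprod0 _ _ hk₂ hr₁
      apply Units.ext
      have e1 : (a : M →ₗ[k] M) = 1 + ((a : M →ₗ[k] M) - 1) := by abel
      have e2 : (b : M →ₗ[k] M) = 1 + ((b : M →ₗ[k] M) - 1) := by abel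
      set y₁ := (a : M →ₗ[k] M) - 1 with hy₁
      set y₂ := (b : M →ₗ[k] M) - 1 with hy₂
      rw [Units.val_mul, Units.val_mul, e1, e2]
      simp only [add_mul, mul_add, one_mul, mul_one, h12, h21]
      abel
    · rw [show b = 1 from hb, mul_one, one_mul]
    · rw [show a = 1 from ha, mul_one, one_mul]
    · rw [show a = 1 from ha, show b = 1 from hb]
  refine ⟨?_, ?_, ?_⟩
  · rw [hS₀]
    rfl
  · rw [hS₀]
    apply IsMulCommutative.of_comm
    rintro ⟨a, ha⟩ ⟨b, hb⟩
    exact Subtype.ext (hcomm a ha b hb)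
  · intro p hp hpc x hx
    rw [hS₀] at hx
    rcases hx with hx | hx
    · have hxx : ((x : M →ₗ[k] M) - 1) * ((x : M →ₗ[k] M) - 1) = 0 := hx.1.1.2.1.1
      have hpow : ∀ n : ℕ, ((x : M →ₗ[k] M)) ^ n = 1 + (n : k) • ((x : M →ₗ[k] M) - 1) := by
        intro n
        induction n with
        | zero => simp
        | succ n ih =>
          rw [pow_succ, ih]
          have e1 : (x : M →ₗ[k] M) = 1 + ((x : M →ₗ[k] M) - 1) := by abel
          set y := (x : M →ₗ[k] M) - 1 with hy
          have e2 : (1 + (n : k) • y) * (x : M →ₗ[k] M) = (1 + (n : k) • y) * (1 + y) := by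
            rw [← e1]
          rw [e2, mul_add, mul_one, add_mul, one_mul, smul_mul_assoc, hxx, smul_zero]
          push_cast
          rw [add_smul, one_smul]
          abel
      apply Units.ext
      rw [Units.val_pow_eq_pow_val, hpow]
      have hp0 : (p : k) = 0 := by
        haveI : Fact p.Prime := ⟨hp⟩
        rw [← hpc]
        exact CharP.cast_eq_zero k (ringChar k)
      rw [hp0, zero_smul, add_zero]
      rfl
    · rw [show x = 1 from hx, one_pow]

end Cfsg.Agent.S5059
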