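import Cfsg.Statements.S5067
-- import your own Cfsg.Agent.* helpers here

set_option autoImplicit false
open Cfsg

namespace Cfsg.Agent.S5067

universe u

theorem class_aux : ∀ (c : ℕ) (P : Type u) [Group P] [Group.IsNilpotent P] (E F : Subgroup P),
    Group.nilpotencyClass P = c → ¬ IsMulCommutative P → IsMulCommutative ↥E → IsMulCommutative ↥F →
    E ⊔ F = ⊤ → Group.nilpotencyClass ↥(Subgroup.normalClosure (E : Set P)) < c := by
  intro c
  induction c using Nat.strong_induction_on with
  | _ c ih =>
  intro P _ _ E F hc hna hE hF hgen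
  have hcne : ¬ Group.nilpotencyClass P ≤ 1 := fun h => hna (Group.IsNilpotent.nilpotencyClass_le_one_iff.1 h)
  set Z := Subgroup.center P with hZ
  let π : P →* P ⧸ Z := QuotientGroup.mk' Z
  have hπ : Function.Surjective π := QuotientGroup.mk'_surjective Z
  have hker : ∀ x, π x = 1 ↔ x ∈ Z := fun x => QuotientGroup.eq_one_iff x
  by_cases hQ : IsMulCommutative (P ⧸ Z)
  · -- the commutator subgroup is central
    have hcomm : ∀ x y : P, x * y * x⁻¹ * y⁻¹ ∈ Z := by
      intro x y
      rw [← hker, map_mul, map_mul, map_mul, map_inv, map_inv]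
      have : π x * π y = π y * π x := mul_comm' _ _
      rw [this]
      group
    have hgens : ∀ a ∈ Group.conjugatesOfSet (E : Set P), ∀ b ∈ Group.conjugatesOfSet (E : Set P),
        a * b = b * a := by
      intro a ha b hb
      obtain ⟨e, he, hae⟩ := Group.mem_conjugatesOfSet_iff.1 ha
      obtain ⟨e', he', hbe⟩ := Group.mem_conjugatesOfSet_iff.1 hb
      obtain ⟨g, rfl⟩ := isConj_iff.1 hae
      obtain ⟨h, rfl⟩ := isConj_iff.1 hbe
      have h1 := hcomm g e
      have h2 := hcomm h e'
      have hz1 : ∀ w : P, (g * e * g⁻¹ * e⁻¹) * w = w * (g * e * g⁻¹ * e⁻¹) := fun w =>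
        (Subgroup.mem_center_iff.1 h1 w).symm
      have hz2 : ∀ w : P, (h * e' * h⁻¹ * e'⁻¹) * w = w * (h * e' * h⁻¹ * e'⁻¹) := fun w =>
        (Subgroup.mem_center_iff.1 h2 w).symm
      have hee : e * e' = e' * e := setLike_mul_comm he he'
      have e1 : g * e * g⁻¹ = (g * e * g⁻¹ * e⁻¹) * e := by group
      have e2 : h * e' * h⁻¹ = (h * e' * h⁻¹ * e'⁻¹) * e' := by group
      set z := g * e * g⁻¹ * e⁻¹
      set w := h * e' * h⁻¹ * e'⁻¹
      rw [e1, e2]
      calc z * e * (w * e') = z * (e * w * e') := by group
        _ = z * (w * e * e') := by rw [← hz2 e]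
        _ = z * w * (e * e') := by group
        _ = w * z * (e' * e) := by rw [hz1 w, hee]
        _ = w * (z * e' * e) := by group
        _ = w * (e' * z * e) := by rw [hz1 e']
        _ = w * e' * (z * e) := by group
    have hNcomm : IsMulCommutative ↥(Subgroup.normalClosure (E : Set P)) := by
      rw [Subgroup.normalClosure]
      exact Subgroup.isMulCommutative_closure hgens
    have h1 : Group.nilpotencyClass ↥(Subgroup.normalClosure (E : Set P)) ≤ 1 :=
      Group.IsNilpotent.nilpotencyClass_le_one_iff.2 hNcomm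
    omega
  · have hcQ : Group.nilpotencyClass (P ⧸ Z) = c - 1 := by
      have h0 := Group.nilpotencyClass_quotient_center (G := P)
      rw [hc] at h0
      exact h0
    have hlt : c - 1 < c := by omega
    have hE' : IsMulCommutative ↥(E.map π) := inferInstance
    have hF' : IsMulCommutative ↥(F.map π) := inferInstance
    have hgen' : E.map π ⊔ F.map π = ⊤ := by
      rw [← Subgroup.map_sup, hgen, Subgroup.map_top_of_surjective _ hπ]
    have hIH := ih (c - 1) hlt (P ⧸ Z) (E.map π) (F.map π) hcQ hQ hE' hF' hgen'
    have hmap : ∀ x ∈ Subgroup.normalClosure (E : Set P), π x ∈ Subgroup.normalClosure ((E.map π : Subgroup (P ⧸ Z)) : Set (P ⧸ Z)) := by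
      intro x hx
      have h1 := Subgroup.map_normalClosure (E : Set P) π hπ
      have h2 : π x ∈ (Subgroup.normalClosure (E : Set P)).map π := ⟨x, hx, rfl⟩
      rw [h1] at h2
      simpa [Subgroup.coe_map] using h2
    let f : ↥(Subgroup.normalClosure (E : Set P)) →* ↥(Subgroup.normalClosure ((E.map π : Subgroup (P ⧸ Z)) : Set (P ⧸ Z))) :=
      (π.comp (Subgroup.normalClosure (E : Set P)).subtype).codRestrict _ (fun x => hmap x.1 x.2)
    have hfker : f.ker ≤ Subgroup.center _ := by
      rintro ⟨x, hx⟩ hxker
      have h1 : π x = 1 := congrArg Subtype.val (MonoidHom.mem_ker.1 hxker)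
      have h2 : x ∈ Z := (hker x).1 h1
      rw [Subgroup.mem_center_iff]
      rintro ⟨y, hy⟩
      apply Subtype.ext
      exact Subgroup.mem_center_iff.1 h2 y
    have h3 := Group.nilpotencyClass_le_of_ker_le_center f hfker
    omega

/-- Let P be a non-abelian nilpotent p-group (every element of p-power order; P possibly infinite) generated by two abelian subgroups E and F. Then the normal closure of E in P, and likewise that of F, has nilpotency class strictly smaller than that of P. -/
theorem result {P : Type*} [Group P] {p : ℕ} [Fact p.Prime] (hP : IsPGroup p P) [Group.IsNilpotent P]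
    (hna : ¬ IsMulCommutative P) {E F : Subgroup P} (hE : IsMulCommutative ↥E) (hF : IsMulCommutative ↥F) (hgen : E ⊔ F = ⊤) :
    Group.nilpotencyClass ↥(Subgroup.normalClosure (E : Set P)) < Group.nilpotencyClass P ∧
    Group.nilpotencyClass ↥(Subgroup.normalClosure (F : Set P)) < Group.nilpotencyClass P := by
  exact ⟨class_aux _ P E F rfl hna hE hF hgen, class_aux _ P F E rfl hna hF hE (by rw [sup_comm]; exact hgen)⟩

end Cfsg.Agent.S5067
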