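import Cfsg.Statements.S5344
import Mathlib
import Cfsg.Agent.Lib.T3.Basic
import Cfsg.Agent.Lib.T3.Table

set_option autoImplicit false
open Cfsg

namespace Cfsg.Agent.S5344

/-- In a set of 3-transpositions, let a, b, c be members with a and c different and commuting, while neither a nor c commutes with b (a 3-string). Then there is an injective homomorphism from the symmetric group of degree 4 into the ambient group sending the transpositions (0 1), (1 2), (2 3) to a, b, c; so a, b, c generate a copy of the symmetric group of degree 4 in which they are transpositions. -/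
theorem result {G : Type*} [Group G] {D : Set G} (hD : Cfsg.IsThreeTranspositionSet D) {a b c : G} (ha : a ∈ D) (hb : b ∈ D) (hc : c ∈ D) (hac : a ≠ c) (hac' : Commute a c) (hab : ¬ Commute a b) (hbc : ¬ Commute b c) : ∃ φ : Equiv.Perm (Fin 4) →* G, Function.Injective φ ∧ φ (Equiv.swap 0 1) = a ∧ φ (Equiv.swap 1 2) = b ∧ φ (Equiv.swap 2 3) = c := by
  classical
  open CfsgLib.T3 in
  have ha2 := sq_of_order_two (hD.1 a ha)
  have hb2 := sq_of_order_two (hD.1 b hb)
  have hc2 := sq_of_order_two (hD.1 c hc)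
  have h3 := cube_of_not_commute hD ha hb hab
  have h4 := cube_of_not_commute hD hb hc hbc
  have b1 := braid_of_cube ha2 hb2 h3
  have b2 := braid_of_cube hb2 hc2 h4
  let s : Fin 3 → Equiv.Perm (Fin 4) := ![Equiv.swap 0 1, Equiv.swap 1 2, Equiv.swap 2 3]
  let g : Fin 3 → G := ![a, b, c]
  let R : List (List (Fin 3) × List (Fin 3)) :=
    [([0,0],[]), ([1,1],[]), ([2,2],[]), ([2,0],[0,2]), ([1,0,1],[0,1,0]), ([2,1,2],[1,2,1]), ([2,1,0,2],[1,2,1,0])]
  let tbl : List (List (Fin 3)) :=
    [[],[0],[1],[0,1],[1,0],[0,1,0],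
     [2],[0,2],[1,2],[0,1,2],[1,0,2],[0,1,0,2],
     [2,1],[0,2,1],[1,2,1],[0,1,2,1],[1,0,2,1],[0,1,0,2,1],
     [2,1,0],[0,2,1,0],[1,2,1,0],[0,1,2,1,0],[1,0,2,1,0],[0,1,0,2,1,0]]
  have hR : ∀ r ∈ R, evalW g r.1 = evalW g r.2 := by
    intro r hr
    simp only [R, List.mem_cons, List.not_mem_nil, or_false] at hr
    rcases hr with rfl | rfl | rfl | rfl | rfl | rfl | rfl
    · simpa [g] using ha2
    · simpa [g] using hb2
    · simpa [g] using hc2
    · simpa [g] using hac'.eq.symm
    · simpa [g, mul_assoc] using b1.symm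
    · simpa [g, mul_assoc] using b2.symm
    · simp only [g, evalW_cons, evalW_nil, Matrix.cons_val_zero, Matrix.cons_val_one, Matrix.cons_val, mul_one]
      calc c * (b * (a * c)) = c * (b * (c * a)) := by rw [hac'.eq]
        _ = (c * b * c) * a := by simp only [mul_assoc]
        _ = (b * c * b) * a := by rw [b2]
        _ = b * (c * (b * a)) := by simp only [mul_assoc]
  obtain ⟨φ, hφ, hφ2⟩ := exists_hom_of_rules (G := G) s g R hR tbl 12 (by decide)
    (by decide +kernel) (by decide +kernel) (by decide +kernel)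
  have hφ0 : φ (Equiv.swap 0 1) = a := hφ 0
  have hφ1 : φ (Equiv.swap 1 2) = b := hφ 1
  have hφ2' : φ (Equiv.swap 2 3) = c := hφ 2
  refine ⟨φ, ?_, hφ0, hφ1, hφ2'⟩
  rw [injective_iff_map_eq_one]
  intro σ hσ
  by_contra hne
  have key : ∀ σ : Equiv.Perm (Fin 4), σ ≠ 1 → ∃ x y : Equiv.Perm (Fin 4),
      (x * σ * x⁻¹) * (y * σ * y⁻¹) = Equiv.swap 0 1 * Equiv.swap 2 3 := by decide +kernel
  obtain ⟨x, y, hxy⟩ := key σ hne
  have h1 := congrArg φ hxy
  simp only [map_mul, map_inv, hσ, hφ0, hφ2', mul_one, mul_inv_cancel, one_mul] at h1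
  apply hac
  have h2 : a = c⁻¹ := eq_inv_of_mul_eq_one_left h1.symm
  rw [h2, inv_of_order_two (hD.1 c hc)]

end Cfsg.Agent.S5344
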