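import Cfsg.Statements.S5345
import Mathlib
import Cfsg.Agent.Lib.T3.Basic

set_option autoImplicit false
open Cfsg

namespace Cfsg.Agent.S5345

/-- Let D be a conjugation-invariant generating set of 3-transpositions of a finite group G and T a Sylow 2-subgroup of G. Then the members of D lying in T generate an abelian subgroup, and their number is the width of D (the largest number of pairwise commuting members of D). -/
theorem result {G : Type*} [Group G] [Finite G] {D : Set G} (hD : Cfsg.IsThreeTranspositionGroup D) (T : Sylow 2 G) : IsMulCommutative (Subgroup.closure {d : G | d ∈ D ∧ d ∈ T}) ∧ {d : G | d ∈ D ∧ d ∈ T}.ncard = Cfsg.commutingWidth D := by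
  classical
  obtain ⟨hT, hc, -⟩ := hD
  haveI : Fact (Nat.Prime 2) := ⟨Nat.prime_two⟩
  have hinv : ∀ d ∈ D, d⁻¹ = d := fun d hd => CfsgLib.T3.inv_of_order_two (hT.1 d hd)
  have hsq : ∀ d ∈ D, d * d = 1 := fun d hd => CfsgLib.T3.sq_of_order_two (hT.1 d hd)
  -- members of `D` in a Sylow subgroup commute
  have hcomm : ∀ (S : Sylow 2 G), ∀ a ∈ D, ∀ b ∈ D, a ∈ S → b ∈ S → a * b = b * a := by
    intro S a ha b hb haS hbS
    have hab : a * b ∈ S := mul_mem haS hbS
    have hp := S.isPGroup' ⟨a * b, hab⟩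
    obtain ⟨n, hn⟩ := hp
    have hn' : (a * b) ^ 2 ^ n = 1 := by simpa using congrArg Subtype.val hn
    rcases hT.2 a ha b hb with h | h
    · have h1 : a * b * (a * b) = 1 := by rw [← pow_two]; exact h
      have h2 : a * b = (a * b)⁻¹ := eq_inv_of_mul_eq_one_left h1
      rw [mul_inv_rev, hinv a ha, hinv b hb] at h2
      exact h2
    · have h1 : orderOf (a * b) ∣ 2 ^ n := orderOf_dvd_of_pow_eq_one hn'
      have h2 : orderOf (a * b) ∣ 3 := orderOf_dvd_of_pow_eq_one h
      have h3 : orderOf (a * b) = 1 :=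
        Nat.eq_one_of_dvd_coprimes (Nat.Coprime.pow_left n (by norm_num)) h1 h2
      have h4 : a * b = 1 := orderOf_eq_one_iff.1 h3
      have h5 : a = b⁻¹ := eq_inv_of_mul_eq_one_left h4
      rw [h5, hinv b hb]
  refine ⟨?_, ?_⟩
  · letI := Subgroup.closureCommGroupOfComm (k := {d : G | d ∈ D ∧ d ∈ T}) (by
      rintro x ⟨hx, hxT⟩ y ⟨hy, hyT⟩
      exact hcomm T x hx y hy hxT hyT)
    exact IsMulCommutative.of_comm mul_comm
  · -- conjugation transports
    have hncard : ∀ S : Sylow 2 G, {d : G | d ∈ D ∧ d ∈ S}.ncard = {d : G | d ∈ D ∧ d ∈ T}.ncard := by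
      intro S
      obtain ⟨g, rfl⟩ := MulAction.exists_smul_eq G T S
      have hmem : ∀ x, x ∈ (g • T : Sylow 2 G) ↔ g⁻¹ * x * g ∈ T := by
        intro x
        change x ∈ ((g • T : Sylow 2 G) : Subgroup G) ↔ _
        rw [Sylow.coe_subgroup_smul, Subgroup.mem_pointwise_smul_iff_inv_smul_mem, MulAut.smul_def,
          MulAut.conj_inv_apply]
        rfl
      have himg : {d : G | d ∈ D ∧ d ∈ (g • T : Sylow 2 G)} = (fun t => g * t * g⁻¹) '' {d : G | d ∈ D ∧ d ∈ T} := by
        ext x
        constructor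
        · rintro ⟨h1, h2⟩
          refine ⟨g⁻¹ * x * g, ⟨?_, (hmem x).1 h2⟩, by group⟩
          simpa using hc g⁻¹ x h1
        · rintro ⟨t, ⟨h1, h2⟩, rfl⟩
          refine ⟨hc g t h1, (hmem _).2 ?_⟩
          have : g⁻¹ * (g * t * g⁻¹) * g = t := by group
          rw [this]; exact h2
      rw [himg]
      apply Set.ncard_image_of_injective
      intro a b h
      have := congrArg (fun t => g⁻¹ * t * g) h
      simpa [mul_assoc] using this
    unfold Cfsg.commutingWidth
    set W := {n : ℕ | ∃ E : Set G, E ⊆ D ∧ E.Finite ∧ (∀ a ∈ E, ∀ b ∈ E, Commute a b) ∧ E.ncard = n} with hW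
    have hbound : ∀ n ∈ W, n ≤ {d : G | d ∈ D ∧ d ∈ T}.ncard := by
      rintro n ⟨E, hE, hfin, hEc, rfl⟩
      -- `E` lies in a Sylow subgroup
      have hcl : IsPGroup 2 (Subgroup.closure E) := by
        letI := Subgroup.closureCommGroupOfComm (k := E) (fun x hx y hy => hEc x hx y hy)
        have hsq' : ∀ x : Subgroup.closure E, x ^ 2 = 1 := by
          rintro ⟨x, hx⟩
          induction hx using Subgroup.closure_induction with
          | mem x hx =>
            apply Subtype.ext
            simpa [pow_two] using hsq x (hE hx)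
          | one => simp
          | mul x y hx hy ihx ihy =>
            have : (⟨x * y, mul_mem hx hy⟩ : Subgroup.closure E) = ⟨x, hx⟩ * ⟨y, hy⟩ := rfl
            rw [this, mul_pow, ihx, ihy, one_mul]
          | inv x hx ih =>
            have : (⟨x⁻¹, inv_mem hx⟩ : Subgroup.closure E) = (⟨x, hx⟩ : Subgroup.closure E)⁻¹ := rfl
            rw [this, inv_pow, ih, inv_one]
        intro x
        exact ⟨1, by simpa using hsq' x⟩
      obtain ⟨S, hS⟩ := hcl.exists_le_sylow
      rw [← hncard S]
      apply Set.ncard_le_ncard _ (Set.toFinite _)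
      intro x hx
      exact ⟨hE hx, hS (Subgroup.subset_closure hx)⟩
    have hmemW : {d : G | d ∈ D ∧ d ∈ T}.ncard ∈ W := by
      refine ⟨{d : G | d ∈ D ∧ d ∈ T}, fun x hx => hx.1, Set.toFinite _, ?_, rfl⟩
      rintro a ⟨ha, haT⟩ b ⟨hb, hbT⟩
      exact hcomm T a ha b hb haT hbT
    apply le_antisymm
    · exact le_csSup ⟨_, hbound⟩ hmemW
    · exact csSup_le ⟨_, hmemW⟩ hbound

end Cfsg.Agent.S5345
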