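import Cfsg.Statements.S5347
import Mathlib
import Cfsg.Agent.Lib.T3.Basic

set_option autoImplicit false
open Cfsg

namespace Cfsg.Agent.S5347

/-- Let D be a conjugation-invariant generating set of 3-transpositions of a finite group G, p a prime bigger than 3, and P a p-subgroup of G. If a member d of D normalizes P then d centralizes P. -/
theorem result {G : Type*} [Group G] [Finite G] {D : Set G} (hD : Cfsg.IsThreeTranspositionGroup D) {p : ℕ} (hp : p.Prime) (hp3 : 3 < p) (P : Subgroup G) (hP : IsPGroup p P) {d : G} (hd : d ∈ D) (hnorm : d ∈ Subgroup.normalizer (P : Set G)) : ∀ x ∈ P, Commute d x := by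
  classical
  intro x hx
  obtain ⟨hT, hc, -⟩ := hD
  have h1 : x * d * x⁻¹ ∈ D := hc x d hd
  -- the product lies in `P`
  have h2 : d * (x * d * x⁻¹) ∈ P := by
    have h3 : d * x * d⁻¹ ∈ P := (Subgroup.mem_normalizer_iff.1 hnorm x).1 hx
    have hdinv := CfsgLib.T3.inv_of_order_two (hT.1 d hd)
    have : d * (x * d * x⁻¹) = (d * x * d⁻¹) * x⁻¹ := by rw [hdinv]; group
    rw [this]
    exact mul_mem h3 (inv_mem hx)
  have hcop : ∀ k, k = 2 ∨ k = 3 → Nat.Coprime k p := by
    rintro k (rfl | rfl)
    · exact (Nat.coprime_primes Nat.prime_two hp).2 (by omega)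
    · exact (Nat.coprime_primes Nat.prime_three hp).2 (by omega)
  have hone : d * (x * d * x⁻¹) = 1 := by
    set u : P := ⟨_, h2⟩ with hu
    obtain ⟨n, hn⟩ := (hP u)
    have hpow : ∀ k, (d * (x * d * x⁻¹)) ^ k = 1 → (k = 2 ∨ k = 3) → d * (x * d * x⁻¹) = 1 := by
      intro k hk hk2
      have h5 : orderOf u ∣ k := by
        apply orderOf_dvd_of_pow_eq_one
        apply Subtype.ext
        simpa [hu] using hk
      have h6 : orderOf u ∣ p ^ n := orderOf_dvd_of_pow_eq_one hn
      have h7 : orderOf u = 1 := by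
        exact Nat.eq_one_of_dvd_coprimes ((hcop k hk2).pow_right n) h5 h6
      have h8 : u = 1 := orderOf_eq_one_iff.1 h7
      have := congrArg Subtype.val h8
      simpa [hu] using this
    rcases hT.2 d hd _ h1 with h | h
    · exact hpow 2 h (Or.inl rfl)
    · exact hpow 3 h (Or.inr rfl)
  have h9 : x * d * x⁻¹ = d := by
    have h10 : x * d * x⁻¹ = d⁻¹ := eq_inv_of_mul_eq_one_right hone
    rw [h10, CfsgLib.T3.inv_of_order_two (hT.1 d hd)]
  show d * x = x * d
  calc d * x = x * d * x⁻¹ * x := by rw [h9]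
    _ = x * d := by group

end Cfsg.Agent.S5347
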