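import Cfsg.Statements.S5358
import Mathlib

set_option autoImplicit false
open scoped MatrixGroups
open Cfsg

namespace Cfsg.Agent.S5358

/-- Let Q be a non-degenerate quadratic form on the n-dimensional coordinate space over the field with three elements and u, v vectors of the same non-zero norm Q(u) = Q(v) spanning different lines (v ≠ u and v ≠ −u). Then the reflection matrices of u and v commute if and only if u and v are orthogonal for the polar form of Q. -/
theorem result (n : ℕ) (Q : QuadraticForm (ZMod 3) (Fin n → ZMod 3)) (hQ : (QuadraticMap.polarBilin Q).Nondegenerate) (u v : Fin n → ZMod 3) (hu : Q u ≠ 0) (huv : Q u = Q v) (h1 : v ≠ u) (h2 : v ≠ -u) : Commute (Cfsg.reflectionMatrix (⇑Q) u) (Cfsg.reflectionMatrix (⇑Q) v) ↔ QuadraticMap.polar (⇑Q) u v = 0 := by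
  classical
  have hdot : ∀ w x : Fin n → ZMod 3, Cfsg.polarVec (⇑Q) w ⬝ᵥ x = QuadraticMap.polar (⇑Q) w x := by
    intro w x
    have hb : ∀ y, QuadraticMap.polar (⇑Q) w y = (QuadraticMap.polarBilin Q) w y := fun y => rfl
    rw [hb]
    have hx : x = ∑ j, x j • Pi.single j (1 : ZMod 3) := by
      ext i
      simp [Finset.sum_apply, Pi.single_apply]
    conv_rhs => rw [hx]
    rw [map_sum]
    simp only [map_smul, dotProduct, Cfsg.polarVec, smul_eq_mul]
    apply Finset.sum_congr rfl
    intro j _
    rw [mul_comm]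
    rfl
  have hsymm : ∀ a b : Fin n → ZMod 3, QuadraticMap.polar (⇑Q) a b = QuadraticMap.polar (⇑Q) b a := fun a b =>
    QuadraticMap.polar_comm _ a b
  have hself : ∀ a : Fin n → ZMod 3, QuadraticMap.polar (⇑Q) a a = 2 * Q a := by
    intro a
    have := QuadraticMap.polar_self Q a
    simpa using this
  have hQv : Q v ≠ 0 := huv ▸ hu
  unfold Cfsg.reflectionMatrix
  set p := QuadraticMap.polar (⇑Q) u v with hp
  set A := Matrix.vecMulVec u (Cfsg.polarVec (⇑Q) u) with hA
  set B := Matrix.vecMulVec v (Cfsg.polarVec (⇑Q) v) with hB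
  have hAB : A * B = p • Matrix.vecMulVec u (Cfsg.polarVec (⇑Q) v) := by
    rw [hA, hB, Matrix.vecMulVec_mul_vecMulVec, hdot]
    ext i j
    simp only [Matrix.vecMulVec_apply, Matrix.smul_apply, Pi.smul_apply, smul_eq_mul]
    rw [← hp]; ring
  have hBA : B * A = p • Matrix.vecMulVec v (Cfsg.polarVec (⇑Q) u) := by
    rw [hA, hB, Matrix.vecMulVec_mul_vecMulVec, hdot, hsymm v u]
    ext i j
    simp only [Matrix.vecMulVec_apply, Matrix.smul_apply, Pi.smul_apply, smul_eq_mul]
    rw [← hp]; ring
  set a := (Q u)⁻¹ with ha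
  set b := (Q v)⁻¹ with hb
  have ha0 : a ≠ 0 := inv_ne_zero hu
  have hb0 : b ≠ 0 := inv_ne_zero hQv
  have e1 : (1 - a • A) * (1 - b • B) = 1 - a • A - b • B + (a * b) • (A * B) := by
    simp only [mul_sub, sub_mul, one_mul, mul_one, Matrix.smul_mul, Matrix.mul_smul, smul_smul, mul_comm b a]
    abel
  have e2 : (1 - b • B) * (1 - a • A) = 1 - a • A - b • B + (a * b) • (B * A) := by
    simp only [mul_sub, sub_mul, one_mul, mul_one, Matrix.smul_mul, Matrix.mul_smul, smul_smul]
    abel
  constructor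
  · intro h
    by_contra hne
    have k1 : A * B = B * A := by
      have k2 : (1 - a • A) * (1 - b • B) = (1 - b • B) * (1 - a • A) := h
      rw [e1, e2] at k2
      have h3 := add_left_cancel k2
      exact smul_right_injective _ (mul_ne_zero ha0 hb0) h3
    rw [hAB, hBA] at k1
    have k2 : Matrix.vecMulVec u (Cfsg.polarVec (⇑Q) v) = Matrix.vecMulVec v (Cfsg.polarVec (⇑Q) u) :=
      smul_right_injective _ hne k1
    have h3 := congrArg (fun M => Matrix.mulVec M u) k2
    simp only [Matrix.vecMulVec_mulVec, hdot, hself] at h3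
    -- `p u = 2 Q(u) v`
    have h4 : p • u = (2 * Q u) • v := by
      rw [hp, hsymm u v]
      ext i
      have := congrFun h3 i
      simpa [mul_comm] using this
    have hc : (2 * Q u) ≠ 0 := mul_ne_zero (by decide) hu
    have h5 : v = ((2 * Q u)⁻¹ * p) • u := by
      rw [mul_smul, h4, smul_smul, inv_mul_cancel₀ hc, one_smul]
    have hs : ∀ s : ZMod 3, s ≠ 0 → s = 1 ∨ s = -1 := by decide
    have hs0 : (2 * Q u)⁻¹ * p ≠ 0 := mul_ne_zero (inv_ne_zero hc) hne
    rcases hs _ hs0 with h6 | h6
    · rw [h6, one_smul] at h5; exact h1 h5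
    · rw [h6, neg_one_smul] at h5; exact h2 h5
  · intro h
    have h0 : p = 0 := h
    show (1 - a • A) * (1 - b • B) = (1 - b • B) * (1 - a • A)
    rw [e1, e2, hAB, hBA, h0, zero_smul, zero_smul]

end Cfsg.Agent.S5358
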