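import Cfsg.Statements.S5363
import Mathlib
import Cfsg.Agent.Lib.T3.Basic

set_option autoImplicit false
open Cfsg

namespace Cfsg.Agent.S5363

/-- Let D be a conjugation-invariant set of involutions of a finite group G. Then every product of two members of D has odd order or order 2 if and only if, for every a in D and every b in D different from a and commuting with a, the members of D commuting with a b are exactly those commuting with both a and b. -/
theorem result {G : Type*} [Group G] [Finite G] {D : Set G} (hinv : ∀ d ∈ D, orderOf d = 2) (hconj : ∀ g : G, ∀ d ∈ D, g * d * g⁻¹ ∈ D) : (∀ a ∈ D, ∀ b ∈ D, Odd (orderOf (a * b)) ∨ orderOf (a * b) = 2) ↔ ∀ a ∈ D, ∀ b ∈ D, b ≠ a → Commute a b → {y : G | y ∈ D ∧ Commute (a * b) y} = {y : G | y ∈ D ∧ Commute a y} ∩ {y : G | y ∈ D ∧ Commute b y} := by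
  classical
  have hsq : ∀ d ∈ D, d * d = 1 := fun d hd => CfsgLib.T3.sq_of_order_two (hinv d hd)
  have hinv' : ∀ d ∈ D, d⁻¹ = d := fun d hd => CfsgLib.T3.inv_of_order_two (hinv d hd)
  constructor
  · intro h a ha b hb hba hab
    -- a helper for one side
    have side : ∀ a ∈ D, ∀ b ∈ D, b ≠ a → Commute a b → ∀ y ∈ D, Commute (a * b) y → Commute a y := by
      intro a ha b hb hba hab y hy hy2
      by_contra hn
      set t := a * b with ht
      have ha2 := hsq a ha
      have hb2 := hsq b hb
      have ht2 : t * t = 1 := by
        calc t * t = a * (b * a) * b := by simp only [ht, mul_assoc]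
          _ = a * (a * b) * b := by rw [hab.eq]
          _ = 1 := by rw [← mul_assoc a a, ha2, one_mul, hb2]
      have ht1 : t ≠ 1 := by
        intro h1
        apply hba
        have : a = b⁻¹ := eq_inv_of_mul_eq_one_left h1
        rw [this, hinv' b hb]
      have hot : orderOf t = 2 := by
        apply orderOf_eq_prime (by rw [pow_two]; exact ht2) ht1
      have hk := h y hy a ha
      have hb' : b = a * t := by rw [ht, ← mul_assoc, ha2, one_mul]
      have hat : Commute a t := (Commute.refl a).mul_right hab
      have hr : Commute (y * a) t := (hy2.symm).mul_left hat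
      have hya : y * a * (y * a) ≠ 1 := by
        intro h1
        apply hn
        have h2 : y * a = (y * a)⁻¹ := eq_inv_of_mul_eq_one_left h1
        rw [mul_inv_rev, hinv' a ha, hinv' y hy] at h2
        exact h2.symm
      have hnot2 : orderOf (y * a) ≠ 2 := by
        intro h1
        exact hya (CfsgLib.T3.sq_of_order_two h1)
      have hk1 : orderOf (y * a) ≠ 1 := by
        intro h1
        apply hya
        rw [orderOf_eq_one_iff.1 h1, one_mul]
      have hodd : Odd (orderOf (y * a)) := by
        rcases hk with hk | hk
        · exact hk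
        · exact absurd hk hnot2
      have hcop : Nat.Coprime (orderOf (y * a)) (orderOf t) := by
        rw [hot]; exact Nat.coprime_two_right.2 hodd
      have hord := hr.orderOf_mul_eq_mul_orderOf_of_coprime hcop
      have hyb : y * b = y * a * t := by rw [hb', mul_assoc]
      have h3 := h y hy b hb
      rw [hyb, hord, hot] at h3
      rcases h3 with h3 | h3
      · exact (Nat.not_odd_iff_even.2 (even_two.mul_left _)) h3
      · exact hk1 (by omega)
    ext y
    simp only [Set.mem_inter_iff]
    constructor
    · rintro ⟨hy, hy2⟩
      refine ⟨⟨hy, side a ha b hb hba hab y hy hy2⟩, ⟨hy, ?_⟩⟩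
      refine side b hb a ha (Ne.symm hba) hab.symm y hy ?_
      rw [← hab.eq]; exact hy2
    · rintro ⟨⟨hy, h1⟩, ⟨-, h2⟩⟩
      exact ⟨hy, h1.mul_left h2⟩
  · intro h a ha b hb
    set r := a * b with hr
    by_cases hodd : Odd (orderOf r)
    · exact Or.inl hodd
    · right
      obtain ⟨m, hm⟩ := Nat.not_odd_iff_even.1 hodd
      have hpos : 0 < orderOf r := orderOf_pos r
      by_contra hne
      have hm2 : 2 ≤ m := by omega
      have ha2 := hsq a ha
      have hb2 := hsq b hb
      -- inversion
      have hinvA : ∀ k : ℕ, a * r ^ k * a = (r ^ k)⁻¹ := by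
        intro k
        have hz : a * r * a⁻¹ = r⁻¹ := by
          rw [hinv' a ha, hr, mul_inv_rev, hinv' a ha, hinv' b hb]
          simp only [← mul_assoc, ha2, one_mul]
        have := conj_pow (a := a) (b := r) (i := k)
        rw [hz, hinv' a ha, inv_pow] at this
        exact this.symm
      have hinvB : ∀ k : ℕ, b * r ^ k * b = (r ^ k)⁻¹ := by
        intro k
        have hz : b * r * b⁻¹ = r⁻¹ := by
          rw [hinv' b hb, hr, mul_inv_rev, hinv' a ha, hinv' b hb]
          simp only [mul_assoc, hb2, mul_one]
        have := conj_pow (a := b) (b := r) (i := k)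
        rw [hz, hinv' b hb, inv_pow] at this
        exact this.symm
      -- all `a r^i` lie in `D`
      have hmem : ∀ k : ℕ, a * r ^ k ∈ D ∧ a * r ^ (k + 1) ∈ D := by
        intro k
        induction k with
        | zero =>
          refine ⟨by simpa using ha, ?_⟩
          have : a * r ^ (0 + 1) = b := by rw [zero_add, pow_one, hr, ← mul_assoc, ha2, one_mul]
          rw [this]; exact hb
        | succ k ih =>
          refine ⟨ih.2, ?_⟩
          have h1 := hconj r⁻¹ _ ih.1
          have : a * r ^ (k + 1 + 1) = r⁻¹ * (a * r ^ k) * r⁻¹⁻¹ := by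
            have h2 : r⁻¹ * a = a * r := by
              calc r⁻¹ * a = b * a * a := by rw [hr, mul_inv_rev, hinv' a ha, hinv' b hb]
                _ = b := by rw [mul_assoc, ha2, mul_one]
                _ = a * r := by rw [hr, ← mul_assoc, ha2, one_mul]
            rw [inv_inv, ← mul_assoc r⁻¹ a, h2, pow_succ, pow_succ']
            simp only [mul_assoc]
          rw [this]; exact h1
      set w := r ^ m with hw
      have hw2 : w * w = 1 := by
        rw [hw, ← pow_add, ← hm]; exact pow_orderOf_eq_one r
      have hw1 : w ≠ 1 := by
        intro h1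
        have := orderOf_dvd_of_pow_eq_one h1
        have h5 := Nat.le_of_dvd (by omega) this
        omega
      have hwinv : w⁻¹ = w := inv_eq_of_mul_eq_one_left hw2
      have hcD : a * w ∈ D := (hmem m).1
      have hne2 : a * w ≠ a := by
        intro h1
        apply hw1
        exact mul_left_cancel (h1.trans (mul_one a).symm)
      have hac : Commute a (a * w) := by
        show a * (a * w) = a * w * a
        have h6 := hinvA m
        rw [← hw, hwinv] at h6
        rw [h6, ← mul_assoc, ha2, one_mul]
      have hS := h a ha (a * w) hcD hne2 hac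
      have hwa : a * (a * w) = w := by rw [← mul_assoc, ha2, one_mul]
      rw [hwa] at hS
      have hbw : Commute w b := by
        show w * b = b * w
        have h6 := hinvB m
        rw [← hw, hwinv] at h6
        calc w * b = (b * w * b) * b := by rw [h6]
          _ = b * w := by rw [mul_assoc, hb2, mul_one]
      have hbmem : b ∈ ({y : G | y ∈ D ∧ Commute w y} : Set G) := ⟨hb, hbw⟩
      rw [hS] at hbmem
      have hcomm : Commute a b := hbmem.1.2
      have hr2 : r ^ 2 = 1 := by
        rw [pow_two, hr]
        calc a * b * (a * b) = a * (b * a) * b := by simp only [mul_assoc]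
          _ = a * (a * b) * b := by rw [hcomm.symm.eq]
          _ = 1 := by rw [← mul_assoc a a, ha2, one_mul, hb2]
      have := Nat.le_of_dvd (by norm_num) (orderOf_dvd_of_pow_eq_one hr2)
      omega

end Cfsg.Agent.S5363
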