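import Cfsg.Statements.S5364
import Cfsg.Agent.Lib.T3.Basic

set_option autoImplicit false
open Cfsg

namespace Cfsg.Agent.S5364

/-- Let D be a conjugation-invariant set of involutions of a finite group G and t an involution in the centre of G such that d t does not lie in D for any d in D. If the images of the members of D in G modulo the subgroup generated by t satisfy the 3-transposition order conditions (each has order 2 and any two have product of order at most 3), then so do the members of D. -/
theorem result {G : Type*} [Group G] [Finite G] {D : Set G} (hinv : ∀ d ∈ D, orderOf d = 2) (hconj : ∀ g : G, ∀ d ∈ D, g * d * g⁻¹ ∈ D) (t : G) (ht : orderOf t = 2) (htZ : t ∈ Subgroup.center G) (hDt : ∀ d ∈ D, d * t ∉ D) [(Subgroup.zpowers t).Normal] (himg : Cfsg.IsThreeTranspositionSet ((QuotientGroup.mk : G → G ⧸ Subgroup.zpowers t) '' D)) : Cfsg.IsThreeTranspositionSet D := by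
  classical
  refine ⟨hinv, ?_⟩
  intro d hd e he
  have ht2 : t * t = 1 := CfsgLib.T3.sq_of_order_two ht
  have htc : ∀ x : G, t * x = x * t := fun x => ((Subgroup.mem_center_iff.1 htZ) x).symm
  have hmem : ∀ x : G, x ∈ Subgroup.zpowers t → x = 1 ∨ x = t := by
    intro x hx
    obtain ⟨k, rfl⟩ := Subgroup.mem_zpowers_iff.1 hx
    rcases Int.even_or_odd' k with ⟨j, rfl | rfl⟩
    · left
      rw [zpow_mul, zpow_two, ht2, one_zpow]
    · right
      rw [zpow_add, zpow_mul, zpow_two, ht2, one_zpow, one_mul, zpow_one]
  have hd2 := CfsgLib.T3.sq_of_order_two (hinv d hd)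
  have he2 := CfsgLib.T3.sq_of_order_two (hinv e he)
  have hdinv := CfsgLib.T3.inv_of_order_two (hinv d hd)
  have heinv := CfsgLib.T3.inv_of_order_two (hinv e he)
  have himg' := himg.2 (QuotientGroup.mk d) ⟨d, hd, rfl⟩ (QuotientGroup.mk e) ⟨e, he, rfl⟩
  rcases himg' with h | h
  · -- square
    left
    have h1 : (d * e) ^ 2 ∈ Subgroup.zpowers t := by
      rw [← QuotientGroup.eq_one_iff]
      simpa using h
    rcases hmem _ h1 with h2 | h2
    · exact h2
    · exfalso
      -- `d e d = t e`
      have h3 : d * e * d⁻¹ ∈ D := hconj d e he
      apply hDt e he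
      have : e * t = d * e * d⁻¹ := by
        have h5 : d * e * d * e = t := by rw [← h2, pow_two]; simp only [mul_assoc]
        rw [hdinv, ← h5]
        calc e * (d * e * d * e) = (e * (d * e * d)) * e := by simp only [mul_assoc]
          _ = (d * e * d) * e * e := by
              have : e * (d * e * d) = (d * e * d) * e ∨ True := Or.inr trivial
              have h6 : t * e = e * t := htc e
              have h7 : d * e * d = t * e := by
                rw [← h5]; simp only [mul_assoc, he2, mul_one]
              rw [h7, ← mul_assoc, ← htc e]
          _ = d * e * d := by rw [mul_assoc _ e e, he2, mul_one]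
      rw [this]; exact h3
  · right
    have h1 : (d * e) ^ 3 ∈ Subgroup.zpowers t := by
      rw [← QuotientGroup.eq_one_iff]
      simpa using h
    rcases hmem _ h1 with h2 | h2
    · exact h2
    · exfalso
      -- `(d e)^3 = f e` with `f` conjugate of `d`
      set f := (d * e) * d * (d * e)⁻¹ with hf
      have hfD : f ∈ D := hconj (d * e) d hd
      have h3 : f * e = t := by
        rw [← h2, hf, mul_inv_rev, hdinv, heinv]
        simp only [pow_succ, pow_zero, one_mul, mul_assoc]
      have h4 : f = e * t := by
        have : f = t * e := by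
          rw [← h3, mul_assoc, he2, mul_one]
        rw [this, htc e]
      apply hDt e he
      rw [← h4]; exact hfD

end Cfsg.Agent.S5364
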