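import Cfsg.Statements.S5394
import Cfsg.Agent.Lib.Golay.ClassUse

set_option autoImplicit false
open Cfsg

namespace Cfsg.Agent.S5394

/-- The automorphism group of the length-24 code built from the squares modulo 23 has exactly two conjugacy classes of involutions: an involution either fixes exactly the eight points of an octad or has no fixed points, both kinds occur, and any two involutions of the same kind are conjugate in the group. -/
theorem result : (∀ g ∈ Cfsg.M24, orderOf g = 2 → (Finset.univ.filter fun p => g p = p) ∈ Cfsg.octads ∨ ∀ p, g p ≠ p) ∧ (∃ g ∈ Cfsg.M24, orderOf g = 2 ∧ (Finset.univ.filter fun p => g p = p) ∈ Cfsg.octads) ∧ (∃ g ∈ Cfsg.M24, orderOf g = 2 ∧ ∀ p, g p ≠ p) ∧ ∀ g ∈ Cfsg.M24, ∀ h ∈ Cfsg.M24, orderOf g = 2 → orderOf h = 2 → ((∀ p, g p ≠ p) ↔ (∀ p, h p ≠ p)) → ∃ k ∈ Cfsg.M24, k * g * k⁻¹ = h := by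
  open CfsgLib.Golay in
  refine ⟨?_, ⟨_, mk_mem_M24 t2A_aut, mk_t2A_ord, fix_t2A_mem⟩,
    ⟨_, mk_mem_M24 t2B_aut, mk_t2B_ord, fpf_of_card_zero fix_t2B_card⟩, ?_⟩
  · intro g hg h2
    rcases invol_cases hg h2 with ⟨k, hk, h⟩ | ⟨-, h⟩
    · left
      apply fix_octad_of_conj hk
      rw [h]
      exact fix_t2A_mem
    · exact Or.inr h
  · intro g hg u hu h1 h2 h3
    rcases invol_cases hg h1 with h4 | ⟨h4, h5⟩ <;> rcases invol_cases hu h2 with h6 | ⟨h6, h7⟩
    · exact conj_eq_of_two h4 h6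
    · exfalso
      obtain ⟨k, -, e⟩ := h4
      have h8 := card_fix_conj k g
      rw [e, fix_t2A_card] at h8
      exact absurd (card_zero_of_fpf (h3.mpr h7)) (by omega)
    · exfalso
      obtain ⟨k, -, e⟩ := h6
      have h8 := card_fix_conj k u
      rw [e, fix_t2A_card] at h8
      exact absurd (card_zero_of_fpf (h3.mp h5)) (by omega)
    · exact conj_eq_of_two h4 h6


end Cfsg.Agent.S5394
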