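import Cfsg.Statements.S5395
import Mathlib

set_option autoImplicit false
open Cfsg

namespace Cfsg.Agent.S5395

/-- For a finite extraspecial 2-group E, an automorphism of E that induces the identity on E modulo its centre is inner (so these automorphisms form exactly the inner automorphism group, an elementary abelian 2-group of order |E|/2). -/
theorem result {E : Type*} [Group E] [Finite E] (hE : Cfsg.IsExtraspecial 2 E) (φ : E ≃* E) (hφ : ∀ x : E, φ x * x⁻¹ ∈ Subgroup.center E) : ∃ g : E, ∀ x : E, φ x = g * x * g⁻¹ := by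
  classical
  obtain ⟨⟨-, -, hcomm⟩, hcard⟩ := hE
  letI : CommGroup (Subgroup.center E) :=
    { (inferInstance : Group (Subgroup.center E)) with
      mul_comm := fun a b => by
        apply Subtype.ext
        exact (Subgroup.mem_center_iff.1 a.2 (b : E)).symm }
  haveI : Finite (Abelianization E) := by
    unfold Abelianization; infer_instance
  -- the commutator map
  have hmemZ : ∀ g x : E, g * x * g⁻¹ * x⁻¹ ∈ (Subgroup.center E) := by
    intro g x
    rw [← hcomm]
    exact Subgroup.commutator_mem_commutator (Subgroup.mem_top g) (Subgroup.mem_top x)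
  have hcen : ∀ (t : (Subgroup.center E)) (y : E), (t : E) * y = y * t := by
    intro t y
    exact (Subgroup.mem_center_iff.1 t.2 y).symm
  let c0 : E → E →* (Subgroup.center E) := fun g => MonoidHom.mk' (fun x => ⟨g * x * g⁻¹ * x⁻¹, hmemZ g x⟩) (by
    intro a b
    apply Subtype.ext
    show g * (a * b) * g⁻¹ * (a * b)⁻¹ = (g * a * g⁻¹ * a⁻¹) * (g * b * g⁻¹ * b⁻¹)
    have h1 := hcen ⟨_, hmemZ g b⟩ a
    have h1' : (g * b * g⁻¹ * b⁻¹) * a = a * (g * b * g⁻¹ * b⁻¹) := h1
    calc g * (a * b) * g⁻¹ * (a * b)⁻¹ = (g * a * g⁻¹ * a⁻¹) * (a * (g * b * g⁻¹ * b⁻¹)) * a⁻¹ := by group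
      _ = (g * a * g⁻¹ * a⁻¹) * ((g * b * g⁻¹ * b⁻¹) * a) * a⁻¹ := by rw [h1']
      _ = (g * a * g⁻¹ * a⁻¹) * (g * b * g⁻¹ * b⁻¹) := by group)
  have hc0 : ∀ g x, ((c0 g x : (Subgroup.center E)) : E) = g * x * g⁻¹ * x⁻¹ := fun _ _ => rfl
  let c : E →* (E →* (Subgroup.center E)) := MonoidHom.mk' c0 (by
    intro g h
    ext x
    show (g * h) * x * (g * h)⁻¹ * x⁻¹ = ((c0 g * c0 h) x : (Subgroup.center E))
    rw [MonoidHom.mul_apply, Subgroup.coe_mul, hc0, hc0]
    have h1 := hcen ⟨_, hmemZ h x⟩ (g * x * g⁻¹ * x⁻¹)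
    have h2 := hcen ⟨_, hmemZ h x⟩ x
    have h3 := hcen ⟨_, hmemZ h x⟩ g
    have h1' : (h * x * h⁻¹ * x⁻¹) * (g * x * g⁻¹ * x⁻¹) = (g * x * g⁻¹ * x⁻¹) * (h * x * h⁻¹ * x⁻¹) := h1
    have h2' : (h * x * h⁻¹ * x⁻¹) * x = x * (h * x * h⁻¹ * x⁻¹) := h2
    have h3' : (h * x * h⁻¹ * x⁻¹) * g = g * (h * x * h⁻¹ * x⁻¹) := h3
    rw [← h1']
    calc (g * h) * x * (g * h)⁻¹ * x⁻¹ = g * (h * x * h⁻¹ * x⁻¹) * x * g⁻¹ * x⁻¹ := by group
      _ = (h * x * h⁻¹ * x⁻¹) * g * x * g⁻¹ * x⁻¹ := by rw [h3']
      _ = _ := by group)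
  have hcapply : ∀ g x, ((c g x : (Subgroup.center E)) : E) = g * x * g⁻¹ * x⁻¹ := fun _ _ => rfl
  have hker : c.ker = commutator E := by
    rw [hcomm]
    ext g
    rw [MonoidHom.mem_ker, Subgroup.mem_center_iff]
    constructor
    · intro h x
      have h1 : ((c g x : (Subgroup.center E)) : E) = 1 := by rw [h]; rfl
      rw [hcapply] at h1
      have h2 : g * x * g⁻¹ = x := by
        have := mul_eq_one_iff_eq_inv.1 h1
        simpa using this
      calc x * g = g * x * g⁻¹ * g := by rw [h2]
        _ = g * x := by group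
    · intro h
      ext x
      show g * x * g⁻¹ * x⁻¹ = 1
      rw [← h x]; group
  -- counting homomorphisms
  have hcount : Nat.card (E →* (Subgroup.center E)) ≤ Nat.card (Abelianization E) := by
    -- an injection of `(Subgroup.center E)` into the units of `ℂ`
    have h2 := (Nat.card_eq_two_iff' (1 : (Subgroup.center E))).1 hcard
    obtain ⟨w, hw, hw2⟩ := h2
    have hzz : ∀ t : (Subgroup.center E), t ≠ 1 → t * t = 1 := by
      intro t ht
      have h3 : t = w := hw2 t ht
      have h4 : t ^ Nat.card (Subgroup.center E) = 1 := pow_card_eq_one'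
      rw [hcard, pow_two] at h4
      exact h4
    have heq : ∀ s t : (Subgroup.center E), s ≠ 1 → t ≠ 1 → s = t := fun s t hs ht => (hw2 s hs).trans (hw2 t ht).symm
    let ι : (Subgroup.center E) →* ℂˣ := MonoidHom.mk' (fun t => if t = 1 then 1 else -1) (by
      intro a b
      by_cases ha : a = 1
      · subst ha; simp
      · by_cases hb : b = 1
        · subst hb; simp
        · have hab : a * b = 1 := by rw [heq a b ha hb]; exact hzz b hb
          simp [ha, hb, hab])
    have hι : Function.Injective ι := by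
      rw [injective_iff_map_eq_one]
      intro t ht
      by_contra hne
      have h5 : ι t = -1 := if_neg hne
      rw [h5] at ht
      have h6 := congrArg (fun u : ℂˣ => (u : ℂ)) ht
      norm_num at h6
    let F : (E →* (Subgroup.center E)) → (Abelianization E →* ℂˣ) := fun f => ι.comp (Abelianization.lift f)
    have hF : Function.Injective F := by
      intro f g h
      have h7 : Abelianization.lift f = Abelianization.lift g := by
        ext x
        have := DFunLike.congr_fun h (Abelianization.of x)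
        simp only [F, MonoidHom.comp_apply] at this
        exact congrArg _ (hι this)
      exact Abelianization.lift.injective h7
    have h8 : Nat.card (Abelianization E →* ℂˣ) = Nat.card (Abelianization E) :=
      CommGroup.card_monoidHom_of_hasEnoughRootsOfUnity (Abelianization E) ℂ
    rw [← h8]
    exact Nat.card_le_card_of_injective F hF
  have hrange : Nat.card c.range = Nat.card (Abelianization E) := by
    rw [Nat.card_congr (QuotientGroup.quotientKerEquivRange c).symm.toEquiv, hker]
    rfl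
  haveI : Finite (E →* (Subgroup.center E)) := by
    apply Finite.of_injective (fun f : E →* (Subgroup.center E) => (f : E → (Subgroup.center E)))
    exact DFunLike.coe_injective
  have htop : c.range = ⊤ := by
    apply Subgroup.eq_top_of_le_card
    rw [hrange]
    exact hcount
  -- the map attached to `φ`
  let f : E →* (Subgroup.center E) := MonoidHom.mk' (fun x => ⟨φ x * x⁻¹, hφ x⟩) (by
    intro a b
    apply Subtype.ext
    show φ (a * b) * (a * b)⁻¹ = (φ a * a⁻¹) * (φ b * b⁻¹)
    have h1 := hcen ⟨_, hφ b⟩ a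
    have h1' : (φ b * b⁻¹) * a = a * (φ b * b⁻¹) := h1
    rw [map_mul]
    calc φ a * φ b * (a * b)⁻¹ = φ a * a⁻¹ * (a * (φ b * b⁻¹)) * a⁻¹ := by group
      _ = φ a * a⁻¹ * ((φ b * b⁻¹) * a) * a⁻¹ := by rw [h1']
      _ = (φ a * a⁻¹) * (φ b * b⁻¹) := by group)
  have hfmem : f ∈ c.range := by rw [htop]; exact Subgroup.mem_top f
  obtain ⟨g, hg⟩ := hfmem
  refine ⟨g, fun x => ?_⟩
  have h1 : ((c g x : (Subgroup.center E)) : E) = ((f x : (Subgroup.center E)) : E) := by rw [hg]
  rw [hcapply] at h1
  have h2 : ((f x : (Subgroup.center E)) : E) = φ x * x⁻¹ := rfl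
  rw [h2] at h1
  exact (mul_right_cancel h1).symm

end Cfsg.Agent.S5395
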