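import Cfsg.Statements.S5420
import Mathlib
import Cfsg.Agent.Lib.Solv.Core

set_option autoImplicit false
open Cfsg

namespace Cfsg.Agent.S5420

/-- Let Q be an extraspecial 2-subgroup of the finite group G whose centralizer in G is its centre Z and which is normal in the centralizer of Z. If Z lies in the largest normal 2-subgroup of G, then Q is a large extraspecial 2-subgroup of G: it normalizes no non-trivial subgroup of G of odd order. -/
theorem result {G : Type*} [Group G] [Finite G] (Q : Subgroup G) (hL1 : Cfsg.IsExtraspecial 2 ↥Q) (hL2 : Subgroup.centralizer (Q : Set G) = ((Subgroup.center ↥Q).map Q.subtype)) (hL3 : Subgroup.centralizer (((Subgroup.center ↥Q).map Q.subtype) : Set G) ≤ Subgroup.normalizer (Q : Set G)) (hZ : ((Subgroup.center ↥Q).map Q.subtype) ≤ Cfsg.pCore 2 G) : Cfsg.IsLargeExtraspecial Q := by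
  classical
  refine ⟨hL1, hL2, hL3, ?_⟩
  intro K hK hQK
  set Z : Subgroup G := (Subgroup.center ↥Q).map Q.subtype with hZdef
  have hQ2 : IsPGroup 2 (↥Q) := hL1.1.1
  -- members of a 2-group have 2-power order, members of `K` have odd order
  have hodd_two : ∀ (R : Subgroup G), IsPGroup 2 R → ∀ x ∈ R, x ∈ K → x = 1 := by
    intro R hR x hxR hxK
    obtain ⟨n, hn⟩ := hR ⟨x, hxR⟩
    have h1 : x ^ 2 ^ n = 1 := by simpa using congrArg Subtype.val hn
    have h2 : orderOf x ∣ 2 ^ n := orderOf_dvd_of_pow_eq_one h1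
    have h3 : orderOf (⟨x, hxK⟩ : K) ∣ Nat.card K := orderOf_dvd_natCard _
    have h4 : orderOf (⟨x, hxK⟩ : K) = orderOf x := Subgroup.orderOf_mk x hxK
    rw [h4] at h3
    have h5 : Nat.Coprime (2 ^ n) (Nat.card K) := Nat.Coprime.pow_left n (Nat.coprime_two_left.2 hK)
    have h6 : orderOf x = 1 := Nat.eq_one_of_dvd_coprimes h5 h2 h3
    exact orderOf_eq_one_iff.1 h6
  haveI : Fact (Nat.Prime 2) := ⟨Nat.prime_two⟩
  have hcore : IsPGroup 2 (Cfsg.pCore 2 G) := CfsgLib.Solv.pCore_isPGroup 2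
  have hcoreN : (Cfsg.pCore 2 G).Normal := CfsgLib.Solv.pCore_normal' 2
  -- `K` centralises `Z`
  have hZQ : Z ≤ Q := by
    rintro _ ⟨x, _, rfl⟩; exact x.2
  have hKZ : ∀ k ∈ K, ∀ z ∈ Z, k * z * k⁻¹ * z⁻¹ = 1 := by
    intro k hk z hz
    apply hodd_two (Cfsg.pCore 2 G) hcore
    · exact mul_mem (hcoreN.conj_mem z (hZ hz) k) (inv_mem (hZ hz))
    · have h1 : z * k⁻¹ * z⁻¹ ∈ K := (Subgroup.mem_normalizer_iff.1 (hQK (hZQ hz)) k⁻¹).1 (inv_mem hk)
      have : k * z * k⁻¹ * z⁻¹ = k * (z * k⁻¹ * z⁻¹) := by group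
      rw [this]; exact mul_mem hk h1
  have hKC : K ≤ Subgroup.centralizer (Z : Set G) := by
    intro k hk
    rw [Subgroup.mem_centralizer_iff]
    intro z hz
    have := hKZ k hk z hz
    have h2 : k * z * k⁻¹ = z := by
      have := mul_eq_one_iff_eq_inv.1 this
      simpa using this
    calc z * k = k * z * k⁻¹ * k := by rw [h2]
      _ = k * z := by group
  -- hence normalises `Q`; so it centralises `Q`
  have hKQ : ∀ k ∈ K, ∀ q ∈ Q, k * q * k⁻¹ * q⁻¹ = 1 := by
    intro k hk q hq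
    apply hodd_two Q hQ2
    · have h1 : k * q * k⁻¹ ∈ Q := (Subgroup.mem_normalizer_iff.1 (hL3 (hKC hk)) q).1 hq
      exact mul_mem h1 (inv_mem hq)
    · have h1 : q * k⁻¹ * q⁻¹ ∈ K := (Subgroup.mem_normalizer_iff.1 (hQK hq) k⁻¹).1 (inv_mem hk)
      have : k * q * k⁻¹ * q⁻¹ = k * (q * k⁻¹ * q⁻¹) := by group
      rw [this]; exact mul_mem hk h1
  have hKQ' : K ≤ Subgroup.centralizer (Q : Set G) := by
    intro k hk
    rw [Subgroup.mem_centralizer_iff]
    intro q hq
    have := hKQ k hk q hq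
    have h2 : k * q * k⁻¹ = q := by
      have := mul_eq_one_iff_eq_inv.1 this
      simpa using this
    calc q * k = k * q * k⁻¹ * k := by rw [h2]
      _ = k * q := by group
  rw [eq_bot_iff]
  intro k hk
  have hkZ : k ∈ Z := by rw [← hL2]; exact hKQ' hk
  rw [Subgroup.mem_bot]
  exact hodd_two Q hQ2 k (hZQ hkZ) hk

end Cfsg.Agent.S5420
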