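import Cfsg.Statements.S5433
import Mathlib
import Cfsg.Agent.Lib.T3.Large

set_option autoImplicit false
open Cfsg

namespace Cfsg.Agent.S5433

/-- Let Q be a large extraspecial 2-subgroup of the finite group G (extraspecial; centralizer equal to its centre; normal in the centralizer of its centre; normalizing no non-trivial subgroup of odd order), and L a normal subgroup of G containing Q. Then G is the product of L and the normalizer of Q. -/
theorem result {G : Type*} [Group G] [Finite G] (Q : Subgroup G) (hQ : Cfsg.IsLargeExtraspecial Q) (L : Subgroup G) [L.Normal] (hQL : Q ≤ L) : L ⊔ Subgroup.normalizer (Q : Set G) = ⊤ := by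
  classical
  obtain ⟨hE, hL2, hL3, -⟩ := hQ
  have hcard : Nat.card (Subgroup.center ↥Q) = 2 := hE.2
  have hQ2 : IsPGroup 2 ↥Q := hE.1.1
  have hself : Subgroup.centralizer (Q : Set G) ≤ Q := by
    rw [hL2]
    rintro _ ⟨x, _, rfl⟩
    exact x.2
  -- the generator of the centre
  have hnt : Nontrivial (Subgroup.center ↥Q) := by
    apply Finite.one_lt_card_iff_nontrivial.1
    rw [hcard]; norm_num
  obtain ⟨y, hy⟩ := exists_ne (1 : Subgroup.center ↥Q)
  set z : G := ((y : ↥Q) : G) with hz
  have hzQ : z ∈ Q := (y : ↥Q).2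
  have hz1 : z ≠ 1 := by
    intro h
    apply hy
    apply Subtype.ext
    apply Subtype.ext
    exact h
  have hzc : ∀ q ∈ Q, q * z = z * q := by
    intro q hq
    have := (Subgroup.mem_center_iff.1 y.2) ⟨q, hq⟩
    exact congrArg Subtype.val this
  -- the image of the centre
  have hZmem : ∀ x ∈ ((Subgroup.center ↥Q).map Q.subtype : Subgroup G), x = 1 ∨ x = z := by
    rintro _ ⟨x, hx, rfl⟩
    have h2 := (Nat.card_eq_two_iff' (1 : Subgroup.center ↥Q)).1 hcard
    obtain ⟨w, hw, hw2⟩ := h2
    by_cases hx1 : (⟨x, hx⟩ : Subgroup.center ↥Q) = 1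
    · left
      have := congrArg (fun t : Subgroup.center ↥Q => ((t : ↥Q) : G)) hx1
      simpa using this
    · right
      have h5 := hw2 _ hx1
      have h6 := hw2 _ hy
      have h7 : (⟨x, hx⟩ : Subgroup.center ↥Q) = y := h5.trans h6.symm
      exact congrArg (fun t : Subgroup.center ↥Q => ((t : ↥Q) : G)) h7
  haveI : Fact (Nat.Prime 2) := ⟨Nat.prime_two⟩
  -- a Sylow subgroup of `L` containing `Q`
  have hQLp : IsPGroup 2 (Q.subgroupOf L) := hQ2.comap_of_injective L.subtype L.subtype_injective
  obtain ⟨S, hS⟩ := hQLp.exists_le_sylow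
  set T : Subgroup G := (S : Subgroup L).map L.subtype with hT
  have hQT : Q ≤ T := by
    intro q hq
    exact ⟨⟨q, hQL hq⟩, hS (by simpa [Subgroup.mem_subgroupOf] using hq), rfl⟩
  have hTp : IsPGroup 2 T := S.isPGroup'.map L.subtype
  obtain ⟨h1, h2⟩ := CfsgLib.T3.center_overgroup hself hcard hzQ hz1 hzc hQT hTp
  have hfr := Sylow.normalizer_sup_eq_top S
  rw [eq_top_iff, ← hfr, sup_comm]
  apply sup_le_sup_left
  -- the normaliser of `T` normalises `Q`
  intro g hg
  apply hL3
  rw [Subgroup.mem_centralizer_iff]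
  intro w hw
  have hgz : g * z * g⁻¹ = z := by
    have hgzT : g * z * g⁻¹ ∈ T := (Subgroup.mem_normalizer_iff.1 hg z).1 (hQT hzQ)
    have hcen : ∀ t ∈ T, t * (g * z * g⁻¹) = (g * z * g⁻¹) * t := by
      intro t ht
      have h3 : g⁻¹ * t * g ∈ T := by
        have := (Subgroup.mem_normalizer_iff.1 (inv_mem hg) t).1 ht
        rwa [inv_inv] at this
      have h4 := h1 _ h3
      calc t * (g * z * g⁻¹) = g * ((g⁻¹ * t * g) * z) * g⁻¹ := by group
        _ = g * (z * (g⁻¹ * t * g)) * g⁻¹ := by rw [h4]
        _ = (g * z * g⁻¹) * t := by group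
    rcases h2 _ hgzT hcen with h | h
    · exfalso; apply hz1
      have : g⁻¹ * (g * z * g⁻¹) * g = z := by group
      rw [← this, h]; group
    · exact h
  rcases hZmem w hw with rfl | rfl
  · simp
  · calc z * g = (g * z * g⁻¹) * g := by rw [hgz]
      _ = g * z := by group

end Cfsg.Agent.S5433
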