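import Cfsg.Statements.S5437
import Mathlib

set_option autoImplicit false
open Cfsg

namespace Cfsg.Agent.S5437

/-- Let I be a set of involutions of the finite group G closed under conjugation, and H a subgroup of G. The following are equivalent: (1) for every member x of I lying in H, the conjugates of x lying in H form a single H-class and the centralizer of x lies in H; (2) for every g outside H, no member of I lies in both H and g H g⁻¹; (3) every member of I lying in H fixes exactly one coset in the action of G on the cosets of H. -/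
theorem result {G : Type*} [Group G] [Finite G] (I : Set G) (hI : ∀ x ∈ I, orderOf x = 2) (hIc : ∀ g : G, ∀ x ∈ I, g * x * g⁻¹ ∈ I) (H : Subgroup G) : ((∀ x ∈ I, x ∈ H → (∀ g : G, g * x * g⁻¹ ∈ H → ∃ h ∈ H, h * x * h⁻¹ = g * x * g⁻¹) ∧ Subgroup.centralizer ({x} : Set G) ≤ H) ↔ (∀ g : G, g ∉ H → ∀ x ∈ I, ¬ (x ∈ H ∧ x ∈ (H : Subgroup G).map (MulAut.conj g).toMonoidHom))) ∧ ((∀ g : G, g ∉ H → ∀ x ∈ I, ¬ (x ∈ H ∧ x ∈ (H : Subgroup G).map (MulAut.conj g).toMonoidHom)) ↔ ∀ x ∈ I, x ∈ H → ∃! c : G ⧸ H, x • c = c) := by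
  classical
  have hB_C : ((∀ g : G, g ∉ H → ∀ x ∈ I, ¬ (x ∈ H ∧ x ∈ (H : Subgroup G).map (MulAut.conj g).toMonoidHom)) ↔ ∀ x ∈ I, x ∈ H → ∃! c : G ⧸ H, x • c = c) := by
    have hmem : ∀ (g x : G), x ∈ (H : Subgroup G).map (MulAut.conj g).toMonoidHom ↔ g⁻¹ * x * g ∈ H := by
      intro g x
      constructor
      · rintro ⟨y, hy, rfl⟩
        have : g⁻¹ * ((MulAut.conj g).toMonoidHom y) * g = y := by
          show g⁻¹ * (MulAut.conj g y) * g = y
          rw [MulAut.conj_apply]; group
        rw [this]; exact hy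
      · intro h
        refine ⟨_, h, ?_⟩
        show (MulAut.conj g) (g⁻¹ * x * g) = x
        rw [MulAut.conj_apply]; group
    have hfix : ∀ (x g : G), x • (QuotientGroup.mk g : G ⧸ H) = QuotientGroup.mk g ↔ g⁻¹ * x * g ∈ H := by
      intro x g
      rw [MulAction.Quotient.smul_mk, eq_comm, QuotientGroup.eq]
      simp only [smul_eq_mul]
      rw [show g⁻¹ * (x * g) = g⁻¹ * x * g by group]
    constructor
    · intro h x hx hxH
      refine ⟨QuotientGroup.mk 1, ?_, ?_⟩
      · show x • (QuotientGroup.mk 1 : G ⧸ H) = QuotientGroup.mk 1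
        rw [hfix]; simpa using hxH
      · intro c hc
        induction c using QuotientGroup.induction_on with
        | H g =>
          rw [hfix] at hc
          rw [eq_comm, QuotientGroup.eq]
          simp only [inv_one, one_mul]
          by_contra hg
          exact h g hg x hx ⟨hxH, (hmem g x).2 hc⟩
    · intro h g hg x hx ⟨hxH, hx2⟩
      obtain ⟨c, -, hc⟩ := h x hx hxH
      have h1 := hc (QuotientGroup.mk 1) (by show x • _ = _; rw [hfix]; simpa using hxH)
      have h2 := hc (QuotientGroup.mk g) (by show x • _ = _; rw [hfix]; exact (hmem g x).1 hx2)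
      apply hg
      have h3 : (QuotientGroup.mk 1 : G ⧸ H) = QuotientGroup.mk g := h1.trans h2.symm
      rw [QuotientGroup.eq] at h3
      simpa using h3
  refine ⟨?_, hB_C⟩
  have hmem : ∀ (g x : G), x ∈ (H : Subgroup G).map (MulAut.conj g).toMonoidHom ↔ g⁻¹ * x * g ∈ H := by
    intro g x
    constructor
    · rintro ⟨y, hy, rfl⟩
      have : g⁻¹ * ((MulAut.conj g).toMonoidHom y) * g = y := by
        show g⁻¹ * (MulAut.conj g y) * g = y
        rw [MulAut.conj_apply]; group
      rw [this]; exact hy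
    · intro h
      refine ⟨_, h, ?_⟩
      show (MulAut.conj g) (g⁻¹ * x * g) = x
      rw [MulAut.conj_apply]; group
  constructor
  · intro h g hg x hx ⟨hxH, hx2⟩
    obtain ⟨h1, h2⟩ := h x hx hxH
    have hy : g⁻¹ * x * g ∈ H := (hmem g x).1 hx2
    obtain ⟨u, hu, hu2⟩ := h1 g⁻¹ (by simpa using hy)
    have hc : g * u ∈ Subgroup.centralizer ({x} : Set G) := by
      rw [Subgroup.mem_centralizer_iff]
      intro y hy
      have hy' : y = x := hy
      rw [hy']
      have : u * x * u⁻¹ = g⁻¹ * x * g := by simpa using hu2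
      have h3 : g * (u * x * u⁻¹) * g⁻¹ = x := by rw [this]; group
      calc x * (g * u) = g * (u * x * u⁻¹) * g⁻¹ * (g * u) := by rw [h3]
        _ = g * u * x := by group
    have := h2 hc
    apply hg
    have h5 : g * u * u⁻¹ ∈ H := mul_mem this (inv_mem hu)
    simpa using h5
  · intro h x hx hxH
    constructor
    · intro g hg
      have hgH : g ∈ H := by
        by_contra hn
        have hn' : g⁻¹ ∉ H := fun h' => hn (by simpa using inv_mem h')
        exact h g⁻¹ hn' x hx ⟨hxH, (hmem g⁻¹ x).2 (by simpa using hg)⟩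
      exact ⟨g, hgH, rfl⟩
    · intro g hg
      rw [Subgroup.mem_centralizer_iff] at hg
      have hc := hg x rfl
      by_contra hn
      refine h g hn x hx ⟨hxH, (hmem g x).2 ?_⟩
      have : g⁻¹ * x * g = x := by
        rw [mul_assoc, hc]; group
      rw [this]; exact hxH

end Cfsg.Agent.S5437
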