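import Cfsg.Statements.S5438
import Mathlib

set_option autoImplicit false
open Cfsg

namespace Cfsg.Agent.S5438

/-- Let z be a 2-central involution of the finite group G (an involution central in some Sylow 2-subgroup) and H a subgroup containing z such that the coset H is the only coset of H fixed by z (in the action of G on the cosets of H). Then H has odd index in G, and for every 2-element x of H the conjugates of x lying in H form a single H-class. -/
theorem result {G : Type*} [Group G] [Finite G] (z : G) (hz : Cfsg.IsTwoCentralInvolution z) (H : Subgroup G) (hzH : z ∈ H) (hfix : ∀ g : G, g⁻¹ * z * g ∈ H → g ∈ H) : Odd H.index ∧ ∀ x ∈ H, (∃ k : ℕ, orderOf x = 2 ^ k) → ∀ g : G, g * x * g⁻¹ ∈ H → ∃ h ∈ H, h * x * h⁻¹ = g * x * g⁻¹ := by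
  classical
  haveI : Fact (Nat.Prime 2) := ⟨Nat.prime_two⟩
  obtain ⟨hzo, P, hzP, hPc⟩ := hz
  have hPH : (P : Subgroup G) ≤ H := by
    intro p hp
    apply hfix
    have : p⁻¹ * z * p = z := by
      have := hPc p hp
      calc p⁻¹ * z * p = p⁻¹ * (z * p) := by group
        _ = p⁻¹ * (p * z) := by rw [this]
        _ = z := by group
    rw [this]; exact hzH
  refine ⟨?_, ?_⟩
  · have h1 : H.index ∣ (P : Subgroup G).index := Subgroup.index_dvd_of_le hPH
    have h2 : ¬ 2 ∣ (P : Subgroup G).index := P.not_dvd_index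
    rw [← Nat.not_even_iff_odd, even_iff_two_dvd]
    exact fun h => h2 (h.trans h1)
  -- membership in conjugates
  have hmem : ∀ (h x : G), x ∈ (h • P : Sylow 2 G) ↔ h⁻¹ * x * h ∈ P := by
    intro h x
    change x ∈ ((h • P : Sylow 2 G) : Subgroup G) ↔ _
    rw [Sylow.coe_subgroup_smul, Subgroup.mem_pointwise_smul_iff_inv_smul_mem, MulAut.smul_def,
      MulAut.conj_inv_apply]
    rfl
  have hinside : ∀ K : Subgroup G, IsPGroup 2 K → ∃ h : G, ∀ k ∈ K, h⁻¹ * k * h ∈ P := by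
    intro K hK
    obtain ⟨S, hS⟩ := hK.exists_le_sylow
    obtain ⟨h, rfl⟩ := MulAction.exists_smul_eq G P S
    exact ⟨h, fun k hk => (hmem h k).1 (hS hk)⟩
  have hzcomm : ∀ p ∈ (P : Subgroup G), p * z = z * p := hPc
  -- the main induction
  have main : ∀ (n : ℕ) (D : Subgroup G), Nat.card G - Nat.card D = n → IsPGroup 2 D → ∀ g₁ g₂ : G,
      (∀ d ∈ D, g₁⁻¹ * d * g₁ ∈ P) → (∀ d ∈ D, g₂⁻¹ * d * g₂ ∈ P) →
      ∃ c : G, (∀ d ∈ D, c * d = d * c) ∧ g₂⁻¹ * c * g₁ ∈ H := by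
    intro n
    induction n using Nat.strong_induction_on with
    | _ n ih =>
      intro D hn hD g₁ g₂ h₁ h₂
      set z₁ := g₁ * z * g₁⁻¹ with hz₁
      set z₂ := g₂ * z * g₂⁻¹ with hz₂
      by_cases hz1D : z₁ ∈ D
      · refine ⟨1, by simp, ?_⟩
        have h3 := h₂ z₁ hz1D
        have h4 : g₁⁻¹ * g₂ ∈ H := by
          apply hfix
          have : (g₁⁻¹ * g₂)⁻¹ * z * (g₁⁻¹ * g₂) = g₂⁻¹ * z₁ * g₂ := by rw [hz₁]; group
          rw [this]; exact hPH h3
        have h5 := inv_mem h4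
        simpa using h5
      by_cases hz2D : z₂ ∈ D
      · refine ⟨1, by simp, ?_⟩
        have h3 := h₁ z₂ hz2D
        have h4 : g₂⁻¹ * g₁ ∈ H := by
          apply hfix
          have : (g₂⁻¹ * g₁)⁻¹ * z * (g₂⁻¹ * g₁) = g₁⁻¹ * z₂ * g₁ := by rw [hz₂]; group
          rw [this]; exact hPH h3
        simpa using h4
      -- `z₁, z₂` centralise `D`
      have hcen : ∀ g : G, (∀ d ∈ D, g⁻¹ * d * g ∈ P) → ∀ d ∈ D, (g * z * g⁻¹) * d = d * (g * z * g⁻¹) := by
        intro g hg d hd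
        have h3 := hzcomm _ (hg d hd)
        calc (g * z * g⁻¹) * d = g * (z * (g⁻¹ * d * g)) * g⁻¹ := by group
          _ = g * ((g⁻¹ * d * g) * z) * g⁻¹ := by rw [h3]
          _ = d * (g * z * g⁻¹) := by group
      set C : Subgroup G := Subgroup.centralizer (D : Set G) with hC
      have hz1C : z₁ ∈ C := by
        rw [hC, Subgroup.mem_centralizer_iff]
        intro d hd
        exact (hcen g₁ h₁ d hd).symm
      have hz2C : z₂ ∈ C := by
        rw [hC, Subgroup.mem_centralizer_iff]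
        intro d hd
        exact (hcen g₂ h₂ d hd).symm
      have hz1o : (g₁ * z * g₁⁻¹) ^ 2 = 1 := by
        have : z ^ 2 = 1 := by rw [← hzo]; exact pow_orderOf_eq_one z
        rw [conj_pow, this]; group
      have hz2o : (g₂ * z * g₂⁻¹) ^ 2 = 1 := by
        have : z ^ 2 = 1 := by rw [← hzo]; exact pow_orderOf_eq_one z
        rw [conj_pow, this]; group
      have hpz : ∀ u : C, u ^ 2 = 1 → IsPGroup 2 (Subgroup.zpowers u) := by
        intro u hu
        rw [IsPGroup.iff_card]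
        have : Nat.card (Subgroup.zpowers u) ∣ 2 ^ 1 := by
          rw [Nat.card_zpowers, pow_one]; exact orderOf_dvd_of_pow_eq_one hu
        obtain ⟨k, -, hk⟩ := (Nat.dvd_prime_pow Nat.prime_two).1 this
        exact ⟨k, hk⟩
      obtain ⟨T₁, hT₁⟩ := (hpz ⟨z₁, hz1C⟩ (Subtype.ext hz1o)).exists_le_sylow
      obtain ⟨T₂, hT₂⟩ := (hpz ⟨z₂, hz2C⟩ (Subtype.ext hz2o)).exists_le_sylow
      obtain ⟨t, rfl⟩ := MulAction.exists_smul_eq C T₁ T₂
      have hmemC : ∀ (x : C), x ∈ (t • T₁ : Sylow 2 C) ↔ t⁻¹ * x * t ∈ T₁ := by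
        intro x
        change x ∈ ((t • T₁ : Sylow 2 C) : Subgroup C) ↔ _
        rw [Sylow.coe_subgroup_smul, Subgroup.mem_pointwise_smul_iff_inv_smul_mem, MulAut.smul_def,
          MulAut.conj_inv_apply]
        rfl
      set R₁ : Subgroup G := (T₁ : Subgroup C).map C.subtype with hR₁
      set R₂ : Subgroup G := ((t • T₁ : Sylow 2 C) : Subgroup C).map C.subtype with hR₂
      have hR₁p : IsPGroup 2 R₁ := T₁.isPGroup'.map C.subtype
      have hR₂p : IsPGroup 2 R₂ := (t • T₁ : Sylow 2 C).isPGroup'.map C.subtype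
      have hR₁C : R₁ ≤ C := by rintro _ ⟨x, _, rfl⟩; exact x.2
      have hR₂C : R₂ ≤ C := by rintro _ ⟨x, _, rfl⟩; exact x.2
      have hnorm : ∀ R : Subgroup G, R ≤ C → D ≤ Subgroup.normalizer (R : Set G) := by
        intro R hR d hd
        rw [Subgroup.mem_normalizer_iff]
        intro r
        have hrd : ∀ r ∈ R, d * r * d⁻¹ = r := by
          intro r hr
          have h3 := hR hr
          rw [hC, Subgroup.mem_centralizer_iff] at h3
          have h4 := h3 d hd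
          rw [h4]; group
        constructor
        · intro hr; rw [hrd r hr]; exact hr
        · intro hr
          have h5 : d * r * d⁻¹ = r := (MulAut.conj d).injective (hrd _ hr)
          rwa [h5] at hr
      have hA₁ : IsPGroup 2 (D ⊔ R₁ : Subgroup G) := hD.to_sup_of_normal_right' hR₁p (hnorm R₁ hR₁C)
      have hA₂ : IsPGroup 2 (D ⊔ R₂ : Subgroup G) := hD.to_sup_of_normal_right' hR₂p (hnorm R₂ hR₂C)
      obtain ⟨h₁', hin₁⟩ := hinside _ hA₁
      obtain ⟨h₂', hin₂⟩ := hinside _ hA₂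
      have hlt : ∀ K : Subgroup G, D ≤ K → (∃ x ∈ K, x ∉ D) → Nat.card G - Nat.card K < n := by
        rintro K hDK ⟨x, hxK, hxD⟩
        have h5 : Nat.card D < Nat.card K := by
          have h6 := Set.ncard_lt_ncard (s := (D : Set G)) (t := (K : Set G))
            ⟨hDK, fun h => hxD (h hxK)⟩ (Set.toFinite _)
          rw [← Nat.card_coe_set_eq, ← Nat.card_coe_set_eq] at h6
          exact h6
        have h6 : Nat.card K ≤ Nat.card G := Subgroup.card_le_card_group K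
        omega
      have hz1R : z₁ ∈ R₁ := by
        refine ⟨⟨z₁, hz1C⟩, hT₁ (Subgroup.mem_zpowers _), rfl⟩
      have hz2R : z₂ ∈ R₂ := by
        refine ⟨⟨z₂, hz2C⟩, hT₂ (Subgroup.mem_zpowers _), rfl⟩
      have hDA₁ : D ≤ D ⊔ R₁ := le_sup_left
      have hDA₂ : D ≤ D ⊔ R₂ := le_sup_left
      -- step (i)
      have hsub1 : (D ⊔ Subgroup.zpowers z₁ : Subgroup G) ≤ ((g₁ • P : Sylow 2 G) : Subgroup G) := by
        apply sup_le
        · intro d hd; exact (hmem g₁ d).2 (h₁ d hd)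
        · rw [Subgroup.zpowers_le]
          apply (hmem g₁ z₁).2
          have : g₁⁻¹ * z₁ * g₁ = z := by rw [hz₁]; group
          rw [this]; exact hzP
      have hp1 : IsPGroup 2 (D ⊔ Subgroup.zpowers z₁ : Subgroup G) := (g₁ • P : Sylow 2 G).isPGroup'.to_le hsub1
      obtain ⟨c₁, hc₁, hc₁H⟩ := ih _ (hlt _ le_sup_left ⟨z₁, Subgroup.mem_sup_right (Subgroup.mem_zpowers _), hz1D⟩)
        (D ⊔ Subgroup.zpowers z₁) rfl hp1 g₁ h₁' (fun d hd => (hmem g₁ d).1 (hsub1 hd))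
        (by
          have hsub : (D ⊔ Subgroup.zpowers z₁ : Subgroup G) ≤ ((h₁' • P : Sylow 2 G) : Subgroup G) := by
            apply sup_le
            · intro d hd; exact (hmem h₁' d).2 (hin₁ d (hDA₁ hd))
            · rw [Subgroup.zpowers_le]
              exact (hmem h₁' z₁).2 (hin₁ z₁ (Subgroup.mem_sup_right hz1R))
          exact fun d hd => (hmem h₁' d).1 (hsub hd))
      -- step (ii)
      have hsub2 : (D ⊔ Subgroup.zpowers z₂ : Subgroup G) ≤ ((g₂ • P : Sylow 2 G) : Subgroup G) := by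
        apply sup_le
        · intro d hd; exact (hmem g₂ d).2 (h₂ d hd)
        · rw [Subgroup.zpowers_le]
          apply (hmem g₂ z₂).2
          have : g₂⁻¹ * z₂ * g₂ = z := by rw [hz₂]; group
          rw [this]; exact hzP
      have hp2 : IsPGroup 2 (D ⊔ Subgroup.zpowers z₂ : Subgroup G) := (g₂ • P : Sylow 2 G).isPGroup'.to_le hsub2
      obtain ⟨c₂, hc₂, hc₂H⟩ := ih _ (hlt _ le_sup_left ⟨z₂, Subgroup.mem_sup_right (Subgroup.mem_zpowers _), hz2D⟩)
        (D ⊔ Subgroup.zpowers z₂) rfl hp2 g₂ h₂' (fun d hd => (hmem g₂ d).1 (hsub2 hd))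
        (by
          have hsub : (D ⊔ Subgroup.zpowers z₂ : Subgroup G) ≤ ((h₂' • P : Sylow 2 G) : Subgroup G) := by
            apply sup_le
            · intro d hd; exact (hmem h₂' d).2 (hin₂ d (hDA₂ hd))
            · rw [Subgroup.zpowers_le]
              exact (hmem h₂' z₂).2 (hin₂ z₂ (Subgroup.mem_sup_right hz2R))
          exact fun d hd => (hmem h₂' d).1 (hsub hd))
      -- step (iii)
      have htC : ∀ d ∈ D, (t : G) * d = d * t := by
        intro d hd
        have h3 : (t : G) ∈ Subgroup.centralizer (D : Set G) := t.2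
        rw [Subgroup.mem_centralizer_iff] at h3
        exact (h3 d hd).symm
      have hsub3 : (D ⊔ R₂ : Subgroup G) ≤ (((t : G) * h₁') • P : Sylow 2 G) := by
        apply sup_le
        · intro d hd
          apply (hmem _ d).2
          have h3 := hin₁ d (hDA₁ hd)
          have : ((t : G) * h₁')⁻¹ * d * ((t : G) * h₁') = h₁'⁻¹ * d * h₁' := by
            calc ((t : G) * h₁')⁻¹ * d * ((t : G) * h₁') = h₁'⁻¹ * (t : G)⁻¹ * (d * t) * h₁' := by group
              _ = h₁'⁻¹ * (t : G)⁻¹ * ((t : G) * d) * h₁' := by rw [htC d hd]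
              _ = h₁'⁻¹ * d * h₁' := by group
          rw [this]; exact h3
        · rintro _ ⟨r, hr, rfl⟩
          apply (hmem _ _).2
          have h3 : t⁻¹ * r * t ∈ T₁ := (hmemC r).1 hr
          have h4 : ((t⁻¹ * r * t : C) : G) ∈ (D ⊔ R₁ : Subgroup G) :=
            Subgroup.mem_sup_right ⟨_, h3, rfl⟩
          have h5 := hin₁ _ h4
          have : ((t : G) * h₁')⁻¹ * C.subtype r * ((t : G) * h₁') = h₁'⁻¹ * ((t⁻¹ * r * t : C) : G) * h₁' := by
            simp only [Subgroup.subtype_apply, Subgroup.coe_mul, Subgroup.coe_inv]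
            group
          rw [this]; exact h5
      obtain ⟨c₃, hc₃, hc₃H⟩ := ih _ (hlt _ le_sup_left ⟨z₂, Subgroup.mem_sup_right hz2R, hz2D⟩)
        (D ⊔ R₂) rfl hA₂ ((t : G) * h₁') h₂' (fun d hd => (hmem _ d).1 (hsub3 hd)) hin₂
      refine ⟨c₂⁻¹ * c₃ * t * c₁, ?_, ?_⟩
      · intro d hd
        have e1 : c₂ * d = d * c₂ := hc₂ d (Subgroup.mem_sup_left hd)
        have e2 : c₃ * d = d * c₃ := hc₃ d (Subgroup.mem_sup_left hd)
        have e3 : c₁ * d = d * c₁ := hc₁ d (Subgroup.mem_sup_left hd)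
        have e4 := htC d hd
        have e5 : c₂⁻¹ * d = d * c₂⁻¹ := by
          calc c₂⁻¹ * d = c₂⁻¹ * (d * c₂) * c₂⁻¹ := by group
            _ = c₂⁻¹ * (c₂ * d) * c₂⁻¹ := by rw [e1]
            _ = d * c₂⁻¹ := by group
        calc c₂⁻¹ * c₃ * t * c₁ * d = c₂⁻¹ * c₃ * t * (c₁ * d) := by group
          _ = c₂⁻¹ * c₃ * (t * d) * c₁ := by rw [e3]; group
          _ = c₂⁻¹ * (c₃ * d) * t * c₁ := by rw [e4]; group
          _ = (c₂⁻¹ * d) * c₃ * t * c₁ := by rw [e2]; group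
          _ = d * (c₂⁻¹ * c₃ * t * c₁) := by rw [e5]; group
      · have h5 := mul_mem (mul_mem (inv_mem hc₂H) hc₃H) hc₁H
        have : g₂⁻¹ * (c₂⁻¹ * c₃ * t * c₁) * g₁ =
            (h₂'⁻¹ * c₂ * g₂)⁻¹ * (h₂'⁻¹ * c₃ * ((t : G) * h₁')) * (h₁'⁻¹ * c₁ * g₁) := by group
        rw [this]; exact h5
  -- conjugating into `P` inside `H`
  have hinto : ∀ x ∈ H, (∃ k : ℕ, orderOf x = 2 ^ k) → ∃ h ∈ H, h⁻¹ * x * h ∈ P := by
    rintro x hxH ⟨k, hk⟩
    have hpz : IsPGroup 2 (Subgroup.zpowers (⟨x, hxH⟩ : H)) := by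
      rw [IsPGroup.iff_card, Nat.card_zpowers, Subgroup.orderOf_mk]
      exact ⟨k, hk⟩
    obtain ⟨S, hS⟩ := hpz.exists_le_sylow
    obtain ⟨h, rfl⟩ := MulAction.exists_smul_eq H (P.subtype hPH) S
    refine ⟨h, h.2, ?_⟩
    have h1 : (⟨x, hxH⟩ : H) ∈ ((h • P.subtype hPH : Sylow 2 H) : Subgroup H) := hS (Subgroup.mem_zpowers _)
    rw [Sylow.coe_subgroup_smul, Subgroup.mem_pointwise_smul_iff_inv_smul_mem, MulAut.smul_def,
      MulAut.conj_inv_apply] at h1
    have h2 : h⁻¹ * ⟨x, hxH⟩ * h ∈ ((P : Subgroup G).subgroupOf H) := h1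
    rw [Subgroup.mem_subgroupOf] at h2
    have h3 : (h : G)⁻¹ * x * h ∈ (P : Subgroup G) := by simpa using h2
    exact h3
  intro x hxH hx g hgx
  obtain ⟨k, hk⟩ := hx
  set y := g * x * g⁻¹ with hy
  have hoy : orderOf y = 2 ^ k := by
    have : y = MulAut.conj g x := rfl
    rw [this, MulEquiv.orderOf_eq, hk]
  obtain ⟨h₁, h₁H, h₁P⟩ := hinto x hxH ⟨k, hk⟩
  obtain ⟨h₂, h₂H, h₂P⟩ := hinto y hgx ⟨k, hoy⟩
  have hpD : IsPGroup 2 (Subgroup.zpowers y) := by
    rw [IsPGroup.iff_card, Nat.card_zpowers]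
    exact ⟨k, hoy⟩
  have hmemz : ∀ (u : G), u⁻¹ * y * u ∈ P → ∀ d ∈ Subgroup.zpowers y, u⁻¹ * d * u ∈ P := by
    intro u hu d hd
    have h3 : Subgroup.zpowers y ≤ ((u • P : Sylow 2 G) : Subgroup G) := by
      rw [Subgroup.zpowers_le]
      exact (hmem u y).2 hu
    exact (hmem u d).1 (h3 hd)
  obtain ⟨c, hc, hcH⟩ := main _ (Subgroup.zpowers y) rfl hpD (g * h₁) h₂
    (hmemz _ (by
      have : (g * h₁)⁻¹ * y * (g * h₁) = h₁⁻¹ * x * h₁ := by rw [hy]; group
      rw [this]; exact h₁P))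
    (hmemz _ h₂P)
  have hcg : c * g ∈ H := by
    have h5 := mul_mem (mul_mem h₂H hcH) (inv_mem h₁H)
    have : h₂ * (h₂⁻¹ * c * (g * h₁)) * h₁⁻¹ = c * g := by group
    rwa [this] at h5
  refine ⟨c * g, hcg, ?_⟩
  have h6 := hc y (Subgroup.mem_zpowers y)
  calc c * g * x * (c * g)⁻¹ = c * y * c⁻¹ := by rw [hy]; group
    _ = y := by rw [h6]; group

end Cfsg.Agent.S5438
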