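import Cfsg.Statements.S5439
import Mathlib
import Cfsg.Agent.Lib.T3.Basic

set_option autoImplicit false
open Cfsg

namespace Cfsg.Agent.S5439

/-- Let I and J be two different conjugacy classes of involutions of the finite group G and H a subgroup such that every member of I ∪ J fixes exactly one coset in the action on the cosets of H, and such that for every a in I ∩ H and every b in (I ∪ J) ∩ H different from a and commuting with it, the centralizer of a b lies in H. Then H = G. -/
theorem result {G : Type*} [Group G] [Finite G] (I J : Set G) (a₀ b₀ : G) (ha₀ : orderOf a₀ = 2) (hb₀ : orderOf b₀ = 2) (hI : I = {x | IsConj a₀ x}) (hJ : J = {x | IsConj b₀ x}) (hIJ : I ≠ J) (H : Subgroup G) (hfix : ∀ x ∈ I ∪ J, ∃! c : G ⧸ H, x • c = c) (hcent : ∀ a ∈ I, a ∈ H → ∀ b ∈ I ∪ J, b ∈ H → a ≠ b → a * b = b * a → Subgroup.centralizer ({a * b} : Set G) ≤ H) : H = ⊤ := by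
  classical
  -- conjugation closure
  have hIc : ∀ (g x : G), x ∈ I → g * x * g⁻¹ ∈ I := by
    intro g x hx
    rw [hI] at hx ⊢
    exact IsConj.trans hx (isConj_iff.2 ⟨g, rfl⟩)
  have hJc : ∀ (g x : G), x ∈ J → g * x * g⁻¹ ∈ J := by
    intro g x hx
    rw [hJ] at hx ⊢
    exact IsConj.trans hx (isConj_iff.2 ⟨g, rfl⟩)
  have hUc : ∀ (g x : G), x ∈ I ∪ J → g * x * g⁻¹ ∈ I ∪ J := by
    rintro g x (hx | hx)
    · exact Or.inl (hIc g x hx)
    · exact Or.inr (hJc g x hx)
  have hordI : ∀ x ∈ I, orderOf x = 2 := by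
    intro x hx
    rw [hI] at hx
    obtain ⟨c, rfl⟩ := isConj_iff.1 hx
    have : c * a₀ * c⁻¹ = MulAut.conj c a₀ := rfl
    rw [this, MulEquiv.orderOf_eq, ha₀]
  have hordJ : ∀ x ∈ J, orderOf x = 2 := by
    intro x hx
    rw [hJ] at hx
    obtain ⟨c, rfl⟩ := isConj_iff.1 hx
    have : c * b₀ * c⁻¹ = MulAut.conj c b₀ := rfl
    rw [this, MulEquiv.orderOf_eq, hb₀]
  have hordU : ∀ x ∈ I ∪ J, orderOf x = 2 := by
    rintro x (hx | hx)
    · exact hordI x hx
    · exact hordJ x hx
  -- unique fixed point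
  choose! π hπ hπu using hfix
  have hfixpt : ∀ (x g : G), x • (QuotientGroup.mk g : G ⧸ H) = QuotientGroup.mk g ↔ g⁻¹ * x * g ∈ H := by
    intro x g
    rw [MulAction.Quotient.smul_mk, eq_comm, QuotientGroup.eq]
    simp only [smul_eq_mul]
    rw [show g⁻¹ * (x * g) = g⁻¹ * x * g by group]
  -- commuting members share their fixed point
  have hshare : ∀ x ∈ I ∪ J, ∀ y ∈ I ∪ J, x * y = y * x → π x = π y := by
    intro x hx y hy hxy
    apply hπu y hy
    have h1 : x • (y • π x) = y • π x := by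
      rw [← mul_smul, hxy, mul_smul, hπ x hx]
    exact hπu x hx _ h1 |>.symm ▸ rfl
  have hcent' : ∀ a ∈ I, ∀ b ∈ I ∪ J, a ≠ b → a * b = b * a → ∀ y, y * (a * b) = (a * b) * y → y • π a = π a := by
    intro a ha b hb hab hcomm y hy
    obtain ⟨g, hg⟩ := QuotientGroup.mk_surjective (π a)
    have hfa : g⁻¹ * a * g ∈ H := (hfixpt a g).1 (by rw [hg]; exact hπ a (Or.inl ha))
    have hfb : g⁻¹ * b * g ∈ H :=
      (hfixpt b g).1 (by rw [hg, hshare a (Or.inl ha) b hb hcomm]; exact hπ b hb)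
    have h1 := hcent (g⁻¹ * a * g) (by simpa using hIc g⁻¹ a ha) hfa (g⁻¹ * b * g)
      (by simpa using hUc g⁻¹ b hb) hfb
      (fun h => hab (by
        have := congrArg (fun t => g * t * g⁻¹) h
        simpa [mul_assoc] using this))
      (by
        calc g⁻¹ * a * g * (g⁻¹ * b * g) = g⁻¹ * (a * b) * g := by group
          _ = g⁻¹ * (b * a) * g := by rw [hcomm]
          _ = g⁻¹ * b * g * (g⁻¹ * a * g) := by group)
    have h2 : g⁻¹ * y * g ∈ Subgroup.centralizer ({(g⁻¹ * a * g) * (g⁻¹ * b * g)} : Set G) := by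
      rw [Subgroup.mem_centralizer_iff]
      intro t ht
      have ht' : t = (g⁻¹ * a * g) * (g⁻¹ * b * g) := ht
      rw [ht']
      calc g⁻¹ * a * g * (g⁻¹ * b * g) * (g⁻¹ * y * g) = g⁻¹ * ((a * b) * y) * g := by group
        _ = g⁻¹ * (y * (a * b)) * g := by rw [hy]
        _ = g⁻¹ * y * g * (g⁻¹ * a * g * (g⁻¹ * b * g)) := by group
    have h3 := h1 h2
    rw [← hg]
    exact (hfixpt y g).2 h3
  have hmain : ∀ x ∈ I, ∀ y ∈ J, π x = π y := by
    intro x hx y hy
    have hx2 := CfsgLib.T3.sq_of_order_two (hordI x hx)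
    have hy2 := CfsgLib.T3.sq_of_order_two (hordJ y hy)
    have hxinv := CfsgLib.T3.inv_of_order_two (hordI x hx)
    have hyinv := CfsgLib.T3.inv_of_order_two (hordJ y hy)
    set r := x * y with hr
    have hrinv : r⁻¹ = y * x := by rw [hr, mul_inv_rev, hxinv, hyinv]
    have hinvX : ∀ k : ℕ, x * r ^ k * x = (r ^ k)⁻¹ := by
      intro k
      have hz : x * r * x⁻¹ = r⁻¹ := by
        rw [hxinv, hrinv, hr]
        simp only [← mul_assoc, hx2, one_mul]
      have := conj_pow (a := x) (b := r) (i := k)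
      rw [hz, hxinv, inv_pow] at this
      exact this.symm
    have hinvY : ∀ k : ℕ, y * r ^ k * y = (r ^ k)⁻¹ := by
      intro k
      have hz : y * r * y⁻¹ = r⁻¹ := by
        rw [hyinv, hrinv, hr]
        simp only [mul_assoc, hy2, mul_one]
      have := conj_pow (a := y) (b := r) (i := k)
      rw [hz, hyinv, inv_pow] at this
      exact this.symm
    have hmem : ∀ k : ℕ, x * r ^ k ∈ I ∪ J ∧ x * r ^ (k + 1) ∈ I ∪ J := by
      intro k
      induction k with
      | zero =>
        refine ⟨by simpa using Or.inl hx, ?_⟩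
        have : x * r ^ (0 + 1) = y := by rw [zero_add, pow_one, hr, ← mul_assoc, hx2, one_mul]
        rw [this]; exact Or.inr hy
      | succ k ih =>
        refine ⟨ih.2, ?_⟩
        have h1 := hUc r⁻¹ _ ih.1
        have : x * r ^ (k + 1 + 1) = r⁻¹ * (x * r ^ k) * r⁻¹⁻¹ := by
          have h2 : r⁻¹ * x = x * r := by
            calc r⁻¹ * x = y * x * x := by rw [hrinv]
              _ = y := by rw [mul_assoc, hx2, mul_one]
              _ = x * r := by rw [hr, ← mul_assoc, hx2, one_mul]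
          rw [inv_inv, ← mul_assoc r⁻¹ x, h2, pow_succ, pow_succ']
          simp only [mul_assoc]
        rw [this]; exact h1
    have hnotodd : ¬ Odd (orderOf r) := by
      rintro ⟨k, hk⟩
      apply hIJ
      -- `y` is conjugate to `x`
      have h1 : r ^ k * x * (r ^ k)⁻¹ = y := by
        have h2 : x * (r ^ k)⁻¹ = r ^ k * x := by
          have h3 : x * r ^ k = (r ^ k)⁻¹ * x := by
            calc x * r ^ k = (x * r ^ k * x) * x := by rw [mul_assoc, mul_assoc, hx2, mul_one]
              _ = (r ^ k)⁻¹ * x := by rw [hinvX]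
          calc x * (r ^ k)⁻¹ = (r ^ k * (r ^ k)⁻¹) * x * (r ^ k)⁻¹ := by simp
            _ = r ^ k * ((r ^ k)⁻¹ * x) * (r ^ k)⁻¹ := by simp only [mul_assoc]
            _ = r ^ k * (x * r ^ k) * (r ^ k)⁻¹ := by rw [h3]
            _ = r ^ k * x := by group
        rw [mul_assoc, h2, ← mul_assoc, ← pow_add, ← two_mul]
        have h4 : r ^ (2 * k) * r = 1 := by
          rw [← pow_succ, ← hk]; exact pow_orderOf_eq_one r
        have h5 : r ^ (2 * k) = r⁻¹ := eq_inv_of_mul_eq_one_left h4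
        rw [h5, hrinv, mul_assoc, hx2, mul_one]
      have hyI : y ∈ I := by
        rw [← h1]; exact hIc _ x hx
      rw [hI] at hyI
      rw [hJ] at hy
      have hab : IsConj a₀ b₀ := IsConj.trans hyI (IsConj.symm hy)
      rw [hI, hJ]
      ext t
      exact ⟨fun h => IsConj.trans (IsConj.symm hab) h, fun h => IsConj.trans hab h⟩
    obtain ⟨m, hm⟩ := Nat.not_odd_iff_even.1 hnotodd
    have hpos : 0 < orderOf r := orderOf_pos r
    have hm0 : 0 < m := by omega
    set w := r ^ m with hw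
    have hw2 : w * w = 1 := by
      rw [hw, ← pow_add, ← hm]; exact pow_orderOf_eq_one r
    have hw1 : w ≠ 1 := by
      intro h1
      have := orderOf_dvd_of_pow_eq_one h1
      have h5 := Nat.le_of_dvd (by omega) this
      omega
    have hwinv : w⁻¹ = w := inv_eq_of_mul_eq_one_left hw2
    have hcD : x * w ∈ I ∪ J := (hmem m).1
    have hne2 : x ≠ x * w := by
      intro h1
      apply hw1
      exact (mul_left_cancel ((mul_one x).trans h1)).symm
    have hxw : x * (x * w) = x * w * x := by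
      have h6 := hinvX m
      rw [← hw, hwinv] at h6
      rw [h6, ← mul_assoc, hx2, one_mul]
    have hwa : x * (x * w) = w := by rw [← mul_assoc, hx2, one_mul]
    have hyw : y * (x * (x * w)) = (x * (x * w)) * y := by
      rw [hwa]
      have h6 := hinvY m
      rw [← hw, hwinv] at h6
      calc y * w = (y * w * y) * y := by rw [mul_assoc, mul_assoc, hy2, mul_one]
        _ = w * y := by rw [h6]
    have h7 := hcent' x hx (x * w) hcD hne2 hxw y hyw
    exact hπu y (Or.inr hy) _ h7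
  have ha₀I : a₀ ∈ I := by rw [hI]; exact IsConj.refl a₀
  have hb₀J : b₀ ∈ J := by rw [hJ]; exact IsConj.refl b₀
  have hω : ∀ x ∈ I, π x = π a₀ := fun x hx => (hmain x hx b₀ hb₀J).trans (hmain a₀ ha₀I b₀ hb₀J).symm
  have hfixω : ∀ g : G, g • π a₀ = π a₀ := by
    intro g
    have h1 : (g * a₀ * g⁻¹) • (g • π a₀) = g • π a₀ := by
      rw [← mul_smul]
      have : g * a₀ * g⁻¹ * g = g * a₀ := by group
      rw [this, mul_smul, hπ a₀ (Or.inl ha₀I)]
    have h2 := hπu _ (Or.inl (hIc g a₀ ha₀I)) _ h1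
    rw [h2]
    exact hω _ (hIc g a₀ ha₀I)
  obtain ⟨g₀, hg₀⟩ := QuotientGroup.mk_surjective (π a₀)
  rw [eq_top_iff]
  intro t _
  have h1 := hfixω (g₀ * t * g₀⁻¹)
  rw [← hg₀, hfixpt] at h1
  have : g₀⁻¹ * (g₀ * t * g₀⁻¹) * g₀ = t := by group
  rwa [this] at h1

end Cfsg.Agent.S5439
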