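import Cfsg.Statements.S5459
-- import your own Cfsg.Agent.* helpers here

set_option autoImplicit false
open Cfsg

namespace Cfsg.Agent.S5459

open Subgroup
open scoped commutatorElement

section
variable {G : Type*} [Group G] [Finite G]

theorem inv_all {Z : Subgroup G} [Z.Normal] {d : G} (hinv : ∀ c ∈ Z, d * c * d⁻¹ = c⁻¹) {a : G}
    (ha : a ∈ conjugatesOf d) {c : G} (hc : c ∈ Z) : a * c * a⁻¹ = c⁻¹ := by
  obtain ⟨g, rfl⟩ := isConj_iff.mp ha
  have h1 : g⁻¹ * c * g ∈ Z := by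
    have := ‹Z.Normal›.conj_mem c hc g⁻¹
    simpa using this
  have h2 := hinv _ h1
  have h3 : g * d * g⁻¹ * c * (g * d * g⁻¹)⁻¹ = g * (d * (g⁻¹ * c * g) * d⁻¹) * g⁻¹ := by group
  rw [h3, h2]
  group

theorem exists_root {Z : Subgroup G} (hodd : Odd (Nat.card Z)) {c : G} (hc : c ∈ Z) : ∃ y ∈ Z, y ^ 4 = c := by
  have hcop : (Nat.card Z).Coprime 4 := by
    have : (Nat.card Z).Coprime (2 ^ 2) := Nat.Coprime.pow_right 2 (Nat.coprime_two_right.mpr hodd)
    simpa using this
  obtain ⟨y, hy⟩ := (powCoprime hcop).surjective ⟨c, hc⟩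
  refine ⟨y, y.2, ?_⟩
  have := congrArg Subtype.val hy
  simpa using this

theorem lift_comm {Z : Subgroup G} [Z.Normal] (hZc : ∀ a ∈ Z, ∀ b ∈ Z, a * b = b * a) (hodd : Odd (Nat.card Z))
    {d : G} (hinv : ∀ c ∈ Z, d * c * d⁻¹ = c⁻¹) {a b : G} (ha : a ∈ conjugatesOf d) (hb : b ∈ conjugatesOf d)
    (hc : a * b * a⁻¹ * b⁻¹ ∈ Z) : ∃ y ∈ Z, Commute (y * a * y⁻¹) b := by
  set c := a * b * a⁻¹ * b⁻¹ with hcd
  obtain ⟨y, hy, hy4⟩ := exists_root hodd (Z.inv_mem hc)
  refine ⟨y, hy, ?_⟩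
  have hy2 : y ^ 2 ∈ Z := Z.pow_mem hy 2
  have h1 : a * y⁻¹ = y * a := by
    have := inv_all hinv ha (Z.inv_mem hy)
    rw [inv_inv] at this
    calc a * y⁻¹ = (a * y⁻¹ * a⁻¹) * a := by group
      _ = y * a := by rw [this]
  have h2 : b * y ^ 2 = (y ^ 2)⁻¹ * b := by
    have := inv_all hinv hb hy2
    rw [← this]
    group
  have e1 : y * a * y⁻¹ = y ^ 2 * a := by
    rw [mul_assoc, h1, pow_two, mul_assoc]
  have h3 : a * b = c * b * a := by
    rw [hcd]
    group
  have h4 : y ^ 2 * c = (y ^ 2)⁻¹ := by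
    have h5 : y ^ 2 * c * y ^ 2 = 1 := by
      rw [mul_assoc, hZc c hc _ hy2, ← mul_assoc, ← pow_add, show 2 + 2 = 4 from rfl, hy4]
      simp
    exact eq_inv_of_mul_eq_one_left h5
  rw [e1]
  show y ^ 2 * a * b = b * (y ^ 2 * a)
  calc y ^ 2 * a * b = y ^ 2 * (a * b) := by rw [mul_assoc]
    _ = (y ^ 2 * c) * b * a := by rw [h3]; group
    _ = (y ^ 2)⁻¹ * b * a := by rw [h4]
    _ = (b * y ^ 2) * a := by rw [h2]
    _ = b * (y ^ 2 * a) := by rw [mul_assoc]

/-- Conjugation on a conjugacy class. -/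
def cj {d : G} (g : G) (a : conjugatesOf d) : conjugatesOf d :=
  ⟨g * a * g⁻¹, (show IsConj d (g * a * g⁻¹) from a.2.trans (isConj_iff.mpr ⟨g, rfl⟩))⟩

theorem cj_reach {d : G} (g : G) {a b : conjugatesOf d} (h : (Cfsg.commutingGraph (conjugatesOf d)).Reachable a b) :
    (Cfsg.commutingGraph (conjugatesOf d)).Reachable (cj g a) (cj g b) := by
  let f : Cfsg.commutingGraph (conjugatesOf d) →g Cfsg.commutingGraph (conjugatesOf d) :=
    ⟨cj g, by
      intro x y hxy
      unfold Cfsg.commutingGraph at hxy ⊢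
      rw [SimpleGraph.fromRel_adj] at hxy ⊢
      obtain ⟨hne, hc⟩ := hxy
      refine ⟨fun h => hne ?_, ?_⟩
      · apply Subtype.ext
        have := congrArg Subtype.val h
        exact mul_left_cancel (mul_right_cancel this)
      · have key : ∀ u v : conjugatesOf d, Commute (u : G) v → Commute ((cj g u : conjugatesOf d) : G) (cj g v : conjugatesOf d) := by
          intro u v huv
          show g * u * g⁻¹ * (g * v * g⁻¹) = g * v * g⁻¹ * (g * u * g⁻¹)
          have e := huv.eq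
          calc g * u * g⁻¹ * (g * v * g⁻¹) = g * (u * v) * g⁻¹ := by group
            _ = g * (v * u) * g⁻¹ := by rw [e]
            _ = g * v * g⁻¹ * (g * u * g⁻¹) := by group
        rcases hc with hc | hc
        · exact Or.inl (key _ _ hc)
        · exact Or.inr (key _ _ hc)⟩
  exact h.map f

theorem cj_mul {d : G} (g h : G) (a : conjugatesOf d) : cj (g * h) a = cj g (cj h a) := by
  apply Subtype.ext
  show g * h * a * (g * h)⁻¹ = g * (h * a * h⁻¹) * g⁻¹
  group

theorem cj_one {d : G} (a : conjugatesOf d) : cj 1 a = a := by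
  apply Subtype.ext
  show 1 * (a : G) * 1⁻¹ = a
  group

/-- The base point. -/
def bp (d : G) : conjugatesOf d := ⟨d, mem_conjugatesOf_self⟩

/-- The stabilizer of the component of the base point. -/
def compStab (d : G) : Subgroup G where
  carrier := {g | (Cfsg.commutingGraph (conjugatesOf d)).Reachable (cj g (bp d)) (bp d)}
  one_mem' := by
    show (Cfsg.commutingGraph (conjugatesOf d)).Reachable (cj 1 (bp d)) (bp d)
    rw [cj_one]
  mul_mem' := by
    intro g h hg hh
    show (Cfsg.commutingGraph (conjugatesOf d)).Reachable (cj (g * h) (bp d)) (bp d)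
    rw [cj_mul]
    exact (cj_reach g hh).trans hg
  inv_mem' := by
    intro g hg
    show (Cfsg.commutingGraph (conjugatesOf d)).Reachable (cj g⁻¹ (bp d)) (bp d)
    have h1 := cj_reach g⁻¹ hg
    rw [← cj_mul, inv_mul_cancel, cj_one] at h1
    exact h1.symm

theorem lift_path {Z : Subgroup G} [Z.Normal] (hZc : ∀ a ∈ Z, ∀ b ∈ Z, a * b = b * a) (hodd : Odd (Nat.card Z))
    {d : G} (hinv : ∀ c ∈ Z, d * c * d⁻¹ = c⁻¹)
    {x y : conjugatesOf (QuotientGroup.mk d : G ⧸ Z)}
    (w : (Cfsg.commutingGraph (conjugatesOf (QuotientGroup.mk d : G ⧸ Z))).Walk x y) :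
    ∀ b : conjugatesOf d, (QuotientGroup.mk (b : G) : G ⧸ Z) = y →
      ∃ a : conjugatesOf d, (QuotientGroup.mk (a : G) : G ⧸ Z) = x ∧
        (Cfsg.commutingGraph (conjugatesOf d)).Reachable a b := by
  induction w with
  | nil =>
    intro b hb
    exact ⟨b, hb, SimpleGraph.Reachable.refl _⟩
  | @cons u v w h p ih =>
    intro b hb
    obtain ⟨a', ha', hr⟩ := ih b hb
    -- a lift of `u`
    obtain ⟨g₀, hg₀⟩ := isConj_iff.mp u.2
    obtain ⟨g, rfl⟩ := QuotientGroup.mk_surjective g₀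
    let a₀ : conjugatesOf d := cj g (bp d)
    have ha₀ : (QuotientGroup.mk (a₀ : G) : G ⧸ Z) = u := by
      rw [← hg₀]
      rfl
    have hadj := h
    unfold Cfsg.commutingGraph at hadj
    rw [SimpleGraph.fromRel_adj] at hadj
    obtain ⟨hne, hc⟩ := hadj
    have hcomm : Commute (QuotientGroup.mk (a₀ : G) : G ⧸ Z) (QuotientGroup.mk (a' : G) : G ⧸ Z) := by
      rw [ha₀, ha']
      rcases hc with hc | hc
      · exact hc
      · exact hc.symm
    have hin : (a₀ : G) * a' * (a₀ : G)⁻¹ * (a' : G)⁻¹ ∈ Z := by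
      rw [← QuotientGroup.eq_one_iff]
      have := hcomm.eq
      simp only [QuotientGroup.mk_mul, QuotientGroup.mk_inv]
      rw [this]
      group
    obtain ⟨y, hy, hyc⟩ := lift_comm hZc hodd hinv a₀.2 a'.2 hin
    let a₁ : conjugatesOf d := cj y a₀
    have ha₁ : (QuotientGroup.mk (a₁ : G) : G ⧸ Z) = u := by
      rw [← ha₀]
      show (QuotientGroup.mk (y * a₀ * y⁻¹) : G ⧸ Z) = _
      have hy1 : (QuotientGroup.mk y : G ⧸ Z) = 1 := (QuotientGroup.eq_one_iff y).mpr hy
      simp only [QuotientGroup.mk_mul, QuotientGroup.mk_inv]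
      rw [hy1]
      simp
    refine ⟨a₁, ha₁, SimpleGraph.Reachable.trans (SimpleGraph.Adj.reachable ?_) hr⟩
    unfold Cfsg.commutingGraph
    rw [SimpleGraph.fromRel_adj]
    refine ⟨fun he => hne ?_, Or.inl hyc⟩
    apply Subtype.ext
    rw [← ha₁, ← ha', he]

theorem comm_aux {H : Type*} [Group H] (z a b : H) (hz : ∀ x, z * x = x * z) :
    ⁅z * a, b⁆ = ⁅a, b⁆ := by
  rw [commutatorElement_def, commutatorElement_def, mul_inv_rev]
  have h1 : z * a * b = a * b * z := by
    rw [mul_assoc, hz]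
  rw [h1]
  have h2 : z * a⁻¹ = a⁻¹ * z := hz _
  calc a * b * z * (a⁻¹ * z⁻¹) * b⁻¹ = a * b * (z * a⁻¹) * z⁻¹ * b⁻¹ := by group
    _ = a * b * a⁻¹ * b⁻¹ := by rw [h2]; group

end

/-- Let G be a finite group with a quasisimple normal subgroup L and an involution d such that G is generated by L and d, the centre of L has odd order, and d inverts every element of the centre of L. If the commuting graph on the conjugacy class of the image of d in G modulo the centre of L is connected, then the commuting graph on the conjugacy class of d is connected. -/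
theorem result {G : Type*} [Group G] [Finite G] (L : Subgroup G) [L.Normal] (hL : Cfsg.IsQuasisimple ↥L) (d : G) (hd : orderOf d = 2) (hgen : L ⊔ Subgroup.zpowers d = ⊤) (hodd : Odd (Nat.card ↥(Subgroup.center ↥L))) (hinv : ∀ c ∈ (Subgroup.center ↥L).map L.subtype, d * c * d⁻¹ = c⁻¹) [hn : ((Subgroup.center ↥L).map L.subtype).Normal] (hconn : (Cfsg.commutingGraph (conjugatesOf (QuotientGroup.mk d : G ⧸ (Subgroup.center ↥L).map L.subtype))).Connected) : (Cfsg.commutingGraph (conjugatesOf d)).Connected := by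
  classical
  set Z := (Subgroup.center ↥L).map L.subtype with hZ
  have hZc : ∀ a ∈ Z, ∀ b ∈ Z, a * b = b * a := by
    rintro _ ⟨a, ha, rfl⟩ _ ⟨b, hb, rfl⟩
    have := (Subgroup.mem_center_iff.mp ha) b
    exact (congrArg Subtype.val this).symm
  have hoddZ : Odd (Nat.card Z) := by
    rw [hZ, Subgroup.card_map_of_injective Subtype.val_injective]
    exact hodd
  -- every element lies in `Z · K`
  have hZK : ∀ g : G, ∃ y ∈ Z, y⁻¹ * g ∈ compStab d := by
    intro g
    let a : conjugatesOf d := cj g (bp d)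
    let x₀ : conjugatesOf (QuotientGroup.mk d : G ⧸ Z) := ⟨QuotientGroup.mk d, mem_conjugatesOf_self⟩
    let x₁ : conjugatesOf (QuotientGroup.mk d : G ⧸ Z) :=
      ⟨QuotientGroup.mk (a : G), isConj_iff.mpr ⟨QuotientGroup.mk g, rfl⟩⟩
    obtain ⟨w⟩ := hconn.preconnected x₀ x₁
    obtain ⟨a', ha', hr⟩ := lift_path hZc hoddZ hinv w a rfl
    have hc : (a' : G) * d⁻¹ ∈ Z := by
      rw [← QuotientGroup.eq_one_iff]
      simp only [QuotientGroup.mk_mul, QuotientGroup.mk_inv]
      have : (QuotientGroup.mk (a' : G) : G ⧸ Z) = QuotientGroup.mk d := ha'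
      rw [this]
      simp
    obtain ⟨y₀, hy₀, hy₀4⟩ := exists_root hoddZ hc
    have hy : y₀ ^ 2 ∈ Z := Z.pow_mem hy₀ 2
    refine ⟨y₀ ^ 2, hy, ?_⟩
    have h1 : cj (y₀ ^ 2) (bp d) = a' := by
      apply Subtype.ext
      show y₀ ^ 2 * d * (y₀ ^ 2)⁻¹ = a'
      have h2 : d * (y₀ ^ 2)⁻¹ = y₀ ^ 2 * d := by
        have h3 := hinv _ (Z.inv_mem hy)
        rw [inv_inv] at h3
        calc d * (y₀ ^ 2)⁻¹ = (d * (y₀ ^ 2)⁻¹ * d⁻¹) * d := by group
          _ = y₀ ^ 2 * d := by rw [h3]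
      rw [mul_assoc, h2, ← mul_assoc, ← pow_add, show 2 + 2 = 4 from rfl, hy₀4]
      group
    have h2 := cj_reach (y₀ ^ 2)⁻¹ hr
    rw [← h1, ← cj_mul, inv_mul_cancel, cj_one, ← cj_mul] at h2
    exact h2.symm
  -- `L ≤ K`
  have hLK : L ≤ compStab d := by
    have hcomm : commutator ↥L ≤ (compStab d).comap L.subtype := by
      rw [_root_.commutator_def, Subgroup.commutator_le]
      intro g _ h _
      obtain ⟨y₁, hy₁, hk₁⟩ := hZK g
      obtain ⟨y₂, hy₂, hk₂⟩ := hZK h
      obtain ⟨z₁, hz₁, rfl⟩ := hy₁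
      obtain ⟨z₂, hz₂, rfl⟩ := hy₂
      have e1 : g = z₁ * (z₁⁻¹ * g) := by group
      have e2 : h = z₂ * (z₂⁻¹ * h) := by group
      have h1 : ⁅g, h⁆ = ⁅z₁⁻¹ * g, z₂⁻¹ * h⁆ := by
        conv_lhs => rw [e1, comm_aux _ _ _ (fun x => (Subgroup.mem_center_iff.mp hz₁ x).symm)]
        rw [← commutatorElement_inv]
        conv_lhs => rw [e2, comm_aux _ _ _ (fun x => (Subgroup.mem_center_iff.mp hz₂ x).symm)]
        rw [commutatorElement_inv]
      rw [h1, Subgroup.mem_comap]
      rw [commutatorElement_def]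
      have m1 : ((z₁⁻¹ * g : ↥L) : G) ∈ compStab d := hk₁
      have m2 : ((z₂⁻¹ * h : ↥L) : G) ∈ compStab d := hk₂
      simp only [map_mul, map_inv]
      exact mul_mem (mul_mem (mul_mem m1 m2) (inv_mem m1)) (inv_mem m2)
    intro x hx
    have hper : commutator ↥L = ⊤ := hL.1.commutator_eq_top
    have hx' : (⟨x, hx⟩ : ↥L) ∈ commutator ↥L := by
      rw [hper]
      exact Subgroup.mem_top _
    exact hcomm hx'
  have hdK : d ∈ compStab d := by
    show (Cfsg.commutingGraph (conjugatesOf d)).Reachable (cj d (bp d)) (bp d)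
    have : cj d (bp d) = bp d := by
      apply Subtype.ext
      show d * d * d⁻¹ = d
      group
    rw [this]
  have htop : compStab d = ⊤ := by
    rw [eq_top_iff, ← hgen]
    refine sup_le hLK ?_
    rw [Subgroup.zpowers_le]
    exact hdK
  have hall : ∀ a : conjugatesOf d, (Cfsg.commutingGraph (conjugatesOf d)).Reachable a (bp d) := by
    intro a
    obtain ⟨g, hg⟩ := isConj_iff.mp a.2
    have h1 : g ∈ compStab d := by
      rw [htop]
      exact Subgroup.mem_top _
    have h2 : cj g (bp d) = a := Subtype.ext hg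
    rw [← h2]
    exact h1
  haveI : Nonempty (conjugatesOf d) := ⟨bp d⟩
  exact ⟨fun a b => (hall a).trans (hall b).symm⟩

end Cfsg.Agent.S5459
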