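import Cfsg.Statements.S5541
import Mathlib

set_option autoImplicit false
open Cfsg

namespace Cfsg.Agent.S5541

/-- Let ρ be a representation of a group H on a finite-dimensional real vector space U whose only ρ-invariant subspaces are the zero subspace and U, and suppose U carries a non-zero ρ-invariant symmetric bilinear form. Then the following are equivalent: (1) there is a non-zero ρ-equivariant commutative bilinear product on U of which every ρ-equivariant bilinear product is a scalar multiple; (2) there is a non-zero ρ-invariant trilinear form on U that is symmetric under all permutations of its arguments and of which every ρ-invariant trilinear form is a scalar multiple. -/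
theorem result {H : Type*} [Group H] {U : Type*} [AddCommGroup U] [Module ℝ U] [FiniteDimensional ℝ U] (ρ : Representation ℝ H U) (hirr : ∀ W : Submodule ℝ U, (∀ g : H, W.map (ρ g) ≤ W) → W = ⊥ ∨ W = ⊤) (B : LinearMap.BilinForm ℝ U) (hB0 : B ≠ 0) (hBs : ∀ u v, B u v = B v u) (hBi : ∀ (g : H) (u v : U), B (ρ g u) (ρ g v) = B u v) : (∃ m : U →ₗ[ℝ] U →ₗ[ℝ] U, m ≠ 0 ∧ (∀ u v, m u v = m v u) ∧ (∀ (g : H) (u v : U), m (ρ g u) (ρ g v) = ρ g (m u v)) ∧ ∀ m' : U →ₗ[ℝ] U →ₗ[ℝ] U, (∀ (g : H) (u v : U), m' (ρ g u) (ρ g v) = ρ g (m' u v)) → ∃ c : ℝ, m' = c • m) ↔ (∃ t : U →ₗ[ℝ] U →ₗ[ℝ] U →ₗ[ℝ] ℝ, t ≠ 0 ∧ (∀ u v w, t u v w = t v u w ∧ t u v w = t u w v) ∧ (∀ (g : H) (u v w : U), t (ρ g u) (ρ g v) (ρ g w) = t u v w) ∧ ∀ t' : U →ₗ[ℝ] U →ₗ[ℝ] U →ₗ[ℝ] ℝ, (∀ (g : H) (u v w : U), t' (ρ g u) (ρ g v) (ρ g w) = t' u v w) → ∃ c : ℝ, t' = c • t) := by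
  classical
  have hg : ∀ (g : H) (y : U), ρ g (ρ g⁻¹ y) = y := by
    intro g y
    rw [← Module.End.mul_apply, ← map_mul, mul_inv_cancel, map_one, Module.End.one_apply]
  have hker : ∀ x, (∀ y, B x y = 0) → x = 0 := by
    intro x hx
    have hW : ∀ g : H, (LinearMap.ker B).map (ρ g) ≤ LinearMap.ker B := by
      rintro g _ ⟨z, hz, rfl⟩
      rw [SetLike.mem_coe, LinearMap.mem_ker] at hz
      rw [LinearMap.mem_ker]
      ext y
      rw [← hg g y, hBi, hz]
      simp
    rcases hirr _ hW with h | h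
    · have hx' : x ∈ LinearMap.ker B := LinearMap.mem_ker.2 (LinearMap.ext hx)
      rw [h] at hx'
      simpa using hx'
    · exfalso
      apply hB0
      ext u v
      have hu : u ∈ LinearMap.ker B := by rw [h]; trivial
      rw [LinearMap.mem_ker.1 hu]
      simp
  have hnd : B.Nondegenerate :=
    ⟨hker, fun y hy => hker y (fun z => by rw [hBs]; exact hy z)⟩
  -- from trilinear forms to products
  let fromT : (U →ₗ[ℝ] U →ₗ[ℝ] U →ₗ[ℝ] ℝ) → (U →ₗ[ℝ] U →ₗ[ℝ] U) := fun t =>
    t.compr₂ (B.toDual hnd).symm.toLinearMap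
  have hfromT : ∀ t u v w, B (fromT t u v) w = t u v w := by
    intro t u v w
    show B ((B.toDual hnd).symm (t u v)) w = t u v w
    exact LinearMap.BilinForm.apply_toDual_symm_apply _ _
  let toT : (U →ₗ[ℝ] U →ₗ[ℝ] U) → (U →ₗ[ℝ] U →ₗ[ℝ] U →ₗ[ℝ] ℝ) := fun m => m.compr₂ B
  have htoT : ∀ m u v w, toT m u v w = B (m u v) w := fun _ _ _ _ => rfl
  have hext : ∀ a b : U, (∀ w, B a w = B b w) → a = b := by
    intro a b h
    have := hker (a - b) (fun y => by rw [map_sub, LinearMap.sub_apply, h, sub_self])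
    exact sub_eq_zero.1 this
  have hto_inv : ∀ m : U →ₗ[ℝ] U →ₗ[ℝ] U, (∀ (g : H) (u v : U), m (ρ g u) (ρ g v) = ρ g (m u v)) →
      ∀ (g : H) (u v w : U), toT m (ρ g u) (ρ g v) (ρ g w) = toT m u v w := by
    intro m hm g u v w
    rw [htoT, htoT, hm, hBi]
  have hfrom_eq : ∀ t : U →ₗ[ℝ] U →ₗ[ℝ] U →ₗ[ℝ] ℝ, (∀ (g : H) (u v w : U), t (ρ g u) (ρ g v) (ρ g w) = t u v w) →
      ∀ (g : H) (u v : U), fromT t (ρ g u) (ρ g v) = ρ g (fromT t u v) := by
    intro t ht g u v
    apply hext
    intro w
    rw [hfromT, ← hg g w, hBi, hfromT, ht]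
  have hto_from : ∀ t, toT (fromT t) = t := by
    intro t
    ext u v w
    rw [htoT, hfromT]
  have hfrom_to : ∀ m, fromT (toT m) = m := by
    intro m
    refine LinearMap.ext fun u => LinearMap.ext fun v => ?_
    apply hext
    intro w
    rw [hfromT, htoT]
  constructor
  · rintro ⟨m, hm0, hmc, hme, hmu⟩
    set t := toT m with ht
    have ht0 : t ≠ 0 := by
      intro h
      apply hm0
      rw [← hfrom_to m, ← ht, h]
      refine LinearMap.ext fun u => LinearMap.ext fun v => ?_
      apply hext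
      intro w
      rw [hfromT]
      simp
    have hsym1 : ∀ u v w, t u v w = t v u w := by
      intro u v w
      rw [ht, htoT, htoT, hmc]
    have hspan : ∀ t' : U →ₗ[ℝ] U →ₗ[ℝ] U →ₗ[ℝ] ℝ, (∀ (g : H) (u v w : U), t' (ρ g u) (ρ g v) (ρ g w) = t' u v w) →
        ∃ c : ℝ, t' = c • t := by
      intro t' ht'
      obtain ⟨c, hc⟩ := hmu (fromT t') (hfrom_eq t' ht')
      refine ⟨c, ?_⟩
      ext u v w
      rw [← hto_from t', htoT, hc, LinearMap.smul_apply, LinearMap.smul_apply, map_smul]
      simp [ht, htoT]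
    -- the flip of the last two arguments
    let t₁ : U →ₗ[ℝ] U →ₗ[ℝ] U →ₗ[ℝ] ℝ := (LinearMap.lflip).comp t
    have ht₁ : ∀ u v w, t₁ u v w = t u w v := fun _ _ _ => rfl
    have hinv : ∀ (g : H) (u v w : U), t (ρ g u) (ρ g v) (ρ g w) = t u v w := hto_inv m hme
    obtain ⟨c, hc⟩ := hspan t₁ (fun g u v w => by rw [ht₁, ht₁, hinv])
    have hc' : ∀ u v w, t u w v = c * t u v w := by
      intro u v w
      rw [← ht₁, hc]
      simp
    have hsym2 : ∀ u v w, t u v w = t u w v := by
      -- `t` is not zero, so `c = 1`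
      by_contra hcon
      simp only [not_forall] at hcon
      obtain ⟨u, v, w, huvw⟩ := hcon
      have hcc : c ^ 2 = 1 := by
        by_contra hne
        apply ht0
        ext a b d
        have h1 := hc' a b d
        have h2 := hc' a d b
        rw [h1] at h2
        have h3 : (c ^ 2 - 1) * t a b d = 0 := by
          rw [pow_two]; linear_combination (-1 : ℝ) * h2
        have := (mul_eq_zero.1 h3).resolve_left (sub_ne_zero.2 hne)
        simpa using this
      have hc1 : c = 1 ∨ c = -1 := by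
        have : (c - 1) * (c + 1) = 0 := by linear_combination hcc
        rcases mul_eq_zero.1 this with h | h
        · left; linarith
        · right; linarith
      rcases hc1 with hc1 | hc1
      · apply huvw
        rw [hc' u v w, hc1, one_mul]
      · apply ht0
        ext a b d
        have e1 : t a d b = - t a b d := by rw [hc' a b d, hc1]; ring
        have e2 : t b a d = t a b d := hsym1 b a d
        have e3 : t b d a = - t b a d := by rw [hc' b a d, hc1]; ring
        have e4 : t d b a = t b d a := hsym1 d b a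
        have e5 : t d a b = - t d b a := by rw [hc' d b a, hc1]; ring
        have e6 : t a d b = t d a b := hsym1 a d b
        have : (2 : ℝ) * t a b d = 0 := by
          linarith
        have h0 : t a b d = 0 := by linarith
        simpa using h0
    refine ⟨t, ht0, fun u v w => ⟨hsym1 u v w, hsym2 u v w⟩, hinv, hspan⟩
  · rintro ⟨t, ht0, hts, hti, htu⟩
    refine ⟨fromT t, ?_, ?_, hfrom_eq t hti, ?_⟩
    · intro h
      apply ht0
      rw [← hto_from t, h]
      ext u v w
      simp [htoT]
    · intro u v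
      apply hext
      intro w
      rw [hfromT, hfromT]
      exact (hts u v w).1
    · intro m' hm'
      obtain ⟨c, hc⟩ := htu (toT m') (hto_inv m' hm')
      refine ⟨c, ?_⟩
      refine LinearMap.ext fun u => LinearMap.ext fun v => ?_
      apply hext
      intro w
      have h1 : toT m' u v w = c * t u v w := by rw [hc]; simp
      rw [htoT] at h1
      rw [h1]
      simp [hfromT]

end Cfsg.Agent.S5541
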