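import Cfsg.Statements.S5543
import Mathlib

set_option autoImplicit false
open Cfsg

namespace Cfsg.Agent.S5543

/-- Let V be a finite-dimensional real vector space with a commutative bilinear product and a positive-definite symmetric bilinear form that associates with the product and satisfies the Norton inequality (the Majorana setting of the definitions). Let X be a group of linear automorphisms of V in which every element squares to the identity, and suppose every non-identity element x of X is a Majorana involution with an axial vector a(x) of squared length 1, such that for any two distinct non-identity x, y the product a(x) ∘ a(y) equals (1/8)(a(x) + a(y) − a(xy)) (the dihedral subalgebra of type 2A whose third axis belongs to the involution xy). Then X has order at most 4. -/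
theorem result {V : Type*} [AddCommGroup V] [Module ℝ V] [FiniteDimensional ℝ V] (mul : V →ₗ[ℝ] V →ₗ[ℝ] V) (B : LinearMap.BilinForm ℝ V) (hV : Cfsg.Axial.IsMajoranaAmbient mul B) (X : Subgroup (V ≃ₗ[ℝ] V)) (hX : ∀ x ∈ X, x * x = 1) (ax : (V ≃ₗ[ℝ] V) → V) (hax : ∀ x ∈ X, x ≠ 1 → Cfsg.Axial.IsMajoranaPair mul B x (ax x)) (h1 : ∀ x ∈ X, x ≠ 1 → B (ax x) (ax x) = 1) (h2A : ∀ x ∈ X, ∀ y ∈ X, x ≠ 1 → y ≠ 1 → x ≠ y → mul (ax x) (ax y) = (1 / 8 : ℝ) • (ax x + ax y - ax (x * y))) : Nat.card ↥X ≤ 4 := by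
  classical
  by_contra hcon
  have hcard : 4 < Nat.card X := by omega
  haveI : Finite X := Nat.finite_of_card_ne_zero (by omega)
  -- choosing elements
  have hch : ∀ F : Finset (V ≃ₗ[ℝ] V), F.card ≤ 4 → ∃ t ∈ X, t ∉ F := by
    intro F hF
    by_contra hn
    simp only [not_exists, not_and, not_not] at hn
    have h1 : Nat.card X ≤ F.card := by
      have : Nat.card X = Set.ncard (X : Set (V ≃ₗ[ℝ] V)) := (Nat.card_coe_set_eq _)
      rw [this, ← Set.ncard_coe_finset F]
      exact Set.ncard_le_ncard (fun t ht => hn t ht) (Set.toFinite _)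
    omega
  obtain ⟨x, hxX, hx1⟩ := hch {1} (by simp)
  obtain ⟨y, hyX, hy1⟩ := hch {1, x} (Finset.card_le_two.trans (by norm_num))
  obtain ⟨z, hzX, hz1⟩ := hch {1, x, y, x * y} (Finset.card_le_four)
  simp only [Finset.mem_insert, Finset.mem_singleton, not_or] at hx1 hy1 hz1
  obtain ⟨hy1, hyx⟩ := hy1
  obtain ⟨hz1, hzx, hzy, hzxy⟩ := hz1
  have hcomm : ∀ s ∈ X, ∀ t ∈ X, s * t = t * s := by
    intro s hs t ht
    have h1 := hX _ (mul_mem hs ht)
    have h2 := eq_inv_of_mul_eq_one_left h1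
    rw [mul_inv_rev, inv_eq_of_mul_eq_one_left (hX s hs), inv_eq_of_mul_eq_one_left (hX t ht)] at h2
    exact h2
  have hcancel : ∀ s ∈ X, ∀ t, s * (s * t) = t := by
    intro s hs t
    rw [← mul_assoc, hX s hs, one_mul]
  have hne1 : ∀ s ∈ X, ∀ t ∈ X, s ≠ t → s * t ≠ 1 := by
    intro s hs t ht hst h
    apply hst
    have h2 := eq_inv_of_mul_eq_one_left h
    rw [inv_eq_of_mul_eq_one_left (hX t ht)] at h2
    exact h2
  have hne2 : ∀ s t : (V ≃ₗ[ℝ] V), t ≠ 1 → s ≠ s * t := by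
    intro s t ht h
    apply ht
    exact mul_left_cancel (h.symm.trans (mul_one s).symm)
  have hxy1 := hne1 x hxX y hyX (Ne.symm hyx)
  have hxz1 := hne1 x hxX z hzX (Ne.symm hzx)
  have hyz1 := hne1 y hyX z hzX (Ne.symm hzy)
  have hyzX := mul_mem hyX hzX
  have hxyX := mul_mem hxX hyX
  have hxzX := mul_mem hxX hzX
  have hxyzX := mul_mem hxX hyzX
  have hxyz0 : x ≠ y * z := by
    intro h
    apply hzxy
    rw [h]
    calc z = y * (y * z) := (hcancel y hyX z).symm
      _ = y * (z * y) := by rw [hcomm y hyX z hzX]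
      _ = y * z * y := (mul_assoc _ _ _).symm
  have hxyz1 : x * (y * z) ≠ 1 := hne1 x hxX _ hyzX hxyz0
  have hy_xz : y ≠ x * z := by
    intro h
    apply hzxy
    rw [h, hcancel x hxX z]
  have e1 : y * (x * z) = x * (y * z) := by
    rw [← mul_assoc, hcomm y hyX x hxX, mul_assoc]
  have e2 : (x * y) * (x * z) = y * z := by
    rw [hcomm x hxX y hyX, mul_assoc, hcancel x hxX z]
  have e3 : (y * z) * (x * (y * z)) = x := by
    rw [← mul_assoc, hcomm (y * z) hyzX x hxX, mul_assoc, hX _ hyzX, mul_one]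
  -- the products
  have h_ab := h2A x hxX y hyX hx1 hy1 (Ne.symm hyx)
  have h_ab' := h2A x hxX (x * y) hxyX hx1 hxy1 (hne2 x y hy1)
  rw [hcancel x hxX y] at h_ab'
  have h_ac := h2A x hxX z hzX hx1 hz1 (Ne.symm hzx)
  have h_ac' := h2A x hxX (x * z) hxzX hx1 hxz1 (hne2 x z hz1)
  rw [hcancel x hxX z] at h_ac'
  have h_bc := h2A y hyX z hzX hy1 hz1 (Ne.symm hzy)
  have h_bc' := h2A y hyX (x * z) hxzX hy1 hxz1 hy_xz
  rw [e1] at h_bc'
  have h_b'c := h2A (x * y) hxyX z hzX hxy1 hz1 (Ne.symm hzxy)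
  rw [mul_assoc] at h_b'c
  have h_b'c' := h2A (x * y) hxyX (x * z) hxzX hxy1 hxz1
    (fun h => hzy (mul_left_cancel h).symm)
  rw [e2] at h_b'c'
  have h_ad := h2A x hxX (y * z) hyzX hx1 hyz1 hxyz0
  have h_ad' := h2A x hxX (x * (y * z)) hxyzX hx1 hxyz1 (hne2 x _ hyz1)
  rw [hcancel x hxX (y * z)] at h_ad'
  have h_dd' := h2A (y * z) hyzX (x * (y * z)) hxyzX hyz1 hxyz1
    (fun h => hx1 (mul_right_cancel ((one_mul _).trans h).symm))
  rw [e3] at h_dd'
  -- eigenvectors
  have hax' := hax x hxX hx1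
  have hfus := hax'.2.2.1.1.2.2.2
  have hw1 : ax y - ax (x * y) ∈ Cfsg.Axial.eigen mul (ax x) (1 / 4 : ℝ) := by
    apply Module.End.mem_eigenspace_iff.2
    rw [map_sub, h_ab, h_ab']
    module
  have hw2 : ax z - ax (x * z) ∈ Cfsg.Axial.eigen mul (ax x) (1 / 4 : ℝ) := by
    apply Module.End.mem_eigenspace_iff.2
    rw [map_sub, h_ac, h_ac']
    module
  have hprod : mul (ax y - ax (x * y)) (ax z - ax (x * z)) = (1 / 4 : ℝ) • (ax (x * (y * z)) - ax (y * z)) := by
    simp only [map_sub, LinearMap.sub_apply, h_bc, h_bc', h_b'c, h_b'c']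
    module
  have hS : (1 / 4 : ℝ) ∈ Cfsg.Axial.majoranaSpectrum := by
    simp [Cfsg.Axial.majoranaSpectrum]
  have hf := hfus _ hS _ hS _ hw1 _ hw2
  have hlaw : Cfsg.Axial.monsterLaw (1 / 4 : ℝ) (1 / 32) (1 / 4) (1 / 4) = {1, 0} := by
    unfold Cfsg.Axial.monsterLaw
    rw [if_neg (by norm_num), if_neg (by norm_num), if_pos (by norm_num)]
  rw [hlaw, hprod] at hf
  have hsum : Cfsg.Axial.eigenSum mul (ax x) ({1, 0} : Set ℝ) =
      Cfsg.Axial.eigen mul (ax x) 1 ⊔ Cfsg.Axial.eigen mul (ax x) 0 := by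
    unfold Cfsg.Axial.eigenSum
    rw [iSup_insert, iSup_singleton]
  rw [hsum, Submodule.mem_sup] at hf
  obtain ⟨p, hp, q, hq, hpq⟩ := hf
  have hp' : mul (ax x) p = p := by
    have := Module.End.mem_eigenspace_iff.1 hp
    simpa using this
  have hq' : mul (ax x) q = 0 := by
    have := Module.End.mem_eigenspace_iff.1 hq
    simpa using this
  have hu : mul (ax x) ((1 / 4 : ℝ) • (ax (x * (y * z)) - ax (y * z))) =
      (1 / 4 : ℝ) • ((1 / 4 : ℝ) • (ax (x * (y * z)) - ax (y * z))) := by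
    rw [map_smul, map_sub, h_ad, h_ad']
    module
  rw [← hpq, map_add, hp', hq'] at hu
  have hu2 : q = (3 : ℝ) • p := by
    have h3 : (4 : ℝ) • (p + 0) = (4 : ℝ) • ((1 / 4 : ℝ) • (p + q)) := by rw [hu]
    have h4 : (4 : ℝ) • p = p + q := by
      rw [add_zero, smul_smul] at h3
      norm_num at h3
      exact h3
    have h5 : q = (4 : ℝ) • p - p := by rw [h4]; abel
    rw [h5]; module
  have hp0 : p = 0 := by
    rw [hu2, map_smul, hp'] at hq'
    have := (smul_eq_zero.1 hq').resolve_left (by norm_num)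
    exact this
  have hd : ax (x * (y * z)) = ax (y * z) := by
    have h6 : (1 / 4 : ℝ) • (ax (x * (y * z)) - ax (y * z)) = 0 := by
      rw [← hpq, hu2, hp0]; simp
    have h7 := (smul_eq_zero.1 h6).resolve_left (by norm_num)
    exact sub_eq_zero.1 h7
  rw [hd] at h_dd'
  have hidem := (hax (y * z) hyzX hyz1).2.2.1.1.2.1
  rw [hidem] at h_dd'
  -- `a = -6 d`
  have h8 : ax x = (-6 : ℝ) • ax (y * z) := by
    have h9 : (8 : ℝ) • ax (y * z) = (8 : ℝ) • ((1 / 8 : ℝ) • (ax (y * z) + ax (y * z) - ax x)) := by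
      rw [← h_dd']
    rw [smul_smul] at h9
    norm_num at h9
    have h10 : ax x = ax (y * z) + ax (y * z) - (8 : ℝ) • ax (y * z) := by
      rw [h9]; abel
    rw [h10]; module
  have h11 := h1 x hxX hx1
  have h12 := h1 (y * z) hyzX hyz1
  rw [h8] at h11
  simp only [map_smul, LinearMap.smul_apply, smul_eq_mul, h12] at h11
  norm_num at h11

end Cfsg.Agent.S5543
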