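import Cfsg.Statements.S5592
import Cfsg.Agent.Lib.Leech.Norm

set_option autoImplicit false
open Cfsg

namespace Cfsg.Agent.S5592

/-- In the Leech lattice (integer coordinates, sum of squares equal to 8 times the customary norm, so the shortest non-zero vectors have sum of squares 32): if two distinct vectors of sum of squares at most 64 are congruent modulo twice the lattice, then either they are negatives of each other, or both have sum of squares 64 and they are orthogonal. -/
theorem result (x y : Cfsg.GolayPt → ℤ) (hx : x ∈ Cfsg.leechLattice) (hy : y ∈ Cfsg.leechLattice) (hxy : x ≠ y) (hxn : Cfsg.sqNorm x ≤ 64) (hyn : Cfsg.sqNorm y ≤ 64) (hc : (∃ z ∈ Cfsg.leechLattice, x - y = 2 • z)) :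
    x = -y ∨ (Cfsg.sqNorm x = 64 ∧ Cfsg.sqNorm y = 64 ∧ Cfsg.dotInt x y = 0) := by
  obtain ⟨z, hz, hxz⟩ := hc
  have hxe : x = y + 2 • z := by rw [← hxz]; abel
  have hz' : z + y ∈ leechLattice := leechLattice.add_mem hz hy
  have hz0 : z ≠ 0 := by
    rintro rfl
    apply hxy
    rw [hxe]
    simp
  by_cases hz'0 : z + y = 0
  · left
    have : z = -y := eq_neg_of_add_eq_zero_left hz'0
    rw [hxe, this]
    funext i
    simp only [Pi.add_apply, Pi.smul_apply, Pi.neg_apply, smul_eq_mul]
    ring
  · right
    have h1 := CfsgLib.Leech.thirtytwo_le hz hz0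
    have h2 := CfsgLib.Leech.thirtytwo_le hz' hz'0
    have hxi : ∀ i, x i = y i + 2 * z i := by
      intro i
      rw [hxe]
      simp [smul_eq_mul]
    have e1 : sqNorm x = sqNorm y + 4 * dotInt y z + 4 * sqNorm z := by
      unfold sqNorm dotInt
      rw [Finset.mul_sum, Finset.mul_sum, ← Finset.sum_add_distrib, ← Finset.sum_add_distrib]
      exact Finset.sum_congr rfl fun i _ => by rw [hxi]; ring
    have e2 : sqNorm (z + y) = sqNorm z + 2 * dotInt y z + sqNorm y := by
      unfold sqNorm dotInt
      rw [Finset.mul_sum, ← Finset.sum_add_distrib, ← Finset.sum_add_distrib]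
      exact Finset.sum_congr rfl fun i _ => by simp only [Pi.add_apply]; ring
    have e3 : dotInt x y = sqNorm y + 2 * dotInt y z := by
      unfold sqNorm dotInt
      rw [Finset.mul_sum, ← Finset.sum_add_distrib]
      exact Finset.sum_congr rfl fun i _ => by rw [hxi]; ring
    refine ⟨?_, ?_, ?_⟩ <;> omega


end Cfsg.Agent.S5592
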