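import Cfsg.Statements.S5601
import Cfsg.Agent.Lib.Golay.ClassUse

set_option autoImplicit false
open scoped Pointwise
open Cfsg

namespace Cfsg.Agent.S5601

/-- The group of the length-24 code has exactly two conjugacy classes of subgroups of order 3: a subgroup of order 3 fixes either exactly 6 of the 24 points or none of them, both cases occur, and two subgroups of order 3 with the same number of fixed points are conjugate. -/
theorem result : (∀ X : Subgroup ↥Cfsg.M24, Nat.card X = 3 → {p : Cfsg.GolayPt | ∀ x ∈ X, ((x : ↥Cfsg.M24) : Equiv.Perm Cfsg.GolayPt) p = p}.ncard = 6 ∨ {p : Cfsg.GolayPt | ∀ x ∈ X, ((x : ↥Cfsg.M24) : Equiv.Perm Cfsg.GolayPt) p = p}.ncard = 0) ∧ (∃ X : Subgroup ↥Cfsg.M24, Nat.card X = 3 ∧ {p : Cfsg.GolayPt | ∀ x ∈ X, ((x : ↥Cfsg.M24) : Equiv.Perm Cfsg.GolayPt) p = p}.ncard = 6) ∧ (∃ X : Subgroup ↥Cfsg.M24, Nat.card X = 3 ∧ {p : Cfsg.GolayPt | ∀ x ∈ X, ((x : ↥Cfsg.M24) : Equiv.Perm Cfsg.GolayPt) p = p}.ncard = 0)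 ∧ ∀ X Y : Subgroup ↥Cfsg.M24, Nat.card X = 3 → Nat.card Y = 3 → {p : Cfsg.GolayPt | ∀ x ∈ X, ((x : ↥Cfsg.M24) : Equiv.Perm Cfsg.GolayPt) p = p}.ncard = {p : Cfsg.GolayPt | ∀ x ∈ Y, ((x : ↥Cfsg.M24) : Equiv.Perm Cfsg.GolayPt) p = p}.ncard → ∃ k : ↥Cfsg.M24, MulAut.conj k • X = Y := by
  open CfsgLib.Golay in
  have key : ∀ X : Subgroup ↥M24, Nat.card X = 3 → ∃ g : ↥M24, orderOf g = 3 ∧ X = Subgroup.zpowers g ∧
      {p : GolayPt | ∀ x ∈ X, ((x : ↥M24) : Equiv.Perm GolayPt) p = p}.ncard =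
        (Finset.univ.filter fun p => (g : Equiv.Perm GolayPt) p = p).card := by
    intro X hX
    have : Fact (Nat.Prime 3) := ⟨by norm_num⟩
    have : IsCyclic X := isCyclic_of_prime_card hX
    obtain ⟨⟨g, hgX⟩, hg⟩ := IsCyclic.exists_generator (α := X)
    have hgc : Subgroup.zpowers g = X := by
      apply le_antisymm
      · exact (Subgroup.zpowers_le).mpr hgX
      · intro x hx
        obtain ⟨n, hn⟩ := Subgroup.mem_zpowers_iff.mp (hg ⟨x, hx⟩)
        refine Subgroup.mem_zpowers_iff.mpr ⟨n, ?_⟩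
        have := congrArg Subtype.val hn
        simpa using this
    have hord : orderOf g = 3 := by
      rw [← Nat.card_zpowers, hgc, hX]
    refine ⟨g, hord, hgc.symm, ?_⟩
    rw [← Set.ncard_coe_finset]
    congr 1
    ext p
    simp only [Set.mem_ofPred_eq, Finset.coe_filter, Finset.mem_univ, true_and]
    constructor
    · intro h
      exact h g hgX
    · intro h x hx
      rw [← hgc] at hx
      obtain ⟨n, rfl⟩ := Subgroup.mem_zpowers_iff.mp hx
      simp only [Subgroup.coe_zpow]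
      exact Equiv.Perm.zpow_apply_eq_self_of_apply_eq_self h n
  have exi : ∀ (c : ℕ), isAut c = true → orderOf (CfsgLib.Golay.mk c) = 3 →
      ∃ X : Subgroup ↥M24, Nat.card X = 3 ∧
        {p : GolayPt | ∀ x ∈ X, ((x : ↥M24) : Equiv.Perm GolayPt) p = p}.ncard =
        (Finset.univ.filter fun p => CfsgLib.Golay.mk c p = p).card := by
    intro c hc ho
    have h3 : Nat.card (Subgroup.zpowers (⟨CfsgLib.Golay.mk c, mk_mem_M24 hc⟩ : ↥M24)) = 3 := by
      rw [Nat.card_zpowers, Subgroup.orderOf_mk, ho]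
    obtain ⟨g, hg, hXe, hn⟩ := key _ h3
    refine ⟨_, h3, ?_⟩
    rw [← Set.ncard_coe_finset]
    congr 1
    ext p
    simp only [Set.mem_ofPred_eq, Finset.coe_filter, Finset.mem_univ, true_and]
    constructor
    · intro h
      exact h ⟨CfsgLib.Golay.mk c, mk_mem_M24 hc⟩ (Subgroup.mem_zpowers _)
    · intro h x hx
      obtain ⟨n, rfl⟩ := Subgroup.mem_zpowers_iff.mp hx
      simp only [Subgroup.coe_zpow]
      exact Equiv.Perm.zpow_apply_eq_self_of_apply_eq_self h n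
  refine ⟨?_, ?_, ?_, ?_⟩
  · intro X hX
    obtain ⟨g, hg, -, hn⟩ := key X hX
    rw [hn]
    have hg' : orderOf (g : Equiv.Perm GolayPt) = 3 := by rw [Subgroup.orderOf_coe, hg]
    rcases ord3_cases g.2 hg' with h | ⟨-, h⟩
    · left
      rw [card_fix_of_conj h, fix_t3A_card]
    · right
      exact card_zero_of_fpf h
  · obtain ⟨X, h1, h2⟩ := exi t3A t3A_aut mk_t3A_ord
    exact ⟨X, h1, by rw [h2, fix_t3A_card]⟩
  · obtain ⟨X, h1, h2⟩ := exi t3B t3B_aut mk_t3B_ord
    exact ⟨X, h1, by rw [h2, fix_t3B_card]⟩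
  · intro X Y hX hY hc
    obtain ⟨g, hg, hXe, hn⟩ := key X hX
    obtain ⟨u, hu, hYe, hn'⟩ := key Y hY
    rw [hn, hn'] at hc
    have hg' : orderOf (g : Equiv.Perm GolayPt) = 3 := by rw [Subgroup.orderOf_coe, hg]
    have hu' : orderOf (u : Equiv.Perm GolayPt) = 3 := by rw [Subgroup.orderOf_coe, hu]
    have hconj : ∃ k ∈ M24, k * (g : Equiv.Perm GolayPt) * k⁻¹ = (u : Equiv.Perm GolayPt) := by
      rcases ord3_cases g.2 hg' with h1 | ⟨h1, h2⟩ <;> rcases ord3_cases u.2 hu' with h3 | ⟨h3, h4⟩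
      · exact conj_eq_of_two h1 h3
      · exfalso
        rw [card_fix_of_conj h1, fix_t3A_card, card_zero_of_fpf h4] at hc
        omega
      · exfalso
        rw [card_fix_of_conj h3, fix_t3A_card, card_zero_of_fpf h2] at hc
        omega
      · exact conj_eq_of_two h1 h3
    obtain ⟨k, hk, e⟩ := hconj
    refine ⟨⟨k, hk⟩, ?_⟩
    rw [hXe, hYe]
    have e' : (MulAut.conj (⟨k, hk⟩ : ↥M24)) g = u := by
      apply Subtype.ext
      simpa using e
    rw [← e']
    ext x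
    rw [Subgroup.mem_pointwise_smul_iff_inv_smul_mem, Subgroup.mem_zpowers_iff, Subgroup.mem_zpowers_iff]
    constructor
    · rintro ⟨n, hn⟩
      refine ⟨n, ?_⟩
      rw [← map_zpow, hn]
      simp only [MulAut.smul_def, MulAut.conj_apply, MulAut.conj_inv_apply]
      group
    · rintro ⟨n, hn⟩
      refine ⟨n, ?_⟩
      rw [← hn, ← map_zpow]
      simp only [MulAut.smul_def, MulAut.conj_apply, MulAut.conj_inv_apply]
      group


end Cfsg.Agent.S5601
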