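import Cfsg.Statements.S5604
import Cfsg.Agent.Lib.Golay.Norm7
import Cfsg.Agent.Lib.Golay.ConjGen

set_option autoImplicit false
open scoped Pointwise
open Cfsg

namespace Cfsg.Agent.S5604

/-- For a subgroup S of order 7 of the group of the length-24 code (a Sylow 7-subgroup): the normaliser of S has order 126, the centraliser of S has order 42 and is non-abelian, and the whole normaliser leaves some trio invariant. (These are the orders of a Frobenius group of order 21 times a symmetric group of degree 3; the isomorphism type itself is not asserted here.) -/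
theorem result (S : Subgroup ↥Cfsg.M24) (hS : Nat.card S = 7) : Nat.card ↥(Subgroup.normalizer (S : Set ↥Cfsg.M24)) = 126 ∧ Nat.card ↥(Subgroup.centralizer (S : Set ↥Cfsg.M24)) = 42 ∧ (∃ x ∈ Subgroup.centralizer (S : Set ↥Cfsg.M24), ∃ y ∈ Subgroup.centralizer (S : Set ↥Cfsg.M24), x * y ≠ y * x) ∧ ∃ T ∈ Cfsg.trios, ∀ n ∈ Subgroup.normalizer (S : Set ↥Cfsg.M24), ((n : ↥Cfsg.M24) : Equiv.Perm Cfsg.GolayPt) • T = T := by
  open CfsgLib.Golay in
  have : Fact (Nat.Prime 7) := ⟨by norm_num⟩
  have hF : (Nat.card ↥M24).factorization 7 = 1 := by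
    rw [card_M24, Nat.factorization_def _ (by norm_num)]
    have h1 : (244823040 : ℕ) = 7 ^ 1 * 34974720 := by norm_num
    rw [h1, padicValNat.mul (by norm_num) (by norm_num), padicValNat.prime_pow,
      padicValNat.eq_zero_of_not_dvd (by norm_num)]
  obtain ⟨k, rfl⟩ := exists_conj_of_card_prime hF card_S7 hS
  refine ⟨?_, ?_, ?_, ?_⟩
  · rw [card_normalizer_conj, card_norm_S7]
  · rw [card_centralizer_conj, card_cent_S7]
  · obtain ⟨x, hx, y, hy, hxy⟩ := cent_S7_nonab
    refine ⟨k * x * k⁻¹, centralizer_conj_iff.mp hx, k * y * k⁻¹, centralizer_conj_iff.mp hy, ?_⟩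
    intro he
    apply hxy
    have h2 : k * (x * y) * k⁻¹ = k * (y * x) * k⁻¹ := by
      calc k * (x * y) * k⁻¹ = k * x * k⁻¹ * (k * y * k⁻¹) := by group
        _ = k * y * k⁻¹ * (k * x * k⁻¹) := he
        _ = k * (y * x) * k⁻¹ := by group
    exact mul_left_cancel (mul_right_cancel h2)
  · refine ⟨(k : Equiv.Perm GolayPt) • famDec 3 tri7, M24_smul_trio k.2 tri7_ok, ?_⟩
    intro n hn
    have h1 : k⁻¹ * n * k ∈ Subgroup.normalizer (S7 : Set ↥M24) := by
      refine (normalizer_conj_iff (k := k)).mpr ?_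
      have h2 : k * (k⁻¹ * n * k) * k⁻¹ = n := by group
      rw [h2]
      exact hn
    have h3 := norm_S7_trio h1
    have h4 : ((k⁻¹ * n * k : ↥M24) : Equiv.Perm GolayPt) = (k : Equiv.Perm GolayPt)⁻¹ * n * k := rfl
    rw [h4, mul_smul, mul_smul] at h3
    rw [← smul_left_cancel_iff (k : Equiv.Perm GolayPt)⁻¹, h3]
    exact (inv_smul_smul _ _).symm


end Cfsg.Agent.S5604
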