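import Cfsg.Statements.S5607
import Cfsg.Agent.Lib.Golay.Cent2B

set_option autoImplicit false
open scoped Pointwise
open Cfsg

namespace Cfsg.Agent.S5607

/-- For a fixed-point-free involution t of the group of the length-24 code: its centraliser in that group has order 7680, is transitive on the 24 points, and is contained, together with t, in the stabiliser of some sextet. -/
theorem result (t : Equiv.Perm Cfsg.GolayPt) (ht : t ∈ Cfsg.M24) (h₂ : orderOf t = 2) (h₀ : ∀ p, t p ≠ p) : Nat.card {c : Equiv.Perm Cfsg.GolayPt // c ∈ Cfsg.M24 ∧ c * t = t * c} = 7680 ∧ (∀ p q : Cfsg.GolayPt, ∃ c ∈ Cfsg.M24, c * t = t * c ∧ c p = q) ∧ ∃ S ∈ Cfsg.sextets, t • S = S ∧ ∀ c ∈ Cfsg.M24, c * t = t * c → c • S = S := by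
  open CfsgLib.Golay in
  obtain ⟨k, hk, h⟩ := conj_2B ht (orderOf_two h₂) h₀
  refine ⟨?_, ?_, exists_sextet_of_conj hk h⟩
  · have h1 : Nat.card {c : Equiv.Perm GolayPt // c ∈ M24 ∧ c * t = t * c} = Nat.card ↥(centM t) :=
      Nat.card_congr (Equiv.subtypeEquivRight (fun c => mem_centM.symm))
    rw [h1, ← card_centM_conj hk, h, card_cent2B]
  · intro p q
    obtain ⟨c, hc, hcq⟩ := cent2B_trans (k p) (k q)
    rw [← h] at hc
    have h1 : c = k * (k⁻¹ * c * k) * k⁻¹ := by group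
    rw [h1] at hc
    obtain ⟨h2, h3⟩ := mem_centM.mp ((mem_centM_conj hk).mpr hc)
    refine ⟨_, h2, h3, ?_⟩
    simp only [Equiv.Perm.mul_apply]
    rw [hcq]
    simp


end Cfsg.Agent.S5607
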