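import Cfsg.Statements.S5608
import Cfsg.Agent.Lib.Golay.ClassPair

set_option autoImplicit false
open scoped Pointwise
open Cfsg

namespace Cfsg.Agent.S5608

/-- If an element of order 3 and an involution of the group of the length-24 code commute, then either the element of order 3 has exactly 6 fixed points and the involution exactly 8, or both are fixed-point-free. -/
theorem result (x s : Equiv.Perm Cfsg.GolayPt) (hx : x ∈ Cfsg.M24) (hs : s ∈ Cfsg.M24) (h₃ : orderOf x = 3) (h₂ : orderOf s = 2) (hc : Commute x s) : ((Finset.univ.filter fun p => x p = p).card = 6 ∧ (Finset.univ.filter fun p => s p = p).card = 8) ∨ ((Finset.univ.filter fun p => x p = p).card = 0 ∧ (Finset.univ.filter fun p => s p = p).card = 0) := by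
  open CfsgLib.Golay in
  rcases ord3_cases hx h₃ with h1 | ⟨h1, h1'⟩ <;> rcases invol_cases hs h₂ with h2 | ⟨h2, h2'⟩
  · left
    rw [card_fix_of_conj h1, card_fix_of_conj h2, fix_t3A_card, fix_t2A_card]
    exact ⟨rfl, rfl⟩
  · exfalso
    have h6 := card_fix_of_conj h1
    rw [fix_t3A_card] at h6
    obtain ⟨a, ha⟩ := exists_fix_of_card (g := x) (by rw [h6]; norm_num)
    exact no_3A_2B hx hs (orderOf_three h₃) (orderOf_two h₂) hc ha (ne_one_of_order (by norm_num) h₃) h2'
  · exfalso
    have h8 := card_fix_of_conj h2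
    rw [fix_t2A_card] at h8
    exact no_3B_2A (orderOf_three h₃) hc h8 h1'
  · right
    exact ⟨card_zero_of_fpf h1', card_zero_of_fpf h2'⟩


end Cfsg.Agent.S5608
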