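import Cfsg.Statements.S5609
import Cfsg.Agent.Lib.Golay.OctGraph

set_option autoImplicit false
open scoped Pointwise
open Cfsg

namespace Cfsg.Agent.S5609

open CfsgLib.Golay

/-- In the graph on the 759 octads of the length-24 code in which two octads are adjacent when they are disjoint, the graph is connected (of diameter 3) and two distinct octads are at distance 1, 2 or 3 exactly when they meet in 0, 4 or 2 points respectively. -/
theorem result (o o' : Finset Cfsg.GolayPt) (ho : o ∈ Cfsg.octads) (ho' : o' ∈ Cfsg.octads) (hne : o ≠ o') : (Cfsg.blockGraph Cfsg.octads).Connected ∧ ((Cfsg.blockGraph Cfsg.octads).dist ⟨o, ho⟩ ⟨o', ho'⟩ = 1 ↔ (o ∩ o').card = 0) ∧ ((Cfsg.blockGraph Cfsg.octads).dist ⟨o, ho⟩ ⟨o', ho'⟩ = 2 ↔ (o ∩ o').card = 4) ∧ ((Cfsg.blockGraph Cfsg.octads).dist ⟨o, ho⟩ ⟨o', ho'⟩ = 3 ↔ (o ∩ o').card = 2) := by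
  have hconn : (blockGraph octads).Connected := by
    haveI : Nonempty ↥octads := ⟨⟨o, ho⟩⟩
    refine SimpleGraph.Connected.mk ?_
    rintro ⟨a, ha⟩ ⟨b, hb⟩
    obtain ⟨c, hc, rfl⟩ := mem_octadList_iff.mp ha
    obtain ⟨c', hc', rfl⟩ := mem_octadList_iff.mp hb
    by_cases hne : c = c'
    · subst hne
      exact SimpleGraph.Reachable.refl _
    · rcases dist_cases hc hc' hne with h | h | h
      · exact h.2.1
      · exact h.2.1
      · exact h.2.1
  obtain ⟨c, hc, rfl⟩ := mem_octadList_iff.mp ho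
  obtain ⟨c', hc', rfl⟩ := mem_octadList_iff.mp ho'
  have hne' : c ≠ c' := fun h => hne (by rw [h])
  have e : (fs c ∩ fs c').card = pop (Nat.land c c') := card_inter_fs' c c'
  rw [e]
  refine ⟨hconn, ?_⟩
  have hv : (⟨fs c, ho⟩ : ↥octads) = vO c hc := rfl
  have hv' : (⟨fs c', ho'⟩ : ↥octads) = vO c' hc' := rfl
  rw [hv, hv']
  rcases dist_cases hc hc' hne' with ⟨h1, -, h3⟩ | ⟨h1, -, h3⟩ | ⟨h1, -, h3⟩
  · rw [show (blockGraph octads).dist (vO c hc) (vO c' hc') = 1 from h3, h1]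
    simp
  · rw [show (blockGraph octads).dist (vO c hc) (vO c' hc') = 2 from h3, h1]
    simp
  · rw [show (blockGraph octads).dist (vO c hc) (vO c' hc') = 3 from h3, h1]
    simp

end Cfsg.Agent.S5609
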