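import Cfsg.Statements.S5621
import Cfsg.Agent.Lib.StCert.CodeIso

set_option autoImplicit false
open Cfsg

namespace Cfsg.Agent.S5621

/-- Let C be a self-dual binary code of length 24 with minimum weight at least 8 (a 12-dimensional subspace of the 24-dimensional space over the field with two elements, any two of whose words have dot product zero, with no non-zero word of weight below 8 — an abstract extended binary Golay code). Then C is doubly even: every word of C has weight divisible by 4. -/
theorem result (C : Submodule (ZMod 2) (Fin 24 → ZMod 2)) (hdim : Module.finrank (ZMod 2) C = 12) (horth : ∀ v ∈ C, ∀ w ∈ C, ∑ i, v i * w i = 0) (hmin : ∀ w ∈ C, w ≠ 0 → 8 ≤ hammingNorm w) : ∀ w ∈ C, 4 ∣ hammingNorm w := by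
  have hC : CfsgLib.StCert.Abs.Good C := ⟨hdim, horth, hmin⟩
  obtain ⟨e, he, -⟩ := hC.exists_equiv
  intro w hw
  have h1 : (fun p => w (e.symm p)) ∈ Cfsg.golayCode := by
    rw [he]
    simpa using hw
  obtain ⟨c, hc, hce⟩ := (CfsgLib.Golay.mem_golayCode_iff _).mp h1
  have h2 : hammingNorm w = hammingNorm (fun p => w (e.symm p)) := by
    unfold hammingNorm
    apply Finset.card_bij (fun i _ => e i)
    · intro i hi
      simpa using hi
    · intro a _ b _ h
      exact e.injective h
    · intro p hp
      refine ⟨e.symm p, by simpa using hp, by simp⟩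
  rw [h2, hce, CfsgLib.Golay.hammingNorm_word]
  rcases CfsgLib.Golay.weight_cases c hc with h | h | h | h | h <;> rw [h] <;> norm_num

end Cfsg.Agent.S5621
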