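import Cfsg.Statements.S5625
import Mathlib
import Cfsg.Agent.Lib.Steiner.Count

set_option autoImplicit false
open Cfsg

namespace Cfsg.Agent.S5625

/-- In any Steiner system S(5, 8, 24) and for any set Y of three points, the blocks meeting Y in exactly 3, 2, 1 and 0 points number 21, 168, 360 and 210 respectively (so there are 759 blocks in all). -/
theorem result (α : Type*) [Fintype α] [DecidableEq α] (hα : Fintype.card α = 24) (B : Set (Finset α)) (hB : Cfsg.IsSteinerSystem 5 8 B) (Y : Finset α) (hY : Y.card = 3) : {b : Finset α | b ∈ B ∧ (b ∩ Y).card = 3}.ncard = 21 ∧ {b : Finset α | b ∈ B ∧ (b ∩ Y).card = 2}.ncard = 168 ∧ {b : Finset α | b ∈ B ∧ (b ∩ Y).card = 1}.ncard = 360 ∧ {b : Finset α | b ∈ B ∧ (b ∩ Y).card = 0}.ncard = 210 := by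
  classical
  have hL : ∀ A : Finset α, A ⊆ Y → CfsgLib.Steiner.num B A ∅ = CfsgLib.Steiner.L5824 A.card := by
    intro A hA
    apply CfsgLib.Steiner.hL5824' hα hB
    have := Finset.card_le_card hA
    omega
  have h3 := CfsgLib.Steiner.ncard_meet (B := B) CfsgLib.Steiner.L5824 Y hL 3
  have h2 := CfsgLib.Steiner.ncard_meet (B := B) CfsgLib.Steiner.L5824 Y hL 2
  have h1 := CfsgLib.Steiner.ncard_meet (B := B) CfsgLib.Steiner.L5824 Y hL 1
  have h0 := CfsgLib.Steiner.ncard_meet (B := B) CfsgLib.Steiner.L5824 Y hL 0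
  rw [hY] at h3 h2 h1 h0
  refine ⟨h3.trans (by decide), h2.trans (by decide), h1.trans (by decide), h0.trans (by decide)⟩

end Cfsg.Agent.S5625
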