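import Mathlib
import Cfsg.Agent.Lib.ClassGeo.ParabIso
import Cfsg.Statements.S5631
-- import your own Cfsg.Agent.* helpers here

set_option autoImplicit false
open Cfsg

namespace Cfsg.Agent.S5631

/-- For a finite field F and n ≥ 13, the stabiliser in SL_n(F) of any proper non-zero subspace W of F^n is a maximal subgroup of SL_n(F). Here SL_n(F) is the kernel of the determinant inside GL_n(F) and the stabiliser is the set of elements of determinant one mapping W onto itself. -/
theorem result {F : Type*} [Field F] [Fintype F] (n : ℕ) (hn : 13 ≤ n) (W : Submodule F (Fin n → F)) (hW0 : W ≠ ⊥) (hW1 : W ≠ ⊤) : Cfsg.Geo.IsMaximalIn (Cfsg.Geo.specialLinear (Fin n) F) (Cfsg.Geo.subspaceStabilizer W ⊓ Cfsg.Geo.specialLinear (Fin n) F) := by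
  haveI : Nonempty (Fin n) := ⟨⟨0, by omega⟩⟩
  constructor
  · refine lt_of_le_of_ne inf_le_right ?_
    intro h
    obtain ⟨t, ht, htW⟩ := CfsgLib.ClassGeo.exists_not_stab W hW0 hW1
    have hdet : t ∈ Cfsg.Geo.specialLinear (Fin n) F := by
      change Matrix.GeneralLinearGroup.det t = 1
      apply Units.ext
      exact ht
    rw [← h] at hdet
    exact htW hdet.1
  · intro M h1 h2
    exact CfsgLib.ClassGeo.stabSL_maximal W hW0 hW1 (by simp; omega) M h1 h2

end Cfsg.Agent.S5631
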