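import Mathlib
import Cfsg.Agent.Lib.ClassGeo.ParabIso
import Cfsg.Statements.S5632
-- import your own Cfsg.Agent.* helpers here

set_option autoImplicit false
open Cfsg

namespace Cfsg.Agent.S5632

/-- For a finite field F and subspaces 0 < W < U of F^n with dim W + dim U = n, the elements of SL_n(F) stabilising both W and U form a subgroup that is not maximal in SL_n(F): some subgroup lies strictly between it and SL_n(F). -/
theorem result {F : Type*} [Field F] [Fintype F] (n : ℕ) (W U : Submodule F (Fin n → F)) (hW0 : W ≠ ⊥) (hWU : W < U) (hdim : Module.finrank F W + Module.finrank F U = n) : ∃ K : Subgroup (Matrix.GeneralLinearGroup (Fin n) F), Cfsg.Geo.subspaceStabilizer W ⊓ Cfsg.Geo.subspaceStabilizer U ⊓ Cfsg.Geo.specialLinear (Fin n) F < K ∧ K < Cfsg.Geo.specialLinear (Fin n) F := by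
  have hW1 : W ≠ ⊤ := by
    intro h
    rw [h] at hWU
    exact not_top_lt hWU
  have hU : U ≠ ⊤ := by
    intro h
    rw [h] at hdim
    have h1 : Module.finrank F (⊤ : Submodule F (Fin n → F)) = n := by simp
    have h2 : Module.finrank F W ≠ 0 := by
      intro h3
      exact hW0 (Submodule.finrank_eq_zero.mp h3)
    omega
  exact CfsgLib.ClassGeo.stab_two_not_maximal W U hW0 hW1 (not_le_of_gt hWU) hU

end Cfsg.Agent.S5632
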