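import Mathlib
import Cfsg.Agent.Lib.ClassGeo.SpOver
import Cfsg.Statements.S5645
-- import your own Cfsg.Agent.* helpers here

set_option autoImplicit false
open Cfsg

namespace Cfsg.Agent.S5645

/-- For a finite field F and m ≥ 7, in the symplectic group Sp_2m(F) of the standard alternating form on F^(2m) (as a subgroup of GL_2m(F)), the stabiliser of any non-zero subspace on which the form vanishes identically is a maximal subgroup. -/
theorem result {F : Type*} [Field F] [Fintype F] (m : ℕ) (hm : 7 ≤ m) (W : Submodule F (Fin m ⊕ Fin m → F)) (hW0 : W ≠ ⊥) (hW : Cfsg.Geo.IsTotallySingularFor (Cfsg.sympForm m F) W) : Cfsg.Geo.IsMaximalIn (Cfsg.spGL m F) (Cfsg.Geo.subspaceStabilizer W ⊓ Cfsg.spGL m F) := by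
  apply CfsgLib.ClassGeo.isMaximalIn_of_map (CfsgLib.ClassGeo.glLin (ι := Fin m ⊕ Fin m) (F := F))
  rw [Subgroup.map_inf _ _ _ (CfsgLib.ClassGeo.glLin (ι := Fin m ⊕ Fin m) (F := F)).injective, CfsgLib.ClassGeo.map_spGL, CfsgLib.ClassGeo.map_subspaceStabilizer]
  exact CfsgLib.ClassGeo.parab_isMaximalIn (CfsgLib.ClassGeo.sympBilin_isAlt m) (CfsgLib.ClassGeo.sympBilin_sep m) W hW0 hW

end Cfsg.Agent.S5645
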