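import Mathlib
import Cfsg.Agent.Lib.ClassGeo.SpOver2
import Cfsg.Statements.S5646
-- import your own Cfsg.Agent.* helpers here

set_option autoImplicit false
open Cfsg

namespace Cfsg.Agent.S5646

/-- For a finite field F and m ≥ 7, in the symplectic group Sp_2m(F) of the standard alternating form on F^(2m), the stabiliser of any non-zero subspace W on which the form is non-degenerate and with dim W < m is a maximal subgroup. -/
theorem result {F : Type*} [Field F] [Fintype F] (m : ℕ) (hm : 7 ≤ m) (W : Submodule F (Fin m ⊕ Fin m → F)) (hW0 : W ≠ ⊥) (hW : Cfsg.Geo.IsNondegenerateOn (Cfsg.sympForm m F) W) (hdim : Module.finrank F W < m) : Cfsg.Geo.IsMaximalIn (Cfsg.spGL m F) (Cfsg.Geo.subspaceStabilizer W ⊓ Cfsg.spGL m F) := by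
  apply CfsgLib.ClassGeo.isMaximalIn_of_map (CfsgLib.ClassGeo.glLin (ι := Fin m ⊕ Fin m) (F := F))
  rw [Subgroup.map_inf _ _ _ (CfsgLib.ClassGeo.glLin (ι := Fin m ⊕ Fin m) (F := F)).injective, CfsgLib.ClassGeo.map_spGL, CfsgLib.ClassGeo.map_subspaceStabilizer]
  have hA := CfsgLib.ClassGeo.sympBilin_isAlt (F := F) m
  have hsep := CfsgLib.ClassGeo.sympBilin_sep (F := F) m
  have hN : ∀ u ∈ W, u ≠ 0 → ∃ x ∈ W, CfsgLib.ClassGeo.sympBilin (F := F) m u x ≠ 0 := fun u hu hu0 => (hW u hu hu0).2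
  refine CfsgLib.ClassGeo.nondeg_isMaximalIn hA hsep W hW0 hN ?_
  have hNd := CfsgLib.ClassGeo.nondeg_of_sep_alt hA hsep
  have h1 := LinearMap.BilinForm.finrank_orthogonal hNd W
  have h2 : Module.finrank F (Fin m ⊕ Fin m → F) = 2 * m := CfsgLib.ClassGeo.finrank_symp m
  omega

end Cfsg.Agent.S5646
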