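import Mathlib
import Cfsg.Agent.Lib.ClassGeo.SpOver3
import Cfsg.Statements.S5647
-- import your own Cfsg.Agent.* helpers here

set_option autoImplicit false
open Cfsg

namespace Cfsg.Agent.S5647

/-- For a finite field F with q elements and m ≥ 7, let D be a decomposition of F^(2m) into t ≥ 2 pairwise orthogonal subspaces of equal dimension k on each of which the standard alternating form is non-degenerate, spanning F^(2m). Unless k = 2 and q = 2, the elements of Sp_2m(F) permuting the members of D form a maximal subgroup of Sp_2m(F). -/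
theorem result {F : Type*} [Field F] [Fintype F] (m : ℕ) (hm : 7 ≤ m) {t : ℕ} (k : ℕ) (D : Fin t → Submodule F (Fin m ⊕ Fin m → F)) (hD : Cfsg.Geo.IsNondegenerateMDecomposition (Cfsg.sympForm m F) k D) (hex : ¬ (k = 2 ∧ Fintype.card F = 2)) : Cfsg.Geo.IsMaximalIn (Cfsg.spGL m F) (Cfsg.Geo.decompositionStabilizer D ⊓ Cfsg.spGL m F) := by
  apply CfsgLib.ClassGeo.isMaximalIn_of_map (CfsgLib.ClassGeo.glLin (ι := Fin m ⊕ Fin m) (F := F))
  rw [Subgroup.map_inf _ _ _ (CfsgLib.ClassGeo.glLin (ι := Fin m ⊕ Fin m) (F := F)).injective, CfsgLib.ClassGeo.map_spGL, CfsgLib.ClassGeo.map_decompositionStabilizer]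
  have hA := CfsgLib.ClassGeo.sympBilin_isAlt (F := F) m
  have hsep := CfsgLib.ClassGeo.sympBilin_sep (F := F) m
  have hO : CfsgLib.ClassGeo.OrthDec (CfsgLib.ClassGeo.sympBilin (F := F) m) k D :=
    { two_le := hD.decomp.two_le
      pos := hD.decomp.pos
      finrank_eq := hD.decomp.finrank_eq
      nondeg := fun i u hu hu0 => (hD.nondegenerate i u hu hu0).2
      orth := hD.orthogonal
      top := hD.decomp.iSup_eq_top }
  refine CfsgLib.ClassGeo.dec_isMaximalIn hA hsep hO ?_
  intro i u hu hu0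
  refine CfsgLib.ClassGeo.exists_c_of_not_exc hA (D i) (hO.nondeg i) ?_ u hu hu0
  rw [hO.finrank_eq]
  exact hex

end Cfsg.Agent.S5647
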