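import Mathlib
import Cfsg.Agent.Lib.ClassGeo.SpLag2
import Cfsg.Agent.Lib.ClassGeo.SymOver
import Cfsg.Statements.S5649
-- import your own Cfsg.Agent.* helpers here

set_option autoImplicit false
open Cfsg

namespace Cfsg.Agent.S5649

/-- For a finite field F of odd order and m ≥ 7, let D be a decomposition of F^(2m) into two complementary subspaces of dimension m on each of which the standard alternating form vanishes identically. Then the elements of Sp_2m(F) preserving or interchanging the two subspaces form a maximal subgroup of Sp_2m(F). -/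
theorem result {F : Type*} [Field F] [Fintype F] (m : ℕ) (hm : 7 ≤ m) (hodd : Odd (Fintype.card F)) (D : Fin 2 → Submodule F (Fin m ⊕ Fin m → F)) (hD : Cfsg.Geo.IsMDecomposition m D) (hts : ∀ i, Cfsg.Geo.IsTotallySingularFor (Cfsg.sympForm m F) (D i)) : Cfsg.Geo.IsMaximalIn (Cfsg.spGL m F) (Cfsg.Geo.decompositionStabilizer D ⊓ Cfsg.spGL m F) := by
  have h2 : (2 : F) ≠ 0 := CfsgLib.ClassGeo.two_ne_zero_of_odd_card hodd
  apply CfsgLib.ClassGeo.isMaximalIn_of_map (CfsgLib.ClassGeo.glLin (ι := Fin m ⊕ Fin m) (F := F))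
  rw [Subgroup.map_inf _ _ _ (CfsgLib.ClassGeo.glLin (ι := Fin m ⊕ Fin m) (F := F)).injective, CfsgLib.ClassGeo.map_spGL, CfsgLib.ClassGeo.map_decompositionStabilizer]
  refine CfsgLib.ClassGeo.sp_lag_isMaximalIn h2 (CfsgLib.ClassGeo.sympBilin_isAlt m) (CfsgLib.ClassGeo.sympBilin_sep m) D (CfsgLib.ClassGeo.isCompl_of_two D hD.indep hD.iSup_eq_top) ?_ ?_ ?_
  · intro i x hx y hy
    exact hts i x hx y hy
  · rw [hD.finrank_eq, hD.finrank_eq]
  · rw [hD.finrank_eq]
    exact hm

end Cfsg.Agent.S5649
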