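import Mathlib
import Cfsg.Agent.Lib.ClassGeo.SpOver4
import Cfsg.Statements.S5652
-- import your own Cfsg.Agent.* helpers here

set_option autoImplicit false
open Cfsg

namespace Cfsg.Agent.S5652

open CfsgLib.ClassGeo in
theorem aux_sim {F : Type*} [Field F] [Fintype F] (m : ℕ) (Q : (Fin m ⊕ Fin m → F) → F)
    (hpol : ∀ u v, QuadraticMap.polar Q u v = Cfsg.sympForm m F u v) (hne : ∃ u v, Cfsg.sympForm m F u v ≠ 0)
    (g : Matrix.GeneralLinearGroup (Fin m ⊕ Fin m) F) (h1 : g ∈ Cfsg.Geo.quadSimilarityGroup Q)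
    (h2 : g ∈ Cfsg.spGL m F) (x : Fin m ⊕ Fin m → F) : Q ((g : Matrix _ _ F).mulVec x) = Q x := by
  obtain ⟨c, hc⟩ := h1
  obtain ⟨u, v, huv⟩ := hne
  have h3 : Cfsg.sympForm m F ((g : Matrix _ _ F).mulVec u) ((g : Matrix _ _ F).mulVec v) = Cfsg.sympForm m F u v := h2 u v
  have h4 : Cfsg.sympForm m F ((g : Matrix _ _ F).mulVec u) ((g : Matrix _ _ F).mulVec v) = (c : F) * Cfsg.sympForm m F u v := by
    rw [← hpol, ← hpol, QuadraticMap.polar, QuadraticMap.polar, ← Matrix.mulVec_add, hc, hc, hc]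
    ring
  have h5 : (c : F) = 1 := by
    rw [h3] at h4
    have h6 : ((c : F) - 1) * Cfsg.sympForm m F u v = 0 := by
      rw [sub_mul, ← h4]
      ring
    rcases mul_eq_zero.mp h6 with h7 | h7
    · exact sub_eq_zero.mp h7
    · exact absurd h7 huv
  rw [hc, h5, one_mul]

/-- For a finite field F of characteristic two and m ≥ 7, let Q be a non-degenerate quadratic form on F^(2m) whose polar form is the standard alternating form. Then the elements of Sp_2m(F) that are similarities of Q (they are exactly the isometries of Q) form a maximal subgroup of Sp_2m(F). -/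
theorem result {F : Type*} [Field F] [Fintype F] (m : ℕ) (hm : 7 ≤ m) (heven : ¬ Odd (Fintype.card F)) (Q : (Fin m ⊕ Fin m → F) → F) (hQ : Cfsg.Geo.IsNondegenerateQuadraticForm Q) (hpol : ∀ u v, QuadraticMap.polar Q u v = Cfsg.sympForm m F u v) : Cfsg.Geo.IsMaximalIn (Cfsg.spGL m F) (Cfsg.Geo.quadSimilarityGroup Q ⊓ Cfsg.spGL m F) := by
  classical
  have hA := CfsgLib.ClassGeo.sympBilin_isAlt (F := F) m
  have hsep := CfsgLib.ClassGeo.sympBilin_sep (F := F) m
  have hdim : 3 ≤ Module.finrank F (Fin m ⊕ Fin m → F) := by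
    rw [CfsgLib.ClassGeo.finrank_symp]
    omega
  have hchar : ringChar F = 2 := by
    rw [FiniteField.even_card_iff_char_two]
    have : ¬ Odd (Fintype.card F) := heven
    rw [Nat.not_odd_iff] at this
    exact this
  have hq : CfsgLib.ClassGeo.QuadChar2 (CfsgLib.ClassGeo.sympBilin (F := F) m) Q :=
    { char2 := by
        have := ringChar.Nat.cast_ringChar (R := F)
        rw [hchar] at this
        exact_mod_cast this
      sq := fun a => by
        obtain ⟨b, hb⟩ := FiniteField.isSquare_of_char_two hchar a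
        exact ⟨b, hb.symm⟩
      smul := hQ.smul
      add := fun u v => by
        have := hpol u v
        rw [QuadraticMap.polar] at this
        rw [CfsgLib.ClassGeo.sympBilin_apply, ← this]
        ring }
  have hne : ∃ u v, Cfsg.sympForm m F u v ≠ 0 := by
    have hnt : Nontrivial (Fin m ⊕ Fin m → F) := by
      apply Module.nontrivial_of_finrank_pos (R := F)
      omega
    obtain ⟨x, hx⟩ := exists_ne (0 : Fin m ⊕ Fin m → F)
    obtain ⟨w, hw⟩ := CfsgLib.ClassGeo.exists_partner hsep x hx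
    refine ⟨x, w, ?_⟩
    rw [← CfsgLib.ClassGeo.sympBilin_apply, hw]
    exact one_ne_zero
  constructor
  · refine lt_of_le_of_ne inf_le_right ?_
    intro heq
    obtain ⟨v, hv, hQv⟩ := hq.exists_ne_one hA hsep hdim
    apply hq.altT_not_sim hA hsep v hv hQv
    have hmem : CfsgLib.ClassGeo.glLin.symm (CfsgLib.ClassGeo.altT hA v 1) ∈ Cfsg.spGL m F := by
      intro a b
      change Cfsg.sympForm m F (((CfsgLib.ClassGeo.glLin.symm (CfsgLib.ClassGeo.altT hA v 1) : Matrix.GeneralLinearGroup _ F) : Matrix _ _ F).mulVec a) (((CfsgLib.ClassGeo.glLin.symm (CfsgLib.ClassGeo.altT hA v 1) : Matrix.GeneralLinearGroup _ F) : Matrix _ _ F).mulVec b) = _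
      rw [CfsgLib.ClassGeo.glLin_symm_mulVec, CfsgLib.ClassGeo.glLin_symm_mulVec]
      exact CfsgLib.ClassGeo.altT_mem hA v 1 a b
    rw [← heq] at hmem
    intro x
    have := aux_sim m Q hpol hne _ hmem.1 hmem.2 x
    rwa [CfsgLib.ClassGeo.glLin_symm_mulVec] at this
  · intro M h1 h2
    by_cases hM : M ≤ Cfsg.Geo.quadSimilarityGroup Q
    · left
      exact le_antisymm (le_inf hM h2) h1
    · right
      obtain ⟨g, hgM, hg⟩ := SetLike.not_le_iff_exists.mp hM
      have hinjm : Function.Injective (Subgroup.map (CfsgLib.ClassGeo.glLin (ι := Fin m ⊕ Fin m) (F := F)).toMonoidHom) :=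
        Subgroup.map_injective (CfsgLib.ClassGeo.glLin (ι := Fin m ⊕ Fin m) (F := F)).injective
      apply hinjm
      rw [CfsgLib.ClassGeo.map_spGL]
      refine hq.overgroup hA hsep hdim _ ?_ ?_ ?_
      · intro g' hg'
        refine ⟨CfsgLib.ClassGeo.glLin.symm g', ?_, by simp⟩
        apply h1
        constructor
        · refine ⟨1, fun v => ?_⟩
          rw [CfsgLib.ClassGeo.glLin_symm_mulVec, hg']
          simp
        · intro a b
          change Cfsg.sympForm m F (((CfsgLib.ClassGeo.glLin.symm g' : Matrix.GeneralLinearGroup _ F) : Matrix _ _ F).mulVec a) (((CfsgLib.ClassGeo.glLin.symm g' : Matrix.GeneralLinearGroup _ F) : Matrix _ _ F).mulVec b) = _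
          rw [CfsgLib.ClassGeo.glLin_symm_mulVec, CfsgLib.ClassGeo.glLin_symm_mulVec]
          exact hq.isom g' hg' a b
      · rw [← CfsgLib.ClassGeo.map_spGL]
        exact Subgroup.map_mono h2
      · refine ⟨CfsgLib.ClassGeo.glLin g, ⟨g, hgM, rfl⟩, ?_⟩
        intro hcon
        apply hg
        refine ⟨1, fun v => ?_⟩
        rw [← CfsgLib.ClassGeo.glLin_apply, hcon]
        simp

end Cfsg.Agent.S5652
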