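import Mathlib
import Cfsg.Agent.Lib.ClassGeo.ONd2
import Cfsg.Agent.Lib.ClassGeo.SymOver
import Cfsg.Agent.Lib.ClassGeo.OStd
import Cfsg.Statements.S5675
-- import your own Cfsg.Agent.* helpers here

set_option autoImplicit false
open Cfsg

namespace Cfsg.Agent.S5675

/-- Let F be a finite field of odd order q, m ≥ 6, Q the standard quadratic form on F^(2m+1) and Ω the commutator subgroup of its isometry group. Let W be a non-zero subspace of even dimension on which the polar form of Q is non-degenerate; exclude the case q = 3, dim W = 2 with Q vanishing on some line of W (a plus-type plane). Then the elements of Ω stabilising W (equivalently, stabilising its orthogonal complement, of odd dimension) form a maximal subgroup of Ω. -/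
theorem result {F : Type*} [Field F] [Fintype F] (hodd : Odd (Fintype.card F)) (m : ℕ) (hm : 6 ≤ m) (W : Submodule F (Unit ⊕ (Fin m ⊕ Fin m) → F)) (hW0 : W ≠ ⊥) (hev : Even (Module.finrank F W)) (hW : Cfsg.Geo.IsNondegenerateOn (QuadraticMap.polar (Cfsg.quadFormOdd m F)) W) (hex : ¬ (Fintype.card F = 3 ∧ Module.finrank F W = 2 ∧ Cfsg.Geo.IsPlusTypeOn (Cfsg.quadFormOdd m F) W)) : Cfsg.Geo.IsMaximalIn (Cfsg.Geo.omegaGL (Cfsg.quadFormOdd m F)) (Cfsg.Geo.subspaceStabilizer W ⊓ Cfsg.Geo.omegaGL (Cfsg.quadFormOdd m F)) := by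
  have h2 := CfsgLib.ClassGeo.two_ne_zero_of_odd_card hodd
  have hc : Fintype.card (Unit ⊕ (Fin m ⊕ Fin m)) = 2 * m + 1 := by
    simp
    omega
  obtain ⟨k, hk⟩ := hev
  refine CfsgLib.ClassGeo.Orth.omega_nd_isMaximalIn (CfsgLib.ClassGeo.Orth.quadFormOdd_nondeg h2 m) (by omega) W hW0 ?_ hW ?_ ?_
  · rintro rfl
    rw [finrank_top] at hk
    simp at hk
    omega
  · rintro ⟨h3, U, hU2, hU, hUp, h4 | ⟨-, h4⟩⟩
    · subst h4
      apply hex
      refine ⟨?_, hU2, hUp⟩
      obtain ⟨t, ht⟩ := hodd
      have : 1 < Fintype.card F := Fintype.one_lt_card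
      omega
    · rw [hc] at h4
      omega
  · intro h
    rw [hc] at h
    omega

end Cfsg.Agent.S5675
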