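import Mathlib
import Cfsg.Agent.Lib.ClassGeo.ONd3
import Cfsg.Statements.S5699
-- import your own Cfsg.Agent.* helpers here

set_option autoImplicit false
open Cfsg

namespace Cfsg.Agent.S5699

/-- Let F be a finite field with q elements, n ≥ 13 even, Q a non-degenerate quadratic form on F^n (of either type), and Ω the commutator subgroup of the isometry group of Q, viewed inside GL_n(F). Let D be a decomposition of F^n into two orthogonal subspaces of odd dimension n/2 on which the polar form is non-degenerate and which are not Q-isometric to each other. Then the elements of Ω permuting (necessarily fixing) the two subspaces form a maximal subgroup of Ω. -/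
theorem result {F : Type*} [Field F] [Fintype F] {n : ℕ} (hn : 13 ≤ n) (heven : Even n) (Q : (Fin n → F) → F) (hQ : Cfsg.Geo.IsNondegenerateQuadraticForm Q) (k : ℕ) (hk : 2 * k = n) (hko : Odd k) (D : Fin 2 → Submodule F (Fin n → F)) (hD : Cfsg.Geo.IsNondegenerateMDecomposition (QuadraticMap.polar Q) k D) (hni : ¬ Cfsg.Geo.AreIsometricFor Q (D 0) (D 1)) : Cfsg.Geo.IsMaximalIn (Cfsg.Geo.omegaGL Q) (Cfsg.Geo.decompositionStabilizer D ⊓ Cfsg.Geo.omegaGL Q) := by
  open CfsgLib.ClassGeo.Orth in
  have hk' : 2 * k = Fintype.card (Fin n) := by simpa using hk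
  rw [CfsgLib.ClassGeo.Orth.omega_dec_eq hQ hk' hD hni]
  have hperp := CfsgLib.ClassGeo.Orth.perp_eq_of_dec hQ hk' hD
  have hd0 := hD.decomp.finrank_eq 0
  have hd1 := hD.decomp.finrank_eq 1
  have hk13 : 7 ≤ k := by omega
  have hfr : Module.finrank F (Fin n → F) = n := by simp
  refine CfsgLib.ClassGeo.Orth.omega_nd_isMaximalIn hQ (by simpa using hn) (D 0) ?_ ?_ (hD.nondegenerate 0) ?_ ?_
  · intro h
    rw [h] at hd0
    simp at hd0
    omega
  · intro h
    rw [h, finrank_top, hfr] at hd0
    omega
  · rintro ⟨-, U, hU2, -, -, h4 | ⟨-, h4⟩⟩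
    · subst h4
      rw [hd0] at hU2
      omega
    · simp only [Fintype.card_fin] at h4
      omega
  · intro _ g hg h
    rw [hperp] at h
    apply hni
    apply CfsgLib.ClassGeo.Orth.isometric_of_map g hg
    apply Submodule.eq_of_le_of_finrank_eq
    · rintro _ ⟨x, hx, rfl⟩
      exact h x hx
    · rw [LinearEquiv.finrank_map_eq g (D 0), hd0, hd1]

end Cfsg.Agent.S5699
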