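import Mathlib
import Cfsg.Agent.Lib.Dickson.Special
import Cfsg.Statements.S5938
-- import your own Cfsg.Agent.* helpers here

set_option autoImplicit false
open Cfsg

namespace Cfsg.Agent.S5938

/-- Let p be a prime with p ≡ ±1 (mod 8) and F a field with p elements. Then PSL_2(F) has a maximal subgroup isomorphic to the symmetric group S_4. -/
theorem result {F : Type*} [Field F] [Fintype F] (p : ℕ) [Fact p.Prime] (hF : Fintype.card F = p) (hp : p % 8 = 1 ∨ p % 8 = 7) : ∃ H : Subgroup (Matrix.ProjectiveSpecialLinearGroup (Fin 2) F), IsCoatom H ∧ Nonempty (H ≃* Equiv.Perm (Fin 4)) := by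
  classical
  have hpp : p.Prime := Fact.out
  haveI : CharP F p := CfsgLib.Dickson.charP_of_card hpp (k := 1) one_ne_zero (by rw [hF, pow_one])
  have hodd : p % 2 = 1 := by omega
  have hoddp : Odd p := Nat.odd_iff.2 hodd
  have h2 : (2 : F) ≠ 0 := by
    intro e
    have h3 : p ∣ 2 := (CharP.cast_eq_zero_iff F p 2).1 (by exact_mod_cast e)
    have := (Nat.prime_dvd_prime_iff_eq hpp (by norm_num)).1 h3
    omega
  have hsq : IsSquare (2 : F) := by
    rw [FiniteField.isSquare_two_iff, hF]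
    omega
  obtain ⟨s, hs⟩ := hsq
  obtain ⟨φ, hφ⟩ := CfsgLib.Dickson.exists_S4_odd (F := F) (by rw [hF]; exact hodd) h2 s (by rw [hs]; ring)
  have hc0 : Nat.card φ.range = 24 := by
    rw [← Nat.card_congr (MonoidHom.ofInjective hφ).toEquiv]
    exact CfsgLib.Dickson.card_S4'
  have hgcd : Nat.gcd 2 (p - 1) = 2 := Nat.gcd_eq_left (by omega)
  have hp7 : 7 ≤ p := by
    have := hpp.two_le
    omega
  have hG := CfsgLib.Dickson.card_PSL2 hF
  rw [hgcd] at hG
  refine ⟨φ.range, CfsgLib.Dickson.coatom_of _ ?_ ?_, ⟨(MonoidHom.ofInjective hφ).symm⟩⟩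
  · intro e
    rw [e, Subgroup.card_top] at hc0
    rw [hc0] at hG
    have : 8 * (7 * 6) ≤ (p + 1) * (p * (p - 1)) := Nat.mul_le_mul (by omega) (Nat.mul_le_mul hp7 (by omega))
    omega
  · intro H hle hH
    have hdvd : 24 ∣ Nat.card H := by
      rw [← hc0]
      exact Subgroup.card_dvd_of_le hle
    rcases CfsgLib.Dickson.S4_over p hoddp φ hφ H hle with e | e | e | ⟨K, hK3, hK⟩
    · rw [Nat.card_congr e.some.toEquiv, CfsgLib.Dickson.card_A4'] at hdvd
      omega
    · apply CfsgLib.Dickson.le_of_card _ _ hle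
      rw [hc0, Nat.card_congr e.some.toEquiv, CfsgLib.Dickson.card_S4']
    · rw [Nat.card_congr e.some.toEquiv, CfsgLib.Dickson.card_A5'] at hdvd
      omega
    · exfalso
      apply hH
      obtain ⟨m, hm⟩ := CfsgLib.Dickson.exists_degree K
      rw [hF] at hm
      have h5 := (Nat.prime_iff.1 hpp)
      have hK1 : Nat.card K = p := ((Nat.Prime.pow_eq_iff hpp).1 hm).1
      exact CfsgLib.Dickson.subfield_full hF H K hK hK1

end Cfsg.Agent.S5938
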