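import Mathlib
import Cfsg.Agent.Lib.Dickson.SubMax
import Cfsg.Statements.S5941
-- import your own Cfsg.Agent.* helpers here

set_option autoImplicit false
open Cfsg

namespace Cfsg.Agent.S5941

/-- Let K and F be finite fields of odd characteristic with #F = (#K)². Then PSL_2(F) has a maximal subgroup isomorphic to PGL_2(K). -/
theorem result {F K : Type*} [Field F] [Fintype F] [Field K] [Fintype K] (q : ℕ) (hK : Fintype.card K = q) (hF : Fintype.card F = q ^ 2) (hq : Odd q) : ∃ H : Subgroup (Matrix.ProjectiveSpecialLinearGroup (Fin 2) F), IsCoatom H ∧ Nonempty (H ≃* Matrix.ProjGenLinGroup (Fin 2) K) := by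
  classical
  obtain ⟨p, hp⟩ := CharP.exists F
  obtain ⟨n, hpp, hn⟩ := FiniteField.card F p
  haveI : Fact p.Prime := ⟨hpp⟩
  have hq2' : 2 ≤ q := by
    rw [← hK]
    exact Fintype.one_lt_card
  have hq1 := Nat.odd_iff.1 hq
  have hq3 : 3 ≤ q := by omega
  have hqq : Fintype.card F % 2 = 1 := by
    rw [hF, Nat.pow_mod, hq1]
  have h2 : (2 : F) ≠ 0 := by
    intro e
    have h3 : p ∣ 2 := (CharP.cast_eq_zero_iff F p 2).1 (by exact_mod_cast e)
    have h4 : p = 2 := (Nat.prime_dvd_prime_iff_eq hpp (by norm_num)).1 h3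
    subst h4
    have h5 : 2 ∣ Fintype.card F := by
      rw [hn]
      exact dvd_pow_self _ n.ne_zero
    omega
  obtain ⟨K₀, hK₀, ⟨eK⟩⟩ := CfsgLib.Dickson.exists_subfield_iso (F := F) K 2 (by
    rw [Nat.card_eq_fintype_card, Nat.card_eq_fintype_card, hK, hF])
  replace hK₀ : Nat.card K₀ = q := by rw [hK₀, Nat.card_eq_fintype_card, hK]
  obtain ⟨J, hJ, ⟨e⟩⟩ := CfsgLib.Dickson.pgl_sub_coatom p K₀ q hK₀ hq1 hq3 hF h2
  obtain ⟨e2⟩ := CfsgLib.Dickson.pgl_equiv eK.symm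
  exact ⟨J, hJ, ⟨e.trans e2⟩⟩

end Cfsg.Agent.S5941
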