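import Mathlib
import Cfsg.Agent.Lib.Dickson.SubMax
import Cfsg.Statements.S5942
-- import your own Cfsg.Agent.* helpers here

set_option autoImplicit false
open Cfsg

namespace Cfsg.Agent.S5942

/-- Let K and F be finite fields of odd characteristic with #F = (#K)^r for an odd prime r. Then PSL_2(F) has a maximal subgroup isomorphic to PSL_2(K). -/
theorem result {F K : Type*} [Field F] [Fintype F] [Field K] [Fintype K] (q r : ℕ) (hK : Fintype.card K = q) (hF : Fintype.card F = q ^ r) (hq : Odd q) (hr : r.Prime) (hr2 : r ≠ 2) : ∃ H : Subgroup (Matrix.ProjectiveSpecialLinearGroup (Fin 2) F), IsCoatom H ∧ Nonempty (H ≃* Matrix.ProjectiveSpecialLinearGroup (Fin 2) K) := by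
  classical
  obtain ⟨p, hp⟩ := CharP.exists F
  obtain ⟨n, hpp, hn⟩ := FiniteField.card F p
  haveI : Fact p.Prime := ⟨hpp⟩
  have hq2 : 2 ≤ q := by
    rw [← hK]
    exact Fintype.one_lt_card
  have hq3 : 3 ≤ q := by
    have := Nat.odd_iff.1 hq
    omega
  obtain ⟨K₀, hK₀, ⟨eK⟩⟩ := CfsgLib.Dickson.exists_subfield_iso (F := F) K r (by
    rw [Nat.card_eq_fintype_card, Nat.card_eq_fintype_card, hK, hF])
  replace hK₀ : Nat.card K₀ = q := by rw [hK₀, Nat.card_eq_fintype_card, hK]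
  have hrodd : r % 2 = 1 := by
    have := hr.eq_one_or_self_of_dvd 2
    rcases Nat.mod_two_eq_zero_or_one r with h | h
    · exfalso
      have h2 := hr.eq_one_or_self_of_dvd 2 (Nat.dvd_of_mod_eq_zero h)
      omega
    · exact h
  refine ⟨_, CfsgLib.Dickson.psl_sub_coatom p K₀ r hr q hK₀ hq3 hF (fun _ => hrodd), ?_⟩
  obtain ⟨e2⟩ := CfsgLib.Dickson.psl_equiv eK.symm
  exact ⟨(MonoidHom.ofInjective (CfsgLib.Dickson.thetaP_inj K₀ 1 one_ne_zero)).symm.trans e2⟩

end Cfsg.Agent.S5942
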