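import Mathlib
import Cfsg.Statements.S5944
-- import your own Cfsg.Agent.* helpers here

set_option autoImplicit false
open Cfsg

namespace Cfsg.Agent.S5944

/-- For n ≠ 4, every proper subgroup of the symmetric group S_n other than the alternating group A_n has index at least n. -/
theorem result (n : ℕ) (hn : n ≠ 4) (H : Subgroup (Equiv.Perm (Fin n))) (hH : H ≠ ⊤) (hA : H ≠ alternatingGroup (Fin n)) : n ≤ H.index := by
  classical
  have hle2 : ¬ H.index ≤ 2 := by
    intro h
    have h0 : H.index ≠ 0 := Subgroup.index_ne_zero_of_finite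
    have h1 : H.index ≠ 1 := fun e => hH (Subgroup.index_eq_one.mp e)
    have h2 : H.index = 2 := by omega
    exact hA (Equiv.Perm.eq_alternatingGroup_of_index_eq_two h2)
  by_contra hlt
  push Not at hlt
  by_cases h5 : 5 ≤ n
  · -- the normal core is non-trivial
    let f := MulAction.toPermHom (Equiv.Perm (Fin n)) (Equiv.Perm (Fin n) ⧸ H)
    have hker : f.ker ≤ H := by
      intro g hg
      have h1 : g • ((1 : Equiv.Perm (Fin n)) : Equiv.Perm (Fin n) ⧸ H) = (1 : Equiv.Perm (Fin n)) := by
        have := congrArg (fun p : Equiv.Perm (Equiv.Perm (Fin n) ⧸ H) => p ((1 : Equiv.Perm (Fin n)) : Equiv.Perm (Fin n) ⧸ H)) (MonoidHom.mem_ker.mp hg)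
        exact this
      have h2 : ((g : Equiv.Perm (Fin n)) : Equiv.Perm (Fin n) ⧸ H) = (1 : Equiv.Perm (Fin n)) := by
        rw [← h1]
        show _ = ((g * 1 : Equiv.Perm (Fin n)) : Equiv.Perm (Fin n) ⧸ H)
        rw [mul_one]
      have h3 : g⁻¹ * 1 ∈ H := QuotientGroup.eq.mp h2
      rw [mul_one] at h3
      exact H.inv_mem_iff.mp h3
    have hcardrange : Nat.card f.range ≤ (H.index).factorial := by
      have h1 : Nat.card f.range ≤ Nat.card (Equiv.Perm (Equiv.Perm (Fin n) ⧸ H)) :=
        Nat.card_le_card_of_injective _ Subtype.val_injective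
      rw [Nat.card_perm] at h1
      exact h1
    have hnt : Nontrivial f.ker := by
      by_contra hc
      rw [not_nontrivial_iff_subsingleton] at hc
      have h1 : f.ker = ⊥ := by
        rw [eq_bot_iff]
        intro g hg
        have := Subsingleton.elim (⟨g, hg⟩ : f.ker) 1
        exact Subgroup.mem_bot.mpr (congrArg Subtype.val this)
      have h2 : n.factorial = Nat.card f.range := by
        have h2 := Subgroup.index_ker f
        rw [h1, Subgroup.index_bot, Nat.card_perm] at h2
        simpa using h2
      have h3 : H.index.factorial < n.factorial := by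
        apply Nat.factorial_lt_of_lt
        · omega
        · exact hlt
      omega
    have hA' : alternatingGroup (Fin n) ≤ f.ker :=
      Equiv.Perm.alternatingGroup_le_of_normal (by simpa using h5) hnt
    apply hle2
    calc H.index ≤ (alternatingGroup (Fin n)).index := Subgroup.index_antitone (hA'.trans hker)
      _ = 2 := by
        haveI : Nontrivial (Fin n) := Fin.nontrivial_iff_two_le.mpr (by omega)
        exact alternatingGroup.index_eq_two
      _ ≤ 2 := le_rfl
  · apply hle2
    omega

end Cfsg.Agent.S5944
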