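import Mathlib
import Cfsg.Agent.Lib.ClassMax.S6
import Cfsg.Statements.S5945
-- import your own Cfsg.Agent.* helpers here

set_option autoImplicit false
open Cfsg

namespace Cfsg.Agent.S5945

/-- The symmetric group S_6 has exactly 12 subgroups of index 6; each of them is isomorphic to S_5, and at least one of them is not the stabilizer of any point. -/
theorem result : Nat.card {H : Subgroup (Equiv.Perm (Fin 6)) // H.index = 6} = 12 ∧ (∀ H : Subgroup (Equiv.Perm (Fin 6)), H.index = 6 → Nonempty (H ≃* Equiv.Perm (Fin 5))) ∧ ∃ H : Subgroup (Equiv.Perm (Fin 6)), H.index = 6 ∧ ∀ a : Fin 6, H ≠ MulAction.stabilizer (Equiv.Perm (Fin 6)) a := by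
  exact ⟨CfsgLib.ClassMax.S6.card_index_six, CfsgLib.ClassMax.S6.iso_of_index,
    CfsgLib.ClassMax.S6.E, CfsgLib.ClassMax.S6.index_E, CfsgLib.ClassMax.S6.E_not_stab⟩

end Cfsg.Agent.S5945
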