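import Mathlib
import Cfsg.Statements.S5952
-- import your own Cfsg.Agent.* helpers here

set_option autoImplicit false
open Cfsg

namespace Cfsg.Agent.S5952

theorem exists_sub {F V : Type*} [Field F] [AddCommGroup V] [Module F V] [FiniteDimensional F V]
    (C : Submodule F V) (k : ℕ) (hk : k ≤ Module.finrank F C) :
    ∃ C₀ : Submodule F V, C₀ ≤ C ∧ Module.finrank F C₀ = k := by
  induction k with
  | zero => exact ⟨⊥, bot_le, finrank_bot F V⟩
  | succ k ih =>
    obtain ⟨C₀, h1, h2⟩ := ih (by omega)
    have hlt : C₀ < C := by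
      refine lt_of_le_of_ne h1 ?_
      rintro rfl
      omega
    obtain ⟨v, hv, hv'⟩ := SetLike.exists_of_lt hlt
    refine ⟨C₀ ⊔ Submodule.span F {v}, sup_le h1 (by simpa using hv), ?_⟩
    have hv0 : v ≠ 0 := by
      rintro rfl
      exact hv' C₀.zero_mem
    have hd : Disjoint C₀ (Submodule.span F {v}) := by
      rw [Submodule.disjoint_def]
      intro x hx hx'
      obtain ⟨c, rfl⟩ := Submodule.mem_span_singleton.1 hx'
      by_contra hc
      have hc0 : c ≠ 0 := by
        rintro rfl
        simp at hc
      apply hv'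
      have := C₀.smul_mem c⁻¹ hx
      rwa [smul_smul, inv_mul_cancel₀ hc0, one_smul] at this
    have h3 := Submodule.finrank_sup_add_finrank_inf_eq C₀ (Submodule.span F {v})
    rw [hd.eq_bot, finrank_bot, finrank_span_singleton hv0, h2] at h3
    omega

/-- Which dimensions of invariant subspaces a semisimple linear map has. Let `V` be a finite-dimensional vector space over a field `F` and `f` an invertible semisimple linear map of `V`. Suppose `V` is the internal direct sum of the fixed space `C_V(f)` (the eigenspace for 1) and subspaces `U_1, …, U_s`, each `f`-invariant of dimension `a ≥ 1` on which `f` acts irreducibly (no `f`-invariant subspaces other than 0 and `U_j`). Let `0 < m < dim V` and `ℓ = m mod a`. Then `f` leaves some `m`-dimensional subspace invariant if and only if `dim C_V(f) ≥ m`, or `a ≤ m` and `dim C_V(f) ≥ ℓ`. -/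
theorem result {F V : Type*} [Field F] [AddCommGroup V] [Module F V]
    [FiniteDimensional F V] (f : V →ₗ[F] V) (hf : Function.Bijective f) (hss : Module.End.IsSemisimple f)
    {s a : ℕ} (ha : 1 ≤ a) (U : Fin s → Submodule F V)
    (hUinv : ∀ j, (U j).map f ≤ U j) (hUdim : ∀ j, Module.finrank F ↥(U j) = a)
    (hUirr : ∀ j, ∀ W : Submodule F V, W ≤ U j → W.map f ≤ W → W = ⊥ ∨ W = U j)
    (hdec : DirectSum.IsInternal (fun o : Option (Fin s) => o.elim (Module.End.eigenspace f 1) U))
    (m : ℕ) (hm : 0 < m) (hmV : m < Module.finrank F V) :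
    (∃ W : Submodule F V, Module.finrank F ↥W = m ∧ W.map f ≤ W) ↔
    (m ≤ Module.finrank F ↥(Module.End.eigenspace f 1) ∨
      (a ≤ m ∧ m % a ≤ Module.finrank F ↥(Module.End.eigenspace f 1))) := by
  classical
  set C := Module.End.eigenspace f 1 with hC
  have hCinv : C.map f ≤ C := by
    rintro _ ⟨x, hx, rfl⟩
    have h1 : f x = (1 : F) • x := Module.End.mem_eigenspace_iff.1 hx
    rw [SetLike.mem_coe] at hx
    have h2 : f x = x := by rw [h1, one_smul]
    change f x ∈ C
    rw [h2]; exact hx
  let A : Option (Fin s) → Submodule F V := fun o => o.elim C U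
  have hind : iSupIndep A := hdec.submodule_iSupIndep
  have htop : iSup A = ⊤ := hdec.submodule_iSup_eq_top
  let P : Finset (Fin s) → Submodule F V := fun T => C ⊔ ⨆ j ∈ T, U j
  have hP0 : P ∅ = C := by simp [P]
  have hPins : ∀ (j : Fin s) (T : Finset (Fin s)), P (insert j T) = P T ⊔ U j := by
    intro j T
    simp only [P, Finset.iSup_insert]
    rw [sup_assoc, sup_comm (U j)]
  have hPuniv : P Finset.univ = ⊤ := by
    rw [eq_top_iff, ← htop]
    apply iSup_le
    rintro (_ | j)
    · exact le_sup_left
    · exact le_trans (le_biSup U (Finset.mem_univ j)) le_sup_right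
  have hdisj : ∀ (j : Fin s) (T : Finset (Fin s)), j ∉ T → Disjoint (U j) (P T) := by
    intro j T hj
    have h := hind (some j)
    refine h.mono_right ?_
    refine sup_le ?_ ?_
    · exact le_trans (le_refl _) (le_iSup₂_of_le none (by simp) (le_refl (A none)))
    · refine iSup₂_le ?_
      intro i hi
      have hne : some i ≠ some j := by
        intro h'
        apply hj
        rw [← Option.some.inj h']
        exact hi
      exact le_iSup₂_of_le (some i) hne (le_refl (A (some i)))
  have hPinv : ∀ T, (P T).map f ≤ P T := by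
    intro T
    induction T using Finset.induction_on with
    | empty => rw [hP0]; exact hCinv
    | insert j T _ ih =>
      rw [hPins, Submodule.map_sup]
      exact sup_le_sup ih (hUinv j)
  -- dimension count for sums
  have hcount : ∀ (C₀ : Submodule F V), C₀ ≤ C → ∀ J : Finset (Fin s),
      Module.finrank F ↥(C₀ ⊔ ⨆ j ∈ J, U j) = Module.finrank F C₀ + J.card * a := by
    intro C₀ hC₀ J
    induction J using Finset.induction_on with
    | empty =>
      have h0 : (⨆ j ∈ (∅ : Finset (Fin s)), U j) = ⊥ := by simp
      rw [h0, sup_bot_eq, Finset.card_empty, zero_mul, add_zero]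
    | insert j T hj ih =>
      have heq : C₀ ⊔ ⨆ i ∈ insert j T, U i = (C₀ ⊔ ⨆ i ∈ T, U i) ⊔ U j := by
        simp only [Finset.iSup_insert]
        rw [sup_assoc, sup_comm (U j)]
      rw [heq]
      have hdd : (C₀ ⊔ ⨆ i ∈ T, U i) ⊓ U j = ⊥ := by
        have h1 : C₀ ⊔ ⨆ i ∈ T, U i ≤ P T := sup_le_sup_right hC₀ _
        have h2 := (hdisj j T hj).mono_right h1
        rw [inf_comm]; exact h2.eq_bot
      have h3 := Submodule.finrank_sup_add_finrank_inf_eq (C₀ ⊔ ⨆ i ∈ T, U i) (U j)
      rw [hdd, finrank_bot, hUdim, ih] at h3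
      rw [Finset.card_insert_of_notMem hj, add_mul]
      omega
  have hdimV : Module.finrank F V = Module.finrank F C + s * a := by
    have h1 := hcount C le_rfl Finset.univ
    have h2 : C ⊔ ⨆ j ∈ (Finset.univ : Finset (Fin s)), U j = ⊤ := hPuniv
    rw [h2, finrank_top, Finset.card_univ, Fintype.card_fin] at h1
    exact h1
  have hsubinv : ∀ C₀ : Submodule F V, C₀ ≤ C → C₀.map f ≤ C₀ := by
    rintro C₀ hC₀ _ ⟨x, hx, rfl⟩
    have h1 : f x = (1 : F) • x := Module.End.mem_eigenspace_iff.1 (hC₀ hx)
    rw [one_smul] at h1
    change f x ∈ C₀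
    rw [h1]; exact hx
  constructor
  · rintro ⟨W, hWm, hW⟩
    have hstep : ∀ T : Finset (Fin s), ∃ t : ℕ, Module.finrank F ↥(W ⊓ P T) = Module.finrank F ↥(W ⊓ C) + t * a := by
      intro T
      induction T using Finset.induction_on with
      | empty => exact ⟨0, by rw [hP0]; simp⟩
      | insert j T hj ih =>
        obtain ⟨t, ht⟩ := ih
        set X := W ⊓ P (insert j T) with hX
        set Pt := P T with hPt
        set Z := U j ⊓ (X ⊔ Pt) with hZ
        have hXinv : X.map f ≤ X :=
          (Submodule.map_inf_le f).trans (inf_le_inf hW (hPinv _))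
        have hZinv : Z.map f ≤ Z :=
          (Submodule.map_inf_le f).trans (inf_le_inf (hUinv j) (by
            rw [Submodule.map_sup]; exact sup_le_sup hXinv (hPinv _)))
        have hZcases := hUirr j Z inf_le_left hZinv
        have hmod : X ⊔ Pt = Pt ⊔ Z := by
          have hle : X ⊔ Pt ≤ Pt ⊔ U j := by
            refine sup_le ?_ le_sup_left
            rw [hX, hPins]
            exact inf_le_right
          have h1 : (Pt ⊔ U j) ⊓ (X ⊔ Pt) = Pt ⊔ (U j ⊓ (X ⊔ Pt)) :=
            sup_inf_assoc_of_le _ le_sup_right
          rw [← hZ] at h1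
          rw [← h1, inf_eq_right.2 hle]
        have hXP : X ⊓ Pt = W ⊓ Pt := by
          have hle : Pt ≤ P (insert j T) := by rw [hPins]; exact le_sup_left
          rw [hX, inf_assoc, inf_eq_right.2 hle]
        have hPZ : Pt ⊓ Z = ⊥ := by
          have h2 := (hdisj j T hj).symm.mono_right (inf_le_left : Z ≤ U j)
          exact h2.eq_bot
        have h1 := Submodule.finrank_sup_add_finrank_inf_eq X Pt
        have h2 := Submodule.finrank_sup_add_finrank_inf_eq Pt Z
        rw [hmod, hXP] at h1
        rw [hPZ, finrank_bot] at h2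
        rcases hZcases with hz | hz
        · refine ⟨t, ?_⟩
          rw [hz] at h1 h2
          rw [finrank_bot] at h2
          omega
        · refine ⟨t + 1, ?_⟩
          rw [hz] at h1 h2
          rw [hUdim] at h2
          rw [add_mul]
          omega
    obtain ⟨t, ht⟩ := hstep Finset.univ
    rw [hPuniv, inf_top_eq, hWm] at ht
    have hc : Module.finrank F ↥(W ⊓ C) ≤ Module.finrank F C := Submodule.finrank_mono inf_le_right
    rcases Nat.eq_zero_or_pos t with rfl | htpos
    · left
      omega
    · right
      constructor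
      · have : a ≤ t * a := Nat.le_mul_of_pos_left a htpos
        omega
      · rw [ht, Nat.add_mul_mod_self_right]
        exact le_trans (Nat.mod_le _ _) hc
  · rintro (h | ⟨h1, h2⟩)
    · obtain ⟨C₀, hC₀, hd⟩ := exists_sub C m h
      exact ⟨C₀, hd, hsubinv C₀ hC₀⟩
    · -- blocks
      set q := m / a with hq
      have hqm : q * a + m % a = m := by
        rw [hq]; exact Nat.div_add_mod' m a
      set t := min q s with ht
      have hts : t ≤ s := min_le_right _ _
      have htq : t ≤ q := min_le_left _ _
      obtain ⟨J, -, hJ⟩ := Finset.exists_subset_card_eq (s := (Finset.univ : Finset (Fin s))) (n := t) (by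
        rw [Finset.card_univ, Fintype.card_fin]; exact hts)
      have hta : t * a ≤ q * a := Nat.mul_le_mul_right a htq
      have hle : m - t * a ≤ Module.finrank F C := by
        rcases le_total q s with hqs | hqs
        · have : t = q := min_eq_left hqs
          rw [this]
          omega
        · have : t = s := min_eq_right hqs
          rw [this]
          omega
      obtain ⟨C₀, hC₀, hd⟩ := exists_sub C (m - t * a) hle
      refine ⟨C₀ ⊔ ⨆ j ∈ J, U j, ?_, ?_⟩
      · rw [hcount C₀ hC₀ J, hd, hJ]
        omega
      · rw [Submodule.map_sup]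
        refine sup_le_sup (hsubinv C₀ hC₀) ?_
        rw [Submodule.map_iSup]
        refine iSup_le fun j => ?_
        rw [Submodule.map_iSup]
        refine iSup_le fun hj => ?_
        exact le_trans (hUinv j) (le_biSup U hj)

end Cfsg.Agent.S5952
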